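import Mathlib

/-!
# Fixed point counting for an abelian group acting with constant fixed point numbers

`E` is a finite abelian group acting on the finite set `Ω`; all nonzero elements of `E` have the
same number `f` of fixed points.  Then `|Ω| = f + m |E|`, and when `m = 1` two stabilizers of points
in different orbits generate `E`.
-/

set_option autoImplicit false
set_option linter.unusedSectionVars false

namespace Cfsg.Agent.Lib.MinIndex.Burnside

open Finset

variable {E Ω : Type*} [AddCommGroup E] [Fintype E] [Fintype Ω] [AddAction E Ω]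

open Classical in
/-- Fixed points of `v`. -/
noncomputable def fixS (Ω : Type*) {E : Type*} [AddCommGroup E] [Fintype Ω] [AddAction E Ω] (v : E) : Finset Ω :=
  univ.filter (fun ω => v +ᵥ ω = ω)

/-- Stabilizer. -/
abbrev st (E : Type*) {Ω : Type*} [AddCommGroup E] [AddAction E Ω] (ω : Ω) : AddSubgroup E :=
  AddAction.stabilizer E ω

theorem mem_fixS {v : E} {ω : Ω} : ω ∈ fixS Ω v ↔ v +ᵥ ω = ω := by
  classical
  simp [fixS]

theorem mem_st {v : E} {ω : Ω} : v ∈ st E ω ↔ v +ᵥ ω = ω := AddAction.mem_stabilizer_iff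

theorem st_vadd (v : E) (ω : Ω) : st E (v +ᵥ ω) = st E ω := by
  ext u
  rw [mem_st, mem_st]
  constructor
  · intro h
    rw [vadd_vadd, add_comm, ← vadd_vadd] at h
    exact vadd_left_cancel _ h
  · intro h
    rw [vadd_vadd, add_comm, ← vadd_vadd, h]

theorem st_of_mem_orbit {ω ω' : Ω} (h : ω' ∈ AddAction.orbit E ω) : st E ω' = st E ω := by
  obtain ⟨v, rfl⟩ := h
  exact st_vadd _ _

open Classical in
/-- Double counting. -/
theorem sum_card_st_inf (K : AddSubgroup E) :
    ∑ ω : Ω, Nat.card ↥(st E ω ⊓ K) = ∑ v ∈ univ.filter (· ∈ K), (fixS Ω (v : E)).card := by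
  have h1 : ∀ ω : Ω, Nat.card ↥(st E ω ⊓ K) = ∑ v ∈ univ.filter (· ∈ K), if (v : E) +ᵥ ω = ω then 1 else 0 := by
    intro ω
    rw [Finset.sum_boole, Nat.cast_id, Finset.filter_filter]
    rw [Nat.card_eq_fintype_card, Fintype.card_subtype]
    congr 1
    ext v
    simp only [Finset.mem_filter, Finset.mem_univ, true_and, AddSubgroup.mem_inf, mem_st, and_comm]
  have h2 : ∀ v : E, (fixS Ω (v : E)).card = ∑ ω : Ω, if (v : E) +ᵥ ω = ω then 1 else 0 := by
    intro v
    rw [Finset.sum_boole, Nat.cast_id, fixS]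
  simp_rw [h1, h2]
  exact Finset.sum_comm

variable {f : ℕ}

theorem card_fixS_zero : (fixS Ω (0 : E)).card = Fintype.card Ω := by
  classical
  rw [fixS, Finset.filter_true_of_mem (by simp), Finset.card_univ]

/-- The sum of the sizes of the stabilizers in `K`. -/
theorem sum_card_st_inf_eq (hf : ∀ v : E, v ≠ 0 → (fixS Ω v).card = f) (K : AddSubgroup E) :
    ∑ ω : Ω, Nat.card ↥(st E ω ⊓ K) + f = Fintype.card Ω + Nat.card K * f := by
  classical
  rw [sum_card_st_inf]
  have h00 : (0 : E) ∈ univ.filter (· ∈ K) := by simp [K.zero_mem]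
  have h1 : ∑ v ∈ univ.filter (· ∈ K), (fixS Ω (v : E)).card =
      Fintype.card Ω + ∑ v ∈ (univ.filter (· ∈ K)).erase 0, f := by
    rw [← Finset.add_sum_erase _ _ h00, card_fixS_zero]
    congr 1
    apply Finset.sum_congr rfl
    intro v hv
    exact hf v (Finset.mem_erase.mp hv).1
  have hK : Nat.card K = (univ.filter (· ∈ K)).card := by
    rw [Nat.card_eq_fintype_card, Fintype.card_subtype]
  rw [h1, Finset.sum_const, smul_eq_mul, Finset.card_erase_of_mem h00, hK]
  have h3 : 0 < (univ.filter (· ∈ K)).card := Finset.card_pos.mpr ⟨0, h00⟩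
  obtain ⟨a, ha⟩ : ∃ a, (univ.filter (· ∈ K)).card = a + 1 := ⟨(univ.filter (· ∈ K)).card - 1, by omega⟩
  rw [ha]
  simp only [Nat.add_sub_cancel]
  ring

/-- `Σ |stabilizer|`. -/
theorem sum_card_st_eq (hf : ∀ v : E, v ≠ 0 → (fixS Ω v).card = f) :
    ∑ ω : Ω, Nat.card ↥(st E ω) + f = Fintype.card Ω + Fintype.card E * f := by
  have := sum_card_st_inf_eq hf (⊤ : AddSubgroup E)
  simp only [inf_top_eq] at this
  rwa [AddSubgroup.card_top, Nat.card_eq_fintype_card] at this

/-- The number of fixed points of a nonzero element is congruent to `|Ω|` mod `|E|`. -/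
theorem exists_card_eq (hf : ∀ v : E, v ≠ 0 → (fixS Ω v).card = f) (hE : ∃ v : E, v ≠ 0) :
    ∃ m : ℕ, Fintype.card Ω = f + m * Fintype.card E := by
  classical
  have hb := AddAction.sum_card_fixedBy_eq_card_orbits_mul_card_addGroup E Ω
  have hfle : f ≤ Fintype.card Ω := by
    obtain ⟨v, hv⟩ := hE
    rw [← hf v hv]
    exact Finset.card_le_univ _
  set t := Fintype.card (AddAction.orbitRel.Quotient E Ω) with ht
  have h2 : ∀ v : E, Fintype.card (AddAction.fixedBy Ω v) = (fixS Ω v).card := by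
    intro v
    rw [fixS, Fintype.card_subtype]
    rfl
  simp_rw [h2] at hb
  have h1 : ∑ v : E, (fixS Ω v).card = Fintype.card Ω + ∑ v ∈ (univ : Finset E).erase 0, f := by
    rw [← Finset.add_sum_erase _ _ (Finset.mem_univ (0 : E)), card_fixS_zero]
    congr 1
    apply Finset.sum_congr rfl
    intro v hv
    exact hf v (Finset.mem_erase.mp hv).1
  rw [h1, Finset.sum_const, smul_eq_mul, Finset.card_erase_of_mem (Finset.mem_univ _), Finset.card_univ] at hb
  have h3 : 0 < Fintype.card E := Fintype.card_pos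
  obtain ⟨a, ha⟩ : ∃ a, Fintype.card E = a + 1 := ⟨Fintype.card E - 1, by omega⟩
  rw [ha] at hb ⊢
  simp only [Nat.add_sub_cancel] at hb
  -- `d + a f = t (a + 1)`
  have h4 : f ≤ t := by
    by_contra h
    push Not at h
    have : t * (a + 1) < f * (a + 1) := Nat.mul_lt_mul_of_pos_right h (by omega)
    nlinarith
  refine ⟨t - f, ?_⟩
  obtain ⟨m, hm⟩ : ∃ m, t = f + m := ⟨t - f, by omega⟩
  rw [hm] at hb ⊢
  simp only [Nat.add_sub_cancel_left]
  nlinarith

/-- `|U| |K| ≤ |U ∩ K| |E|`. -/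
theorem card_mul_le (U K : AddSubgroup E) :
    Nat.card U * Nat.card K ≤ Nat.card ↥(U ⊓ K) * Fintype.card E := by
  have h1 := AddSubgroup.card_mul_index K
  have h2 : K.relIndex U ∣ K.index := AddSubgroup.relIndex_dvd_index_of_normal K U
  have h3 : K.relIndex U ≤ K.index := Nat.le_of_dvd (Nat.pos_of_ne_zero AddSubgroup.index_ne_zero_of_finite) h2
  have h4 := AddSubgroup.relIndex_mul_relIndex ⊥ (U ⊓ K) U bot_le inf_le_left
  rw [AddSubgroup.relIndex_bot_left, AddSubgroup.relIndex_bot_left, AddSubgroup.inf_relIndex_left] at h4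
  rw [Nat.card_eq_fintype_card (α := E)] at h1
  rw [← h1, ← h4]
  calc Nat.card ↥(U ⊓ K) * K.relIndex U * Nat.card K
      ≤ Nat.card ↥(U ⊓ K) * K.index * Nat.card K := by gcongr
    _ = _ := by ring

/-- Orbit-stabilizer. -/
theorem card_orbit_mul (ω : Ω) : Nat.card (AddAction.orbit E ω) * Nat.card ↥(st E ω) = Fintype.card E := by
  classical
  have := AddAction.card_orbit_mul_card_stabilizer_eq_card_addGroup E ω
  rw [Nat.card_eq_fintype_card, Nat.card_eq_fintype_card]
  exact this

open Classical in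
/-- An orbit, as a `Finset`. -/
noncomputable def orbF (E : Type*) {Ω : Type*} [AddCommGroup E] [Fintype Ω] [AddAction E Ω] (ω : Ω) : Finset Ω :=
  univ.filter (· ∈ AddAction.orbit E ω)

omit [Fintype E] in
theorem mem_orbF {ω ω' : Ω} : ω' ∈ orbF E ω ↔ ω' ∈ AddAction.orbit E ω := by
  classical
  simp [orbF]

theorem card_orbF (ω : Ω) : (orbF E ω).card = Nat.card (AddAction.orbit E ω) := by
  classical
  rw [Nat.card_eq_fintype_card, Fintype.card_of_subtype]
  intro x
  exact mem_orbF

/-- Two points in different orbits, when `|Ω| = f + |E|`. -/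
theorem sup_st_eq_top (hf : ∀ v : E, v ≠ 0 → (fixS Ω v).card = f)
    (hd : Fintype.card Ω = f + Fintype.card E) {ω₁ ω₂ : Ω} (h : ω₂ ∉ AddAction.orbit E ω₁) :
    st E ω₁ ⊔ st E ω₂ = ⊤ := by
  classical
  set K := st E ω₁ ⊔ st E ω₂ with hK
  set e := Fintype.card E with he
  set a := Nat.card K with ha
  have hbK := sum_card_st_inf_eq hf K
  have hbE := sum_card_st_eq hf
  -- the defect
  let T : Ω → ℤ := fun ω => (Nat.card ↥(st E ω ⊓ K) : ℤ) * e - (Nat.card ↥(st E ω) : ℤ) * a
  have hT : ∀ ω, 0 ≤ T ω := by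
    intro ω
    have := card_mul_le (st E ω) K
    simp only [T, sub_nonneg]
    exact_mod_cast this
  have hsum : ∑ ω, T ω = ((e : ℤ) - a) * e := by
    simp only [T]
    rw [Finset.sum_sub_distrib, ← Finset.sum_mul, ← Finset.sum_mul]
    have h1 : (∑ ω : Ω, (Nat.card ↥(st E ω ⊓ K) : ℤ)) = Fintype.card Ω + a * f - f := by
      have : ((∑ ω : Ω, Nat.card ↥(st E ω ⊓ K) + f : ℕ) : ℤ) = ((Fintype.card Ω + a * f : ℕ) : ℤ) := by rw [hbK]
      push_cast at this
      linarith
    have h2 : (∑ ω : Ω, (Nat.card ↥(st E ω) : ℤ)) = Fintype.card Ω + e * f - f := by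
      have : ((∑ ω : Ω, Nat.card ↥(st E ω) + f : ℕ) : ℤ) = ((Fintype.card Ω + e * f : ℕ) : ℤ) := by rw [hbE]
      push_cast at this
      linarith
    rw [h1, h2, hd]
    push_cast
    ring
  have horb : ∀ ω₀ : Ω, st E ω₀ ≤ K → ∑ ω ∈ orbF E ω₀, T ω = ((e : ℤ) - a) * e := by
    intro ω₀ hω₀
    have h1 : ∀ ω ∈ orbF E ω₀, T ω = (Nat.card ↥(st E ω₀) : ℤ) * (e - a) := by
      intro ω hω
      have h2 := st_of_mem_orbit (mem_orbF.mp hω)
      simp only [T]
      rw [h2, inf_eq_left.mpr hω₀]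
      ring
    rw [Finset.sum_congr rfl h1, Finset.sum_const, nsmul_eq_mul, card_orbF]
    have h3 := card_orbit_mul (E := E) ω₀
    have h4 : ((Nat.card (AddAction.orbit E ω₀) : ℤ)) * (Nat.card ↥(st E ω₀) : ℤ) = e := by
      exact_mod_cast h3
    linear_combination ((e : ℤ) - a) * h4
  have hdisj : Disjoint (orbF E ω₁) (orbF E ω₂) := by
    rw [Finset.disjoint_left]
    intro x hx hx'
    apply h
    have h1 := mem_orbF.mp hx
    have h2 := mem_orbF.mp hx'
    rw [← AddAction.orbit_eq_iff.mpr h1, AddAction.orbit_eq_iff.mpr h2]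
    exact AddAction.mem_orbit_self _
  have hle : ∑ ω ∈ orbF E ω₁ ∪ orbF E ω₂, T ω ≤ ∑ ω, T ω :=
    Finset.sum_le_sum_of_subset_of_nonneg (Finset.subset_univ _) (fun i _ _ => hT i)
  rw [Finset.sum_union hdisj, horb ω₁ le_sup_left, horb ω₂ le_sup_right, hsum] at hle
  have he0 : (0 : ℤ) < e := by
    have : 0 < e := Fintype.card_pos
    exact_mod_cast this
  have h5 : (e : ℤ) - a ≤ 0 := by
    by_contra h6
    push Not at h6
    nlinarith
  have h6 : e ≤ a := by
    have : (e : ℤ) ≤ a := by linarith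
    exact_mod_cast this
  have h7 : Nat.card K = Nat.card E := by
    rw [Nat.card_eq_fintype_card (α := E)]
    apply le_antisymm
    · exact Nat.card_le_card_of_injective _ Subtype.val_injective |>.trans (by rw [Nat.card_eq_fintype_card])
    · exact h6
  exact AddSubgroup.eq_top_of_card_eq K h7

/-- A point with trivial stabilizer, when `|Ω| = f + |E|`: the fixed points of every nonzero element are
exactly the points outside its orbit. -/
theorem fix_iff_of_free (hf : ∀ v : E, v ≠ 0 → (fixS Ω v).card = f)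
    (hd : Fintype.card Ω = f + Fintype.card E) {ω : Ω} (h : st E ω = ⊥) {v : E} (hv : v ≠ 0) (ω' : Ω) :
    v +ᵥ ω' = ω' ↔ ω' ∉ AddAction.orbit E ω := by
  classical
  have hsub : fixS Ω v ⊆ (orbF E ω)ᶜ := by
    intro x hx
    rw [Finset.mem_compl, mem_orbF]
    intro hx'
    have h1 := st_of_mem_orbit hx'
    have h2 : v ∈ st E x := mem_st.mpr (mem_fixS.mp hx)
    rw [h1, h] at h2
    exact hv ((AddSubgroup.mem_bot).mp h2)
  have hcard : (orbF E ω)ᶜ.card ≤ (fixS Ω v).card := by
    rw [Finset.card_compl, card_orbF, hf v hv, hd]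
    have h3 := card_orbit_mul (E := E) ω
    rw [h] at h3
    simp only [AddSubgroup.card_bot, mul_one] at h3
    omega
  have heq := Finset.eq_of_subset_of_card_le hsub hcard
  rw [← mem_fixS, heq, Finset.mem_compl, mem_orbF]

/-- Numerics for the case of large stabilizers. -/
theorem large_stab (hf : ∀ v : E, v ≠ 0 → (fixS Ω v).card = f)
    (hd : Fintype.card Ω = f + Fintype.card E) {q : ℕ}
    (hq : ∀ ω : Ω, Fintype.card E ≤ q * Nat.card ↥(st E ω)) :
    f + Fintype.card E ≤ q * (f + 1) ∧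
      (q * (f + 1) = f + Fintype.card E → ∀ ω : Ω, Fintype.card E = q * Nat.card ↥(st E ω)) := by
  classical
  have hb := sum_card_st_eq hf
  have he : 0 < Fintype.card E := Fintype.card_pos
  have hs : ∑ ω : Ω, Nat.card ↥(st E ω) = Fintype.card E * (f + 1) := by
    rw [hd] at hb
    nlinarith
  have h1 : ∑ ω : Ω, Fintype.card E ≤ ∑ ω : Ω, q * Nat.card ↥(st E ω) :=
    Finset.sum_le_sum (fun ω _ => hq ω)
  rw [Finset.sum_const, ← Finset.mul_sum, hs, Finset.card_univ, hd, smul_eq_mul] at h1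
  constructor
  · have : (f + Fintype.card E) * Fintype.card E ≤ (q * (f + 1)) * Fintype.card E := by nlinarith
    exact Nat.le_of_mul_le_mul_right this he
  · intro heq ω
    have h2 : ∑ ω : Ω, Fintype.card E = ∑ ω : Ω, q * Nat.card ↥(st E ω) := by
      rw [Finset.sum_const, ← Finset.mul_sum, hs, Finset.card_univ, hd, smul_eq_mul, ← heq]
      ring
    exact (Finset.sum_eq_sum_iff_of_le (fun ω _ => hq ω)).mp h2 ω (Finset.mem_univ _)

end Cfsg.Agent.Lib.MinIndex.Burnside
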