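import Cfsg.Agent.Lib.MinIndex.Burnside
import Cfsg.Agent.Lib.MinIndex.Dual

/-!
# The natural module acting on a small set

`E = F^k`, `k ≥ 2`, acts nontrivially on `Ω`, compatibly with the action of the transvections of `E` on
`Ω`.  If `|Ω| < q^k + (q^k-1)/(q-1)` then every nonzero vector has `f = |Ω| - q^k` fixed points, and
either a stabilizer is trivial or all stabilizers are hyperplanes.
-/

set_option autoImplicit false
set_option linter.unusedSectionVars false

namespace Cfsg.Agent.Lib.MinIndex.Dichotomy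

open Matrix Cfsg.Agent.Lib.MinIndex.Burnside Cfsg.Agent.Lib.MinIndex.Dual

variable {F : Type*} [Field F] [Fintype F] {k : ℕ} {Ω : Type*} [Fintype Ω] [AddAction (Fin k → F) Ω]

/-- Compatibility with transvections. -/
def Compat (F : Type*) [Field F] (k : ℕ) (Ω : Type*) [AddAction (Fin k → F) Ω] : Prop :=
  ∀ w y : Fin k → F, w ⬝ᵥ y = 0 → ∃ b : Equiv.Perm Ω, ∀ (v : Fin k → F) (ω : Ω),
    b (v +ᵥ ω) = (v + (v ⬝ᵥ y) • w) +ᵥ b ω

theorem card_fix_step {w y : Fin k → F} {b : Equiv.Perm Ω}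
    (hb : ∀ (v : Fin k → F) (ω : Ω), b (v +ᵥ ω) = (v + (v ⬝ᵥ y) • w) +ᵥ b ω) (v : Fin k → F) :
    (fixS Ω (v + (v ⬝ᵥ y) • w)).card = (fixS Ω v).card := by
  classical
  symm
  apply Finset.card_bij (fun ω _ => b ω)
  · intro ω hω
    rw [mem_fixS] at hω ⊢
    rw [← hb, hω]
  · intro a _ c _ h
    exact b.injective h
  · intro ω hω
    rw [mem_fixS] at hω
    refine ⟨b.symm ω, ?_, by simp⟩
    rw [mem_fixS]
    apply b.injective
    rw [hb, Equiv.apply_symm_apply, hω]

/-- One step of the transitivity on nonzero vectors. -/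
theorem card_fix_eq_of_not_mem (hc : Compat F k Ω) {u u' : Fin k → F}
    (h : u ∉ Submodule.span F {u' - u}) : (fixS Ω u').card = (fixS Ω u).card := by
  obtain ⟨y, hy1, hy2⟩ := exists_dot h
  obtain ⟨b, hb⟩ := hc (u' - u) y (hy1 _ (Submodule.mem_span_singleton_self _))
  have := card_fix_step hb u
  rw [hy2, one_smul, add_sub_cancel] at this
  exact this

theorem not_mem_span_sub {u u' : Fin k → F} (hu : u ≠ 0) (h : u' ∉ Submodule.span F {u}) :
    u ∉ Submodule.span F {u' - u} := by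
  intro h1
  obtain ⟨c, hc⟩ := Submodule.mem_span_singleton.mp h1
  have hc0 : c ≠ 0 := by
    rintro rfl
    rw [zero_smul] at hc
    exact hu hc.symm
  apply h
  apply Submodule.mem_span_singleton.mpr
  refine ⟨c⁻¹ * (1 + c), ?_⟩
  have h2 : c • u' = u + c • u := by
    rw [smul_sub] at hc
    exact sub_eq_iff_eq_add.mp hc
  rw [mul_smul, add_smul, one_smul, ← h2, smul_smul, inv_mul_cancel₀ hc0, one_smul]

/-- All nonzero vectors have the same number of fixed points. -/
theorem card_fix_eq (hk : 2 ≤ k) (hc : Compat F k Ω) {u u' : Fin k → F} (hu : u ≠ 0) (hu' : u' ≠ 0) :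
    (fixS Ω u').card = (fixS Ω u).card := by
  by_cases h : u' ∈ Submodule.span F {u}
  · -- pass through a third vector
    have hspan : Submodule.span F {u} ≠ ⊤ := by
      intro htop
      have h1 : Module.finrank F (Submodule.span F {u}) ≤ 1 := (finrank_span_singleton hu).le
      rw [htop, finrank_top, Module.finrank_fintype_fun_eq_card, Fintype.card_fin] at h1
      omega
    obtain ⟨z, hz⟩ : ∃ z, z ∉ Submodule.span F {u} := by
      by_contra h1
      push Not at h1
      exact hspan (Submodule.eq_top_iff'.mpr h1)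
    have hz0 : z ≠ 0 := by
      rintro rfl
      exact hz (Submodule.zero_mem _)
    have hz' : u' ∉ Submodule.span F {z} := by
      intro h1
      obtain ⟨c, hc'⟩ := Submodule.mem_span_singleton.mp h1
      obtain ⟨d, hd⟩ := Submodule.mem_span_singleton.mp h
      have hc0 : c ≠ 0 := by
        rintro rfl
        rw [zero_smul] at hc'
        exact hu' hc'.symm
      apply hz
      apply Submodule.mem_span_singleton.mpr
      refine ⟨c⁻¹ * d, ?_⟩
      rw [mul_smul, hd, ← hc', smul_smul, inv_mul_cancel₀ hc0, one_smul]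
    rw [card_fix_eq_of_not_mem hc (not_mem_span_sub hz0 hz'), card_fix_eq_of_not_mem hc (not_mem_span_sub hu hz)]
  · exact card_fix_eq_of_not_mem hc (not_mem_span_sub hu h)

/-- The pair property of a stabilizer. -/
theorem pair_prop {f : ℕ} (hc : Compat F k Ω) (hf : ∀ v : Fin k → F, v ≠ 0 → (fixS Ω v).card = f)
    (hd : Fintype.card Ω = f + Fintype.card (Fin k → F)) (ω : Ω) (w y : Fin k → F) (hwy : w ⬝ᵥ y = 0) :
    (∀ u ∈ st (Fin k → F) ω, u + (u ⬝ᵥ y) • w ∈ st (Fin k → F) ω) ∨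
      (∀ x, ∃ u ∈ st (Fin k → F) ω, ∃ u' ∈ st (Fin k → F) ω, x = u + (u' + (u' ⬝ᵥ y) • w)) := by
  obtain ⟨b, hb⟩ := hc w y hwy
  have h1 : ∀ u ∈ st (Fin k → F) ω, u + (u ⬝ᵥ y) • w ∈ st (Fin k → F) (b ω) := by
    intro u hu
    rw [mem_st] at hu ⊢
    rw [← hb, hu]
  by_cases h : b ω ∈ AddAction.orbit (Fin k → F) ω
  · left
    intro u hu
    rw [← st_of_mem_orbit h]
    exact h1 u hu
  · right
    intro x
    have htop := sup_st_eq_top hf hd h
    have hx : x ∈ st (Fin k → F) ω ⊔ st (Fin k → F) (b ω) := by rw [htop]; trivial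
    obtain ⟨a, ha, a', ha', rfl⟩ := AddSubgroup.mem_sup.mp hx
    refine ⟨a, ha, a' - (a' ⬝ᵥ y) • w, ?_, ?_⟩
    · rw [mem_st] at ha' ⊢
      apply b.injective
      rw [hb]
      have h2 : (a' - (a' ⬝ᵥ y) • w) ⬝ᵥ y = a' ⬝ᵥ y := by
        rw [sub_dotProduct, smul_dotProduct, hwy, smul_zero, sub_zero]
      rw [h2, sub_add_cancel, ha']
    · have h2 : (a' - (a' ⬝ᵥ y) • w) ⬝ᵥ y = a' ⬝ᵥ y := by
        rw [sub_dotProduct, smul_dotProduct, hwy, smul_zero, sub_zero]
      rw [h2, sub_add_cancel]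

/-- The dichotomy. -/
theorem dichotomy (hk : 2 ≤ k) (hc : Compat F k Ω) {N' : ℕ}
    (hN' : (Fintype.card F - 1) * N' + 1 = Fintype.card F ^ k)
    (hnt : ∃ (v : Fin k → F) (ω : Ω), v +ᵥ ω ≠ ω)
    (hlt : Fintype.card Ω < Fintype.card F ^ k + N') :
    ∃ f : ℕ, (∀ v : Fin k → F, v ≠ 0 → (fixS Ω v).card = f) ∧ Fintype.card Ω = f + Fintype.card F ^ k ∧
      ((∃ ω : Ω, st (Fin k → F) ω = ⊥) ∨
        (∀ ω : Ω, ∃ y : Fin k → F, y ≠ 0 ∧ ∀ v, v ∈ st (Fin k → F) ω ↔ v ⬝ᵥ y = 0)) := by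
  classical
  have hq : 2 ≤ Fintype.card F := Fintype.one_lt_card
  have hk0 : 0 < k := by omega
  obtain ⟨i₀⟩ : Nonempty (Fin k) := ⟨⟨0, hk0⟩⟩
  have he : Fintype.card (Fin k → F) = Fintype.card F ^ k := by
    rw [Fintype.card_fun, Fintype.card_fin]
  have hne : (Pi.single i₀ 1 : Fin k → F) ≠ 0 := by
    intro h
    have := congrFun h i₀
    simp at this
  set f := (fixS Ω (Pi.single i₀ 1 : Fin k → F)).card with hfdef
  have hf : ∀ v : Fin k → F, v ≠ 0 → (fixS Ω v).card = f := fun v hv => card_fix_eq hk hc hne hv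
  obtain ⟨m, hm⟩ := exists_card_eq hf ⟨_, hne⟩
  rw [he] at hm
  set e := Fintype.card F ^ k with hedef
  have hepos : 0 < e := Nat.pow_pos (by omega)
  have hN'le : N' ≤ e := by
    have : 1 * N' ≤ (Fintype.card F - 1) * N' := Nat.mul_le_mul_right _ (by omega)
    omega
  -- `m = 1`
  have hm1 : m = 1 := by
    rcases m with _ | _ | m
    · exfalso
      obtain ⟨v, ω, hvω⟩ := hnt
      have hv0 : v ≠ 0 := by
        rintro rfl
        exact hvω (zero_vadd _ _)
      have h1 := hf v hv0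
      have h2 : fixS Ω v = Finset.univ := by
        apply Finset.eq_univ_of_card
        rw [h1, hm]
        simp
      apply hvω
      rw [← mem_fixS, h2]
      exact Finset.mem_univ _
    · rfl
    · exfalso
      have : (m + 1 + 1) * e = m * e + 2 * e := by ring
      nlinarith
  rw [hm1, one_mul] at hm
  refine ⟨f, hf, hm, ?_⟩
  have hd : Fintype.card Ω = f + Fintype.card (Fin k → F) := by rw [he]; exact hm
  by_cases hfree : ∃ ω : Ω, st (Fin k → F) ω = ⊥
  · exact Or.inl hfree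
  right
  push Not at hfree
  -- hyperplanes inside proper stabilizers
  have hhyp : ∀ ω : Ω, st (Fin k → F) ω ≠ ⊤ →
      ∃ y : Fin k → F, y ≠ 0 ∧ ∀ v, v ⬝ᵥ y = 0 → v ∈ st (Fin k → F) ω := by
    intro ω hω
    exact contains_hyperplane hk _ hω (hfree ω) (pair_prop hc hf hd ω)
  have hker : ∀ (y : Fin k → F), y ≠ 0 → ∀ (U : AddSubgroup (Fin k → F)), (∀ v, v ⬝ᵥ y = 0 → v ∈ U) →
      Fintype.card F * (Finset.univ.filter (fun v : Fin k → F => v ⬝ᵥ y = 0)).card = e ∧
      (Finset.univ.filter (fun v : Fin k → F => v ⬝ᵥ y = 0)).card ≤ Nat.card U := by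
    intro y hy U hU
    refine ⟨card_mul_card_ker hy, ?_⟩
    rw [Nat.card_eq_fintype_card, Fintype.card_subtype]
    apply Finset.card_le_card
    intro v hv
    exact Finset.mem_filter.mpr ⟨Finset.mem_univ _, hU v (Finset.mem_filter.mp hv).2⟩
  have hlarge : ∀ ω : Ω, Fintype.card (Fin k → F) ≤ Fintype.card F * Nat.card ↥(st (Fin k → F) ω) := by
    intro ω
    rw [he]
    by_cases htop : st (Fin k → F) ω = ⊤
    · rw [htop, AddSubgroup.card_top, Nat.card_eq_fintype_card, he]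
      nlinarith
    · obtain ⟨y, hy, hyU⟩ := hhyp ω htop
      obtain ⟨h1, h2⟩ := hker y hy _ hyU
      rw [← h1]
      exact Nat.mul_le_mul_left _ h2
  obtain ⟨hA, hB⟩ := large_stab hf hd hlarge
  rw [he] at hA hB
  -- numerics
  have hflt : f < N' := by omega
  obtain ⟨c, hc'⟩ : ∃ c, Fintype.card F = c + 1 := ⟨Fintype.card F - 1, by omega⟩
  have hc1 : 1 ≤ c := by omega
  rw [hc', Nat.add_sub_cancel] at hN'
  rw [hc'] at hA hB
  have hNf : N' ≤ f + 1 := by
    by_contra hcon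
    push Not at hcon
    have : c * (f + 1) < c * N' := Nat.mul_lt_mul_of_pos_left hcon (by omega)
    nlinarith
  have hNf' : N' = f + 1 := by omega
  have heq : (c + 1) * (f + 1) = f + e := by
    rw [← hN', hNf']
    ring
  have hall := hB heq
  intro ω
  have htop : st (Fin k → F) ω ≠ ⊤ := by
    intro h
    have := hall ω
    rw [h, AddSubgroup.card_top, Nat.card_eq_fintype_card, he] at this
    nlinarith
  obtain ⟨y, hy, hyU⟩ := hhyp ω htop
  refine ⟨y, hy, fun v => ⟨fun hv => ?_, hyU v⟩⟩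
  obtain ⟨h1, -⟩ := hker y hy _ hyU
  rw [hc'] at h1
  have h2 := hall ω
  have h3 : (Finset.univ.filter (fun v : Fin k → F => v ⬝ᵥ y = 0)).card = Nat.card ↥(st (Fin k → F) ω) := by
    apply Nat.eq_of_mul_eq_mul_left (show 0 < c + 1 by omega)
    rw [h1, ← h2]
  have h4 : (Finset.univ.filter (fun v : Fin k → F => v ∈ st (Fin k → F) ω)) ⊆
      (Finset.univ.filter (fun v : Fin k → F => v ⬝ᵥ y = 0)) ∨ True := Or.inr trivial
  have h5 : (Finset.univ.filter (fun v : Fin k → F => v ⬝ᵥ y = 0)) =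
      (Finset.univ.filter (fun v : Fin k → F => v ∈ st (Fin k → F) ω)) := by
    apply Finset.eq_of_subset_of_card_le
    · intro u hu
      exact Finset.mem_filter.mpr ⟨Finset.mem_univ _, hyU u (Finset.mem_filter.mp hu).2⟩
    · rw [h3, Nat.card_eq_fintype_card, Fintype.card_subtype]
  have h6 : v ∈ (Finset.univ.filter (fun v : Fin k → F => v ⬝ᵥ y = 0)) := by
    rw [h5]
    exact Finset.mem_filter.mpr ⟨Finset.mem_univ _, hv⟩
  exact (Finset.mem_filter.mp h6).2

end Cfsg.Agent.Lib.MinIndex.Dichotomy
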