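import Mathlib
import Cfsg.Agent.Lib.MinIndex.OFam

/-!
# The minimal index of a proper subgroup of the projective orthogonal groups of plus type
-/

set_option autoImplicit false
set_option linter.unusedSectionVars false
set_option linter.unusedSimpArgs false
set_option linter.unusedVariables false

namespace Cfsg.Agent.Lib.MinIndex.OPlus

open Matrix QuadraticMap Module
open Cfsg.Agent.Lib.Classical.Orth.Basic
open Cfsg.Agent.Lib.Classical.Orth.Models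
open Cfsg.Agent.Lib.Classical.Witt.Hyp
open Cfsg.Agent.Lib.Classical.Witt.TS
open Cfsg.Agent.Lib.MinIndex.OBase Cfsg.Agent.Lib.MinIndex.OVec Cfsg.Agent.Lib.MinIndex.OGood
open Cfsg.Agent.Lib.MinIndex.OStep2 Cfsg.Agent.Lib.MinIndex.OFix Cfsg.Agent.Lib.MinIndex.OFix2
open Cfsg.Agent.Lib.MinIndex.OCount Cfsg.Agent.Lib.MinIndex.OFinal Cfsg.Agent.Lib.MinIndex.OFam
open Cfsg.Agent.Lib.MinIndex.ONums

/-- The algebra of the numbers. -/
theorem plus_alg {y x w₂ W₀ T₀ C₀ D₀ : ℕ} (hW₁ : (y + 1) * (y + 1) * W₀ = (y + 1) ^ 4 * x ^ 2)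
    (hW₂ : W₀ = (y + 1) * (y + 1) * w₂) (hT : (y + 1) * T₀ = (y + 1) ^ 4 * x ^ 2 + y * (y + 1) ^ 2 * x)
    (hT₂ : T₀ = y * W₀ + (y + 1) * C₀) (hC : C₀ = y * w₂ + (y + 1) * D₀) :
    w₂ = x ^ 2 ∧ W₀ = (y + 1) ^ 2 * x ^ 2 ∧ T₀ = (y + 1) ^ 3 * x ^ 2 + y * (y + 1) * x ∧
      C₀ = (y + 1) * x ^ 2 + y * x ∧ (y + 1) * D₀ = x ^ 2 + y * x := by
  have hpos : 0 < y + 1 := Nat.succ_pos y
  have h1 : W₀ = (y + 1) ^ 2 * x ^ 2 := by
    apply Nat.eq_of_mul_eq_mul_left (Nat.mul_pos hpos hpos)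
    rw [hW₁]
    ring
  have h2 : w₂ = x ^ 2 := by
    apply Nat.eq_of_mul_eq_mul_left (Nat.mul_pos hpos hpos)
    rw [← hW₂, h1]
    ring
  have h3 : T₀ = (y + 1) ^ 3 * x ^ 2 + y * (y + 1) * x := by
    apply Nat.eq_of_mul_eq_mul_left hpos
    rw [hT]
    ring
  have h4 : C₀ = (y + 1) * x ^ 2 + y * x := by
    apply Nat.eq_of_mul_eq_mul_left hpos
    have e : (y + 1) ^ 3 * x ^ 2 + y * (y + 1) * x = y * ((y + 1) ^ 2 * x ^ 2) + (y + 1) * ((y + 1) * x ^ 2 + y * x) := by ring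
    rw [h3, h1, e] at hT₂
    omega
  have h5 : (y + 1) * D₀ = x ^ 2 + y * x := by
    have e : (y + 1) * x ^ 2 + y * x = y * x ^ 2 + (x ^ 2 + y * x) := by ring
    rw [h4, h2, e] at hC
    omega
  exact ⟨h2, h1, h3, h4, h5⟩

/-- The algebra of the numbers: nonzero values. -/
theorem plus_alg2 {y x T C : ℕ} (hT : (y + 1) * T + (y + 1) ^ 2 * x = (y + 1) ^ 4 * x ^ 2)
    (hT₂ : T = y * ((y + 1) ^ 2 * x ^ 2) + (y + 1) * C) : C + x = (y + 1) * x ^ 2 := by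
  have hpos : 0 < (y + 1) ^ 2 := by positivity
  apply Nat.eq_of_mul_eq_mul_left hpos
  have e1 : (y + 1) ^ 4 * x ^ 2 = (y + 1) * y * ((y + 1) ^ 2 * x ^ 2) + (y + 1) ^ 2 * ((y + 1) * x ^ 2) := by ring
  have e2 : (y + 1) * (y * ((y + 1) ^ 2 * x ^ 2) + (y + 1) * C) + (y + 1) ^ 2 * x =
      (y + 1) * y * ((y + 1) ^ 2 * x ^ 2) + (y + 1) ^ 2 * (C + x) := by ring
  rw [hT₂, e2, e1] at hT
  omega

/-- The numerical inequality for totally singular subspaces. -/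
theorem plus_a3 {y x u z z₂ : ℕ} (hy : 3 ≤ y) (hu : y + 1 ≤ u) (hx : x = (y + 1) * u) (hz : z + 1 = (y + 1) * x ^ 2 + y * x)
    (hz₂ : z₂ + 1 = x * u + y * u) :
    ((y + 1) ^ 2 * x - 1) * ((y + 1) * x - 1) * (x - 1) ≤ y * z * z₂ := by
  subst hx
  obtain ⟨a, rfl⟩ : ∃ a, y = a + 3 := ⟨y - 3, by omega⟩
  obtain ⟨b, rfl⟩ : ∃ b, u = a + 4 + b := ⟨u - (a + 4), by omega⟩
  set x := (a + 3 + 1) * (a + 4 + b) with hx
  have hx1 : 1 ≤ x := Nat.mul_pos (by omega) (by omega)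
  obtain ⟨x₁, hx₁⟩ : ∃ x₁, x = x₁ + 1 := ⟨x - 1, by omega⟩
  have hz' : z = ((a + 4) * x - 1) * (x + 1) := by
    have h1 : 1 ≤ (a + 4) * x := Nat.mul_pos (by omega) hx1
    obtain ⟨P, hP⟩ : ∃ P, (a + 4) * x = P + 1 := ⟨(a + 4) * x - 1, by omega⟩
    rw [hP, Nat.add_sub_cancel]
    have h2 : z + 1 = P * (x + 1) + 1 := by
      rw [hz]
      have e : (a + 3 + 1) * x ^ 2 + (a + 3) * x = ((a + 4) * x) * (x + 1) - x := by
        have : (a + 4) * x * (x + 1) = (a + 3 + 1) * x ^ 2 + (a + 3) * x + x := by ring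
        omega
      rw [e, hP]
      have : (P + 1) * (x + 1) = P * (x + 1) + x + 1 := by ring
      omega
    omega
  have hz₂' : z₂ = (x - 1) * (a + 4 + b + 1) := by
    rw [hx₁, Nat.add_sub_cancel]
    have h2 : z₂ + 1 = x₁ * (a + 4 + b + 1) + 1 := by
      rw [hz₂, hx₁]
      have h3 : x₁ + 1 = (a + 4) * (a + 4 + b) := by rw [← hx₁, hx]
      have e : (x₁ + 1) * (a + 4 + b) + (a + 3) * (a + 4 + b) = x₁ * (a + 4 + b + 1) + 1 := by
        have : (a + 3) * (a + 4 + b) + (a + 4 + b) = x₁ + 1 := by rw [h3]; ring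
        nlinarith
      exact e
    omega
  rw [hz', hz₂']
  have hkey : (a + 3 + 1) ^ 2 * x - 1 ≤ (a + 3) * ((x + 1) * (a + 4 + b + 1)) := by
    apply Nat.sub_le_of_le_add
    rw [hx]
    zify
    rw [← sub_nonneg]
    ring_nf
    positivity
  calc ((a + 3 + 1) ^ 2 * x - 1) * ((a + 3 + 1) * x - 1) * (x - 1)
      ≤ ((a + 3) * ((x + 1) * (a + 4 + b + 1))) * ((a + 3 + 1) * x - 1) * (x - 1) :=
        Nat.mul_le_mul_right _ (Nat.mul_le_mul_right _ hkey)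
    _ = _ := by ring

variable {F : Type*} [Field F] [Fintype F]

/-- The form as an instance of the setting. -/
theorem oc_plus (m : ℕ) (hm : 4 ≤ m) : OC (plusForm m F) :=
  ⟨plusForm_nondegenerate m, by
    simp only [Fintype.card_sum, Fintype.card_fin]
    omega⟩

/-- **The minimal index for the plus type.** -/
theorem plus_main {q : ℕ} (hF : Fintype.card F = q) (hq : 4 ≤ q) (m : ℕ) (hm : 4 ≤ m) :
    (∀ H : Subgroup (Cfsg.POmega F (Cfsg.quadFormPlus m F)), H ≠ ⊤ → (q ^ m - 1) * (q ^ (m - 1) + 1) / (q - 1) ≤ H.index) ∧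
      ∃ H : Subgroup (Cfsg.POmega F (Cfsg.quadFormPlus m F)), H.index = (q ^ m - 1) * (q ^ (m - 1) + 1) / (q - 1) := by
  classical
  obtain ⟨y, rfl⟩ : ∃ y, q = y + 1 := ⟨q - 1, by omega⟩
  obtain ⟨k, rfl⟩ : ∃ k, m = k + 2 := ⟨m - 2, by omega⟩
  haveI := oc_plus (F := F) (k + 2) hm
  set Q := plusForm (k + 2) F with hQ
  obtain ⟨c, c', h⟩ := exists_HP Q
  obtain ⟨d, d', h', hd, hd'⟩ := exists_HP_W h
  obtain ⟨hR1, hR2, hR3, hR4⟩ := rels h h' hd hd'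
  have hy3 : 3 ≤ y := by omega
  have hcardι : Fintype.card (Fin (k + 2) ⊕ Fin (k + 2)) = 2 * (k + 2) := by
    simp only [Fintype.card_sum, Fintype.card_fin]
    omega
  rw [hF] at hR1 hR2 hR3 hR4
  rw [hcardι] at hR1
  simp only [Nat.add_sub_cancel] at hR3 hR4
  set x := (y + 1) ^ k with hx
  have hxq : (y + 1) ^ 2 ≤ x := by
    rw [hx]
    exact Nat.pow_le_pow_right (by omega) (by omega)
  have hxpos : 0 < x := by
    rw [hx]
    positivity
  have hcoe : (⇑Q) = Cfsg.quadFormPlus (k + 2) F := coe_plusForm (k + 2) F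
  have hp2 : (y + 1) ^ (2 * (k + 2)) = (y + 1) ^ 4 * x ^ 2 := by
    rw [hx]
    ring
  have hT₀ := cntPlus_zero hF (k + 2)
  rw [← hcoe, Nat.add_sub_cancel, hp2] at hT₀
  have hp3 : (y + 1) ^ (k + 2) = (y + 1) ^ 2 * x := by
    rw [hx]
    ring
  rw [hp3] at hT₀
  obtain ⟨a1, a2, a3, a4, a5⟩ := plus_alg (y := y) (x := x) (w₂ := Nat.card (WW2 Q c c' d d')) (W₀ := Nat.card (WW Q c c'))
    (T₀ := cnt (⇑Q) 0) (C₀ := cntU Q (WW Q c c') 0) (D₀ := cntU Q (WW2 Q c c' d d') 0) (by rw [hR1, hp2]) hR2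
    (by rw [hT₀]; ring) (hR3 0) (hR4 0)
  have hQnd : PolarNondeg Q := OC.nd'
  -- the values on the complement
  obtain ⟨LB, hLB⟩ : ∃ LB, LB + x = (y + 1) * x ^ 2 := by
    have h1 : x ≤ (y + 1) * x ^ 2 :=
      (Nat.le_self_pow (by norm_num) x).trans (Nat.le_mul_of_pos_left _ (Nat.succ_pos y))
    exact ⟨_, Nat.sub_add_cancel h1⟩
  have hLb : ∀ κ : F, κ ≠ 0 → LB ≤ cntU Q (WW Q c c') κ := by
    intro κ hκ
    have h1 := cntPlus_ne hF (k + 2) hκ
    rw [← hcoe, hp2, hp3] at h1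
    have h2 := hR3 κ
    rw [a2] at h2
    have h3 := plus_alg2 h1 h2
    omega
  -- the nonzero singular vectors
  have hz1 := card_singOf (Q := Q) (WW Q c c')
  rw [a4] at hz1
  have hz2 := card_singOf (Q := Q) (WW2 Q c c' d d')
  have hz3 := card_singOf (Q := Q) (⊤ : Submodule F (Fin (k + 2) ⊕ Fin (k + 2) → F))
  rw [cntU_top, a3] at hz3
  set z := (singOf Q (WW Q c c')).card with hz
  set z₂ := (singOf Q (WW2 Q c c' d d')).card with hz₂
  -- the degree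
  set N := ((y + 1) ^ (k + 2) - 1) * ((y + 1) ^ (k + 2 - 1) + 1) / (y + 1 - 1) with hN
  have hp4 : (y + 1) ^ (k + 2 - 1) = (y + 1) * x := by
    rw [hx, Nat.add_sub_assoc (by norm_num)]
    ring
  have hN1 : y * N + 1 = (y + 1) ^ 3 * x ^ 2 + y * (y + 1) * x := by
    have hdvd : y ∣ (y + 1) ^ (k + 2) - 1 := by
      have := Nat.sub_dvd_pow_sub_pow (y + 1) 1 (k + 2)
      simpa using this
    have h1 : y * N = ((y + 1) ^ (k + 2) - 1) * ((y + 1) ^ (k + 2 - 1) + 1) := by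
      rw [hN, Nat.add_sub_cancel]
      exact Nat.mul_div_cancel' (Dvd.dvd.mul_right hdvd _)
    rw [h1, hp3, hp4]
    have h2 : 1 ≤ (y + 1) ^ 2 * x := Nat.mul_pos (by positivity) hxpos
    obtain ⟨A, hA⟩ : ∃ A, (y + 1) ^ 2 * x = A + 1 := ⟨(y + 1) ^ 2 * x - 1, by omega⟩
    rw [hA, Nat.add_sub_cancel]
    have e1 : (A + 1) * ((y + 1) * x + 1) = A * ((y + 1) * x + 1) + ((y + 1) * x + 1) := by ring
    have e2 : ((y + 1) ^ 2 * x) * ((y + 1) * x + 1) = (y + 1) ^ 3 * x ^ 2 + y * (y + 1) * x + (y + 1) * x := by ring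
    rw [hA, e1] at e2
    omega
  obtain ⟨T, p, hT, hTc, hA, hp, hp0⟩ := exists_TA hF hy3
  have hx16 : 16 ≤ x := by
    have h16 : 16 ≤ (y + 1) ^ 2 := by
      calc 16 = 4 ^ 2 := by norm_num
        _ ≤ (y + 1) ^ 2 := Nat.pow_le_pow_left (by omega) 2
    exact h16.trans hxq
  obtain ⟨n1, n2, n3, n4, n5⟩ := plus_nums hy3 hx16 hz1 hLB a2 hN1 hTc hA
  have hB : ONum Q c c' N p := mk_ONum T hT hF hLb rfl rfl n1 n2 n3 n4 n5
  have hA' : ANum Q c c' d d' N := by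
    refine ⟨?_, ?_, ?_⟩
    · rw [hF, Nat.add_sub_cancel]
      omega
    · rw [hF]
      have h1 : (y + 1) ^ 2 ≤ (y + 1) * x ^ 2 := by
        have h2 : y + 1 ≤ x ^ 2 :=
          (Nat.le_self_pow (by norm_num) (y + 1)).trans (hxq.trans (Nat.le_self_pow (by norm_num) x))
        calc (y + 1) ^ 2 = (y + 1) * (y + 1) := by ring
          _ ≤ (y + 1) * x ^ 2 := Nat.mul_le_mul_left _ h2
      omega
    · intro X hX hX3
      set r := finrank F X with hr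
      have hr1 : 2 * r ≤ 2 * (k + 2) := by
        have h1 := IsTS.two_mul_finrank_le hQnd (U := X) hX
        rwa [Module.finrank_fintype_fun_eq_card, hcardι] at h1
      rw [hF, Nat.add_sub_cancel]
      have h2 := three_le (q := y + 1) (r := r) (R := k + 2) (by omega) (by omega)
      refine h2.trans ?_
      obtain ⟨j, rfl⟩ : ∃ j, k = j + 1 := ⟨k - 1, by omega⟩
      set u := (y + 1) ^ j with hu
      have hxu : x = (y + 1) * u := by
        rw [hx, hu]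
        ring
      have hu1 : y + 1 ≤ u := by
        rw [hu]
        calc y + 1 = (y + 1) ^ 1 := (pow_one _).symm
          _ ≤ (y + 1) ^ j := Nat.pow_le_pow_right (by omega) (by omega)
      have hz₂1 : z₂ + 1 = x * u + y * u := by
        rw [hz2]
        apply Nat.eq_of_mul_eq_mul_left (show 0 < y + 1 by omega)
        rw [a5, hxu]
        ring
      have hk1 : j + 1 + 2 - 1 = j + 2 := by omega
      have hk2 : j + 1 + 2 - 2 = j + 1 := by omega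
      rw [hk1, hk2]
      have e1 : (y + 1) ^ (j + 1 + 2) = (y + 1) ^ 2 * x := hp3
      have e2 : (y + 1) ^ (j + 2) = (y + 1) * x := by
        rw [hx]
        ring
      have e3 : (y + 1) ^ (j + 1) = x := rfl
      rw [e1, e2, e3]
      exact plus_a3 hy3 hu1 hxu hz1 hz₂1
  obtain ⟨μ, hμ, hμ'⟩ := exists_mu (F := F) (by omega)
  have hmain := main_theorem hcoe h h' hd hd' hA' hB hμ hμ' hp hp0
  exact hmain

end Cfsg.Agent.Lib.MinIndex.OPlus
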