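import Mathlib
import Cfsg.Agent.Lib.MinIndex.OFam

/-!
# Minimal degree of the orthogonal groups over small fields: general lemmas

Multiplicities with a factor; regular orbits and the cocycle on the elements fixing a hyperbolic pair.
-/

set_option autoImplicit false
set_option linter.unusedSectionVars false
set_option linter.unusedSimpArgs false
set_option linter.unusedVariables false

namespace Cfsg.Agent.Lib.MinIndex.OS1

open Matrix QuadraticMap Module
open Cfsg.Agent.Lib.Classical.Orth.Basic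
open Cfsg.Agent.Lib.Classical.Witt.Hyp
open Cfsg.Agent.Lib.MinIndex.SpCount Cfsg.Agent.Lib.MinIndex.UCount
open Cfsg.Agent.Lib.MinIndex.OBase Cfsg.Agent.Lib.MinIndex.OVec Cfsg.Agent.Lib.MinIndex.OGood
open Cfsg.Agent.Lib.MinIndex.OTypes Cfsg.Agent.Lib.MinIndex.OLine Cfsg.Agent.Lib.MinIndex.OStep
open Cfsg.Agent.Lib.MinIndex.OStep2 Cfsg.Agent.Lib.MinIndex.OStep3 Cfsg.Agent.Lib.MinIndex.OFix
open Cfsg.Agent.Lib.MinIndex.OCount

/-- The bound for a subset all of whose annihilators are small, with a multiplicity. -/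
theorem line_bound_m {W Y : Type*} [AddCommGroup W] [Fintype W] [Fintype Y] {A : WSet W Y} {Q : Pairing W}
    {Y' : Finset Y} (h : Inv A Y') {b m : ℕ} (hb : ∀ y ∈ Y', Nat.card (SS A Q y) ≤ b)
    (C : Finset W) (h0 : (0 : W) ∉ C) (hC : ∀ u ∈ C, m ≤ mult A Q Y' u) :
    b * (C.card * m) ≤ (b - 1) * Y'.card := by
  classical
  have h1 := card_ge_classes (A := A) (Q := Q) h C ∅ h0 (by simp) (by simp) (m₁ := m) (m₂ := 0) hC (by simp)
  simp only [Finset.card_empty, zero_mul, add_zero] at h1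
  have h2 : Y'.card ≤ b * mult A Q Y' 0 := by
    rw [card_eq_sum_orbs h, mult_zero_eq, mul_comm]
    have := Finset.sum_le_card_nsmul (Orbs A Y') (fun O => O.card) b (by
      intro O hO
      obtain ⟨y, hy, rfl⟩ := mem_Orbs.mp hO
      rw [card_orb_eq (Q := Q)]
      exact hb y hy)
    simpa using this
  by_cases hb0 : b = 0
  · subst hb0
    simp
  obtain ⟨b', rfl⟩ : ∃ b', b = b' + 1 := ⟨b - 1, by omega⟩
  simp only [Nat.add_sub_cancel]
  have h3 := Nat.mul_le_mul_left (b' + 1) h1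
  rw [mul_add] at h3
  have e : (b' + 1) * Y'.card = b' * Y'.card + Y'.card := by ring
  omega

variable {ι : Type} [Fintype ι] [DecidableEq ι] {F : Type*} [Field F] [Fintype F]
variable {Q : QuadraticForm F (ι → F)} [OC Q]

set_option quotPrecheck false in
local notation "𝔣" => polar (⇑Q)

variable {c c' : ι → F}

/-- Eichler transformations with perpendicular data commute. -/
theorem E_comm {z b z' b' : ι → F} (hz : Q z = 0) (hb : 𝔣 z b = 0) (hz' : Q z' = 0) (hb' : 𝔣 z' b' = 0)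
    (h1 : 𝔣 z z' = 0) (h2 : 𝔣 z b' = 0) (h3 : 𝔣 b z' = 0) (h4 : 𝔣 b b' = 0) :
    E hz hb * E hz' hb' = E hz' hb' * E hz hb := by
  apply ext_GG
  intro x
  rw [act_GG_mul, act_GG_mul, act_E hz hb, act_E hz hb, act_E hz' hb', act_E hz' hb']
  have h5 : 𝔣 z' z = 0 := by rw [polar_symm]; exact h1
  have h6 : 𝔣 z' b = 0 := by rw [polar_symm]; exact h3
  have h7 : 𝔣 b' z = 0 := by rw [polar_symm]; exact h2
  have h8 : 𝔣 b' b = 0 := by rw [polar_symm]; exact h4
  simp only [polar_add_right, polar_sub_right, polar_smul_right', h1, h2, h3, h4, h5, h6, h7, h8]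
  simp only [mul_zero, add_zero, sub_zero]
  module

section Act

variable {Ω : Type*} [MulAction (GG Q) Ω]

/-- Moving an Eichler transformation of `c` past an element fixing `c`. -/
theorem smul_E_of_fix {g : GG Q} (hg : act g.1 c = c) (hc : Q c = 0) {w : ι → F} (hw : 𝔣 c w = 0) (hw' : 𝔣 c (act g.1 w) = 0)
    (y : Ω) : g • E hc hw • y = E hc hw' • g • y := by
  have h1 := conj_E g hc hw
  have h2 : g * E hc hw = E (by rw [Q_act]; exact hc : Q (act g.1 c) = 0) (by rw [polar_act]; exact hw : 𝔣 (act g.1 c) (act g.1 w) = 0) * g := by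
    rw [← h1]
    group
  rw [← mul_smul, h2, mul_smul]
  congr 1
  rw [E_congr hg rfl _ _ hc hw']

/-- The product of two elements in terms of the translations. -/
theorem tau_mul {ω₀ : Ω} (hc : Q c = 0) {r r' : GG Q} (hr : act r.1 c = c) {τ τ' : ι → F} (hτ : 𝔣 c τ = 0)
    (hτ' : 𝔣 c τ' = 0) (h1 : E hc hτ • ω₀ = r • ω₀) (h2 : E hc hτ' • ω₀ = r' • ω₀) (h3 : 𝔣 c (act r.1 τ' + τ) = 0) :
    (r * r') • ω₀ = E hc h3 • ω₀ := by
  have h4 : 𝔣 c (act r.1 τ') = 0 := by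
    have := polar_act r.1 c τ'
    rw [hr, hτ'] at this
    exact this
  rw [mul_smul, ← h2, smul_E_of_fix hr hc hτ' h4, ← h1, ← mul_smul, E_mul]

end Act

section Free

variable {Ω : Type*} [MulAction (GG Q) Ω]

/-- The stabilizers are trivial, in terms of the vectors. -/
def FreeAt (Q : QuadraticForm F (ι → F)) [OC Q] (Ω : Type*) [MulAction (GG Q) Ω] (c c' : ι → F) : Prop :=
  ∀ (hc : Q c = 0) (r : ι → F) (hr : r ∈ WW Q c c') (ω : Ω), E hc (WW_left hr) • ω = ω → r = 0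

/-- Freeness at a pair gives freeness at all pairs. -/
theorem FreeAt.transfer (h : HP Q c c') (hF : FreeAt Q Ω c c') {d d' : ι → F} (h' : HP Q d d') : FreeAt Q Ω d d' := by
  intro hd r hr ω hfix
  obtain ⟨g, hg, hg'⟩ := exists_omega_pair h' h
  have hrW : act g.1 r ∈ WW Q c c' := mem_WW.2 ⟨by
    rw [← hg, polar_act]
    exact WW_left hr, by
    rw [← hg', polar_act]
    exact WW_right hr⟩
  have h1 := conj_E g hd (WW_left hr)
  have h2 : E h.hc (WW_left hrW) • g • ω = g • ω := by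
    have h3 : E h.hc (WW_left hrW) = g * E hd (WW_left hr) * g⁻¹ := by
      rw [h1]
      exact E_congr hg.symm rfl _ _ _ _
    rw [h3, ← mul_smul]
    have h4 : g * E hd (WW_left hr) * g⁻¹ * g = g * E hd (WW_left hr) := by group
    rw [h4, mul_smul, hfix]
  have h5 := hF h.hc _ hrW _ h2
  have h6 := act_GG_inv_act g r
  rw [h5] at h6
  rw [← h6]
  simp

/-- The end of the cocycle argument: the data of an element `E d b` with a translation perpendicular to the perp of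
`d`, `b` give a fixed point. -/
theorem coc_end (h : HP Q c c') {d d' : ι → F} (h' : HP Q d d') (hd : d ∈ WW Q c c') (hd' : d' ∈ WW Q c c')
    (hF : FreeAt Q Ω c c') {b τ : ι → F} (hb : b ∈ WW2 Q c c' d d') (hb0 : b ≠ 0) (hτW : τ ∈ WW Q c c') {ω₀ : Ω}
    (hτ : E h.hc (WW_left hτW) • ω₀ = E h'.hc (mem_WW2.1 hb).2.2.1 • ω₀) (h1 : 𝔣 d τ = 0)
    (h2 : ∀ y ∈ WW2 Q c c' d d', 𝔣 b y = 0 → 𝔣 y τ = 0) : False := by
  obtain ⟨hb1, hb2, hb3, hb4⟩ := mem_WW2.1 hb
  have hbW : b ∈ WW Q d d' := mem_WW.2 ⟨hb3, hb4⟩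
  set α := 𝔣 τ d' with hα
  set τ₂ := τ - α • d with hτ₂
  have hdd := h'.cc
  have hdd' := h'.hp
  have hd'd := h'.hp'
  have hdc : 𝔣 d c = 0 := WW_left' hd
  have hdc' : 𝔣 d c' = 0 := WW_right' hd
  have hd'c : 𝔣 d' c = 0 := WW_left' hd'
  have hd'c' : 𝔣 d' c' = 0 := WW_right' hd'
  have hτ₂W : τ₂ ∈ WW Q c c' := Submodule.sub_mem _ hτW (Submodule.smul_mem _ _ hd)
  have hτ₂W' : τ₂ ∈ WW Q d d' := mem_WW.2 ⟨by
    rw [hτ₂, polar_sub_right, polar_smul_right', h1, hdd]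
    ring, by
    rw [hτ₂, polar_sub_right, polar_smul_right', hd'd, hα, polar_symm τ d']
    ring⟩
  -- projection
  have hproj : ∀ y ∈ WW Q d d', y - 𝔣 y c' • c - 𝔣 y c • c' ∈ WW2 Q c c' d d' := by
    intro y hy
    rw [mem_WW2]
    refine ⟨?_, ?_, ?_, ?_⟩
    · rw [polar_sub_right, polar_sub_right, polar_smul_right', polar_smul_right', h.cc, h.hp, polar_symm c y]
      ring
    · rw [polar_sub_right, polar_sub_right, polar_smul_right', polar_smul_right', h.cc', h.hp', polar_symm c' y]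
      ring
    · rw [polar_sub_right, polar_sub_right, polar_smul_right', polar_smul_right', hdc, hdc', WW_left hy]
      ring
    · rw [polar_sub_right, polar_sub_right, polar_smul_right', polar_smul_right', hd'c, hd'c', WW_right hy]
      ring
  obtain ⟨β, hβ⟩ := eq_smul_of_perp h' hbW hτ₂W' (by
    intro y hy hby
    have hy₂ := hproj y hy
    set y₂ := y - 𝔣 y c' • c - 𝔣 y c • c' with hy₂def
    have e1 : 𝔣 b y₂ = 0 := by
      rw [hy₂def, polar_sub_right, polar_sub_right, polar_smul_right', polar_smul_right', hby, polar_symm b c, hb1,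
        polar_symm b c', hb2]
      ring
    have e2 := h2 y₂ hy₂ e1
    have e3 : y = y₂ + 𝔣 y c' • c + 𝔣 y c • c' := by
      rw [hy₂def]
      abel
    have e4 : 𝔣 d y₂ = 0 := (mem_WW2.1 hy₂).2.2.1
    rw [e3, polar_add_right, polar_add_right, polar_smul_right', polar_smul_right', WW_left' hτ₂W, WW_right' hτ₂W,
      hτ₂, polar_sub_left, polar_smul_left', polar_symm τ y₂, e2, e4]
    ring)
  -- a vector with the pairing
  obtain ⟨y, hyW, hy1⟩ := exists_partner_W h' hbW hb0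
  have hρ := hproj y hyW
  set ρ := y - 𝔣 y c' • c - 𝔣 y c • c' with hρdef
  have hbρ : 𝔣 b ρ = 1 := by
    rw [hρdef, polar_sub_right, polar_sub_right, polar_smul_right', polar_smul_right', hy1, polar_symm b c, hb1,
      polar_symm b c', hb2]
    ring
  obtain ⟨hρ1, hρ2, hρ3, hρ4⟩ := mem_WW2.1 hρ
  set γ := α + Q b * β with hγ
  set w := (-β) • d' + γ • ρ with hw
  have hwW : w ∈ WW Q c c' := Submodule.add_mem _ (Submodule.smul_mem _ _ hd') (Submodule.smul_mem _ _ (mem_WW.2 ⟨hρ1, hρ2⟩))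
  have hdw : 𝔣 d w = -β := by
    rw [hw, polar_add_right, polar_smul_right', polar_smul_right', hdd', hρ3]
    ring
  have hbw : 𝔣 b w = γ := by
    rw [hw, polar_add_right, polar_smul_right', polar_smul_right', hbρ, polar_symm b d', hb4]
    ring
  have hactw : act (E h'.hc hb3).1 w + τ = w := by
    rw [act_E, hdw, hbw]
    have e1 : τ = β • b + α • d := by
      rw [← hβ, hτ₂]
      abel
    rw [e1, hγ]
    module
  have hrc : act (E h'.hc hb3).1 c = c := act_E_of_perp _ _ hdc (by rw [polar_symm]; exact hb1)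
  have h3 : 𝔣 c (act (E h'.hc hb3).1 w) = 0 := by
    have := polar_act (E h'.hc hb3).1 c w
    rw [hrc, WW_left hwW] at this
    exact this
  have hfix : E h'.hc hb3 • (E h.hc (WW_left hwW) • ω₀) = E h.hc (WW_left hwW) • ω₀ := by
    rw [smul_E_of_fix hrc h.hc (WW_left hwW) h3, ← hτ, ← mul_smul, E_mul]
    congr 1
    exact E_congr rfl hactw _ _ _ _
  exact hb0 ((hF.transfer h h') h'.hc b hbW _ hfix)

/-- The translations of commuting elements. -/
theorem tau_comm (h : HP Q c c') (hF : FreeAt Q Ω c c') {r r' : GG Q} (hN : Nrm r 1 c c') (hN' : Nrm r' 1 c c')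
    (hcomm : r * r' = r' * r) {τ τ' : ι → F} (hτW : τ ∈ WW Q c c') (hτ'W : τ' ∈ WW Q c c') {ω₀ : Ω}
    (h1 : E h.hc (WW_left hτW) • ω₀ = r • ω₀) (h2 : E h.hc (WW_left hτ'W) • ω₀ = r' • ω₀) :
    act r.1 τ' + τ = act r'.1 τ + τ' := by
  have hrc : act r.1 c = c := by rw [hN.left, one_smul]
  have hr'c : act r'.1 c = c := by rw [hN'.left, one_smul]
  have ha : act r.1 τ' + τ ∈ WW Q c c' := Submodule.add_mem _ (hN.act_mem hτ'W) hτW
  have hb : act r'.1 τ + τ' ∈ WW Q c c' := Submodule.add_mem _ (hN'.act_mem hτW) hτ'W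
  have e1 := tau_mul h.hc hrc (WW_left hτW) (WW_left hτ'W) h1 h2 (WW_left ha)
  have e2 := tau_mul h.hc hr'c (WW_left hτ'W) (WW_left hτW) h2 h1 (WW_left hb)
  rw [hcomm, e2] at e1
  have hab : (act r.1 τ' + τ) - (act r'.1 τ + τ') ∈ WW Q c c' := Submodule.sub_mem _ ha hb
  have h3 := hF h.hc _ hab ω₀ (by
    have e3 : E h.hc (WW_left ha) = E h.hc (WW_left hab) * E h.hc (WW_left hb) := by
      rw [E_mul]
      exact E_congr rfl (by abel) _ _ _ _
    have e4 := e1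
    rw [e3, mul_smul] at e4
    have h5 : E h.hc (WW_left hab) • (E h.hc (WW_left hb) • ω₀) = E h.hc (WW_left hb) • (E h.hc (WW_left hab) • ω₀) := by
      rw [← mul_smul, ← mul_smul, E_mul, E_mul]
      congr 1
      exact E_congr rfl (by abel) _ _ _ _
    rw [h5] at e4
    exact smul_left_cancel _ e4.symm)
  exact sub_eq_zero.1 h3

/-- The relation between the translations of commuting Eichler transformations, paired with a vector. -/
theorem rel_pair (h : HP Q c c') (hF : FreeAt Q Ω c c') {z b z' b' : ι → F} (hz : Q z = 0) (hb : 𝔣 z b = 0) (hz' : Q z' = 0)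
    (hb' : 𝔣 z' b' = 0) (hzW : z ∈ WW Q c c') (hbW : b ∈ WW Q c c') (hz'W : z' ∈ WW Q c c') (hb'W : b' ∈ WW Q c c')
    (h1 : 𝔣 z z' = 0) (h2 : 𝔣 z b' = 0) (h3 : 𝔣 b z' = 0) (h4 : 𝔣 b b' = 0) {τ τ' : ι → F} (hτW : τ ∈ WW Q c c')
    (hτ'W : τ' ∈ WW Q c c') {ω₀ : Ω} (e1 : E h.hc (WW_left hτW) • ω₀ = E hz hb • ω₀)
    (e2 : E h.hc (WW_left hτ'W) • ω₀ = E hz' hb' • ω₀) (ρ : ι → F) :
    𝔣 z τ' * 𝔣 ρ b - 𝔣 b τ' * 𝔣 ρ z - Q b * 𝔣 z τ' * 𝔣 ρ z =
      𝔣 z' τ * 𝔣 ρ b' - 𝔣 b' τ * 𝔣 ρ z' - Q b' * 𝔣 z' τ * 𝔣 ρ z' := by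
  have h5 := tau_comm h hF (nrm_E hz hb hzW hbW) (nrm_E hz' hb' hz'W hb'W) (E_comm hz hb hz' hb' h1 h2 h3 h4) hτW hτ'W e1 e2
  rw [act_E, act_E] at h5
  have h6 : (𝔣 z τ') • b - (𝔣 b τ') • z - (Q b * 𝔣 z τ') • z = (𝔣 z' τ) • b' - (𝔣 b' τ) • z' - (Q b' * 𝔣 z' τ) • z' := by
    linear_combination (norm := module) h5
  have h7 := congrArg (𝔣 ρ) h6
  simpa only [polar_sub_right, polar_smul_right'] using h7

/-- The coefficients of a vector in a span. -/
theorem coeff6 (h : HP Q c c') {d d' : ι → F} (h' : HP Q d d') (hd : d ∈ WW Q c c') (hd' : d' ∈ WW Q c c') {b s x : ι → F}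
    (hb : b ∈ WW2 Q c c' d d') (hs : s ∈ WW2 Q c c' d d') (hbs : 𝔣 b s = 0) (hbb : 𝔣 b b ≠ 0) (hx1 : 𝔣 c x = 0)
    (hx2 : 𝔣 c' x = 0) (hx3 : 𝔣 d x = 0) (hx4 : 𝔣 d' x = 0) (hx5 : 𝔣 b x = 0)
    (hm : x ∈ Submodule.span F (Set.range ![c, c', d, d', b, s])) : ∃ t : F, x = t • s := by
  obtain ⟨t, ht⟩ := (Submodule.mem_span_range_iff_exists_fun F).1 hm
  simp only [Fin.sum_univ_six, Matrix.cons_val_zero, Matrix.cons_val_one, Matrix.cons_val] at ht
  obtain ⟨hb1, hb2, hb3, hb4⟩ := mem_WW2.1 hb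
  obtain ⟨hs1, hs2, hs3, hs4⟩ := mem_WW2.1 hs
  have e1 := congrArg (𝔣 c') ht
  have e2 := congrArg (𝔣 c) ht
  have e3 := congrArg (𝔣 d') ht
  have e4 := congrArg (𝔣 d) ht
  have e5 := congrArg (𝔣 b) ht
  have hbc : 𝔣 b c = 0 := by rw [polar_symm]; exact hb1
  have hbc' : 𝔣 b c' = 0 := by rw [polar_symm]; exact hb2
  have hbd : 𝔣 b d = 0 := by rw [polar_symm]; exact hb3
  have hbd' : 𝔣 b d' = 0 := by rw [polar_symm]; exact hb4
  simp only [polar_add_right, polar_smul_right', h.cc, h.cc', h.hp, h.hp', h'.cc, h'.cc', h'.hp, h'.hp', hb1, hb2, hb3, hb4,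
    hs1, hs2, hs3, hs4, WW_left hd, WW_right hd, WW_left hd', WW_right hd', WW_left' hd, WW_right' hd, WW_left' hd',
    WW_right' hd', hx1, hx2, hx3, hx4, hx5, hbc, hbc', hbd, hbd', hbs] at e1 e2 e3 e4 e5
  simp only [mul_zero, mul_one, add_zero, zero_add] at e1 e2 e3 e4 e5
  have e6 : t 4 = 0 := (mul_eq_zero.1 e5).resolve_right hbb
  refine ⟨t 5, ?_⟩
  rw [e1, e2, e3, e4, e6] at ht
  simpa using ht.symm

/-- A hyperbolic pair perpendicular to a vector in the double complement, in odd characteristic and dimension at least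
eight. -/
theorem exists_HP_perp_odd (h : HP Q c c') {d d' : ι → F} (h' : HP Q d d') (hd : d ∈ WW Q c c') (hd' : d' ∈ WW Q c c') {b : ι → F}
    (hb : b ∈ WW2 Q c c' d d') (hbb : 𝔣 b b ≠ 0) (hn : 8 ≤ Fintype.card ι) :
    ∃ a a', HP Q a a' ∧ a ∈ WW2 Q c c' d d' ∧ a' ∈ WW2 Q c c' d d' ∧ 𝔣 b a = 0 ∧ 𝔣 b a' = 0 := by
  obtain ⟨a, ha0, hQa, ha⟩ := exists_sing_orth_vec (Q := Q) ![c, c', d, d', b] (by omega)
  have ha1 : 𝔣 c a = 0 := ha 0
  have ha2 : 𝔣 c' a = 0 := ha 1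
  have ha3 : 𝔣 d a = 0 := ha 2
  have ha4 : 𝔣 d' a = 0 := ha 3
  have ha5 : 𝔣 b a = 0 := ha 4
  have hnot : a ∉ Submodule.span F (Set.range ![c, c', d, d', b]) := by
    intro hm
    have hm' : a ∈ Submodule.span F (Set.range ![c, c', d, d', b, 0]) := by
      refine Submodule.span_mono ?_ hm
      rintro _ ⟨i, rfl⟩
      fin_cases i
      · exact ⟨0, rfl⟩
      · exact ⟨1, rfl⟩
      · exact ⟨2, rfl⟩
      · exact ⟨3, rfl⟩
      · exact ⟨4, rfl⟩
    obtain ⟨t, ht⟩ := coeff6 h h' hd hd' hb (Submodule.zero_mem _) (by simp [polar]) hbb ha1 ha2 ha3 ha4 ha5 hm'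
    rw [smul_zero] at ht
    exact ha0 ht
  obtain ⟨y, hy1, hy2⟩ := exists_sep (Q := Q) hnot
  have hy3 : 𝔣 c y = 0 := hy2 _ (Submodule.subset_span ⟨0, rfl⟩)
  have hy4 : 𝔣 c' y = 0 := hy2 _ (Submodule.subset_span ⟨1, rfl⟩)
  have hy5 : 𝔣 d y = 0 := hy2 _ (Submodule.subset_span ⟨2, rfl⟩)
  have hy6 : 𝔣 d' y = 0 := hy2 _ (Submodule.subset_span ⟨3, rfl⟩)
  have hy7 : 𝔣 b y = 0 := hy2 _ (Submodule.subset_span ⟨4, rfl⟩)
  have haa := polar_zero_self hQa
  refine ⟨a, y - Q y • a, ⟨hQa, ?_, ?_⟩, mem_WW2.2 ⟨ha1, ha2, ha3, ha4⟩, mem_WW2.2 ⟨?_, ?_, ?_, ?_⟩, ha5, ?_⟩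
  · rw [Q_sub, Q_smul, hQa, polar_smul_right', polar_symm y a, hy1]
    ring
  · rw [polar_sub_right, polar_smul_right', haa, hy1]
    ring
  · rw [polar_sub_right, polar_smul_right', ha1, hy3]
    ring
  · rw [polar_sub_right, polar_smul_right', ha2, hy4]
    ring
  · rw [polar_sub_right, polar_smul_right', ha3, hy5]
    ring
  · rw [polar_sub_right, polar_smul_right', ha4, hy6]
    ring
  · rw [polar_sub_right, polar_smul_right', ha5, hy7]
    ring

/-- A hyperbolic pair in the double complement. -/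
theorem exists_HP_WW2 (h : HP Q c c') {d d' : ι → F} (h' : HP Q d d') (hd : d ∈ WW Q c c') (hd' : d' ∈ WW Q c c') :
    ∃ a a', HP Q a a' ∧ a ∈ WW2 Q c c' d d' ∧ a' ∈ WW2 Q c c' d d' := by
  have hdim := OC.dim (Q := Q)
  obtain ⟨a, ha0, hQa, ha⟩ := exists_sing_orth_vec (Q := Q) ![c, c', d, d'] (by omega)
  have ha1 : 𝔣 c a = 0 := ha 0
  have ha2 : 𝔣 c' a = 0 := ha 1
  have ha3 : 𝔣 d a = 0 := ha 2
  have ha4 : 𝔣 d' a = 0 := ha 3
  have hnot : a ∉ Submodule.span F (Set.range ![c, c', d, d']) := by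
    intro hm
    obtain ⟨t, ht⟩ := (Submodule.mem_span_range_iff_exists_fun F).1 hm
    simp only [Fin.sum_univ_four, Matrix.cons_val_zero, Matrix.cons_val_one, Matrix.cons_val] at ht
    have e1 := congrArg (𝔣 c') ht
    have e2 := congrArg (𝔣 c) ht
    have e3 := congrArg (𝔣 d') ht
    have e4 := congrArg (𝔣 d) ht
    simp only [polar_add_right, polar_smul_right', h.cc, h.cc', h.hp, h.hp', h'.cc, h'.cc', h'.hp, h'.hp',
      WW_left hd, WW_right hd, WW_left hd', WW_right hd', WW_left' hd, WW_right' hd, WW_left' hd',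
      WW_right' hd', ha1, ha2, ha3, ha4] at e1 e2 e3 e4
    simp only [mul_zero, mul_one, add_zero, zero_add] at e1 e2 e3 e4
    rw [e1, e2, e3, e4] at ht
    apply ha0
    simpa using ht.symm
  obtain ⟨y, hy1, hy2⟩ := exists_sep (Q := Q) hnot
  have hy3 : 𝔣 c y = 0 := hy2 _ (Submodule.subset_span ⟨0, rfl⟩)
  have hy4 : 𝔣 c' y = 0 := hy2 _ (Submodule.subset_span ⟨1, rfl⟩)
  have hy5 : 𝔣 d y = 0 := hy2 _ (Submodule.subset_span ⟨2, rfl⟩)
  have hy6 : 𝔣 d' y = 0 := hy2 _ (Submodule.subset_span ⟨3, rfl⟩)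
  have haa := polar_zero_self hQa
  refine ⟨a, y - Q y • a, ⟨hQa, ?_, ?_⟩, mem_WW2.2 ⟨ha1, ha2, ha3, ha4⟩, mem_WW2.2 ⟨?_, ?_, ?_, ?_⟩⟩
  · rw [Q_sub, Q_smul, hQa, polar_smul_right', polar_symm y a, hy1]
    ring
  · rw [polar_sub_right, polar_smul_right', haa, hy1]
    ring
  · rw [polar_sub_right, polar_smul_right', ha1, hy3]
    ring
  · rw [polar_sub_right, polar_smul_right', ha2, hy4]
    ring
  · rw [polar_sub_right, polar_smul_right', ha3, hy5]
    ring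
  · rw [polar_sub_right, polar_smul_right', ha4, hy6]
    ring

/-- **No free single orbit in odd characteristic, dimension at least eight.** -/
theorem no_free_odd (h : HP Q c c') (h2 : (2 : F) ≠ 0) (hn : 8 ≤ Fintype.card ι) (hF : FreeAt Q Ω c c')
    (horb : ∀ ω ω' : Ω, ∃ w, ∃ hw : w ∈ WW Q c c', E h.hc (WW_left hw) • ω = ω') (ω₀ : Ω) : False := by
  classical
  obtain ⟨d, d', h', hd, hd'⟩ := exists_HP_W h
  obtain ⟨a₀, a₀', ha₀, ha₀W, ha₀'W⟩ := exists_HP_WW2 h h' hd hd'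
  set b := a₀ + a₀' with hbdef
  have hb : b ∈ WW2 Q c c' d d' := Submodule.add_mem _ ha₀W ha₀'W
  have hQb : Q b ≠ 0 := by
    rw [hbdef, Q_add, ha₀.hc, ha₀.hc', ha₀.hp]
    simp
  have hbb : 𝔣 b b ≠ 0 := by
    have e : 𝔣 b b = 2 * Q b := by
      rw [polar, show b + b = (2 : F) • b by rw [two_smul], Q_smul]
      ring
    rw [e]
    exact mul_ne_zero h2 hQb
  have hb0 : b ≠ 0 := by
    rintro e
    rw [e] at hQb
    simp at hQb
  obtain ⟨hb1, hb2, hb3, hb4⟩ := mem_WW2.1 hb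
  have hbW : b ∈ WW Q c c' := mem_WW.2 ⟨hb1, hb2⟩
  obtain ⟨a, a', ha, haW, ha'W, hba, hba'⟩ := exists_HP_perp_odd h h' hd hd' hb hbb hn
  obtain ⟨ha1, ha2, ha3, ha4⟩ := mem_WW2.1 haW
  obtain ⟨ha'1, ha'2, ha'3, ha'4⟩ := mem_WW2.1 ha'W
  have haW' : a ∈ WW Q c c' := mem_WW.2 ⟨ha1, ha2⟩
  have ha'W' : a' ∈ WW Q c c' := mem_WW.2 ⟨ha'1, ha'2⟩
  obtain ⟨τ, hτW, hτ⟩ := horb ω₀ (E h'.hc hb3 • ω₀)
  -- the translation is perpendicular to `d`
  have h1 : 𝔣 d τ = 0 := by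
    obtain ⟨τ', hτ'W, hτ'⟩ := horb ω₀ (E h'.hc ha3 • ω₀)
    have e := rel_pair h hF h'.hc hb3 h'.hc ha3 hd hbW hd haW' h'.cc ha3 (by rw [polar_symm]; exact hb3) hba hτW hτ'W hτ hτ' a'
    have e1 : 𝔣 a' d = 0 := by rw [polar_symm]; exact ha'3
    have e2 : 𝔣 a' b = 0 := by rw [polar_symm]; exact hba'
    have e3 : 𝔣 a' a = 1 := ha.hp'
    rw [e1, e2, e3] at e
    simpa using e.symm
  -- singular vectors
  set Y : Submodule F (ι → F) := (WW2 Q c c' d d') ⊓ LinearMap.ker (polarBilin Q b) with hY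
  have hmem : ∀ {y}, y ∈ Y ↔ y ∈ WW2 Q c c' d d' ∧ 𝔣 b y = 0 := by
    intro y
    rw [hY, Submodule.mem_inf, LinearMap.mem_ker]
    rfl
  have hsing : ∀ s ∈ Y, Q s = 0 → 𝔣 τ s = 0 := by
    intro s hs hQs
    obtain ⟨hsW, hbs⟩ := hmem.1 hs
    by_cases hs0 : s = 0
    · rw [hs0]
      simp [polar]
    obtain ⟨hs1, hs2, hs3, hs4⟩ := mem_WW2.1 hsW
    have hsW' : s ∈ WW Q c c' := mem_WW.2 ⟨hs1, hs2⟩
    -- a nonsingular vector
    obtain ⟨x, hx1, hx2⟩ := exists_orth_vec (Q := Q) ![c, c', d, d', b, s] (Submodule.span F {s}) (by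
      rw [finrank_span_singleton hs0]
      omega)
    have hxnot : x ∉ Submodule.span F (Set.range ![c, c', d, d', b, s]) := by
      intro hm
      obtain ⟨t, ht⟩ := coeff6 h h' hd hd' hb hsW hbs hbb (hx1 0) (hx1 1) (hx1 2) (hx1 3) (hx1 4) hm
      apply hx2
      rw [ht]
      exact Submodule.smul_mem _ _ (Submodule.mem_span_singleton_self s)
    obtain ⟨v, hv1, hv2⟩ := exists_nonsing_of_perp (Q := Q) (U := Submodule.span F (Set.range ![c, c', d, d', b, s])) (by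
      intro z hz
      have h3 : Submodule.span F (Set.range ![c, c', d, d', b, s]) ≤ LinearMap.ker (polarBilin Q x) := by
        rw [Submodule.span_le]
        rintro _ ⟨i, rfl⟩
        show polar (⇑Q) x _ = 0
        rw [polar_symm]
        exact hx1 i
      have h4 : polar (⇑Q) x z = 0 := h3 hz
      rw [polar_symm]
      exact h4) hxnot
    have hv3 : 𝔣 c v = 0 := hv2 _ (Submodule.subset_span ⟨0, rfl⟩)
    have hv4 : 𝔣 c' v = 0 := hv2 _ (Submodule.subset_span ⟨1, rfl⟩)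
    have hv5 : 𝔣 d v = 0 := hv2 _ (Submodule.subset_span ⟨2, rfl⟩)
    have hv6 : 𝔣 d' v = 0 := hv2 _ (Submodule.subset_span ⟨3, rfl⟩)
    have hv7 : 𝔣 b v = 0 := hv2 _ (Submodule.subset_span ⟨4, rfl⟩)
    have hv8 : 𝔣 s v = 0 := hv2 _ (Submodule.subset_span ⟨5, rfl⟩)
    have hvW : v ∈ WW Q c c' := mem_WW.2 ⟨hv3, hv4⟩
    have hvv : 𝔣 v v ≠ 0 := by
      have e : 𝔣 v v = 2 * Q v := by
        rw [polar, show v + v = (2 : F) • v by rw [two_smul], Q_smul]
        ring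
      rw [e]
      exact mul_ne_zero h2 hv1
    obtain ⟨τ', hτ'W, hτ'⟩ := horb ω₀ (E hQs hv8 • ω₀)
    have e := rel_pair h hF h'.hc hb3 hQs hv8 hd hbW hsW' hvW hs3 hv5 hbs hv7 hτW hτ'W hτ hτ' v
    have e1 : 𝔣 v b = 0 := by rw [polar_symm]; exact hv7
    have e2 : 𝔣 v d = 0 := by rw [polar_symm]; exact hv5
    have e3 : 𝔣 v s = 0 := by rw [polar_symm]; exact hv8
    rw [e1, e2, e3] at e
    simp only [mul_zero, sub_zero] at e
    rw [polar_symm]
    exact (mul_eq_zero.1 e.symm).resolve_right hvv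
  have hperp : ∀ y ∈ WW2 Q c c' d d', 𝔣 b y = 0 → 𝔣 y τ = 0 := by
    intro y hy hby
    rw [polar_symm]
    exact perp_of_sing ha (hmem.2 ⟨haW, hba⟩) (hmem.2 ⟨ha'W, hba'⟩) hsing (hmem.2 ⟨hy, hby⟩)
  exact coc_end h h' hd hd' hF hb hb0 hτW hτ h1 hperp

/-- **No free single orbit in characteristic two over the field with two elements.** -/
theorem no_free_two (h : HP Q c c') (h2 : (2 : F) = 0) (hel : ∀ x : F, x = 0 ∨ x = 1) (hF : FreeAt Q Ω c c')
    (horb : ∀ ω ω' : Ω, ∃ w, ∃ hw : w ∈ WW Q c c', E h.hc (WW_left hw) • ω = ω') (ω₀ : Ω) : False := by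
  classical
  have hvv : ∀ x : ι → F, x + x = 0 := by
    intro x
    rw [← two_smul F x, h2, zero_smul]
  have h11 : (1 : F) + 1 = 0 := by linear_combination h2
  obtain ⟨d, d', h', hd, hd'⟩ := exists_HP_W h
  obtain ⟨a₀, a₀', ha₀, ha₀W, ha₀'W⟩ := exists_HP_WW2 h h' hd hd'
  set b := a₀ + a₀' with hbdef
  have hb : b ∈ WW2 Q c c' d d' := Submodule.add_mem _ ha₀W ha₀'W
  have hQb : Q b = 1 := by
    rw [hbdef, Q_add, ha₀.hc, ha₀.hc', ha₀.hp]
    simp
  have hb0 : b ≠ 0 := by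
    rintro e
    rw [e] at hQb
    simp at hQb
  obtain ⟨hb1, hb2, hb3, hb4⟩ := mem_WW2.1 hb
  have hbW : b ∈ WW Q c c' := mem_WW.2 ⟨hb1, hb2⟩
  have hbb : 𝔣 b b = 0 := by
    rw [polar, hvv b]
    simp only [QuadraticMap.map_zero, hQb]
    linear_combination -h11
  obtain ⟨τ, hτW, hτ⟩ := horb ω₀ (E h'.hc hb3 • ω₀)
  -- a vector with the pairing
  obtain ⟨ρ, hρW, hρ⟩ : ∃ ρ ∈ WW2 Q c c' d d', 𝔣 b ρ = 1 := by
    obtain ⟨y, hyW, hy1⟩ := exists_partner_W h' (mem_WW.2 ⟨hb3, hb4⟩) hb0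
    refine ⟨y - 𝔣 y c' • c - 𝔣 y c • c', ?_, ?_⟩
    · rw [mem_WW2]
      refine ⟨?_, ?_, ?_, ?_⟩
      · rw [polar_sub_right, polar_sub_right, polar_smul_right', polar_smul_right', h.cc, h.hp, polar_symm c y]
        ring
      · rw [polar_sub_right, polar_sub_right, polar_smul_right', polar_smul_right', h.cc', h.hp', polar_symm c' y]
        ring
      · rw [polar_sub_right, polar_sub_right, polar_smul_right', polar_smul_right', WW_left' hd, WW_right' hd, WW_left hyW]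
        ring
      · rw [polar_sub_right, polar_sub_right, polar_smul_right', polar_smul_right', WW_left' hd', WW_right' hd', WW_right hyW]
        ring
    · rw [polar_sub_right, polar_sub_right, polar_smul_right', polar_smul_right', hy1, polar_symm b c, hb1,
        polar_symm b c', hb2]
      ring
  obtain ⟨hρ1, hρ2, hρ3, hρ4⟩ := mem_WW2.1 hρW
  -- the element has order two
  have hrc : act (E h'.hc hb3).1 c = c := act_E_of_perp _ _ (WW_left' hd) (by rw [polar_symm]; exact hb1)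
  have hact : act (E h'.hc hb3).1 τ = τ := by
    have ha : act (E h'.hc hb3).1 τ + τ ∈ WW Q c c' := Submodule.add_mem _ ((nrm_E h'.hc hb3 hd hbW).act_mem hτW) hτW
    have e1 := tau_mul h.hc hrc (WW_left hτW) (WW_left hτW) hτ hτ (WW_left ha)
    have e2 : E h'.hc hb3 * E h'.hc hb3 = 1 := by
      rw [E_mul]
      exact E_zero _ _ (hvv b)
    rw [e2, one_smul] at e1
    have h3 := hF h.hc _ ha ω₀ e1.symm
    have h4 : act (E h'.hc hb3).1 τ = act (E h'.hc hb3).1 τ + (τ + τ) := by rw [hvv, add_zero]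
    rw [h4, ← add_assoc, h3, zero_add]
  rw [act_E] at hact
  have hact2 : (𝔣 d τ) • b - (𝔣 b τ) • d - (Q b * 𝔣 d τ) • d = 0 := by
    linear_combination (norm := module) hact
  have h1 : 𝔣 d τ = 0 := by
    have e := congrArg (𝔣 ρ) hact2
    simp only [polar_sub_right, polar_smul_right'] at e
    have e1 : 𝔣 ρ b = 1 := by rw [polar_symm]; exact hρ
    have e2 : 𝔣 ρ d = 0 := by rw [polar_symm]; exact hρ3
    rw [e1, e2] at e
    simpa [polar] using e
  have h3 : 𝔣 b τ = 0 := by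
    rw [h1] at hact2
    simp only [zero_smul, mul_zero, zero_sub, sub_zero, neg_eq_zero] at hact2
    exact (smul_eq_zero.1 hact2).resolve_right h'.ne_zero
  have hperp : ∀ y ∈ WW2 Q c c' d d', 𝔣 b y = 0 → 𝔣 y τ = 0 := by
    intro y hy hby
    set s := y + Q y • b with hs
    have hsW : s ∈ WW2 Q c c' d d' := Submodule.add_mem _ hy (Submodule.smul_mem _ _ hb)
    obtain ⟨hs1, hs2, hs3, hs4⟩ := mem_WW2.1 hsW
    have hyb : 𝔣 y b = 0 := by rw [polar_symm]; exact hby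
    have hQs : Q s = 0 := by
      rw [hs, Q_add, Q_smul, hQb, polar_smul_right', hyb]
      rcases hel (Q y) with e | e <;> rw [e]
      · ring
      · linear_combination h11
    have hbs : 𝔣 b s = 0 := by
      rw [hs, polar_add_right, polar_smul_right', hby, hbb]
      ring
    have hsτ : 𝔣 s τ = 0 := by
      by_cases hsb : ∃ t : F, s = t • b
      · obtain ⟨t, ht⟩ := hsb
        have e1 : t = 0 := by
          have e2 := hQs
          rw [ht, Q_smul, hQb, mul_one] at e2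
          exact mul_self_eq_zero.1 e2
        rw [ht, e1, zero_smul]
        simp [polar]
      · push Not at hsb
        obtain ⟨ρ', hρ'W, hρ'1, hρ'2⟩ := exists_sep2 h h' hd hd' hsW hb hsb
        have hsW' : s ∈ WW Q c c' := mem_WW.2 ⟨hs1, hs2⟩
        have hsb' : 𝔣 s b = 0 := by rw [polar_symm]; exact hbs
        obtain ⟨τ', hτ'W, hτ'⟩ := horb ω₀ (E hQs hsb' • ω₀)
        obtain ⟨hρ'3, hρ'4, hρ'5, hρ'6⟩ := mem_WW2.1 hρ'W
        have e := rel_pair h hF h'.hc hb3 hQs hsb' hd hbW hsW' hbW hs3 hb3 hbs hbb hτW hτ'W hτ hτ' ρ'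
        have e1 : 𝔣 ρ' b = 0 := by rw [polar_symm]; exact hρ'2
        have e2 : 𝔣 ρ' d = 0 := by rw [polar_symm]; exact hρ'5
        have e3 : 𝔣 ρ' s = 1 := by rw [polar_symm]; exact hρ'1
        rw [e1, e2, e3, h3, hQb] at e
        simp only [mul_zero, sub_zero, zero_sub, one_mul, mul_one, neg_eq_zero, zero_mul] at e
        exact neg_eq_zero.1 e.symm
    have e : y = s - Q y • b := by
      rw [hs]
      abel
    rw [e, polar_sub_left, polar_smul_left', hsτ, h3]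
    ring
  exact coc_end h h' hd hd' hF hb hb0 hτW hτ h1 hperp

end Free

section Reg

variable {Ω : Type*} [MulAction (GG Q) Ω] [Fintype Ω] (h : HP Q c c') (ψ : AddChar F ℂ) (hψ : ψ ≠ 1)

/-- Regular points everywhere: freeness. -/
theorem free_of_reg (hall : ∀ ω : Ω, AN h ψ hψ ω = ⊤) : FreeAt Q Ω c c' := by
  intro hc r hr ω hfix
  exact reg_stab h ψ hψ (hall ω) hr hfix

/-- The size of a regular orbit. -/
theorem card_orb_reg {ω : Ω} (hR : AN h ψ hψ ω = ⊤) : ((wS h Ω).orb ω).card = Fintype.card (WW Q c c') := by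
  have e : ((wS h Ω).orb ω).card = Nat.card (AN h ψ hψ ω) := card_orb_eq (Q := pW h ψ hψ) ω
  rw [e, hR, AddSubgroup.card_top, Nat.card_eq_fintype_card]

/-- Distinct orbits are disjoint. -/
theorem orb_disjoint {ω ω' : Ω} (hne : ω' ∉ (wS h Ω).orb ω) : Disjoint ((wS h Ω).orb ω) ((wS h Ω).orb ω') := by
  rw [Finset.disjoint_left]
  intro z hz hz'
  apply hne
  have h1 := (wS h Ω).orb_eq_of_mem hz
  have h2 := (wS h Ω).orb_eq_of_mem hz'
  rw [← h1, h2]
  exact (wS h Ω).self_mem_orb ω'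

/-- Two points in distinct orbits, the numbers. -/
theorem card_two_orbs {ω ω' : Ω} (hne : ω' ∉ (wS h Ω).orb ω) :
    ((wS h Ω).orb ω).card + ((wS h Ω).orb ω').card ≤ Fintype.card Ω := by
  classical
  rw [← Finset.card_union_of_disjoint (orb_disjoint h hne)]
  exact Finset.card_le_univ _

/-- Regular orbits are unique. -/
theorem reg_unique (hd : Fintype.card Ω < 2 * Fintype.card (WW Q c c')) {ω ω' : Ω} (hR : AN h ψ hψ ω = ⊤)
    (hR' : AN h ψ hψ ω' = ⊤) : ω' ∈ (wS h Ω).orb ω := by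
  by_contra hne
  have h1 := card_two_orbs h hne
  rw [card_orb_reg h ψ hψ hR, card_orb_reg h ψ hψ hR'] at h1
  omega

/-- Not all points are regular, in odd characteristic and large dimension. -/
theorem not_all_reg_odd (h2 : (2 : F) ≠ 0) (hn : 8 ≤ Fintype.card ι)
    (hd : Fintype.card Ω < 2 * Fintype.card (WW Q c c')) (hall : ∀ ω : Ω, AN h ψ hψ ω = ⊤) (ω₀ : Ω) : False := by
  refine no_free_odd h h2 hn (free_of_reg h ψ hψ hall) (fun ω ω' => ?_) ω₀
  obtain ⟨w, hw⟩ := (wS h Ω).mem_orb.1 (reg_unique h ψ hψ hd (hall ω) (hall ω'))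
  exact ⟨w.1, w.2, hw⟩

/-- Not all points are regular, over the field with two elements. -/
theorem not_all_reg_two (h2 : (2 : F) = 0) (hel : ∀ x : F, x = 0 ∨ x = 1)
    (hd : Fintype.card Ω < 2 * Fintype.card (WW Q c c')) (hall : ∀ ω : Ω, AN h ψ hψ ω = ⊤) (ω₀ : Ω) : False := by
  refine no_free_two h h2 hel (free_of_reg h ψ hψ hall) (fun ω ω' => ?_) ω₀
  obtain ⟨w, hw⟩ := (wS h Ω).mem_orb.1 (reg_unique h ψ hψ hd (hall ω) (hall ω'))
  exact ⟨w.1, w.2, hw⟩

/-! ### Images of a totally singular annihilator -/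

/-- The data for two-parameter images. -/
structure ImgA (h : HP Q c c') (u x y v₀ v₁ : ι → F) : Prop where
  D : ImgD h u x y v₀
  hv₁ : v₁ ∈ WW Q c c'
  uv₁ : 𝔣 u v₁ = 0
  xv₁ : 𝔣 x v₁ = 0
  yv₁ : 𝔣 y v₁ = 0
  an : ∀ s t : F, Q (s • v₀ + t • v₁) = 0 → s = 0 ∧ t = 0

variable {h}

variable {u x y v₀ v₁ : ι → F} (D : ImgA h u x y v₀ v₁)

include D

theorem ImgA.comb (s t : F) : 𝔣 y (s • v₀ + t • v₁) = 0 := by
  rw [polar_add_right, polar_smul_right', polar_smul_right', D.D.yv, D.yv₁]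
  ring

/-- The elements. -/
noncomputable def ImgA.gg (s t : F) : GG Q := E D.D.Qy (D.comb s t)

theorem ImgA.mem_comb (s t : F) : s • v₀ + t • v₁ ∈ WW Q c c' :=
  Submodule.add_mem _ (Submodule.smul_mem _ _ D.D.hv) (Submodule.smul_mem _ _ D.hv₁)

theorem ImgA.gg_nrm (s t : F) : Nrm (D.gg s t) 1 c c' := nrm_E _ _ D.D.hy (D.mem_comb s t)

theorem ImgA.gg_u (s t : F) : act (D.gg s t).1 u = u := by
  apply act_E_of_perp
  · rw [polar_symm]
    exact D.D.uy
  · rw [polar_symm, polar_add_right, polar_smul_right', polar_smul_right', D.D.uv, D.uv₁]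
    ring

theorem ImgA.gg_x (s t : F) : act (D.gg s t).1 x = x + (s • v₀ + t • v₁) - (Q (s • v₀ + t • v₁)) • y := by
  rw [ImgA.gg, act_E]
  have e1 : 𝔣 y x = 1 := by rw [polar_symm]; exact D.D.xy
  have e2 : 𝔣 (s • v₀ + t • v₁) x = 0 := by
    rw [polar_symm, polar_add_right, polar_smul_right', polar_smul_right', D.D.xv, D.xv₁]
    ring
  rw [e1, e2]
  simp only [one_smul, zero_smul, sub_zero, mul_one]

theorem ImgA.gg_y (s t : F) : act (D.gg s t).1 y = y :=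
  act_E_of_perp _ _ (polar_zero_self D.D.Qy) (by
    rw [polar_symm]
    exact D.comb s t)

/-- Images through differences. -/
theorem ImgA.inv_mul (s t s' t' : F) : (D.gg s' t')⁻¹ * D.gg s t = D.gg (s - s') (t - t') := by
  rw [inv_mul_eq_iff_eq_mul, ImgA.gg, ImgA.gg, ImgA.gg, E_mul]
  exact E_congr rfl (by module) _ _ _ _

/-- **Two-parameter images**. -/
theorem ImgA.images {ω : Ω} (hT : ∀ a ∈ ANv h ψ hψ ω, Q a = 0) (hxA : x ∈ ANv h ψ hψ ω) :
    (∀ s t s' t' : F, (s, t) ≠ (s', t') → AN h ψ hψ (D.gg s t • ω) ≠ AN h ψ hψ (D.gg s' t' • ω)) ∧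
    (∀ s t : F, AN h ψ hψ (gs h D.D • ω) ≠ AN h ψ hψ (D.gg s t • ω)) := by
  have hperp : ∀ a ∈ ANv h ψ hψ ω, 𝔣 x a = 0 := by
    intro a ha
    have h1 := hT _ (AddSubgroup.add_mem _ hxA ha)
    rw [Q_add, hT _ hxA, hT _ ha] at h1
    simpa using h1
  constructor
  · intro s t s' t' hne he
    have h1 : act (D.gg s t).1 x ∈ ANv h ψ hψ (D.gg s t • ω) := mem_AN_image h ψ hψ (D.gg_nrm s t) hxA
    have h2 : act (D.gg s t).1 x ∈ ANv h ψ hψ (D.gg s' t' • ω) := by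
      unfold ANv at h1 ⊢
      rw [he] at h1
      exact h1
    have e : act (D.gg s t).1 x = act (D.gg s' t').1 (act ((D.gg s' t')⁻¹ * D.gg s t).1 x) := by
      rw [act_GG_mul, act_GG_act_inv]
    rw [e] at h2
    have h3 := mem_AN_preimage h ψ hψ (D.gg_nrm s' t') h2
    rw [D.inv_mul, D.gg_x] at h3
    have h4 := hperp _ h3
    rw [polar_sub_right, polar_add_right, polar_smul_right', polar_add_right, polar_smul_right', polar_smul_right',
      polar_zero_self D.D.Qx, D.D.xv, D.xv₁, D.D.xy] at h4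
    simp only [mul_zero, add_zero, zero_add, mul_one, zero_sub, neg_eq_zero] at h4
    obtain ⟨h5, h6⟩ := D.an _ _ h4
    exact hne (by rw [sub_eq_zero.1 h5, sub_eq_zero.1 h6])
  · intro s t he
    have h1 : act (gs h D.D).1 x ∈ ANv h ψ hψ (gs h D.D • ω) := mem_AN_image h ψ hψ (gs_nrm h D.D) hxA
    have h2 : act (gs h D.D).1 x ∈ ANv h ψ hψ (D.gg s t • ω) := by
      unfold ANv at h1 ⊢
      rw [he] at h1
      exact h1
    rw [gs_x] at h2
    have e : -(Q v₀)⁻¹ • y = act (D.gg s t).1 (-(Q v₀)⁻¹ • y) := by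
      rw [act_smul, D.gg_y]
    rw [e] at h2
    have h3 := mem_AN_preimage h ψ hψ (D.gg_nrm s t) h2
    exact gs_y_not h D.D trivial (hperp _ h3)

/-- The count of images. -/
theorem ImgA.img_mu {ω : Ω} (hT : TS h ψ hψ ω) (hu : u ∈ ANv h ψ hψ ω) (hx : x ∈ ANv h ψ hψ ω) (huW : u ∈ WW Q c c') :
    Fintype.card F * Fintype.card F + 1 ≤ mu h ψ hψ (Yp (TS h ψ hψ : Ω → Prop)) ⟨u, huW⟩ := by
  classical
  let f : Option (F × F) → Ω := fun i => match i with
    | none => gs h D.D • ω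
    | some l => D.gg l.1 l.2 • ω
  have hAN := D.images ψ hψ hT hx
  have := card_le_mu h ψ hψ (Y1 := Yp (TS h ψ hψ : Ω → Prop)) f (by
    rintro (_ | l)
    · exact mem_Yp.2 (TS_nrm h ψ hψ (gs_nrm h D.D) hT)
    · exact mem_Yp.2 (TS_nrm h ψ hψ (D.gg_nrm l.1 l.2) hT)) (u := ⟨u, huW⟩) (by
    rintro (_ | l)
    · exact ((mem_ANv h ψ hψ).1 (mem_image_u h ψ hψ (gs_nrm h D.D) (gs_u h D.D) hu)).2
    · exact ((mem_ANv h ψ hψ).1 (mem_image_u h ψ hψ (D.gg_nrm l.1 l.2) (D.gg_u l.1 l.2) hu)).2) (by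
    rintro (_ | l) (_ | l') hij
    · exact absurd rfl hij
    · exact orb_ne_of_AN_ne h ψ hψ (hAN.2 _ _)
    · exact orb_ne_of_AN_ne h ψ hψ (Ne.symm (hAN.2 _ _))
    · exact orb_ne_of_AN_ne h ψ hψ (hAN.1 _ _ _ _ (fun e => hij (by
        rw [show l = l' from e]))))
  simpa [Fintype.card_option, Fintype.card_prod] using this

end Reg

end Cfsg.Agent.Lib.MinIndex.OS1
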