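import Mathlib
import Cfsg.Agent.Lib.MinIndex.OS1

/-!
# Minimal degree of the orthogonal groups over small fields: counting through images
-/

set_option autoImplicit false
set_option linter.unusedSectionVars false
set_option linter.unusedSimpArgs false
set_option linter.unusedVariables false

namespace Cfsg.Agent.Lib.MinIndex.OS1b

open Matrix QuadraticMap Module
open Cfsg.Agent.Lib.Classical.Orth.Basic
open Cfsg.Agent.Lib.Classical.Witt.Hyp
open Cfsg.Agent.Lib.MinIndex.SpCount Cfsg.Agent.Lib.MinIndex.UCount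
open Cfsg.Agent.Lib.MinIndex.OBase Cfsg.Agent.Lib.MinIndex.OVec Cfsg.Agent.Lib.MinIndex.OGood
open Cfsg.Agent.Lib.MinIndex.OTypes Cfsg.Agent.Lib.MinIndex.OLine Cfsg.Agent.Lib.MinIndex.OStep
open Cfsg.Agent.Lib.MinIndex.OStep2 Cfsg.Agent.Lib.MinIndex.OStep3 Cfsg.Agent.Lib.MinIndex.OFix
open Cfsg.Agent.Lib.MinIndex.OCount Cfsg.Agent.Lib.MinIndex.OS1

variable {ι : Type} [Fintype ι] [DecidableEq ι] {F : Type*} [Field F] [Fintype F]
variable {Q : QuadraticForm F (ι → F)} [OC Q]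

set_option quotPrecheck false in
local notation "𝔣" => polar (⇑Q)

variable {c c' : ι → F}

variable {Ω : Type*} [MulAction (GG Q) Ω] [Fintype Ω] (h : HP Q c c') (ψ : AddChar F ℂ) (hψ : ψ ≠ 1)

/-- The automorphism of the complement by an element fixing the pair. -/
noncomputable abbrev gW {g : GG Q} (hN : Nrm g 1 c c') : WW Q c c' ≃+ WW Q c c' := lvE hN 1⁻¹ (by simp)

@[simp] theorem coe_gW {g : GG Q} (hN : Nrm g 1 c c') (x : WW Q c c') : ((gW hN x : WW Q c c') : ι → F) = act g.1 x.1 := by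
  rw [coe_lvE, inv_one, one_smul]

/-- The annihilator at an image. -/
theorem AN_img {g : GG Q} (hN : Nrm g 1 c c') (ω : Ω) : AN h ψ hψ (g • ω) = (AN h ψ hψ ω).map (gW hN).toAddMonoidHom :=
  AN_nrm h ψ hψ hN ω

/-- Elements of an annihilator move to the image. -/
theorem gW_mem {g : GG Q} (hN : Nrm g 1 c c') {ω : Ω} {x : WW Q c c'} (hx : x ∈ AN h ψ hψ ω) : gW hN x ∈ AN h ψ hψ (g • ω) := by
  rw [AN_img h ψ hψ hN]
  exact ⟨x, hx, rfl⟩

theorem gW_symm_mem {g : GG Q} (hN : Nrm g 1 c c') {ω : Ω} {x : WW Q c c'} (hx : x ∈ AN h ψ hψ (g • ω)) :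
    (gW hN).symm x ∈ AN h ψ hψ ω := by
  rw [AN_img h ψ hψ hN] at hx
  obtain ⟨y, hy, rfl⟩ := hx
  have e : (gW hN).symm ((gW hN).toAddMonoidHom y) = y := (gW hN).symm_apply_apply y
  rw [e]
  exact hy

/-- The vector fixed stays in the annihilator. -/
theorem fix_mem {g : GG Q} (hN : Nrm g 1 c c') {ω : Ω} {u : WW Q c c'} (hg : act g.1 u.1 = u.1) (hu : u ∈ AN h ψ hψ ω) :
    u ∈ AN h ψ hψ (g • ω) := by
  have h1 := gW_mem h ψ hψ hN hu
  have e : gW hN u = u := Subtype.ext (by rw [coe_gW, hg])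
  rwa [e] at h1

open _root_.Classical in
/-- **Covering**: a set of vectors, each in the annihilator at an image of a point, with small intersections. -/
theorem cover_count {ω : Ω} {u : WW Q c c'} (hu : u ∈ AN h ψ hψ ω) (P : Finset (WW Q c c')) {κ₀ : ℕ}
    (hP : ∀ x ∈ P, ∃ g : GG Q, Nrm g 1 c c' ∧ act g.1 u.1 = u.1 ∧ x ∈ AN h ψ hψ (g • ω))
    (hκ : ∀ g : GG Q, Nrm g 1 c c' → act g.1 u.1 = u.1 →
      (Finset.univ.filter fun x : WW Q c c' => x ∈ P ∧ x ∈ AN h ψ hψ (g • ω)).card ≤ κ₀) :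
    P.card ≤ κ₀ * mu h ψ hψ (Finset.univ : Finset Ω) u := by
  classical
  choose! G hG1 hG2 hG3 using hP
  set f : WW Q c c' → Finset Ω := fun x => (wS h Ω).orb (G x • ω) with hf
  have h1 := Finset.card_le_mul_card_image (f := f) P κ₀ (by
    intro a ha
    obtain ⟨x₀, hx₀, rfl⟩ := Finset.mem_image.1 ha
    refine le_trans (Finset.card_le_card ?_) (hκ (G x₀) (hG1 x₀ hx₀) (hG2 x₀ hx₀))
    intro x hx
    obtain ⟨hxP, hxf⟩ := Finset.mem_filter.1 hx
    refine Finset.mem_filter.2 ⟨Finset.mem_univ _, hxP, ?_⟩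
    have hm : G x • ω ∈ (wS h Ω).orb (G x₀ • ω) := by
      have hxf' : (wS h Ω).orb (G x • ω) = (wS h Ω).orb (G x₀ • ω) := hxf
      rw [← hxf']
      exact (wS h Ω).self_mem_orb _
    have e : AN h ψ hψ (G x • ω) = AN h ψ hψ (G x₀ • ω) := SS_of_mem_orb hm
    rw [← e]
    exact hG3 x hxP)
  refine h1.trans (Nat.mul_le_mul_left _ ?_)
  apply Finset.card_le_card
  intro a ha
  obtain ⟨x, hx, rfl⟩ := Finset.mem_image.1 ha
  refine Finset.mem_filter.2 ⟨mem_Orbs.2 ⟨_, Finset.mem_univ _, rfl⟩, _, (wS h Ω).self_mem_orb _, ?_⟩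
  exact fix_mem h ψ hψ (hG1 x hx) (hG2 x hx) hu

include ψ hψ in
/-- The stabilizers at images have the same size. -/
theorem card_stab_img {g : GG Q} (hN : Nrm g 1 c c') (ω : Ω) :
    Nat.card ((wS h Ω).stab (g • ω)) = Nat.card ((wS h Ω).stab ω) := by
  have h1 := (wS h Ω).card_orb_mul (g • ω)
  have h2 := (wS h Ω).card_orb_mul ω
  have e1 : ((wS h Ω).orb (g • ω)).card = Nat.card (AN h ψ hψ (g • ω)) := card_orb_eq (Q := pW h ψ hψ) _
  have e2 : ((wS h Ω).orb ω).card = Nat.card (AN h ψ hψ ω) := card_orb_eq (Q := pW h ψ hψ) _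
  have e3 : Nat.card (AN h ψ hψ (g • ω)) = Nat.card (AN h ψ hψ ω) := by
    rw [AN_img h ψ hψ hN]
    exact Nat.card_congr ((AddSubgroup.equivMapOfInjective _ _ (gW hN).injective).symm.toEquiv)
  rw [e1, e3] at h1
  rw [e2] at h2
  have hpos : 0 < Nat.card (AN h ψ hψ ω) := Nat.card_pos
  exact Nat.eq_of_mul_eq_mul_left hpos (h1.trans h2.symm)

include ψ hψ in
/-- The orbits at images have the same size. -/
theorem card_orb_img {g : GG Q} (hN : Nrm g 1 c c') (ω : Ω) :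
    ((wS h Ω).orb (g • ω)).card = ((wS h Ω).orb ω).card := by
  have e1 : ((wS h Ω).orb (g • ω)).card = Nat.card (AN h ψ hψ (g • ω)) := card_orb_eq (Q := pW h ψ hψ) _
  have e2 : ((wS h Ω).orb ω).card = Nat.card (AN h ψ hψ ω) := card_orb_eq (Q := pW h ψ hψ) _
  rw [e1, e2, AN_img h ψ hψ hN]
  exact Nat.card_congr ((AddSubgroup.equivMapOfInjective _ _ (gW hN).injective).symm.toEquiv)

/-- Vectors of a stabilizer move to the image. -/
theorem stab_img {g : GG Q} (hN : Nrm g 1 c c') {ω : Ω} {s : WW Q c c'} (hs : s ∈ (wS h Ω).stab ω) :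
    gW hN s ∈ (wS h Ω).stab (g • ω) := by
  have hg : act g.1 c = c := by rw [hN.left, one_smul]
  have e : (gW hN s).1 = act g.1 s.1 := coe_gW hN s
  rw [mem_stab]
  have h1 : 𝔣 c (gW hN s).1 = 0 := WW_left (gW hN s).2
  have h2 : 𝔣 c (act g.1 s.1) = 0 := by rw [← e]; exact h1
  have h3 := smul_E_of_fix hg h.hc (WW_left s.2) h2 ω
  rw [(mem_stab h).1 hs] at h3
  have h4 : E h.hc h1 = E h.hc h2 := E_congr rfl e _ _ _ _
  rw [h4]
  exact h3.symm

include ψ hψ in
/-- **Counting with the stabilizers**: a class of vectors in stabilizers at images of a point with a small stabilizer. -/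
theorem stab_count {ω : Ω} (C : Finset (WW Q c c')) (h0 : (0 : WW Q c c') ∉ C) {K : ℕ}
    (hK : Nat.card ((wS h Ω).stab ω) ≤ K) (hC : ∀ x ∈ C, ∃ g : GG Q, Nrm g 1 c c' ∧ x ∈ (wS h Ω).stab (g • ω)) :
    C.card * ((wS h Ω).orb ω).card ≤ (K - 1) * Fintype.card Ω := by
  classical
  choose! G hG1 hG2 using hC
  set f : WW Q c c' → Finset Ω := fun x => (wS h Ω).orb (G x • ω) with hf
  have h1 := Finset.card_le_mul_card_image (f := f) C (K - 1) (by
    intro a ha
    obtain ⟨x₀, hx₀, rfl⟩ := Finset.mem_image.1 ha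
    have hcard : ((Finset.univ.filter fun x : WW Q c c' => x ∈ (wS h Ω).stab (G x₀ • ω)).erase 0).card ≤ K - 1 := by
      rw [Finset.card_erase_of_mem (Finset.mem_filter.2 ⟨Finset.mem_univ _, AddSubgroup.zero_mem _⟩)]
      have e : (Finset.univ.filter fun x : WW Q c c' => x ∈ (wS h Ω).stab (G x₀ • ω)).card =
          Nat.card ((wS h Ω).stab (G x₀ • ω)) := by
        rw [Nat.card_eq_fintype_card, Fintype.card_subtype]
      rw [e, card_stab_img h ψ hψ (hG1 x₀ hx₀)]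
      omega
    refine le_trans (Finset.card_le_card ?_) hcard
    intro x hx
    obtain ⟨hxC, hxf⟩ := Finset.mem_filter.1 hx
    refine Finset.mem_erase.2 ⟨fun e => h0 (e ▸ hxC), Finset.mem_filter.2 ⟨Finset.mem_univ _, ?_⟩⟩
    have hm : G x • ω ∈ (wS h Ω).orb (G x₀ • ω) := by
      have hxf' : (wS h Ω).orb (G x • ω) = (wS h Ω).orb (G x₀ • ω) := hxf
      rw [← hxf']
      exact (wS h Ω).self_mem_orb _
    rw [← (wS h Ω).stab_of_mem_orb hm]
    exact hG2 x hxC)
  set I := C.image f with hI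
  have h2 : I.card * ((wS h Ω).orb ω).card ≤ Fintype.card Ω := by
    have e1 : Fintype.card Ω = (Finset.univ : Finset Ω).card := rfl
    rw [e1, card_eq_sum_orbs (A := wS h Ω) (fun _ _ _ => Finset.mem_univ _)]
    have hsub : I ⊆ Orbs (wS h Ω) (Finset.univ : Finset Ω) := by
      intro a ha
      obtain ⟨x, hx, rfl⟩ := Finset.mem_image.1 ha
      exact mem_Orbs.2 ⟨_, Finset.mem_univ _, rfl⟩
    refine le_trans ?_ (Finset.sum_le_sum_of_subset hsub)
    have : ∑ O ∈ I, O.card = ∑ O ∈ I, ((wS h Ω).orb ω).card := by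
      apply Finset.sum_congr rfl
      intro a ha
      obtain ⟨x, hx, rfl⟩ := Finset.mem_image.1 ha
      exact card_orb_img h ψ hψ (hG1 x hx) ω
    rw [this, Finset.sum_const, smul_eq_mul]
  calc C.card * ((wS h Ω).orb ω).card ≤ ((K - 1) * I.card) * ((wS h Ω).orb ω).card := Nat.mul_le_mul_right _ h1
    _ = (K - 1) * (I.card * ((wS h Ω).orb ω).card) := by ring
    _ ≤ (K - 1) * Fintype.card Ω := Nat.mul_le_mul_left _ h2

end Cfsg.Agent.Lib.MinIndex.OS1b
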