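import Mathlib
import Cfsg.Agent.Lib.MinIndex.OS1b

/-!
# Minimal degree of the orthogonal groups over the field with two elements: the types of annihilators
-/

set_option autoImplicit false
set_option linter.unusedSectionVars false
set_option linter.unusedSimpArgs false
set_option linter.unusedVariables false

namespace Cfsg.Agent.Lib.MinIndex.OS2

open Matrix QuadraticMap Module
open Cfsg.Agent.Lib.Classical.Orth.Basic
open Cfsg.Agent.Lib.Classical.Orth.Siegel
open Cfsg.Agent.Lib.Classical.Orth.Generation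
open Cfsg.Agent.Lib.Classical.Orth.Simple
open Cfsg.Agent.Lib.Classical.Orth.Spinor
open Cfsg.Agent.Lib.Classical.Orth.Dickson
open Cfsg.Agent.Lib.Classical.Orth.Adjust
open Cfsg.Agent.Lib.Classical.Witt.Hyp
open Cfsg.Agent.Lib.MinIndex.SpCount Cfsg.Agent.Lib.MinIndex.UCount
open Cfsg.Agent.Lib.MinIndex.OBase Cfsg.Agent.Lib.MinIndex.OVec Cfsg.Agent.Lib.MinIndex.OGood
open Cfsg.Agent.Lib.MinIndex.OTypes Cfsg.Agent.Lib.MinIndex.OLine Cfsg.Agent.Lib.MinIndex.OStep
open Cfsg.Agent.Lib.MinIndex.OStep2 Cfsg.Agent.Lib.MinIndex.OStep3 Cfsg.Agent.Lib.MinIndex.OFix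
open Cfsg.Agent.Lib.MinIndex.OCount Cfsg.Agent.Lib.MinIndex.OS1 Cfsg.Agent.Lib.MinIndex.OS1b

variable {ι : Type} [Fintype ι] [DecidableEq ι] {F : Type*} [Field F] [Fintype F]
variable {Q : QuadraticForm F (ι → F)} [OC Q]

set_option quotPrecheck false in
local notation "𝔣" => polar (⇑Q)

variable {c c' : ι → F}

/-- Correction of an isometry into `Ω` by a reflection, in characteristic two. -/
theorem exists_adjust2 (h2 : (2 : F) = 0) {a : ι → F} (ha : Q a ≠ 0) (g₀ : ↥(Cfsg.isometryGroup F (⇑Q))) :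
    ∃ s : ↥(Cfsg.isometryGroup F (⇑Q)), (∀ x, 𝔣 a x = 0 → act s x = x) ∧ s * g₀ ∈ Cfsg.Omega F (⇑Q) := by
  classical
  haveI : CharP F 2 := CharTwo.of_one_ne_zero_of_two_eq_zero one_ne_zero h2
  have hdim := OC.dim (Q := Q)
  have hF : (∃ c : F, c ≠ 0 ∧ c ≠ 1) ∨ Fintype.card ι ≠ 4 := Or.inr (by omega)
  have hrefl : ∀ x, 𝔣 a x = 0 → act (reflectionIso Q a ha) x = x := by
    intro x h1
    rw [reflectionIso_act, h1]
    simp
  rcases Int.units_eq_one_or (dicksonHom OC.nd hF g₀) with h | h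
  · refine ⟨1, fun x _ => act_one x, ?_⟩
    rw [one_mul, mem_omega_iff_char_two OC.nd hF]
    exact h
  · refine ⟨_, hrefl, ?_⟩
    rw [mem_omega_iff_char_two OC.nd hF, map_mul, dicksonHom_reflection, h]
    rfl

/-- The value of the form on a combination. -/
theorem Q_quad {u x : ι → F} (h : HP Q c c') (hu : u ∈ WW Q c c') (hx : x ∈ WW Q c c') (a b s t : F) :
    Q (a • c + b • c' + s • u + t • x) = a * b + s * s * Q u + t * t * Q x + s * t * 𝔣 u x := by
  rw [Q_add, Q_triple h hu, Q_smul, polar_smul_right', polar_add_left, polar_add_left, polar_smul_left',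
    polar_smul_left', polar_smul_left', WW_left' hx |> fun _ => WW_left hx, WW_right hx]
  ring

/-- Independence of a hyperbolic pair with two vectors of its complement. -/
theorem li_quad {u x : ι → F} (h : HP Q c c') (hu : u ∈ WW Q c c') (hx : x ∈ WW Q c c')
    (hli : ∀ s t : F, s • u + t • x = 0 → s = 0 ∧ t = 0) : LinearIndependent F ![c, c', u, x] := by
  rw [Fintype.linearIndependent_iff]
  intro t ht i
  simp only [Fin.sum_univ_four, Matrix.cons_val_zero, Matrix.cons_val_one, Matrix.cons_val] at ht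
  have h1 := congrArg (𝔣 c') ht
  have h2 := congrArg (𝔣 c) ht
  simp only [polar_add_right, polar_smul_right', h.cc, h.cc', h.hp, h.hp', WW_left hu, WW_right hu, WW_left hx,
    WW_right hx] at h1 h2
  have h0 : 𝔣 c' 0 = 0 := by simp [polar]
  have h0' : 𝔣 c 0 = 0 := by simp [polar]
  rw [h0] at h1
  rw [h0'] at h2
  simp only [mul_zero, mul_one, add_zero, zero_add] at h1 h2
  rw [h1, h2] at ht
  simp only [zero_smul, zero_add] at ht
  obtain ⟨h3, h4⟩ := hli _ _ ht
  fin_cases i
  · exact h1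
  · exact h2
  · exact h3
  · exact h4

/-- A nonsingular vector perpendicular to a pair and two vectors of its complement. -/
theorem exists_nonsing_perp4 {u x : ι → F} (h : HP Q c c') (hu : u ∈ WW Q c c') (hx : x ∈ WW Q c c')
    (hn : 7 ≤ Fintype.card ι) : ∃ v, Q v ≠ 0 ∧ 𝔣 c v = 0 ∧ 𝔣 c' v = 0 ∧ 𝔣 u v = 0 ∧ 𝔣 x v = 0 := by
  obtain ⟨b, hb, hb'⟩ := exists_orth_vec (Q := Q) ![c, c', u, x] (Submodule.span F (Set.range ![u, x])) (by
    have h3 : Set.finrank F (Set.range ![u, x]) ≤ Fintype.card (Fin 2) := finrank_range_le_card _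
    have h4 : finrank F (Submodule.span F (Set.range ![u, x])) ≤ 2 := by simpa [Set.finrank] using h3
    omega)
  have hnot : b ∉ Submodule.span F (Set.range ![c, c', u, x]) := by
    intro hm
    obtain ⟨t, ht⟩ := (Submodule.mem_span_range_iff_exists_fun F).1 hm
    simp only [Fin.sum_univ_four, Matrix.cons_val_zero, Matrix.cons_val_one, Matrix.cons_val] at ht
    have h1 := congrArg (𝔣 c') ht
    have h2 := congrArg (𝔣 c) ht
    have hb1 : 𝔣 c b = 0 := hb 0
    have hb2 : 𝔣 c' b = 0 := hb 1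
    simp only [polar_add_right, polar_smul_right', h.cc, h.cc', h.hp, h.hp', WW_left hu, WW_right hu, WW_left hx,
      WW_right hx, hb1, hb2] at h1 h2
    simp only [mul_zero, mul_one, add_zero, zero_add] at h1 h2
    rw [h1, h2] at ht
    simp only [zero_smul, zero_add] at ht
    apply hb'
    rw [← ht]
    exact Submodule.add_mem _ (Submodule.smul_mem _ _ (Submodule.subset_span ⟨0, rfl⟩))
      (Submodule.smul_mem _ _ (Submodule.subset_span ⟨1, rfl⟩))
  obtain ⟨v, hv1, hv2⟩ := exists_nonsing_of_perp (Q := Q) (U := Submodule.span F (Set.range ![c, c', u, x])) (by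
    intro z hz
    have h1 : Submodule.span F (Set.range ![c, c', u, x]) ≤ LinearMap.ker (polarBilin Q b) := by
      rw [Submodule.span_le]
      rintro _ ⟨i, rfl⟩
      show polar (⇑Q) b _ = 0
      rw [polar_symm]
      exact hb i
    have h2 : polar (⇑Q) b z = 0 := h1 hz
    rw [polar_symm]
    exact h2) hnot
  exact ⟨v, hv1, hv2 _ (Submodule.subset_span ⟨0, rfl⟩), hv2 _ (Submodule.subset_span ⟨1, rfl⟩),
    hv2 _ (Submodule.subset_span ⟨2, rfl⟩), hv2 _ (Submodule.subset_span ⟨3, rfl⟩)⟩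

/-- **Witt's theorem in `Ω`**, for two vectors of the complement of a hyperbolic pair, in characteristic two. -/
theorem exists_omega_quad2 (h : HP Q c c') (h2 : (2 : F) = 0) {u x x' : ι → F} (hu : u ∈ WW Q c c')
    (hx : x ∈ WW Q c c') (hx' : x' ∈ WW Q c c') (hli : ∀ s t : F, s • u + t • x = 0 → s = 0 ∧ t = 0)
    (hli' : ∀ s t : F, s • u + t • x' = 0 → s = 0 ∧ t = 0) (hQ : Q x = Q x') (hf : 𝔣 u x = 𝔣 u x') :
    ∃ g : GG Q, Nrm g 1 c c' ∧ act g.1 u = u ∧ act g.1 x = x' := by
  obtain ⟨g₀, hg₀⟩ := exists_iso_family (Q := Q) ![c, c', u, x] ![c, c', u, x'] (li_quad h hu hx hli)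
    (li_quad h hu hx' hli') (by
    intro t
    simp only [Fin.sum_univ_four, Matrix.cons_val_zero, Matrix.cons_val_one, Matrix.cons_val]
    rw [Q_quad h hu hx, Q_quad h hu hx', hQ, hf])
  have hc := hg₀ 0
  have hc' := hg₀ 1
  have hu' := hg₀ 2
  have hx'' := hg₀ 3
  simp only [Matrix.cons_val_zero, Matrix.cons_val_one, Matrix.cons_val] at hc hc' hu' hx''
  obtain ⟨v, hv, hv1, hv2, hv3, hv4⟩ := exists_nonsing_perp4 h hu hx' (OC.dim (Q := Q))
  obtain ⟨s, hs, hsg⟩ := exists_adjust2 h2 hv g₀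
  refine ⟨⟨s * g₀, hsg⟩, Nrm.one_of_fix ?_ ?_, ?_, ?_⟩
  · show act (s * g₀) c = c
    rw [act_mul, hc]
    exact hs c (by rw [polar_symm]; exact hv1)
  · show act (s * g₀) c' = c'
    rw [act_mul, hc']
    exact hs c' (by rw [polar_symm]; exact hv2)
  · show act (s * g₀) u = u
    rw [act_mul, hu']
    exact hs u (by rw [polar_symm]; exact hv3)
  · show act (s * g₀) x = x'
    rw [act_mul, hx'']
    exact hs x' (by rw [polar_symm]; exact hv4)

section Two

variable (h2 : (2 : F) = 0) (hel : ∀ x : F, x = 0 ∨ x = 1)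

include h2 in
theorem add_self_W (y : WW Q c c') : y + y = 0 := by
  apply Subtype.ext
  show y.1 + y.1 = 0
  rw [← two_smul F y.1, h2, zero_smul]

include h2 in
theorem polar_self_zero (y : ι → F) : 𝔣 y y = 0 := by
  rw [polar_self_eq, h2, zero_mul]

include hel in
theorem one_add_one : (1 : F) + 1 = 0 := by
  rcases hel (1 + 1) with e | e
  · exact e
  · exfalso
    have : (1 : F) = 0 := by linear_combination e
    exact one_ne_zero this

include hel in
/-- Nonzero means one. -/
theorem eq_one_of_ne {x : F} (hx : x ≠ 0) : x = 1 := (hel x).resolve_left hx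

variable (h : HP Q c c')

include h2 hel h in
open _root_.Classical in
/-- Half of the vectors are perpendicular to a nonzero vector. -/
theorem card_T {u : WW Q c c'} (hu0 : u ≠ 0) :
    2 * (Finset.univ.filter fun y : WW Q c c' => 𝔣 u.1 y.1 = 0).card = Fintype.card (WW Q c c') := by
  obtain ⟨y₀, hy₀, hy₁⟩ := exists_partner_W h u.2 (fun h0 => hu0 (Subtype.ext h0))
  set p : WW Q c c' → Prop := fun y => 𝔣 u.1 y.1 = 0 with hp
  have e := Finset.card_filter_add_card_filter_not (s := (Finset.univ : Finset (WW Q c c'))) p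
  have h11 := one_add_one hel
  have hbij : (Finset.univ.filter p).card = (Finset.univ.filter fun y => ¬ p y).card := by
    apply Finset.card_bij (fun y _ => y + ⟨y₀, hy₀⟩)
    · intro y hy
      have hy' : 𝔣 u.1 y.1 = 0 := (Finset.mem_filter.1 hy).2
      refine Finset.mem_filter.2 ⟨Finset.mem_univ _, ?_⟩
      show ¬ 𝔣 u.1 (y.1 + y₀) = 0
      rw [polar_add_right, hy', hy₁, zero_add]
      exact one_ne_zero
    · intro a _ b _ hab
      exact add_right_cancel hab
    · intro b hb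
      have hb' : ¬ 𝔣 u.1 b.1 = 0 := (Finset.mem_filter.1 hb).2
      refine ⟨b + ⟨y₀, hy₀⟩, Finset.mem_filter.2 ⟨Finset.mem_univ _, ?_⟩, ?_⟩
      · show 𝔣 u.1 (b.1 + y₀) = 0
        rw [polar_add_right, eq_one_of_ne hel hb', hy₁]
        exact h11
      · rw [add_assoc, add_self_W h2, add_zero]
  rw [Finset.card_univ] at e
  rw [← e, ← hbij]
  ring

include h2 hel h in
open _root_.Classical in
/-- On the perp of a nonsingular vector the form takes every value equally often. -/
theorem card_T_Q {u : WW Q c c'} (hQu : Q u.1 ≠ 0) (κ : F) :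
    2 * (Finset.univ.filter fun y : WW Q c c' => 𝔣 u.1 y.1 = 0 ∧ Q y.1 = κ).card =
      (Finset.univ.filter fun y : WW Q c c' => 𝔣 u.1 y.1 = 0).card := by
  have h11 := one_add_one hel
  have hQ1 : Q u.1 = 1 := eq_one_of_ne hel hQu
  have hQadd : ∀ y : WW Q c c', 𝔣 u.1 y.1 = 0 → Q (y.1 + u.1) = Q y.1 + 1 := by
    intro y hy
    rw [Q_add, hQ1, polar_symm, hy]
    ring
  have hne : ∀ a : F, a + 1 ≠ a := by
    intro a e
    have : (1 : F) = 0 := by linear_combination e
    exact one_ne_zero this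
  have hcases : ∀ a b : F, a ≠ b → a + 1 = b := by
    intro a b hab
    have h3 := eq_one_of_ne hel (sub_ne_zero.2 (Ne.symm hab))
    linear_combination -h3
  set T := Finset.univ.filter fun y : WW Q c c' => 𝔣 u.1 y.1 = 0 with hT
  have e := Finset.card_filter_add_card_filter_not (s := T) (fun y : WW Q c c' => Q y.1 = κ)
  have hbij : (T.filter fun y : WW Q c c' => Q y.1 = κ).card = (T.filter fun y : WW Q c c' => ¬ Q y.1 = κ).card := by
    apply Finset.card_bij (fun y _ => y + u)
    · intro y hy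
      obtain ⟨hy1, hy2⟩ := Finset.mem_filter.1 hy
      have hy3 : 𝔣 u.1 y.1 = 0 := (Finset.mem_filter.1 hy1).2
      refine Finset.mem_filter.2 ⟨Finset.mem_filter.2 ⟨Finset.mem_univ _, ?_⟩, ?_⟩
      · show 𝔣 u.1 (y.1 + u.1) = 0
        rw [polar_add_right, hy3, polar_self_zero h2, zero_add]
      · show ¬ Q (y.1 + u.1) = κ
        rw [hQadd y hy3, hy2]
        exact hne κ
    · intro a _ b _ hab
      exact add_right_cancel hab
    · intro b hb
      obtain ⟨hb1, hb2⟩ := Finset.mem_filter.1 hb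
      have hb3 : 𝔣 u.1 b.1 = 0 := (Finset.mem_filter.1 hb1).2
      refine ⟨b + u, Finset.mem_filter.2 ⟨Finset.mem_filter.2 ⟨Finset.mem_univ _, ?_⟩, ?_⟩, ?_⟩
      · show 𝔣 u.1 (b.1 + u.1) = 0
        rw [polar_add_right, hb3, polar_self_zero h2, zero_add]
      · show Q (b.1 + u.1) = κ
        rw [hQadd b hb3]
        exact hcases _ _ hb2
      · rw [add_assoc, add_self_W h2, add_zero]
  have e2 : (T.filter fun y : WW Q c c' => Q y.1 = κ) = Finset.univ.filter fun y : WW Q c c' => 𝔣 u.1 y.1 = 0 ∧ Q y.1 = κ := by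
    rw [hT, Finset.filter_filter]
  rw [← e2, ← e, ← hbij]
  ring

end Two

section Main

variable {Ω : Type*} [MulAction (GG Q) Ω] [Fintype Ω] (h : HP Q c c') (ψ : AddChar F ℂ) (hψ : ψ ≠ 1)

/-- The numerical facts for the types of annihilators over the field with two elements. -/
structure TNum2 (Q : QuadraticForm F (ι → F)) [OC Q] (c c' : ι → F) (N : ℕ) : Prop where
  hC : ∀ s : WW Q c c', s ≠ 0 → 24 ≤ (clsW s).card
  hW : ∃ k, Fintype.card (WW Q c c') = 2 ^ k
  hNW : N ≤ 2 * Fintype.card (WW Q c c')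
  h5 : ∀ u : WW Q c c', Q u.1 ≠ 0 → N ≤ 5 * (clsW u).card
  hX : ∀ κ : F, Fintype.card (WW Q c c') + 36 ≤ 4 * cntU Q (WW Q c c') κ

variable (h2 : (2 : F) = 0) (hel : ∀ x : F, x = 0 ∨ x = 1) {N : ℕ} (hnum : TNum2 Q c c' N) (hd : Fintype.card Ω < N)

include hnum hd

theorem mu_le_four {u : WW Q c c'} (hQu : Q u.1 ≠ 0) : mu h ψ hψ (Finset.univ : Finset Ω) u ≤ 4 := by
  have hu0 : u ≠ 0 := by
    rintro rfl
    simp at hQu
  have h1 := mu_class_bound h ψ hψ (good_univ h (Ω := Ω)) hu0
  rw [Finset.card_univ] at h1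
  have h3 := hnum.h5 u hQu
  by_contra hcon
  push Not at hcon
  have h4 : (clsW u).card * 5 ≤ (clsW u).card * mu h ψ hψ (Finset.univ : Finset Ω) u := Nat.mul_le_mul_left _ hcon
  omega

include h2 hel

/-- A large annihilator gives the whole complement. -/
theorem top_of_large {ω : Ω} (hA : Fintype.card (WW Q c c') < 8 * Nat.card (AN h ψ hψ ω)) : AN h ψ hψ ω = ⊤ := by
  classical
  have e1 : ((wS h Ω).orb ω).card = Nat.card (AN h ψ hψ ω) := card_orb_eq (Q := pW h ψ hψ) ω
  have e2 := (wS h Ω).card_orb_mul ω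
  rw [e1] at e2
  obtain ⟨k, hk⟩ := hnum.hW
  have hS4 : Nat.card ((wS h Ω).stab ω) ≤ 4 := by
    have hdvd : Nat.card ((wS h Ω).stab ω) ∣ 2 ^ k := by
      rw [← hk, ← e2]
      exact Dvd.intro_left _ rfl
    obtain ⟨j, -, hj⟩ := (Nat.dvd_prime_pow Nat.prime_two).1 hdvd
    rw [hj] at e2 ⊢
    have hpos : 0 < Nat.card (AN h ψ hψ ω) := Nat.card_pos
    have hlt : 2 ^ j < 8 := by
      by_contra hcon
      push Not at hcon
      have := Nat.mul_le_mul_left (Nat.card (AN h ψ hψ ω)) hcon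
      nlinarith
    by_contra hcon
    push Not at hcon
    have hj3 : 3 ≤ j := by
      by_contra hj3
      have : j ≤ 2 := by omega
      have := Nat.pow_le_pow_right (n := 2) (by norm_num) this
      omega
    have := Nat.pow_le_pow_right (n := 2) (by norm_num) hj3
    omega
  by_cases hS : ∃ s ∈ (wS h Ω).stab ω, s ≠ 0
  · exfalso
    obtain ⟨s, hs, hs0⟩ := hS
    have h1 := stab_count h ψ hψ (ω := ω) (clsW s) (fun h0 => (mem_clsW.1 h0).1 rfl) hS4 (by
      intro x hx
      obtain ⟨hx0, l, hl, e⟩ := mem_clsW.1 hx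
      have hl1 : l = 1 := (hel l).resolve_left hl
      rw [hl1, one_mul, one_mul] at e
      obtain ⟨g, hg1, hg2, hg3⟩ := exists_omega_triple h h s.2 x.2 (fun h0 => hs0 (Subtype.ext h0))
        (fun h0 => hx0 (Subtype.ext h0)) e
      have hN : Nrm g 1 c c' := Nrm.one_of_fix hg1 hg2
      refine ⟨g, hN, ?_⟩
      have h3 := stab_img h hN hs
      have e3 : gW hN s = x := Subtype.ext (by rw [coe_gW, hg3])
      rwa [e3] at h3)
    rw [e1] at h1
    have h3 := hnum.hC s hs0
    have h4 := hnum.hNW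
    have h5 := Nat.mul_le_mul_right (Nat.card (AN h ψ hψ ω)) h3
    have h6 := Nat.mul_le_mul_left (Nat.card (AN h ψ hψ ω)) hS4
    omega
  · push Not at hS
    rw [eq_top_iff]
    intro a _
    apply (mem_AN h ψ hψ).2
    intro r hr
    have hr0 : r = 0 := hS r hr
    rw [hr0]
    simp [polar]

/-- An annihilator with a nonsingular vector and another vector perpendicular to it is everything. -/
theorem type2_a {ω : Ω} {u x : WW Q c c'} (hu : u ∈ AN h ψ hψ ω) (hQu : Q u.1 ≠ 0) (hx : x ∈ AN h ψ hψ ω)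
    (hux : 𝔣 u.1 x.1 = 0) (hx0 : x ≠ 0) (hxu : x ≠ u) : AN h ψ hψ ω = ⊤ := by
  classical
  have hu0 : u ≠ 0 := by
    rintro rfl
    simp at hQu
  have hQ1 : Q u.1 = 1 := (hel _).resolve_left hQu
  have hvv : ∀ y : WW Q c c', y + y = 0 := add_self_W h2
  have huu : 𝔣 u.1 u.1 = 0 := polar_self_zero h2 _
  have h11 := one_add_one hel
  -- independence
  have hli : ∀ z : WW Q c c', z ≠ 0 → z ≠ u → ∀ s t : F, s • u.1 + t • z.1 = 0 → s = 0 ∧ t = 0 := by
    intro z hz0 hzu s t e
    have hu0' : u.1 ≠ 0 := fun h0 => hu0 (Subtype.ext h0)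
    have hz0' : z.1 ≠ 0 := fun h0 => hz0 (Subtype.ext h0)
    rcases hel s with rfl | rfl <;> rcases hel t with rfl | rfl
    · exact ⟨rfl, rfl⟩
    · exfalso
      simp only [zero_smul, one_smul, zero_add] at e
      exact hz0' e
    · exfalso
      simp only [zero_smul, one_smul, add_zero] at e
      exact hu0' e
    · exfalso
      simp only [one_smul] at e
      apply hzu
      have e1 : u + z = 0 := Subtype.ext e
      have e2 : z = (u + z) + u := by
        rw [add_comm u z, add_assoc, hvv, add_zero]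
      rw [e2, e1, zero_add]
  set T := Finset.univ.filter fun y : WW Q c c' => 𝔣 u.1 y.1 = 0 with hT
  set P := (T.erase 0).erase u with hP
  set D := Finset.univ.filter fun y : WW Q c c' => y ∈ AN h ψ hψ ω ∧ 𝔣 u.1 y.1 = 0 with hD
  have h0T : (0 : WW Q c c') ∈ T := Finset.mem_filter.2 ⟨Finset.mem_univ _, by simp [polar]⟩
  have huT : u ∈ T := Finset.mem_filter.2 ⟨Finset.mem_univ _, huu⟩
  have h0D : (0 : WW Q c c') ∈ D := Finset.mem_filter.2 ⟨Finset.mem_univ _, AddSubgroup.zero_mem _, by simp [polar]⟩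
  have huD : u ∈ D := Finset.mem_filter.2 ⟨Finset.mem_univ _, hu, huu⟩
  have hcover := cover_count h ψ hψ hu P (κ₀ := D.card - 2) (by
    intro y hy
    obtain ⟨hyu, hy1⟩ := Finset.mem_erase.1 hy
    obtain ⟨hy0, hy2⟩ := Finset.mem_erase.1 hy1
    have hyf : 𝔣 u.1 y.1 = 0 := (Finset.mem_filter.1 hy2).2
    obtain ⟨y', hy'Q, hy'f, hy'0, hy'u, hyS⟩ : ∃ y' : WW Q c c', Q y'.1 = Q x.1 ∧ 𝔣 u.1 y'.1 = 0 ∧ y' ≠ 0 ∧ y' ≠ u ∧
        ∀ S : AddSubgroup (WW Q c c'), y' ∈ S → u ∈ S → y ∈ S := by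
      by_cases hQy : Q y.1 = Q x.1
      · exact ⟨y, hQy, hyf, hy0, hyu, fun S h1 _ => h1⟩
      · refine ⟨y + u, ?_, ?_, ?_, ?_, ?_⟩
        · show Q (y.1 + u.1) = Q x.1
          rw [Q_add, hQ1, polar_symm, hyf]
          have h3 := eq_one_of_ne hel (sub_ne_zero.2 (Ne.symm hQy))
          linear_combination -h3
        · show 𝔣 u.1 (y.1 + u.1) = 0
          rw [polar_add_right, hyf, huu, zero_add]
        · intro h0
          apply hyu
          have e2 : y = (y + u) + u := by rw [add_assoc, hvv, add_zero]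
          rw [e2, h0, zero_add]
        · intro h0
          apply hy0
          have e2 : y = (y + u) + u := by rw [add_assoc, hvv, add_zero]
          rw [e2, h0, hvv]
        · intro S h3 h4
          have e2 : y = (y + u) + u := by rw [add_assoc, hvv, add_zero]
          rw [e2]
          exact S.add_mem h3 h4
    obtain ⟨g, hN, hgu, hgx⟩ := exists_omega_quad2 h h2 u.2 x.2 y'.2 (hli x hx0 hxu) (hli y' hy'0 hy'u) hy'Q.symm
      (hux.trans hy'f.symm)
    refine ⟨g, hN, hgu, hyS _ ?_ (fix_mem h ψ hψ hN hgu hu)⟩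
    have h3 := gW_mem h ψ hψ hN hx
    have e3 : gW hN x = y' := Subtype.ext (by rw [coe_gW, hgx])
    rwa [e3] at h3) (by
    intro g hN hgu
    have hcard : ((D.erase 0).erase u).card = D.card - 2 := by
      rw [Finset.card_erase_of_mem (Finset.mem_erase.2 ⟨hu0, huD⟩), Finset.card_erase_of_mem h0D]
      omega
    rw [← hcard]
    apply Finset.card_le_card_of_injOn (gW hN).symm
    · intro z hz
      obtain ⟨-, hzP, hzA⟩ := Finset.mem_filter.1 (Finset.mem_coe.1 hz)
      obtain ⟨hzu, hz1⟩ := Finset.mem_erase.1 hzP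
      obtain ⟨hz0, hz2⟩ := Finset.mem_erase.1 hz1
      have hzf : 𝔣 u.1 z.1 = 0 := (Finset.mem_filter.1 hz2).2
      have e1 : gW hN ((gW hN).symm z) = z := (gW hN).apply_symm_apply z
      refine Finset.mem_coe.2 (Finset.mem_erase.2 ⟨?_, Finset.mem_erase.2 ⟨?_, Finset.mem_filter.2 ⟨Finset.mem_univ _, gW_symm_mem h ψ hψ hN hzA, ?_⟩⟩⟩)
      · intro e
        apply hzu
        rw [← e1, e]
        exact Subtype.ext (by rw [coe_gW, hgu])
      · intro e
        apply hz0
        rw [← e1, e, map_zero]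
      · have e2 : act g.1 ((gW hN).symm z).1 = z.1 := by
          rw [← coe_gW hN, e1]
        have e3 := polar_act g.1 u.1 ((gW hN).symm z).1
        rw [hgu, e2, hzf] at e3
        exact e3.symm
    · intro a _ b _ e
      exact (gW hN).symm.injective e)
  have hμ := mu_le_four h ψ hψ hnum hd hQu
  have h3 : P.card ≤ (D.card - 2) * 4 := hcover.trans (Nat.mul_le_mul_left _ hμ)
  have hPcard : P.card = T.card - 2 := by
    rw [hP, Finset.card_erase_of_mem (Finset.mem_erase.2 ⟨hu0, huT⟩), Finset.card_erase_of_mem h0T]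
    omega
  have h4 : 2 * T.card = Fintype.card (WW Q c c') := by
    rw [hT]
    convert card_T h2 hel h hu0
  have hT2 : 2 ≤ T.card := by
    have : ({0, u} : Finset (WW Q c c')).card = 2 := Finset.card_pair (Ne.symm hu0)
    rw [← this]
    apply Finset.card_le_card
    intro a ha
    simp only [Finset.mem_insert, Finset.mem_singleton] at ha
    rcases ha with rfl | rfl
    · exact h0T
    · exact huT
  have hD2 : 2 ≤ D.card := by
    have : ({0, u} : Finset (WW Q c c')).card = 2 := Finset.card_pair (Ne.symm hu0)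
    rw [← this]
    apply Finset.card_le_card
    intro a ha
    simp only [Finset.mem_insert, Finset.mem_singleton] at ha
    rcases ha with rfl | rfl
    · exact h0D
    · exact huD
  have hDA : D.card ≤ Nat.card (AN h ψ hψ ω) := by
    rw [Nat.card_eq_fintype_card, ← Finset.card_univ]
    apply Finset.card_le_card_of_injOn (fun y => if hy : y ∈ AN h ψ hψ ω then (⟨y, hy⟩ : AN h ψ hψ ω) else 0)
    · intro y _
      exact Finset.mem_coe.2 (Finset.mem_univ _)
    · intro a ha b hb e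
      have ha' := (Finset.mem_filter.1 (Finset.mem_coe.1 ha)).2.1
      have hb' := (Finset.mem_filter.1 (Finset.mem_coe.1 hb)).2.1
      simp only [dif_pos ha', dif_pos hb'] at e
      exact congrArg Subtype.val e
  apply top_of_large h ψ hψ h2 hel hnum hd
  rw [← h4]
  omega

/-- An annihilator with a nonsingular vector and vectors outside its perp only: impossible. -/
theorem type2_b {ω : Ω} {u x : WW Q c c'} (hu : u ∈ AN h ψ hψ ω) (hQu : Q u.1 ≠ 0) (hx : x ∈ AN h ψ hψ ω)
    (hall : ∀ z ∈ AN h ψ hψ ω, 𝔣 u.1 z.1 = 0 → z = 0 ∨ z = u) (hx0 : x ≠ 0) (hxu : x ≠ u) : False := by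
  classical
  have hu0 : u ≠ 0 := by
    rintro rfl
    simp at hQu
  have hu0' : u.1 ≠ 0 := fun h0 => hu0 (Subtype.ext h0)
  have hvv : ∀ y : WW Q c c', y + y = 0 := add_self_W h2
  have huu : 𝔣 u.1 u.1 = 0 := polar_self_zero h2 _
  have h11 := one_add_one hel
  have hux : 𝔣 u.1 x.1 = 1 := by
    apply eq_one_of_ne hel
    intro e
    rcases hall x hx e with e1 | e1
    · exact hx0 e1
    · exact hxu e1
  have hli : ∀ z : WW Q c c', 𝔣 u.1 z.1 ≠ 0 → ∀ s t : F, s • u.1 + t • z.1 = 0 → s = 0 ∧ t = 0 := by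
    intro z hz s t e
    have e1 := congrArg (𝔣 u.1) e
    rw [polar_add_right, polar_smul_right', polar_smul_right', huu, show 𝔣 u.1 0 = 0 by simp [polar]] at e1
    have ht : t = 0 := by
      have : t * 𝔣 u.1 z.1 = 0 := by linear_combination e1
      exact (mul_eq_zero.1 this).resolve_right hz
    refine ⟨?_, ht⟩
    rw [ht, zero_smul, add_zero] at e
    exact (smul_eq_zero.1 e).resolve_right hu0'
  set κ := Q x.1 with hκ
  set X := Finset.univ.filter fun y : WW Q c c' => Q y.1 = κ ∧ 𝔣 u.1 y.1 ≠ 0 with hX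
  have hcover := cover_count h ψ hψ hu X (κ₀ := 2) (by
    intro y hy
    obtain ⟨-, hy1, hy2⟩ := Finset.mem_filter.1 hy
    have hy3 : 𝔣 u.1 y.1 = 1 := eq_one_of_ne hel hy2
    obtain ⟨g, hN, hgu, hgx⟩ := exists_omega_quad2 h h2 u.2 x.2 y.2 (hli x (by rw [hux]; exact one_ne_zero)) (hli y hy2) hy1.symm
      (hux.trans hy3.symm)
    refine ⟨g, hN, hgu, ?_⟩
    have h3 := gW_mem h ψ hψ hN hx
    have e3 : gW hN x = y := Subtype.ext (by rw [coe_gW, hgx])
    rwa [e3] at h3) (by
    intro g hN hgu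
    have hcard : (({x, x + u} : Finset (WW Q c c')).image (gW hN)).card ≤ 2 :=
      Finset.card_image_le.trans (Finset.card_insert_le _ _ |>.trans (by simp))
    refine le_trans (Finset.card_le_card ?_) hcard
    intro z hz
    obtain ⟨-, hzX, hzA⟩ := Finset.mem_filter.1 hz
    obtain ⟨-, hz1, hz2⟩ := Finset.mem_filter.1 hzX
    set z' := (gW hN).symm z with hz'
    have e1 : gW hN z' = z := (gW hN).apply_symm_apply z
    have hz'A : z' ∈ AN h ψ hψ ω := gW_symm_mem h ψ hψ hN hzA
    have e2 : act g.1 z'.1 = z.1 := by rw [← coe_gW hN, e1]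
    have e3 := polar_act g.1 u.1 z'.1
    rw [hgu, e2] at e3
    have hz'f : 𝔣 u.1 z'.1 = 1 := by
      rw [← e3]
      exact eq_one_of_ne hel hz2
    have hsum : 𝔣 u.1 (z' + x).1 = 0 := by
      show 𝔣 u.1 (z'.1 + x.1) = 0
      rw [polar_add_right, hz'f, hux]
      exact h11
    have hmem : z' ∈ ({x, x + u} : Finset (WW Q c c')) := by
      rcases hall _ (AddSubgroup.add_mem _ hz'A hx) hsum with e4 | e4
      · have e5 : z' = (z' + x) + x := by rw [add_assoc, hvv, add_zero]
        rw [e4, zero_add] at e5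
        rw [e5]
        simp
      · have e5 : z' = (z' + x) + x := by rw [add_assoc, hvv, add_zero]
        rw [e4, add_comm] at e5
        rw [e5]
        simp
    rw [← e1]
    exact Finset.mem_image_of_mem _ hmem)
  have hμ := mu_le_four h ψ hψ hnum hd hQu
  have h3 : X.card ≤ 2 * 4 := hcover.trans (Nat.mul_le_mul_left _ hμ)
  have h4 := card_T h2 hel h hu0
  have h5 := card_T_Q h2 hel h hQu κ
  have h6 := hnum.hX κ
  have h7 : cntU Q (WW Q c c') κ =
      (Finset.univ.filter fun y : WW Q c c' => 𝔣 u.1 y.1 = 0 ∧ Q y.1 = κ).card + X.card := by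
    rw [cntU_eq, cnt]
    have e := Finset.card_filter_add_card_filter_not (s := (Finset.univ.filter fun y : WW Q c c' => Q y.1 = κ))
      (fun y : WW Q c c' => 𝔣 u.1 y.1 = 0)
    rw [← e]
    congr 1
    · congr 1
      ext y
      simp only [Finset.mem_filter, Finset.mem_univ, true_and]
      tauto
    · congr 1
      rw [hX]
      ext y
      simp only [Finset.mem_filter, Finset.mem_univ, true_and, ne_eq]
  omega

/-- **Types of annihilators over the field with two elements.** -/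
theorem type_two {ω : Ω} {u : WW Q c c'} (hu : u ∈ AN h ψ hψ ω) (hQu : Q u.1 ≠ 0) :
    (∀ x ∈ AN h ψ hψ ω, x = 0 ∨ x = u) ∨ AN h ψ hψ ω = ⊤ := by
  by_cases ha : ∃ x ∈ AN h ψ hψ ω, 𝔣 u.1 x.1 = 0 ∧ x ≠ 0 ∧ x ≠ u
  · obtain ⟨x, hx, hux, hx0, hxu⟩ := ha
    exact Or.inr (type2_a h ψ hψ h2 hel hnum hd hu hQu hx hux hx0 hxu)
  · push Not at ha
    left
    have hall : ∀ z ∈ AN h ψ hψ ω, 𝔣 u.1 z.1 = 0 → z = 0 ∨ z = u := by
      intro z hz hf
      by_cases hz0 : z = 0
      · exact Or.inl hz0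
      · exact Or.inr (ha z hz hf hz0)
    intro x hx
    by_contra hcon
    push Not at hcon
    exact type2_b h ψ hψ h2 hel hnum hd hu hQu hx hall hcon.1 hcon.2

end Main

end Cfsg.Agent.Lib.MinIndex.OS2
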