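import Mathlib
import Cfsg.Agent.Lib.MinIndex.OS2

/-!
# Minimal degree of the orthogonal groups over small fields: the assembly of the case without fixed root groups

All annihilators are lines or the whole complement.  Without regular points `OLine.no_lines` applies; with regular
points the regular orbit is unique and the counting gives the bound.
-/

set_option autoImplicit false
set_option linter.unusedSectionVars false
set_option linter.unusedSimpArgs false
set_option linter.unusedVariables false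

namespace Cfsg.Agent.Lib.MinIndex.OS3

open Matrix QuadraticMap Module
open Cfsg.Agent.Lib.Classical.Orth.Basic
open Cfsg.Agent.Lib.Classical.Witt.Hyp
open Cfsg.Agent.Lib.MinIndex.SpCount Cfsg.Agent.Lib.MinIndex.UCount
open Cfsg.Agent.Lib.MinIndex.OBase Cfsg.Agent.Lib.MinIndex.OVec Cfsg.Agent.Lib.MinIndex.OGood
open Cfsg.Agent.Lib.MinIndex.OTypes Cfsg.Agent.Lib.MinIndex.OLine Cfsg.Agent.Lib.MinIndex.OStep
open Cfsg.Agent.Lib.MinIndex.OStep2 Cfsg.Agent.Lib.MinIndex.OStep3 Cfsg.Agent.Lib.MinIndex.OFix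
open Cfsg.Agent.Lib.MinIndex.OCount Cfsg.Agent.Lib.MinIndex.OS1 Cfsg.Agent.Lib.MinIndex.OS1b

variable {ι : Type} [Fintype ι] [DecidableEq ι] {F : Type*} [Field F] [Fintype F]
variable {Q : QuadraticForm F (ι → F)} [OC Q]

set_option quotPrecheck false in
local notation "𝔣" => polar (⇑Q)

variable {c c' : ι → F}

/-- The numerical facts of the assembly. -/
structure SNum (Q : QuadraticForm F (ι → F)) [OC Q] (c c' : ι → F) (N : ℕ) : Prop where
  hNW : N ≤ 2 * Fintype.card (WW Q c c')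
  hcls : ∀ u : WW Q c c', Q u.1 ≠ 0 → (Fintype.card F - 1) * N ≤
    (Fintype.card F - 1) * Fintype.card (WW Q c c') + Fintype.card F * (clsW u).card
  hz : (Fintype.card F - 1) * N ≤ (Fintype.card F - 1) * Fintype.card (WW Q c c') + Fintype.card F * (singW Q c c').card ∨
    ((Fintype.card F - 1) * N ≤ (Fintype.card F - 1) * Fintype.card (WW Q c c') + Fintype.card F * (singW Q c c').card +
      (Fintype.card F - 1) ∧ ¬ (N - 1) ∣ (Fintype.card F - 1) * Fintype.card (WW Q c c') ∧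
      (singOf Q ⊤).card = (Fintype.card F - 1) * N)

/-- Regularity of a point at a singular vector. -/
def RegV (Q : QuadraticForm F (ι → F)) [OC Q] {Ω : Type*} [MulAction (GG Q) Ω] (ω : Ω) (s : ι → F) : Prop :=
  ∀ (hs : Q s = 0) (b : ι → F) (hb : polar (⇑Q) s b = 0), E hs hb • ω = ω → ∃ t : F, b = t • s

section Main

variable {Ω : Type*} [MulAction (GG Q) Ω]

/-- Images of regular points. -/
theorem RegV.smul {ω : Ω} {s : ι → F} (hR : RegV Q ω s) (g : GG Q) : RegV Q (g • ω) (act g.1 s) := by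
  intro hs b hb hfix
  have hs' : Q s = 0 := by rwa [Q_act] at hs
  have hb' : 𝔣 s (act (g⁻¹).1 b) = 0 := by
    have h1 := polar_act g.1 s (act (g⁻¹).1 b)
    rw [act_GG_act_inv] at h1
    rw [← h1]
    exact hb
  have h2 := conj_E g hs' hb'
  have h3 : E hs hb = g * E hs' hb' * g⁻¹ := by
    rw [h2]
    exact E_congr rfl (act_GG_act_inv g b).symm _ _ _ _
  rw [h3, ← mul_smul] at hfix
  have h4 : g * E hs' hb' * g⁻¹ * g = g * E hs' hb' := by group
  rw [h4, mul_smul] at hfix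
  obtain ⟨t, ht⟩ := hR hs' _ hb' (smul_left_cancel _ hfix)
  refine ⟨t, ?_⟩
  have h5 := act_GG_act_inv g b
  rw [ht, act_smul] at h5
  exact h5.symm

variable [Fintype Ω] (h : HP Q c c') (ψ : AddChar F ℂ) (hψ : ψ ≠ 1)

/-- Regularity of the annihilator in terms of the vector. -/
theorem regV_of_AN {ω : Ω} (hR : AN h ψ hψ ω = ⊤) : RegV Q ω c := by
  intro hs b hb hfix
  set r := b + (-𝔣 c' b) • c with hr
  have hrW : r ∈ WW Q c c' := mem_WW.2 ⟨by
    rw [hr, polar_add_right, polar_smul_right', h.cc, hb]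
    ring, by
    rw [hr, polar_add_right, polar_smul_right', h.hp']
    ring⟩
  have e1 : E h.hc (WW_left hrW) = E hs hb := by
    have h1 : 𝔣 c (b + (-𝔣 c' b) • c) = 0 := WW_left hrW
    rw [← E_add_self hs (-𝔣 c' b) hb h1]
  have h3 := reg_stab h ψ hψ hR hrW (by rw [e1]; exact hfix)
  refine ⟨𝔣 c' b, ?_⟩
  rw [hr] at h3
  linear_combination (norm := module) h3

/-- The annihilator at a regular point. -/
theorem AN_of_regV {ω : Ω} (hR : RegV Q ω c) : AN h ψ hψ ω = ⊤ := by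
  rw [eq_top_iff]
  intro a _
  apply (mem_AN h ψ hψ).2
  intro r hr
  obtain ⟨t, ht⟩ := hR h.hc r.1 (WW_left r.2) hr
  have h1 : 𝔣 c' r.1 = 0 := WW_right r.2
  rw [ht, polar_smul_right', h.hp', mul_one] at h1
  have h2 : r.1 = 0 := by rw [ht, h1, zero_smul]
  rw [h2]
  simp [polar]

/-- A line has at most as many vectors as the field. -/
theorem card_AN_le_of_line {ω : Ω} {u : ι → F} (hu0 : u ≠ 0) (hline : ∀ x ∈ ANv h ψ hψ ω, ∃ s : F, x = s • u) :
    Nat.card (AN h ψ hψ ω) ≤ Fintype.card F := by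
  classical
  have h1 : ∀ x : AN h ψ hψ ω, ∃ s : F, x.1.1 = s • u := fun x => hline _ ((mem_ANv h ψ hψ).2 ⟨x.1.2, x.2⟩)
  choose f hf using h1
  rw [Nat.card_eq_fintype_card]
  apply Fintype.card_le_of_injective f
  intro a b e
  apply Subtype.ext
  apply Subtype.ext
  rw [hf a, hf b, e]

/-- All annihilators in a line give a contradiction. -/
theorem no_reg_case (hno : ∀ (ω : Ω) (e : ι → F), e ≠ 0 → Q e = 0 → ¬ RFix Q ω e)
    (hline : ∀ ω : Ω, ∃ u ∈ WW Q c c', u ≠ 0 ∧ ∀ x ∈ ANv h ψ hψ ω, ∃ s : F, x = s • u) (ω : Ω) : False := by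
  apply no_lines h ω (hno ω)
  intro d d' h'
  obtain ⟨g, hg, hg'⟩ := exists_omega_pair h' h
  obtain ⟨u, huW, hu0, hu⟩ := hline (g • ω)
  have hgi : act (g⁻¹).1 c = d := by rw [← hg, act_GG_inv_act]
  have hgi' : act (g⁻¹).1 c' = d' := by rw [← hg', act_GG_inv_act]
  have hu'W : act (g⁻¹).1 u ∈ WW Q d d' := mem_WW.2 ⟨by
    rw [← hgi, polar_act]
    exact WW_left huW, by
    rw [← hgi', polar_act]
    exact WW_right huW⟩
  refine ⟨act (g⁻¹).1 u, hu'W, ?_, lineAt_of_ANv h' ψ hψ hu'W ?_⟩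
  · intro h0
    apply hu0
    have := act_GG_act_inv g u
    rw [h0] at this
    rw [← this]
    simp
  · intro a ha
    obtain ⟨s, hs⟩ := hu _ (mem_ANv_transfer h ψ hψ h' hg hg' ha)
    refine ⟨s, ?_⟩
    have h1 := act_GG_inv_act g a
    rw [hs, act_smul] at h1
    exact h1.symm

/-- Nonregular annihilators are in lines. -/
theorem line_of_nreg (hno : ∀ (ω : Ω) (e : ι → F), e ≠ 0 → Q e = 0 → ¬ RFix Q ω e)
    (hT : ∀ (ω : Ω) (u : WW Q c c'), u ∈ AN h ψ hψ ω → Q u.1 ≠ 0 →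
      (∀ x ∈ AN h ψ hψ ω, ∃ t : F, x.1 = t • u.1) ∨ AN h ψ hψ ω = ⊤)
    (hS : ∀ ω : Ω, TS h ψ hψ ω → ∀ u ∈ ANv h ψ hψ ω, u ≠ 0 → ∀ x ∈ ANv h ψ hψ ω, ∃ t : F, x = t • u)
    {ω : Ω} (hω : AN h ψ hψ ω ≠ ⊤) : ∃ u ∈ WW Q c c', u ≠ 0 ∧ ∀ x ∈ ANv h ψ hψ ω, ∃ s : F, x = s • u := by
  obtain ⟨a₀, ha₀, ha₀0⟩ := exists_ne_ANv h ψ hψ (hno ω c h.ne_zero h.hc)
  obtain ⟨ha₀W, ha₀'⟩ := (mem_ANv h ψ hψ).1 ha₀
  by_cases hns : ∃ a ∈ ANv h ψ hψ ω, Q a ≠ 0
  · obtain ⟨a, ha, hQa⟩ := hns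
    obtain ⟨haW, ha'⟩ := (mem_ANv h ψ hψ).1 ha
    have ha0 : a ≠ 0 := by
      rintro rfl
      simp at hQa
    refine ⟨a, haW, ha0, ?_⟩
    rcases hT ω ⟨a, haW⟩ ha' hQa with h1 | h1
    · intro x hx
      obtain ⟨hxW, hx'⟩ := (mem_ANv h ψ hψ).1 hx
      exact h1 ⟨x, hxW⟩ hx'
    · exact (hω h1).elim
  · push Not at hns
    exact ⟨a₀, ha₀W, ha₀0, hS ω hns a₀ ha₀ ha₀0⟩

/-- **The double count**: pairs of a singular vector and a point regular at it. -/
theorem count_reg [MulAction.IsPretransitive (GG Q) Ω] {N : ℕ} (hL : (singOf Q ⊤).card = (Fintype.card F - 1) * N) {ω_R : Ω}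
    (hR : AN h ψ hψ ω_R = ⊤) (huniq : ∀ ω : Ω, AN h ψ hψ ω = ⊤ → ω ∈ (wS h Ω).orb ω_R) :
    (Fintype.card Ω) ∣ (Fintype.card F - 1) * N * Fintype.card (WW Q c c') := by
  classical
  have hbase : (Finset.univ.filter fun ω : Ω => RegV Q ω c).card = Fintype.card (WW Q c c') := by
    rw [← card_orb_reg h ψ hψ hR]
    congr 1
    ext ω
    simp only [Finset.mem_filter, Finset.mem_univ, true_and]
    constructor
    · intro h1
      exact huniq ω (AN_of_regV h ψ hψ h1)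
    · intro h1
      apply regV_of_AN h ψ hψ
      have h2 : AN h ψ hψ ω = AN h ψ hψ ω_R := SS_of_mem_orb h1
      rw [h2, hR]
  have h1 : ∀ s ∈ singOf Q ⊤, ((Finset.univ : Finset Ω).filter (fun ω => RegV Q ω s)).card = Fintype.card (WW Q c c') := by
    intro s hs
    obtain ⟨hs0, hQs, -⟩ := mem_singOf.1 hs
    obtain ⟨g, hg⟩ := exists_omega_vec (Q := Q) h.ne_zero hs0 h.hc hQs
    rw [← hbase]
    symm
    apply card_move _ _ g
    · intro ω hω
      have := hω.smul g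
      rwa [hg] at this
    · intro ω hω
      have := hω.smul g⁻¹
      rwa [← hg, act_GG_inv_act] at this
  obtain ⟨ω₀⟩ : Nonempty Ω := ⟨ω_R⟩
  have h2 : ∀ ω ∈ (Finset.univ : Finset Ω), ((singOf Q ⊤).filter (fun s => RegV Q ω s)).card =
      ((singOf Q ⊤).filter (fun s => RegV Q ω₀ s)).card := by
    intro ω _
    obtain ⟨g, rfl⟩ := MulAction.exists_smul_eq (GG Q) ω₀ ω
    symm
    apply Finset.card_nbij' (fun s => act g.1 s) (fun s => act (g⁻¹).1 s)
    · intro s hs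
      obtain ⟨hs1, hs2⟩ := Finset.mem_filter.1 (Finset.mem_coe.1 hs)
      obtain ⟨hs0, hQs, -⟩ := mem_singOf.1 hs1
      refine Finset.mem_coe.2 (Finset.mem_filter.2 ⟨mem_singOf.2 ⟨?_, by rw [Q_act]; exact hQs, Submodule.mem_top⟩, hs2.smul g⟩)
      intro h0
      replace h0 : act g.1 s = 0 := h0
      apply hs0
      have := act_GG_inv_act g s
      rw [h0] at this
      rw [← this]
      simp
    · intro s hs
      obtain ⟨hs1, hs2⟩ := Finset.mem_filter.1 (Finset.mem_coe.1 hs)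
      obtain ⟨hs0, hQs, -⟩ := mem_singOf.1 hs1
      refine Finset.mem_coe.2 (Finset.mem_filter.2 ⟨mem_singOf.2 ⟨?_, by rw [Q_act]; exact hQs, Submodule.mem_top⟩, ?_⟩)
      · intro h0
        replace h0 : act (g⁻¹).1 s = 0 := h0
        apply hs0
        have := act_GG_act_inv g s
        rw [h0] at this
        rw [← this]
        simp
      · have := hs2.smul g⁻¹
        rwa [inv_smul_smul] at this
    · intro s _
      exact act_GG_inv_act g s
    · intro s _
      exact act_GG_act_inv g s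
  have h3 := double_count (singOf Q ⊤) (Finset.univ : Finset Ω) (fun s ω => RegV Q ω s) h1 h2
  rw [hL, Finset.card_univ] at h3
  exact ⟨_, h3⟩

/-- **The assembly.** -/
theorem small_core [MulAction.IsPretransitive (GG Q) Ω] {N : ℕ} (hnum : SNum Q c c' N) (hd : Fintype.card Ω < N)
    (hno : ∀ (ω : Ω) (e : ι → F), e ≠ 0 → Q e = 0 → ¬ RFix Q ω e)
    (hT : ∀ (ω : Ω) (u : WW Q c c'), u ∈ AN h ψ hψ ω → Q u.1 ≠ 0 →
      (∀ x ∈ AN h ψ hψ ω, ∃ t : F, x.1 = t • u.1) ∨ AN h ψ hψ ω = ⊤)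
    (hS : ∀ ω : Ω, TS h ψ hψ ω → ∀ u ∈ ANv h ψ hψ ω, u ≠ 0 → ∀ x ∈ ANv h ψ hψ ω, ∃ t : F, x = t • u)
    (hnr : (∀ ω : Ω, AN h ψ hψ ω = ⊤) → False) (ω₀ : Ω) : False := by
  classical
  have hq2 : 2 ≤ Fintype.card F := Fintype.one_lt_card
  by_cases hreg : ∃ ω_R : Ω, AN h ψ hψ ω_R = ⊤
  · obtain ⟨ω_R, hR⟩ := hreg
    have hd2 : Fintype.card Ω < 2 * Fintype.card (WW Q c c') := lt_of_lt_of_le hd hnum.hNW
    have huniq : ∀ ω : Ω, AN h ψ hψ ω = ⊤ → ω ∈ (wS h Ω).orb ω_R := fun ω hω => reg_unique h ψ hψ hd2 hR hω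
    obtain ⟨ω₁, hω₁⟩ : ∃ ω₁ : Ω, AN h ψ hψ ω₁ ≠ ⊤ := by
      by_contra hcon
      push Not at hcon
      exact hnr hcon
    set Y := Yp (fun ω : Ω => AN h ψ hψ ω ≠ ⊤) with hY
    set R := Yp (fun ω : Ω => AN h ψ hψ ω = ⊤) with hRd
    have hmemY : ∀ y : Ω, y ∈ Y ↔ AN h ψ hψ y ≠ ⊤ := fun y => mem_Yp
    have hmemR : ∀ y : Ω, y ∈ R ↔ AN h ψ hψ y = ⊤ := fun y => mem_Yp
    have hsum : R.card + Y.card = Fintype.card Ω := by
      rw [hY, hRd]
      unfold Yp
      rw [Finset.card_filter_add_card_filter_not]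
      rfl
    have h9 : Fintype.card (WW Q c c') ≤ R.card := by
      rw [← card_orb_reg h ψ hψ hR]
      exact Finset.card_le_card (orb_subset (good_reg h ψ hψ (Ω := Ω)).inv ((hmemR _).2 hR))
    have hb : ∀ y ∈ Y, Nat.card (SS (wS h Ω) (pW h ψ hψ) y) ≤ Fintype.card F := by
      intro y hy
      obtain ⟨u, -, hu0, hu⟩ := line_of_nreg h ψ hψ hno hT hS ((hmemY y).1 hy)
      exact card_AN_le_of_line h ψ hψ hu0 hu
    have hG : Good h Y := good_nreg h ψ hψ
    obtain ⟨a₀, ha₀, ha₀0⟩ := exists_ne_ANv h ψ hψ (hno ω₁ c h.ne_zero h.hc)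
    obtain ⟨ha₀W, ha₀'⟩ := (mem_ANv h ψ hψ).1 ha₀
    have hne : ∀ a : WW Q c c', a.1 ≠ 0 → a ≠ 0 := fun a ha h0 => ha (by rw [h0]; rfl)
    -- the common arithmetic
    have harith : ∀ C : ℕ, Fintype.card F * (C * 1) ≤ (Fintype.card F - 1) * Y.card →
        (Fintype.card F - 1) * Fintype.card (WW Q c c') + Fintype.card F * C ≤ (Fintype.card F - 1) * Fintype.card Ω := by
      intro C hC
      rw [mul_one] at hC
      rw [← hsum, mul_add]
      exact Nat.add_le_add (Nat.mul_le_mul_left _ h9) hC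
    have hpos : 0 < Fintype.card F - 1 := by omega
    by_cases hns : ∃ a ∈ ANv h ψ hψ ω₁, Q a ≠ 0
    · obtain ⟨a, ha, hQa⟩ := hns
      obtain ⟨haW, ha'⟩ := (mem_ANv h ψ hψ).1 ha
      have ha0 : (⟨a, haW⟩ : WW Q c c') ≠ 0 := by
        intro h0
        apply hQa
        have e : a = 0 := congrArg Subtype.val h0
        rw [e]
        simp
      have h1 := line_bound_m (A := wS h Ω) (Q := pW h ψ hψ) (Y' := Y) hG.inv hb (clsW (⟨a, haW⟩ : WW Q c c')) (m := 1)
        (fun h0 => (mem_clsW.1 h0).1 rfl) (by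
        intro v hv
        obtain ⟨hv0, l, hl, e⟩ := mem_clsW.1 hv
        exact (one_le_mult ((hmemY _).2 hω₁) ha').trans (mu_le_class h ψ hψ hG ha0 hv0 hl e))
      have h2 := hnum.hcls ⟨a, haW⟩ hQa
      have h3 := harith _ h1
      have h4 := Nat.le_of_mul_le_mul_left (h2.trans h3) hpos
      omega
    · push Not at hns
      have hQa₀ := hns a₀ ha₀
      have ha0 : (⟨a₀, ha₀W⟩ : WW Q c c') ≠ 0 := hne _ ha₀0
      have h1 := line_bound_m (A := wS h Ω) (Q := pW h ψ hψ) (Y' := Y) hG.inv hb (singW Q c c') (m := 1)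
        (fun h0 => (mem_singW.1 h0).1 rfl) (by
        intro v hv
        obtain ⟨hv0, e⟩ := mem_singW.1 hv
        exact (one_le_mult ((hmemY _).2 hω₁) ha₀').trans (mu_le_sing h ψ hψ hG ha0 hv0 hQa₀ e))
      have h3 := harith _ h1
      rcases hnum.hz with h2 | ⟨h2, h5, hL⟩
      · have h4 := Nat.le_of_mul_le_mul_left (h2.trans h3) hpos
        omega
      · have h4 : (Fintype.card F - 1) * N ≤ (Fintype.card F - 1) * (Fintype.card Ω + 1) := by
          rw [mul_add, mul_one]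
          omega
        have h6 := Nat.le_of_mul_le_mul_left h4 hpos
        have hdN : Fintype.card Ω = N - 1 := by omega
        have h7 := count_reg h ψ hψ hL hR huniq
        rw [hdN] at h7
        apply h5
        have hcop : Nat.Coprime (N - 1) N := by
          obtain ⟨n, rfl⟩ : ∃ n, N = n + 1 := ⟨N - 1, by omega⟩
          simp
        have e : (Fintype.card F - 1) * N * Fintype.card (WW Q c c') =
            N * ((Fintype.card F - 1) * Fintype.card (WW Q c c')) := by ring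
        rw [e] at h7
        exact hcop.dvd_of_dvd_mul_left h7
  · push Not at hreg
    exact no_reg_case h ψ hψ hno (fun ω => line_of_nreg h ψ hψ hno hT hS (hreg ω)) ω₀

end Main

end Cfsg.Agent.Lib.MinIndex.OS3
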