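import Mathlib
import Cfsg.Agent.Lib.MinIndex.OS3

/-!
# Minimal degree of the orthogonal groups over small fields: totally singular annihilators are lines
-/

set_option autoImplicit false
set_option linter.unusedSectionVars false
set_option linter.unusedSimpArgs false
set_option linter.unusedVariables false

namespace Cfsg.Agent.Lib.MinIndex.OS4

open Matrix QuadraticMap Module
open Cfsg.Agent.Lib.Classical.Orth.Basic
open Cfsg.Agent.Lib.Classical.Witt.Hyp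
open Cfsg.Agent.Lib.MinIndex.SpCount Cfsg.Agent.Lib.MinIndex.UCount
open Cfsg.Agent.Lib.MinIndex.OBase Cfsg.Agent.Lib.MinIndex.OVec Cfsg.Agent.Lib.MinIndex.OGood
open Cfsg.Agent.Lib.MinIndex.OTypes Cfsg.Agent.Lib.MinIndex.OLine Cfsg.Agent.Lib.MinIndex.OStep
open Cfsg.Agent.Lib.MinIndex.OStep2 Cfsg.Agent.Lib.MinIndex.OStep3 Cfsg.Agent.Lib.MinIndex.OFix
open Cfsg.Agent.Lib.MinIndex.OCount Cfsg.Agent.Lib.MinIndex.OS1 Cfsg.Agent.Lib.MinIndex.OS1b

variable {ι : Type} [Fintype ι] [DecidableEq ι] {F : Type*} [Field F] [Fintype F]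
variable {Q : QuadraticForm F (ι → F)} [OC Q]

set_option quotPrecheck false in
local notation "𝔣" => polar (⇑Q)

variable {c c' : ι → F}

/-! ### Nondegenerate subspaces -/

/-- Nondegenerate subspaces. -/
def NDeg (Q : QuadraticForm F (ι → F)) (U : Submodule F (ι → F)) : Prop :=
  ∀ x ∈ U, (∀ y ∈ U, polar (⇑Q) x y = 0) → x = 0

theorem NDeg.top : NDeg Q ⊤ := fun x _ hx => eq_zero_of_perp (fun y => hx y Submodule.mem_top)

variable {U : Submodule F (ι → F)}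

theorem NDeg.inf (hU : NDeg Q U) {a a' : ι → F} (h : HP Q a a') (ha : a ∈ U) (ha' : a' ∈ U) : NDeg Q (U ⊓ WW Q a a') := by
  intro x hx hall
  apply hU x hx.1
  intro y hy
  have h1 := hall (y - 𝔣 a' y • a - 𝔣 a y • a') ⟨U.sub_mem (U.sub_mem hy (U.smul_mem _ ha)) (U.smul_mem _ ha'), h.sub_mem y⟩
  rw [polar_sub_right, polar_sub_right, polar_smul_right', polar_smul_right', WW_left' hx.2, WW_right' hx.2] at h1
  simpa using h1

theorem finrank_inf {a a' : ι → F} (h : HP Q a a') (ha : a ∈ U) (ha' : a' ∈ U) :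
    finrank F ↥(U ⊓ WW Q a a') + 2 = finrank F U := by
  have h1 := card_splitU h ha ha'
  have hq : 1 < Fintype.card F := Fintype.one_lt_card
  have e1 : Nat.card U = Fintype.card F ^ finrank F U := by
    rw [Module.natCard_eq_pow_finrank (K := F), Nat.card_eq_fintype_card]
  have e2 : Nat.card ↥(U ⊓ WW Q a a') = Fintype.card F ^ finrank F ↥(U ⊓ WW Q a a') := by
    rw [Module.natCard_eq_pow_finrank (K := F), Nat.card_eq_fintype_card]
  rw [e1, e2, ← pow_two, ← pow_add] at h1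
  have := Nat.pow_right_injective hq h1
  omega

theorem NDeg.exists_partner (hU : NDeg Q U) {s : ι → F} (hs : s ∈ U) (hs0 : s ≠ 0) (hQ : Q s = 0) :
    ∃ s' ∈ U, HP Q s s' := by
  obtain ⟨y, hy, hy0⟩ : ∃ y ∈ U, 𝔣 s y ≠ 0 := by
    by_contra hcon
    push Not at hcon
    exact hs0 (hU s hs hcon)
  obtain ⟨y₁, hy₁, hf⟩ : ∃ y₁ ∈ U, 𝔣 s y₁ = 1 :=
    ⟨(𝔣 s y)⁻¹ • y, U.smul_mem _ hy, by rw [polar_smul_right', inv_mul_cancel₀ hy0]⟩
  have hss := polar_zero_self hQ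
  refine ⟨y₁ - Q y₁ • s, U.sub_mem hy₁ (U.smul_mem _ hs), hQ, ?_, ?_⟩
  · rw [Q_sub, Q_smul, hQ, polar_smul_right', polar_symm y₁ s, hf]
    ring
  · rw [polar_sub_right, polar_smul_right', hss, hf]
    ring

theorem NDeg.exists_HP (hU : NDeg Q U) (hdim : 3 ≤ finrank F U) : ∃ a ∈ U, ∃ a' ∈ U, HP Q a a' := by
  obtain ⟨⟨y, hy⟩, hy0, hQy⟩ := exists_singular_of_three_le (Q.comp U.subtype) hdim
  have hy0' : y ≠ 0 := fun h0 => hy0 (Subtype.ext h0)
  obtain ⟨s', hs', hHP⟩ := hU.exists_partner hy hy0' hQy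
  exact ⟨y, hy, s', hs', hHP⟩

theorem NDeg.exists_nonsing (hU : NDeg Q U) (hdim : 1 ≤ finrank F U) : ∃ w ∈ U, Q w ≠ 0 := by
  by_contra hcon
  push Not at hcon
  have hbot : U = ⊥ := by
    rw [eq_bot_iff]
    intro x hx
    rw [Submodule.mem_bot]
    apply hU x hx
    intro y hy
    rw [polar, hcon _ (U.add_mem hx hy), hcon _ hx, hcon _ hy]
    simp
  rw [hbot, finrank_bot] at hdim
  omega

/-- The space of the vectors for the images. -/
theorem exists_U3 (h : HP Q c c') {u x : ι → F} (hu : u ∈ WW Q c c') (hx : x ∈ WW Q c c') (hQu : Q u = 0) (hQx : Q x = 0)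
    (hux : 𝔣 u x = 0) (hu0 : u ≠ 0) (hxu : ∀ t : F, x ≠ t • u) :
    ∃ (y u' : ι → F) (U : Submodule F (ι → F)), y ∈ WW Q c c' ∧ u' ∈ WW Q c c' ∧ HP Q x y ∧ HP Q u u' ∧ 𝔣 u y = 0 ∧ 𝔣 x u' = 0 ∧ 𝔣 y u' = 0 ∧
      NDeg Q U ∧ finrank F U + 6 = Fintype.card ι ∧
      ∀ v ∈ U, v ∈ WW Q c c' ∧ 𝔣 x v = 0 ∧ 𝔣 y v = 0 ∧ 𝔣 u v = 0 ∧ 𝔣 u' v = 0 := by
  obtain ⟨y, v, D⟩ := exists_ImgD h hu hx hQx hux hxu
  have hHP : HP Q x y := ⟨D.Qx, D.Qy, D.xy⟩
  have hc1 : c ∈ (⊤ : Submodule F (ι → F)) := Submodule.mem_top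
  have hc2 : c' ∈ (⊤ : Submodule F (ι → F)) := Submodule.mem_top
  set U₁ := (⊤ : Submodule F (ι → F)) ⊓ WW Q c c' with hU₁
  have hn₁ : NDeg Q U₁ := NDeg.top.inf h hc1 hc2
  have hd₁ : finrank F U₁ + 2 = finrank F (⊤ : Submodule F (ι → F)) := finrank_inf (U := ⊤) h hc1 hc2
  have hxU₁ : x ∈ U₁ := ⟨Submodule.mem_top, hx⟩
  have hyU₁ : y ∈ U₁ := ⟨Submodule.mem_top, D.hy⟩
  set U₂ := U₁ ⊓ WW Q x y with hU₂
  have hn₂ : NDeg Q U₂ := hn₁.inf hHP hxU₁ hyU₁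
  have hd₂ : finrank F U₂ + 2 = finrank F U₁ := finrank_inf hHP hxU₁ hyU₁
  have huU₂ : u ∈ U₂ := ⟨⟨Submodule.mem_top, hu⟩, mem_WW.2 ⟨by rw [polar_symm]; exact hux, by rw [polar_symm]; exact D.uy⟩⟩
  obtain ⟨u', hu'U₂, hHP'⟩ := hn₂.exists_partner huU₂ hu0 hQu
  set U₃ := U₂ ⊓ WW Q u u' with hU₃
  have hn₃ : NDeg Q U₃ := hn₂.inf hHP' huU₂ hu'U₂
  have hd₃ : finrank F U₃ + 2 = finrank F U₂ := finrank_inf hHP' huU₂ hu'U₂
  have htop : finrank F (⊤ : Submodule F (ι → F)) = Fintype.card ι := by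
    rw [finrank_top, Module.finrank_fintype_fun_eq_card]
  refine ⟨y, u', U₃, D.hy, hu'U₂.1.2, hHP, hHP', D.uy, WW_left hu'U₂.2, WW_right hu'U₂.2, hn₃, by omega, ?_⟩
  intro v hv
  refine ⟨hv.1.1.2, WW_left hv.1.2, WW_right hv.1.2, WW_left hv.2, WW_right hv.2⟩

/-- The data for the images from a space. -/
theorem mk_ImgA {h : HP Q c c'} {u x y u' v₀ v₁ : ι → F} (hu : u ∈ WW Q c c') (hx : x ∈ WW Q c c') (hy : y ∈ WW Q c c')
    (hHP : HP Q x y) (hux : 𝔣 u x = 0) (huy : 𝔣 u y = 0)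
    (hv₀ : v₀ ∈ WW Q c c' ∧ 𝔣 x v₀ = 0 ∧ 𝔣 y v₀ = 0 ∧ 𝔣 u v₀ = 0 ∧ 𝔣 u' v₀ = 0)
    (hv₁ : v₁ ∈ WW Q c c' ∧ 𝔣 x v₁ = 0 ∧ 𝔣 y v₁ = 0 ∧ 𝔣 u v₁ = 0 ∧ 𝔣 u' v₁ = 0)
    (hQ : Q v₀ ≠ 0) (an : ∀ s t : F, Q (s • v₀ + t • v₁) = 0 → s = 0 ∧ t = 0) : ImgA h u x y v₀ v₁ :=
  ⟨⟨hu, hx, hy, hv₀.1, hHP.hc, hHP.hc', hQ, hux, huy, hv₀.2.2.2.1, hHP.hp, hv₀.2.1, hv₀.2.2.1⟩, hv₁.1, hv₁.2.2.2.1, hv₁.2.1,
    hv₁.2.2.1, an⟩

/-- Anisotropic pairs over the field with two elements. -/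
theorem exists_imgA_two (h : HP Q c c') (h2 : (2 : F) = 0) (hel : ∀ x : F, x = 0 ∨ x = 1) (hn : 10 ≤ Fintype.card ι)
    {u x : ι → F} (hu : u ∈ WW Q c c') (hx : x ∈ WW Q c c') (hQu : Q u = 0) (hQx : Q x = 0)
    (hux : 𝔣 u x = 0) (hu0 : u ≠ 0) (hxu : ∀ t : F, x ≠ t • u) : ∃ y v₀ v₁, ImgA h u x y v₀ v₁ := by
  obtain ⟨y, u', U, hy, hu', hHP, hHP', huy, hxu', hyu', hnd, hd, hU⟩ := exists_U3 h hu hx hQu hQx hux hu0 hxu
  obtain ⟨a, ha, a', ha', hHa⟩ := hnd.exists_HP (by omega)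
  have hnd' := hnd.inf hHa ha ha'
  have hd' := finrank_inf hHa ha ha'
  obtain ⟨w, hw, hQw⟩ := hnd'.exists_nonsing (by omega)
  have hQw1 : Q w = 1 := (hel _).resolve_left hQw
  have h11 : (1 : F) + 1 = 0 := by linear_combination h2
  have haw : 𝔣 a w = 0 := WW_left hw.2
  have ha'w : 𝔣 a' w = 0 := WW_right hw.2
  have hQ0 : Q (a + a') = 1 := by
    rw [Q_add, hHa.hc, hHa.hc', hHa.hp]
    ring
  have hQ1 : Q (a + w) = 1 := by
    rw [Q_add, hHa.hc, hQw1, haw]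
    ring
  have hf : 𝔣 (a + a') (a + w) = 1 := by
    rw [polar_add_left, polar_add_right, polar_add_right, hHa.cc, haw, hHa.hp', ha'w]
    ring
  have hmem : a + a' ∈ U := U.add_mem ha ha'
  have hmem' : a + w ∈ U := U.add_mem ha hw.1
  refine ⟨y, a + a', a + w, mk_ImgA (u' := u') hu hx hy hHP hux huy (hU _ hmem) (hU _ hmem') (by rw [hQ0]; exact one_ne_zero) ?_⟩
  intro s t hst
  rw [Q_add, Q_smul, Q_smul, polar_smul_left', polar_smul_right', hQ0, hQ1, hf] at hst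
  rcases hel s with rfl | rfl <;> rcases hel t with rfl | rfl
  · exact ⟨rfl, rfl⟩
  · exfalso
    simp at hst
  · exfalso
    simp at hst
  · exfalso
    have : (1 : F) = 0 := by linear_combination hst - h11
    exact one_ne_zero this

/-- Anisotropic pairs over the field with three elements. -/
theorem exists_imgA_three (h : HP Q c c') (h2 : (2 : F) ≠ 0) (hel : ∀ x : F, x = 0 ∨ x = 1 ∨ x = -1) (hn : 9 ≤ Fintype.card ι)
    {u x : ι → F} (hu : u ∈ WW Q c c') (hx : x ∈ WW Q c c') (hQu : Q u = 0) (hQx : Q x = 0)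
    (hux : 𝔣 u x = 0) (hu0 : u ≠ 0) (hxu : ∀ t : F, x ≠ t • u) : ∃ y v₀ v₁, ImgA h u x y v₀ v₁ := by
  obtain ⟨y, u', U, hy, hu', hHP, hHP', huy, hxu', hyu', hnd, hd, hU⟩ := exists_U3 h hu hx hQu hQx hux hu0 hxu
  obtain ⟨a, ha, a', ha', hHa⟩ := hnd.exists_HP (by omega)
  have hnd' := hnd.inf hHa ha ha'
  have hd' := finrank_inf hHa ha ha'
  obtain ⟨w, hw, hQw⟩ := hnd'.exists_nonsing (by omega)
  have h3 : (3 : F) = 0 := by
    rcases hel 2 with e | e | e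
    · exact absurd e h2
    · exfalso
      have : (1 : F) = 0 := by linear_combination e
      exact one_ne_zero this
    · linear_combination e
  have haw : 𝔣 a w = 0 := WW_left hw.2
  have ha'w : 𝔣 a' w = 0 := WW_right hw.2
  have hQ0 : Q (a + a') = 1 := by
    rw [Q_add, hHa.hc, hHa.hc', hHa.hp]
    ring
  have hmem : a + a' ∈ U := U.add_mem ha ha'
  obtain ⟨v, hvU, hQv, hfv⟩ : ∃ v ∈ U, Q v = 1 ∧ 𝔣 (a + a') v = 0 := by
    rcases hel (Q w) with e | e | e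
    · exact absurd e hQw
    · refine ⟨w, hw.1, e, ?_⟩
      rw [polar_add_left, haw, ha'w, add_zero]
    · refine ⟨w + (a - a'), U.add_mem hw.1 (U.sub_mem ha ha'), ?_, ?_⟩
      · rw [Q_add, Q_sub, e, hHa.hc, hHa.hc', hHa.hp, polar_sub_right, polar_symm w a, polar_symm w a', haw, ha'w]
        linear_combination -h3
      · rw [polar_add_right, polar_sub_right, polar_add_left, polar_add_left, polar_add_left, haw, ha'w, hHa.cc, hHa.cc', hHa.hp,
          hHa.hp']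
        ring
  refine ⟨y, a + a', v, mk_ImgA (u' := u') hu hx hy hHP hux huy (hU _ hmem) (hU _ hvU) (by rw [hQ0]; exact one_ne_zero) ?_⟩
  intro s t hst
  rw [Q_add, Q_smul, Q_smul, polar_smul_left', polar_smul_right', hQ0, hQv, hfv] at hst
  have hsq : ∀ r : F, r * r = 0 ∨ r * r = 1 := by
    intro r
    rcases hel r with rfl | rfl | rfl
    · left
      ring
    · right
      ring
    · right
      ring
  have hss : s * s * 1 + t * t * 1 + s * (t * 0) = s * s + t * t := by ring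
  rw [hss] at hst
  rcases hsq s with e1 | e1 <;> rcases hsq t with e2 | e2
  · exact ⟨mul_self_eq_zero.1 e1, mul_self_eq_zero.1 e2⟩
  · exfalso
    rw [e1, e2] at hst
    simp at hst
  · exfalso
    rw [e1, e2] at hst
    simp at hst
  · exfalso
    rw [e1, e2] at hst
    exact h2 (by linear_combination hst)

/-- Anisotropic pairs from a bound for the totally singular subspaces. -/
theorem exists_imgA_witt (h : HP Q c c') (hn : 8 ≤ Fintype.card ι)
    (hts : ∀ X : Submodule F (ι → F), (∀ x ∈ X, Q x = 0) → finrank F X ≤ 3)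
    {u x : ι → F} (hu : u ∈ WW Q c c') (hx : x ∈ WW Q c c') (hQu : Q u = 0) (hQx : Q x = 0)
    (hux : 𝔣 u x = 0) (hu0 : u ≠ 0) (hxu : ∀ t : F, x ≠ t • u) : ∃ y v₀ v₁, ImgA h u x y v₀ v₁ := by
  obtain ⟨y, u', U, hy, hu', hHP, hHP', huy, hxu', hyu', hnd, hd, hU⟩ := exists_U3 h hu hx hQu hQx hux hu0 hxu
  -- no singular vectors
  have hnos : ∀ z ∈ U, Q z = 0 → z = 0 := by
    intro z hz hQz
    by_contra hz0
    obtain ⟨hz1, hz2, hz3, hz4, hz5⟩ := hU z hz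
    have hli : LinearIndependent F ![c, x, u, z] := by
      rw [Fintype.linearIndependent_iff]
      intro t ht i
      simp only [Fin.sum_univ_four, Matrix.cons_val_zero, Matrix.cons_val_one, Matrix.cons_val] at ht
      have e1 := congrArg (𝔣 c') ht
      have e2 := congrArg (𝔣 y) ht
      have e3 := congrArg (𝔣 u') ht
      have a1 : 𝔣 y c = 0 := WW_left' hy
      have a2 : 𝔣 y u = 0 := by rw [polar_symm]; exact huy
      have a3 : 𝔣 u' c = 0 := WW_left' hu'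
      have a4 : 𝔣 u' x = 0 := by rw [polar_symm]; exact hxu'
      have a5 : 𝔣 y x = 1 := hHP.hp'
      have a6 : 𝔣 u' u = 1 := hHP'.hp'
      have h0' : ∀ p : ι → F, 𝔣 p 0 = 0 := fun p => by simp [polar]
      simp only [polar_add_right, polar_smul_right', h.hp', WW_right hx, WW_right hu, WW_right hz1, a1, a2, a3, a4, a5, a6, hz3,
        hz5, h0', mul_zero, mul_one, add_zero, zero_add] at e1 e2 e3
      rw [e1, e2, e3] at ht
      simp only [zero_smul, zero_add] at ht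
      have e4 := (smul_eq_zero.1 ht).resolve_right hz0
      fin_cases i
      · exact e1
      · exact e2
      · exact e3
      · exact e4
    have h1 := hts (Submodule.span F (Set.range ![c, x, u, z])) (by
      intro w hw
      obtain ⟨t, rfl⟩ := (Submodule.mem_span_range_iff_exists_fun F).1 hw
      simp only [Fin.sum_univ_four, Matrix.cons_val_zero, Matrix.cons_val_one, Matrix.cons_val]
      have a1 : 𝔣 c x = 0 := WW_left hx
      have a2 : 𝔣 c u = 0 := WW_left hu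
      have a3 : 𝔣 c z = 0 := WW_left hz1
      have a4 : 𝔣 x u = 0 := by rw [polar_symm]; exact hux
      simp only [Q_add, Q_smul, polar_add_left, polar_smul_left', polar_smul_right', h.hc, hQx, hQu, hQz, a1, a2, a3, a4, hz2, hz4]
      ring)
    rw [finrank_span_eq_card hli] at h1
    simp at h1
  have hd2 : 2 ≤ finrank F U := by omega
  obtain ⟨v₀, hv₀, hv₀0⟩ := Cfsg.Agent.Lib.MinIndex.OFix2.exists_ne_of_finrank (F := F) (X := U) (by omega)
  obtain ⟨v₁, hv₁, hv₁'⟩ : ∃ v₁ ∈ U, v₁ ∉ Submodule.span F {v₀} := by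
    by_contra hcon
    push Not at hcon
    have h1 := Submodule.finrank_mono (show U ≤ Submodule.span F {v₀} from hcon)
    rw [finrank_span_singleton hv₀0] at h1
    omega
  refine ⟨y, v₀, v₁, mk_ImgA (u' := u') hu hx hy hHP hux huy (hU _ hv₀) (hU _ hv₁) (fun e => hv₀0 (hnos _ hv₀ e)) ?_⟩
  intro s t hst
  have h1 := hnos _ (U.add_mem (U.smul_mem s hv₀) (U.smul_mem t hv₁)) hst
  have ht : t = 0 := by
    by_contra ht
    apply hv₁'
    have e : v₁ = (-(s / t)) • v₀ := by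
      have e1 : t • v₁ = (-s) • v₀ := by
        rw [neg_smul]
        exact eq_neg_of_add_eq_zero_right h1
      have e2 := congrArg (fun w => t⁻¹ • w) e1
      simp only [smul_smul, inv_mul_cancel₀ ht, one_smul] at e2
      rw [e2]
      congr 1
      field_simp
    rw [e]
    exact Submodule.smul_mem _ _ (Submodule.mem_span_singleton_self v₀)
  refine ⟨?_, ht⟩
  rw [ht, zero_smul, add_zero] at h1
  exact (smul_eq_zero.1 h1).resolve_right hv₀0

section Main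

variable {Ω : Type*} [MulAction (GG Q) Ω] [Fintype Ω] (h : HP Q c c') (ψ : AddChar F ℂ) (hψ : ψ ≠ 1)

/-- Totally singular annihilators are in lines, from the existence of anisotropic pairs. -/
theorem ts_line_A {N : ℕ} (hd : Fintype.card Ω < N)
    (hN : N ≤ (singW Q c c').card * (Fintype.card F * Fintype.card F + 1))
    (hI : ∀ u x : ι → F, u ∈ WW Q c c' → x ∈ WW Q c c' → Q u = 0 → Q x = 0 → 𝔣 u x = 0 → u ≠ 0 → (∀ t : F, x ≠ t • u) →
      ∃ y v₀ v₁, ImgA h u x y v₀ v₁) (ω : Ω) (hT : TS h ψ hψ ω) (u : ι → F) (hu : u ∈ ANv h ψ hψ ω) (hu0 : u ≠ 0)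
    (x : ι → F) (hx : x ∈ ANv h ψ hψ ω) : ∃ t : F, x = t • u := by
  by_contra hcon
  push Not at hcon
  obtain ⟨huW, -⟩ := (mem_ANv h ψ hψ).1 hu
  obtain ⟨hxW, -⟩ := (mem_ANv h ψ hψ).1 hx
  have hux : 𝔣 u x = 0 := by
    have h1 := hT _ (AddSubgroup.add_mem _ hu hx)
    rw [Q_add, hT _ hu, hT _ hx] at h1
    simpa using h1
  obtain ⟨y, v₀, v₁, D⟩ := hI u x huW hxW (hT u hu) (hT x hx) hux hu0 hcon
  have h1 := D.img_mu ψ hψ hT hu hx huW
  have h2 := mu_sing_bound h ψ hψ (good_TS h ψ hψ (Ω := Ω)) (u := ⟨u, huW⟩) (fun h0 => hu0 (congrArg Subtype.val h0)) (hT u hu)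
  have h3 : (Yp (TS h ψ hψ : Ω → Prop)).card ≤ Fintype.card Ω := Finset.card_le_univ _
  have h4 := Nat.mul_le_mul_left (singW Q c c').card h1
  omega

/-- A totally singular annihilator is at most as large as its annihilator. -/
theorem card_AN_TS {ω : Ω} (hT : TS h ψ hψ ω) :
    Nat.card (AN h ψ hψ ω) * Nat.card (AN h ψ hψ ω) ≤ Fintype.card (WW Q c c') ∧
      Nat.card (AN h ψ hψ ω) ∣ Fintype.card (WW Q c c') := by
  have h1 := (pW h ψ hψ).card_ann (AN h ψ hψ ω)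
  refine ⟨?_, Dvd.intro _ h1⟩
  have hle : AN h ψ hψ ω ≤ (pW h ψ hψ).ann (AN h ψ hψ ω) := by
    intro a ha r hr
    show ψ (𝔣 a.1 r.1) = 1
    have ha' := (mem_ANv h ψ hψ).2 ⟨a.2, ha⟩
    have hr' := (mem_ANv h ψ hψ).2 ⟨r.2, hr⟩
    have h2 := hT _ (AddSubgroup.add_mem _ ha' hr')
    rw [Q_add, hT _ ha', hT _ hr'] at h2
    have h3 : 𝔣 a.1 r.1 = 0 := by simpa using h2
    rw [h3]
    exact AddChar.map_zero_eq_one ψ
  have h2 : Nat.card (AN h ψ hψ ω) ≤ Nat.card ((pW h ψ hψ).ann (AN h ψ hψ ω)) :=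
    Nat.card_le_card_of_injective _ (AddSubgroup.inclusion_injective hle)
  rw [← h1]
  exact Nat.mul_le_mul_left _ h2

/-- Totally singular annihilators are in lines, from the bound for the size of a totally singular annihilator. -/
theorem ts_line_B {N b : ℕ} (hd : Fintype.card Ω < N) (hb2 : 2 ≤ b)
    (hb : ∀ k : ℕ, k ∣ Fintype.card (WW Q c c') → k * k ≤ Fintype.card (WW Q c c') → k ≤ b)
    (hN : (b - 1) * N ≤ b * ((singW Q c c').card * (Fintype.card F + 1)))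
    (ω : Ω) (hT : TS h ψ hψ ω) (u : ι → F) (hu : u ∈ ANv h ψ hψ ω) (hu0 : u ≠ 0)
    (x : ι → F) (hx : x ∈ ANv h ψ hψ ω) : ∃ t : F, x = t • u := by
  by_contra hcon
  push Not at hcon
  obtain ⟨huW, -⟩ := (mem_ANv h ψ hψ).1 hu
  have hG := good_TS h ψ hψ (Ω := Ω)
  have h1 := img_mu h ψ hψ hT hu hx hcon huW
  have hu0' : (⟨u, huW⟩ : WW Q c c') ≠ 0 := fun h0 => hu0 (congrArg Subtype.val h0)
  have h2 := line_bound_m (A := wS h Ω) (Q := pW h ψ hψ) (Y' := Yp (TS h ψ hψ : Ω → Prop)) hG.inv (b := b) (by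
    intro y hy
    have hTy : TS h ψ hψ y := mem_Yp.1 hy
    obtain ⟨h3, h4⟩ := card_AN_TS h ψ hψ hTy
    exact hb _ h4 h3) (singW Q c c') (m := Fintype.card F + 1) (fun h0 => (mem_singW.1 h0).1 rfl) (by
    intro v hv
    obtain ⟨hv0, e⟩ := mem_singW.1 hv
    exact h1.trans (mu_le_sing h ψ hψ hG hu0' hv0 (hT u hu) e))
  have h3 : (Yp (TS h ψ hψ : Ω → Prop)).card ≤ Fintype.card Ω := Finset.card_le_univ _
  have h4 := Nat.mul_le_mul_left (b - 1) h3
  have h5 : (b - 1) * N ≤ (b - 1) * Fintype.card Ω := hN.trans (h2.trans h4)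
  have h6 := Nat.le_of_mul_le_mul_left h5 (by omega)
  omega

end Main

end Cfsg.Agent.Lib.MinIndex.OS4
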