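import Mathlib
import Cfsg.Agent.Lib.MinIndex.OS4
import Cfsg.Agent.Lib.MinIndex.OFinal

/-!
# Minimal degree of the orthogonal groups over the field with two elements
-/

set_option autoImplicit false
set_option linter.unusedSectionVars false
set_option linter.unusedSimpArgs false
set_option linter.unusedVariables false

namespace Cfsg.Agent.Lib.MinIndex.OS5

open Matrix QuadraticMap Module
open Cfsg.Agent.Lib.Classical.Orth.Basic
open Cfsg.Agent.Lib.Classical.Witt.Hyp
open Cfsg.Agent.Lib.MinIndex.SpCount Cfsg.Agent.Lib.MinIndex.UCount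
open Cfsg.Agent.Lib.MinIndex.OBase Cfsg.Agent.Lib.MinIndex.OVec Cfsg.Agent.Lib.MinIndex.OGood
open Cfsg.Agent.Lib.MinIndex.OTypes Cfsg.Agent.Lib.MinIndex.OLine Cfsg.Agent.Lib.MinIndex.OStep
open Cfsg.Agent.Lib.MinIndex.OStep2 Cfsg.Agent.Lib.MinIndex.OStep3 Cfsg.Agent.Lib.MinIndex.OFix Cfsg.Agent.Lib.MinIndex.OFix2
open Cfsg.Agent.Lib.MinIndex.OCount Cfsg.Agent.Lib.MinIndex.OS1 Cfsg.Agent.Lib.MinIndex.OS1b
open Cfsg.Agent.Lib.MinIndex.OS2 Cfsg.Agent.Lib.MinIndex.OS3 Cfsg.Agent.Lib.MinIndex.OS4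

variable {ι : Type} [Fintype ι] [DecidableEq ι] {F : Type*} [Field F] [Fintype F]
variable {Q : QuadraticForm F (ι → F)} [OC Q]

set_option quotPrecheck false in
local notation "𝔣" => polar (⇑Q)

variable {c c' : ι → F}

/-- The hypotheses for totally singular annihilators. -/
def TSNum (h : HP Q c c') (N : ℕ) : Prop :=
  (N ≤ (singW Q c c').card * (Fintype.card F * Fintype.card F + 1) ∧
    ∀ u x : ι → F, u ∈ WW Q c c' → x ∈ WW Q c c' → Q u = 0 → Q x = 0 → 𝔣 u x = 0 → u ≠ 0 → (∀ t : F, x ≠ t • u) →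
      ∃ y v₀ v₁, ImgA h u x y v₀ v₁) ∨
  ∃ b : ℕ, 2 ≤ b ∧ (∀ k : ℕ, k ∣ Fintype.card (WW Q c c') → k * k ≤ Fintype.card (WW Q c c') → k ≤ b) ∧
    (b - 1) * N ≤ b * ((singW Q c c').card * (Fintype.card F + 1))

/-- From the numbers to lines. -/
theorem ts_line {Ω : Type*} [MulAction (GG Q) Ω] [Fintype Ω] (h : HP Q c c') (ψ : AddChar F ℂ) (hψ : ψ ≠ 1) {N : ℕ}
    (hT : TSNum h N) (hd : Fintype.card Ω < N) (ω : Ω) (hTS : TS h ψ hψ ω) (u : ι → F) (hu : u ∈ ANv h ψ hψ ω) (hu0 : u ≠ 0)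
    (x : ι → F) (hx : x ∈ ANv h ψ hψ ω) : ∃ t : F, x = t • u := by
  rcases hT with ⟨h1, h2⟩ | ⟨b, h1, h2, h3⟩
  · exact ts_line_A h ψ hψ hd h1 h2 ω hTS u hu hu0 x hx
  · exact ts_line_B h ψ hψ hd h1 h2 h3 ω hTS u hu hu0 x hx

/-- **The bound for the degree over the field with two elements.** -/
theorem min_degree_two {Ω : Type*} [MulAction (GG Q) Ω] [Fintype Ω] [MulAction.IsPretransitive (GG Q) Ω] [Nontrivial Ω]
    (h2 : (2 : F) = 0) (hel : ∀ x : F, x = 0 ∨ x = 1) {d d' : ι → F} (h : HP Q c c') (h' : HP Q d d') (hd : d ∈ WW Q c c')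
    (hd' : d' ∈ WW Q c c') {N Ns : ℕ} (hNs : N ≤ Ns) (hA : ANum Q c c' d d' Ns) (hB : SNum Q c c' N) (hC : TNum2 Q c c' N)
    (hT : TSNum h N) : N ≤ Fintype.card Ω := by
  classical
  by_contra hcon
  push Not at hcon
  have hne : ∀ ω : Ω, ∃ g : GG Q, g • ω ≠ ω := by
    intro ω
    obtain ⟨ω', hω'⟩ := exists_ne ω
    obtain ⟨g, hg⟩ := MulAction.exists_smul_eq (GG Q) ω ω'
    exact ⟨g, by rw [hg]; exact hω'⟩
  have hno : ∀ (ω : Ω) (e : ι → F), e ≠ 0 → Q e = 0 → ¬ RFix Q ω e := by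
    intro ω e he0 _ hfix
    have := case_A h h' hd hd' hA hne he0 hfix
    omega
  obtain ⟨ψ, hψ⟩ : ∃ ψ : AddChar F ℂ, ψ ≠ 1 := by
    obtain ⟨ψ, hψ⟩ := (AddChar.exists_apply_ne_zero (α := F)).mpr (one_ne_zero (α := F))
    exact ⟨ψ, fun h => hψ (by rw [h]; rfl)⟩
  obtain ⟨ω₀⟩ : Nonempty Ω := inferInstance
  have hd2 : Fintype.card Ω < 2 * Fintype.card (WW Q c c') := lt_of_lt_of_le hcon hB.hNW
  apply small_core h ψ hψ hB hcon hno ?_ (ts_line h ψ hψ hT hcon) (fun hall => not_all_reg_two h ψ hψ h2 hel hd2 hall ω₀) ω₀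
  intro ω u hu hQu
  rcases type_two h ψ hψ h2 hel hC hcon hu hQu with h3 | h3
  · left
    intro x hx
    rcases h3 x hx with e | e
    · exact ⟨0, by rw [e, zero_smul]; rfl⟩
    · exact ⟨1, by rw [e, one_smul]⟩
  · exact Or.inr h3

/-- **The lower bound for the index.** -/
theorem lower_index {N : ℕ} {Q₀ : (ι → F) → F} (hQ : ⇑Q = Q₀)
    (hmain : ∀ H' : Subgroup (GG Q), H' ≠ ⊤ → N ≤ H'.index) (H : Subgroup (Cfsg.POmega F Q₀)) (hH : H ≠ ⊤) : N ≤ H.index := by
  subst hQ
  set f := QuotientGroup.mk' (Subgroup.center (GG Q)) with hf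
  have hsurj : Function.Surjective f := QuotientGroup.mk'_surjective _
  set H' := H.comap f with hH'
  have hidx : H'.index = H.index := Subgroup.index_comap_of_surjective H hsurj
  rw [← hidx]
  apply hmain
  intro h0
  apply hH
  rw [eq_top_iff]
  intro x _
  obtain ⟨y, rfl⟩ := hsurj x
  have : y ∈ H' := by rw [h0]; trivial
  exact this

/-- The degree bound for the subgroups. -/
theorem lower_two {d d' : ι → F} (h2 : (2 : F) = 0) (hel : ∀ x : F, x = 0 ∨ x = 1) (h : HP Q c c') (h' : HP Q d d') (hd : d ∈ WW Q c c')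
    (hd' : d' ∈ WW Q c c') {N Ns : ℕ} (hNs : N ≤ Ns) (hA : ANum Q c c' d d' Ns) (hB : SNum Q c c' N) (hC : TNum2 Q c c' N)
    (hT : TSNum h N) (H' : Subgroup (GG Q)) (hH' : H' ≠ ⊤) : N ≤ H'.index := by
  classical
  let _ : Fintype (GG Q ⧸ H') := Fintype.ofFinite _
  have hnt : Nontrivial (GG Q ⧸ H') := QuotientGroup.nontrivial_iff.mpr hH'
  have hmain := min_degree_two (Ω := GG Q ⧸ H') h2 hel h h' hd hd' hNs hA hB hC hT
  rwa [Subgroup.index_eq_card, Nat.card_eq_fintype_card]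

/-! ### The stabilizer of a vector -/

/-- A hyperbolic pair perpendicular to a nonsingular vector. -/
theorem exists_HP_perp {v : ι → F} (hv : Q v ≠ 0) : ∃ s s', HP Q s s' ∧ v ∈ WW Q s s' := by
  have hdim := OC.dim (Q := Q)
  obtain ⟨s, hs0, hQs, hs⟩ := exists_sing_orth_vec (Q := Q) ![v] (by simp; omega)
  have hvs : 𝔣 v s = 0 := hs 0
  have hnot : s ∉ Submodule.span F (Set.range ![v]) := by
    intro hm
    have hr : Set.range ![v] = {v} := by
      ext z
      simp [eq_comm]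
    rw [hr] at hm
    obtain ⟨t, rfl⟩ := Submodule.mem_span_singleton.1 hm
    rw [Q_smul] at hQs
    have h1 : t = 0 := by
      by_contra ht
      exact (mul_ne_zero (mul_ne_zero ht ht) hv) hQs
    apply hs0
    rw [h1, zero_smul]
  obtain ⟨y, hy1, hy2⟩ := exists_sep (Q := Q) hnot
  have hvy : 𝔣 v y = 0 := hy2 v (Submodule.subset_span ⟨0, rfl⟩)
  have hss := polar_zero_self hQs
  refine ⟨s, y - Q y • s, ⟨hQs, ?_, ?_⟩, mem_WW.2 ⟨?_, ?_⟩⟩
  · rw [Q_sub, Q_smul, hQs, polar_smul_right', polar_symm y s, hy1]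
    ring
  · rw [polar_sub_right, polar_smul_right', hss, hy1]
    ring
  · rw [polar_symm]
    exact hvs
  · rw [polar_symm, polar_sub_right, polar_smul_right', hvs, hvy]
    ring

/-- The group is transitive on vectors with a given nonzero value of the form. -/
theorem exists_omega_val {v w : ι → F} (hv : Q v ≠ 0) (hvw : Q v = Q w) : ∃ g : GG Q, act g.1 v = w := by
  have hw : Q w ≠ 0 := by rwa [← hvw]
  have hv0 : v ≠ 0 := by
    rintro rfl
    simp at hv
  have hw0 : w ≠ 0 := by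
    rintro rfl
    simp at hw
  obtain ⟨s, s', h1, h2⟩ := exists_HP_perp hv
  obtain ⟨r, r', h3, h4⟩ := exists_HP_perp hw
  obtain ⟨g, -, -, hg⟩ := exists_omega_triple h1 h3 h2 h4 hv0 hw0 hvw
  exact ⟨g, hg⟩

/-- The action on the vectors with a given value of the form. -/
@[instance_reducible] noncomputable def actVal (κ : F) : MulAction (GG Q) {v : ι → F // Q v = κ} where
  smul g v := ⟨act g.1 v.1, by rw [Q_act]; exact v.2⟩
  one_smul v := by
    apply Subtype.ext
    exact act_GG_one _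
  mul_smul g g' v := by
    apply Subtype.ext
    exact act_GG_mul _ _ _

/-- The stabilizer of a vector. -/
def vecStab (Q : QuadraticForm F (ι → F)) [OC Q] (v : ι → F) : Subgroup (GG Q) where
  carrier := {g | act g.1 v = v}
  mul_mem' := by
    intro a b ha hb
    show act (a * b).1 v = v
    rw [act_GG_mul, show act b.1 v = v from hb, show act a.1 v = v from ha]
  one_mem' := act_GG_one v
  inv_mem' := by
    intro a ha
    show act (a⁻¹).1 v = v
    have := act_GG_inv_act a v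
    rwa [show act a.1 v = v from ha] at this

/-- The index of the stabilizer of a vector. -/
theorem index_vecStab {v : ι → F} (hv : Q v ≠ 0) : (vecStab Q v).index = cnt (⇑Q) (Q v) := by
  classical
  let _ := actVal (Q := Q) (Q v)
  have htr : MulAction.IsPretransitive (GG Q) {w : ι → F // Q w = Q v} := by
    refine ⟨fun x y => ?_⟩
    have hx : Q x.1 ≠ 0 := by rw [x.2]; exact hv
    obtain ⟨g, hg⟩ := exists_omega_val (Q := Q) hx (x.2.trans y.2.symm)
    exact ⟨g, Subtype.ext hg⟩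
  set v₀ : {w : ι → F // Q w = Q v} := ⟨v, rfl⟩ with hv₀
  have hS : vecStab Q v = MulAction.stabilizer (GG Q) v₀ := by
    ext g
    rw [MulAction.mem_stabilizer_iff]
    constructor
    · intro hg
      exact Subtype.ext hg
    · intro hg
      exact congrArg Subtype.val hg
  rw [hS, MulAction.index_stabilizer_of_transitive, Nat.card_eq_fintype_card, Fintype.card_subtype, cnt]

/-- Over the field with two elements the center lies in the stabilizer of a vector. -/
theorem center_le_vecStab (hel : ∀ x : F, x = 0 ∨ x = 1) {v : ι → F} (hv0 : v ≠ 0) : Subgroup.center (GG Q) ≤ vecStab Q v := by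
  intro z hz
  obtain ⟨l, hl⟩ := Cfsg.Agent.Lib.Classical.Orth.Center.scalar_of_central (OC.nd (Q := Q)) (OC.five (Q := Q)) hz
  have h1 := hl v
  show act z.1 v = v
  rcases hel l with rfl | rfl
  · exfalso
    rw [zero_smul] at h1
    apply hv0
    have := act_GG_inv_act z v
    rw [show act z.1 v = 0 from h1] at this
    rw [← this]
    simp
  · rw [one_smul] at h1
    exact h1

/-- The subgroup of the projective group from a vector. -/
theorem exists_index_vec (hel : ∀ x : F, x = 0 ∨ x = 1) {Q₀ : (ι → F) → F} (hQ : ⇑Q = Q₀) {v : ι → F} (hv : Q v ≠ 0) :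
    ∃ H : Subgroup (Cfsg.POmega F Q₀), H.index = cnt (⇑Q) (Q v) := by
  subst hQ
  have hv0 : v ≠ 0 := by
    rintro rfl
    simp at hv
  refine ⟨(vecStab Q v).map (QuotientGroup.mk' (Subgroup.center (GG Q))), ?_⟩
  rw [Subgroup.index_map_eq _ (QuotientGroup.mk'_surjective _) (by
    rw [QuotientGroup.ker_mk']
    exact center_le_vecStab hel hv0), index_vecStab hv]

/-- Singular vectors in the class of a singular vector. -/
theorem singW_le_clsW {s : WW Q c c'} (hs : Q s.1 = 0) : (singW Q c c').card ≤ (clsW s).card := by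
  apply Finset.card_le_card
  intro x hx
  obtain ⟨h1, h2⟩ := mem_singW.1 hx
  exact mem_clsW.2 ⟨h1, 1, one_ne_zero, by rw [hs, h2, mul_zero]⟩

end Cfsg.Agent.Lib.MinIndex.OS5
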