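import Mathlib
import Cfsg.Agent.Lib.MinIndex.OS5
import Cfsg.Agent.Lib.MinIndex.OPlus

/-!
# The minimal index of a proper subgroup of the orthogonal groups of plus type over the field with two elements
-/

set_option autoImplicit false
set_option linter.unusedSectionVars false
set_option linter.unusedSimpArgs false
set_option linter.unusedVariables false

namespace Cfsg.Agent.Lib.MinIndex.OS6

open Matrix QuadraticMap Module
open Cfsg.Agent.Lib.Classical.Orth.Basic
open Cfsg.Agent.Lib.Classical.Orth.Models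
open Cfsg.Agent.Lib.Classical.Witt.Hyp
open Cfsg.Agent.Lib.Classical.Witt.TS
open Cfsg.Agent.Lib.MinIndex.OBase Cfsg.Agent.Lib.MinIndex.OVec Cfsg.Agent.Lib.MinIndex.OGood
open Cfsg.Agent.Lib.MinIndex.OStep2 Cfsg.Agent.Lib.MinIndex.OFix Cfsg.Agent.Lib.MinIndex.OFix2
open Cfsg.Agent.Lib.MinIndex.OCount Cfsg.Agent.Lib.MinIndex.OFinal Cfsg.Agent.Lib.MinIndex.OFam
open Cfsg.Agent.Lib.MinIndex.OPlus Cfsg.Agent.Lib.MinIndex.OS2 Cfsg.Agent.Lib.MinIndex.OS3
open Cfsg.Agent.Lib.MinIndex.OS4 Cfsg.Agent.Lib.MinIndex.OS5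

/-- The numerical inequality for totally singular subspaces. -/
theorem two_a3 {x u z z₂ : ℕ} (hu : 2 ≤ u) (hx : x = 2 * u) (hz : z + 1 = 2 * x ^ 2 + x)
    (hz₂ : z₂ + 1 = x * u + u) :
    (4 * x - 1) * (2 * x - 1) * (x - 1) ≤ z * z₂ := by
  subst hx
  obtain ⟨a, rfl⟩ : ∃ a, u = a + 2 := ⟨u - 2, by omega⟩
  have e1 : 4 * (2 * (a + 2)) - 1 = 8 * a + 15 := by omega
  have e2 : 2 * (2 * (a + 2)) - 1 = 4 * a + 7 := by omega
  have e3 : 2 * (a + 2) - 1 = 2 * a + 3 := by omega
  rw [e1, e2, e3]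
  have hz' : z = (4 * a + 7) * (2 * a + 5) := by
    have : z + 1 = (4 * a + 7) * (2 * a + 5) + 1 := by
      rw [hz]
      ring_nf
    omega
  have hz₂' : z₂ = (2 * a + 3) * (a + 3) := by
    have : z₂ + 1 = (2 * a + 3) * (a + 3) + 1 := by
      rw [hz₂]
      ring_nf
    omega
  subst hz' hz₂'
  have h1 : 8 * a + 15 ≤ (2 * a + 5) * (a + 3) := by
    nlinarith
  calc (8 * a + 15) * (4 * a + 7) * (2 * a + 3) ≤ ((2 * a + 5) * (a + 3)) * (4 * a + 7) * (2 * a + 3) :=
        Nat.mul_le_mul_right _ (Nat.mul_le_mul_right _ h1)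
    _ = _ := by ring

variable {F : Type*} [Field F] [Fintype F]

/-- The field with two elements. -/
theorem el_two (hF : Fintype.card F = 2) (x : F) : x = 0 ∨ x = 1 := by
  classical
  by_contra hcon
  push Not at hcon
  have h1 : ({0, 1, x} : Finset F).card = 3 := by
    rw [Finset.card_insert_of_notMem, Finset.card_insert_of_notMem, Finset.card_singleton]
    · simpa using hcon.2.symm
    · simp only [Finset.mem_insert, Finset.mem_singleton, not_or]
      exact ⟨zero_ne_one, hcon.1.symm⟩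
  have h2 := Finset.card_le_univ ({0, 1, x} : Finset F)
  omega

theorem two_zero (hF : Fintype.card F = 2) : (2 : F) = 0 := by
  rcases el_two hF (2 : F) with e | e
  · exact e
  · exfalso
    have : (1 : F) = 0 := by linear_combination e
    exact one_ne_zero this

/-- **The minimal index for the plus type over the field with two elements.** -/
theorem plus_two (hF : Fintype.card F = 2) (m : ℕ) (hm : 4 ≤ m) :
    (∀ H : Subgroup (Cfsg.POmega F (Cfsg.quadFormPlus m F)), H ≠ ⊤ → 2 ^ (m - 1) * (2 ^ m - 1) ≤ H.index) ∧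
      ∃ H : Subgroup (Cfsg.POmega F (Cfsg.quadFormPlus m F)), H.index = 2 ^ (m - 1) * (2 ^ m - 1) := by
  classical
  have hel := el_two hF
  have h2 := two_zero hF
  obtain ⟨k, rfl⟩ : ∃ k, m = k + 2 := ⟨m - 2, by omega⟩
  haveI := oc_plus (F := F) (k + 2) hm
  set Q := plusForm (k + 2) F with hQ
  obtain ⟨c, c', h⟩ := exists_HP Q
  obtain ⟨d, d', h', hd, hd'⟩ := exists_HP_W h
  obtain ⟨hR1, hR2, hR3, hR4⟩ := rels h h' hd hd'
  have hF' : Fintype.card F = 1 + 1 := hF
  have hcardι : Fintype.card (Fin (k + 2) ⊕ Fin (k + 2)) = 2 * (k + 2) := by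
    simp only [Fintype.card_sum, Fintype.card_fin]
    omega
  rw [hF'] at hR1 hR2 hR3 hR4
  rw [hcardι] at hR1
  simp only [Nat.add_sub_cancel] at hR3 hR4
  set x := (1 + 1) ^ k with hx
  have hxq : (1 + 1) ^ 2 ≤ x := by
    rw [hx]
    exact Nat.pow_le_pow_right (by omega) (by omega)
  have hx4 : 4 ≤ x := by
    simpa using hxq
  have hxpos : 0 < x := by omega
  have hcoe : (⇑Q) = Cfsg.quadFormPlus (k + 2) F := coe_plusForm (k + 2) F
  have hp2 : (1 + 1) ^ (2 * (k + 2)) = (1 + 1) ^ 4 * x ^ 2 := by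
    rw [hx]
    ring
  have hT₀ := cntPlus_zero hF' (k + 2)
  rw [← hcoe, Nat.add_sub_cancel, hp2] at hT₀
  have hp3 : (1 + 1) ^ (k + 2) = (1 + 1) ^ 2 * x := by
    rw [hx]
    ring
  rw [hp3] at hT₀
  obtain ⟨a1, a2, a3, a4, a5⟩ := plus_alg (y := 1) (x := x) (w₂ := Nat.card (WW2 Q c c' d d')) (W₀ := Nat.card (WW Q c c'))
    (T₀ := cnt (⇑Q) 0) (C₀ := cntU Q (WW Q c c') 0) (D₀ := cntU Q (WW2 Q c c' d d') 0) (by rw [hR1, hp2]) hR2
    (by rw [hT₀]; ring) (hR3 0) (hR4 0)
  have hQnd : PolarNondeg Q := OC.nd'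
  -- the values on the complement
  obtain ⟨LB, hLB⟩ : ∃ LB, LB + x = (1 + 1) * x ^ 2 := by
    have h1 : x ≤ (1 + 1) * x ^ 2 :=
      (Nat.le_self_pow (by norm_num) x).trans (Nat.le_mul_of_pos_left _ (Nat.succ_pos 1))
    exact ⟨_, Nat.sub_add_cancel h1⟩
  have hLb : ∀ κ : F, κ ≠ 0 → LB ≤ cntU Q (WW Q c c') κ := by
    intro κ hκ
    have h1 := cntPlus_ne hF' (k + 2) hκ
    rw [← hcoe, hp2, hp3] at h1
    have h2 := hR3 κ
    rw [a2] at h2
    have h3 := plus_alg2 h1 h2
    omega
  -- the nonzero singular vectors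
  have hz1 := card_singOf (Q := Q) (WW Q c c')
  rw [a4] at hz1
  have hz2 := card_singOf (Q := Q) (WW2 Q c c' d d')
  have hz3 := card_singOf (Q := Q) (⊤ : Submodule F (Fin (k + 2) ⊕ Fin (k + 2) → F))
  rw [cntU_top, a3] at hz3
  have hzW := card_singW (Q := Q) c c'
  set z := (singOf Q (WW Q c c')).card with hz
  set z₂ := (singOf Q (WW2 Q c c' d d')).card with hz₂
  -- the degree
  set N := 2 ^ (k + 2 - 1) * (2 ^ (k + 2) - 1) with hN
  have hp5 : (2 : ℕ) ^ (k + 2 - 1) = 2 * x := by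
    rw [hx, Nat.add_sub_assoc (by norm_num)]
    ring
  have hp6 : (2 : ℕ) ^ (k + 2) = 4 * x := by
    rw [hx]
    ring
  have hN1 : N + 2 * x = 8 * x ^ 2 := by
    rw [hN, hp5, hp6]
    obtain ⟨A, hA⟩ : ∃ A, 4 * x = A + 1 := ⟨4 * x - 1, by omega⟩
    rw [hA, Nat.add_sub_cancel]
    have e : 8 * x ^ 2 = 2 * x * (4 * x) := by ring
    rw [e, hA]
    ring
  have hsq : 4 * x ≤ x ^ 2 := by
    rw [pow_two]
    exact Nat.mul_le_mul_right _ hx4
  have hW : Fintype.card (WW Q c c') = 4 * x ^ 2 := by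
    rw [← Nat.card_eq_fintype_card, a2]
    norm_num
  have hcls1 : ∀ u : WW Q c c', Q u.1 ≠ 0 → LB ≤ (clsW u).card := by
    intro u hu
    have := clsW_ge u hu hLb {1} (by
      intro s hs
      rw [Finset.mem_singleton] at hs
      exact ⟨1, one_ne_zero, by rw [hs, one_mul]⟩)
    simpa using this
  have hLB' : LB + x = 2 * x ^ 2 := hLB
  have hz1' : z + 1 = 2 * x ^ 2 + x := by
    rw [hz1]
    ring
  have hzW' : (singW Q c c').card = z := hzW
  have hC₀ : cntU Q (WW Q c c') 0 = 2 * x ^ 2 + x := by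
    rw [a4]
    ring
  have hC : TNum2 Q c c' N := by
    refine ⟨?_, ?_, ?_, ?_, ?_⟩
    · intro s hs
      by_cases hQs : Q s.1 = 0
      · have := singW_le_clsW hQs
        omega
      · have := hcls1 s hQs
        omega
    · refine ⟨2 + 2 * k, ?_⟩
      rw [hW, hx]
      ring
    · rw [hW]
      omega
    · intro u hu
      have := hcls1 u hu
      omega
    · intro κ
      rw [hW]
      by_cases hκ : κ = 0
      · rw [hκ, hC₀]
        omega
      · have := hLb κ hκ
        omega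
  have hB : SNum Q c c' N := by
    refine ⟨?_, ?_, Or.inl ?_⟩
    · rw [hW]
      omega
    · intro u hu
      have := hcls1 u hu
      rw [hF, hW]
      simp only [show (2 : ℕ) - 1 = 1 from rfl, one_mul]
      omega
    · rw [hF, hW, hzW']
      simp only [show (2 : ℕ) - 1 = 1 from rfl, one_mul]
      omega
  have hT : TSNum h N := by
    by_cases hk : k = 0 ∨ k = 1 ∨ k = 2
    · right
      have hk2 : k = 2 := by omega
      have hx16 : x = 4 := by rw [hx, hk2]; norm_num
      refine ⟨8, by norm_num, ?_, ?_⟩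
      · intro a _ ha
        rw [hW, hx16] at ha
        by_contra hcon
        push Not at hcon
        have h9 : 9 * 9 ≤ a * a := Nat.mul_le_mul hcon hcon
        norm_num at ha h9
        omega
      · rw [hF, hzW']
        rw [hx16] at hN1 hz1'
        have e1 : N = 120 := by omega
        have e2 : z = 35 := by omega
        rw [e1, e2]
    · left
      refine ⟨?_, ?_⟩
      · rw [hF, hzW']
        omega
      · intro u y hu hy hQu hQy huy hu0 hyu
        exact exists_imgA_two h h2 hel (by rw [hcardι]; omega) hu hy hQu hQy huy hu0 hyu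
  have hA' : ANum Q c c' d d' (singOf Q ⊤).card := by
    refine ⟨?_, ?_, ?_⟩
    · rw [hF]
      simp
    · rw [hF]
      norm_num
      rw [← hz] 
      omega
    · intro X hX hX3
      set r := finrank F X with hr
      have hr1 : 2 * r ≤ 2 * (k + 2) := by
        have h1 := IsTS.two_mul_finrank_le hQnd (U := X) hX
        rwa [Module.finrank_fintype_fun_eq_card, hcardι] at h1
      rw [hF]
      simp only [Nat.add_one_sub_one, one_mul, show 2 - 1 = 1 from rfl]
      have h2' := three_le (q := 2) (r := r) (R := k + 2) (by omega) (by omega)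
      refine h2'.trans ?_
      obtain ⟨j, rfl⟩ : ∃ j, k = j + 1 := ⟨k - 1, by omega⟩
      set u := 2 ^ j with hu
      have hxu : x = 2 * u := by
        rw [hx, hu]
        ring
      have hu1 : 2 ≤ u := by
        rw [hu]
        calc 2 = 2 ^ 1 := (pow_one _).symm
          _ ≤ 2 ^ j := Nat.pow_le_pow_right (by omega) (by omega)
      have hz₂1 : z₂ + 1 = x * u + u := by
        rw [hz2]
        apply Nat.eq_of_mul_eq_mul_left (show 0 < 1 + 1 by omega)
        rw [a5, hxu]
        ring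
      have hk1 : j + 1 + 2 - 1 = j + 2 := by omega
      have hk2 : j + 1 + 2 - 2 = j + 1 := by omega
      rw [hk1, hk2]
      have e1 : (2 : ℕ) ^ (j + 1 + 2) = 4 * x := hp6
      have e2 : (2 : ℕ) ^ (j + 2) = 2 * x := by
        rw [hx]
        ring
      have e3 : (2 : ℕ) ^ (j + 1) = x := by
        rw [hx]
      rw [e1, e2, e3]
      exact two_a3 hu1 hxu hz1' hz₂1
  have hNs : N ≤ (singOf Q ⊤).card := by
    omega
  constructor
  · exact lower_index hcoe (fun H' hH' => lower_two h2 hel h h' hd hd' hNs hA' hB hC hT H' hH')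
  · have hv : Q (d + d') ≠ 0 := by
      rw [Q_add, h'.hc, h'.hc', h'.hp]
      simp
    obtain ⟨H, hH⟩ := exists_index_vec hel hcoe hv
    refine ⟨H, hH.trans ?_⟩
    have h1 := cntPlus_ne hF' (k + 2) hv
    rw [← hcoe, hp2, hp3] at h1
    norm_num at h1
    omega

end Cfsg.Agent.Lib.MinIndex.OS6
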