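import Mathlib
import Cfsg.Agent.Lib.MinIndex.OS6

/-!
# The minimal index of a proper subgroup of the orthogonal groups of minus type: the numbers
-/

set_option autoImplicit false
set_option linter.unusedSectionVars false
set_option linter.unusedSimpArgs false
set_option linter.unusedVariables false

namespace Cfsg.Agent.Lib.MinIndex.OS7

open Matrix QuadraticMap Module
open Cfsg.Agent.Lib.Classical.Orth.Basic
open Cfsg.Agent.Lib.Classical.Orth.Models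
open Cfsg.Agent.Lib.Classical.Witt.Hyp
open Cfsg.Agent.Lib.Classical.Witt.TS
open Cfsg.Agent.Lib.MinIndex.OBase Cfsg.Agent.Lib.MinIndex.OVec Cfsg.Agent.Lib.MinIndex.OGood
open Cfsg.Agent.Lib.MinIndex.OStep2 Cfsg.Agent.Lib.MinIndex.OFix Cfsg.Agent.Lib.MinIndex.OFix2
open Cfsg.Agent.Lib.MinIndex.OCount Cfsg.Agent.Lib.MinIndex.OFinal Cfsg.Agent.Lib.MinIndex.OFam
open Cfsg.Agent.Lib.MinIndex.OPlus Cfsg.Agent.Lib.MinIndex.OS2 Cfsg.Agent.Lib.MinIndex.OS3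
open Cfsg.Agent.Lib.MinIndex.OS4 Cfsg.Agent.Lib.MinIndex.OS5 Cfsg.Agent.Lib.MinIndex.OS6

/-- The algebra of the numbers. -/
theorem minus_alg {y x w₂ W₀ T₀ C₀ D₀ : ℕ} (hW₁ : (y + 1) * (y + 1) * W₀ = (y + 1) ^ 4 * x ^ 2)
    (hW₂ : W₀ = (y + 1) * (y + 1) * w₂) (hT : (y + 1) * T₀ + y * (y + 1) ^ 2 * x = (y + 1) ^ 4 * x ^ 2)
    (hT₂ : T₀ = y * W₀ + (y + 1) * C₀) (hC : C₀ = y * w₂ + (y + 1) * D₀) :
    w₂ = x ^ 2 ∧ W₀ = (y + 1) ^ 2 * x ^ 2 ∧ T₀ + y * (y + 1) * x = (y + 1) ^ 3 * x ^ 2 ∧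
      C₀ + y * x = (y + 1) * x ^ 2 ∧ (y + 1) * D₀ + y * x = x ^ 2 := by
  have hpos : 0 < y + 1 := Nat.succ_pos y
  have h1 : W₀ = (y + 1) ^ 2 * x ^ 2 := by
    apply Nat.eq_of_mul_eq_mul_left (Nat.mul_pos hpos hpos)
    rw [hW₁]
    ring
  have h2 : w₂ = x ^ 2 := by
    apply Nat.eq_of_mul_eq_mul_left (Nat.mul_pos hpos hpos)
    rw [← hW₂, h1]
    ring
  have h3 : T₀ + y * (y + 1) * x = (y + 1) ^ 3 * x ^ 2 := by
    apply Nat.eq_of_mul_eq_mul_left hpos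
    calc (y + 1) * (T₀ + y * (y + 1) * x) = (y + 1) * T₀ + y * (y + 1) ^ 2 * x := by ring
      _ = (y + 1) ^ 4 * x ^ 2 := hT
      _ = _ := by ring
  have h4 : C₀ + y * x = (y + 1) * x ^ 2 := by
    apply Nat.eq_of_mul_eq_mul_left hpos
    have e1 : y * ((y + 1) ^ 2 * x ^ 2) + (y + 1) * (C₀ + y * x) = (y + 1) ^ 3 * x ^ 2 := by
      rw [← h3, hT₂, h1]
      ring
    have e2 : (y + 1) ^ 3 * x ^ 2 = y * ((y + 1) ^ 2 * x ^ 2) + (y + 1) * ((y + 1) * x ^ 2) := by ring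
    omega
  have h5 : (y + 1) * D₀ + y * x = x ^ 2 := by
    have e : (y + 1) * x ^ 2 = y * x ^ 2 + x ^ 2 := by ring
    rw [hC, h2, e] at h4
    omega
  exact ⟨h2, h1, h3, h4, h5⟩

/-- The lower bound for the number of vectors with a value. -/
theorem minus_alg2 {y x T C : ℕ} (hT : (y + 1) ^ 3 * x ^ 2 ≤ T + (y + 1) ^ 2 * x)
    (hT₂ : T = y * ((y + 1) ^ 2 * x ^ 2) + (y + 1) * C) : (y + 1) * x ^ 2 ≤ C + (y + 1) * x := by
  have hpos : 0 < y + 1 := Nat.succ_pos y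
  apply Nat.le_of_mul_le_mul_left _ hpos
  have e1 : (y + 1) ^ 3 * x ^ 2 = y * ((y + 1) ^ 2 * x ^ 2) + (y + 1) * ((y + 1) * x ^ 2) := by ring
  have e2 : (y + 1) * (C + (y + 1) * x) = (y + 1) * C + (y + 1) ^ 2 * x := by ring
  rw [e2]
  rw [hT₂, e1] at hT
  omega

/-- The numerical inequalities for large fields. -/
theorem minus_nums {y x N z LB W Tc A : ℕ} (hy : 3 ≤ y) (hx : (y + 1) ^ 2 ≤ x)
    (hz : z + 1 + y * x = (y + 1) * x ^ 2) (hLB : LB + (y + 1) * x = (y + 1) * x ^ 2) (hW : W = (y + 1) ^ 2 * x ^ 2)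
    (hN : y * N + 1 + y * (y + 1) * x = (y + 1) ^ 3 * x ^ 2)
    (hTc : y ≤ 2 * Tc) (hA : 17 * (y + 1) ^ 2 ≤ 16 * (y * A)) :
    N ≤ A * LB ∧ N ≤ W + Tc * LB ∧ N ≤ (y + 1 + 2) * z ∧ N ≤ (y + 1 + 1) * z + Tc * LB ∧ N ≤ 2 * W := by
  obtain ⟨a, rfl⟩ : ∃ a, y = a + 3 := ⟨y - 3, by omega⟩
  obtain ⟨b, rfl⟩ : ∃ b, x = a ^ 2 + 8 * a + 16 + b := by
    refine ⟨x - (a ^ 2 + 8 * a + 16), ?_⟩
    have : (a + 3 + 1) ^ 2 = a ^ 2 + 8 * a + 16 := by ring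
    omega
  have hz' : z = (a + 4) * (a ^ 2 + 8 * a + 16 + b) * (a ^ 2 + 8 * a + 15 + b) + (a ^ 2 + 8 * a + 15 + b) := by
    have : z + 1 + (a + 3) * (a ^ 2 + 8 * a + 16 + b) = ((a + 4) * (a ^ 2 + 8 * a + 16 + b) * (a ^ 2 + 8 * a + 15 + b) +
        (a ^ 2 + 8 * a + 15 + b)) + 1 + (a + 3) * (a ^ 2 + 8 * a + 16 + b) := by
      rw [hz]
      ring
    omega
  have hLB' : LB = (a + 4) * (a ^ 2 + 8 * a + 16 + b) * (a ^ 2 + 8 * a + 15 + b) := by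
    have : LB + (a + 3 + 1) * (a ^ 2 + 8 * a + 16 + b) = (a + 4) * (a ^ 2 + 8 * a + 16 + b) * (a ^ 2 + 8 * a + 15 + b) +
        (a + 3 + 1) * (a ^ 2 + 8 * a + 16 + b) := by
      rw [hLB]
      ring
    omega
  subst hz' hLB' hW
  have hypos : 0 < a + 3 := by omega
  have key : ∀ R : ℕ, (a + 3 + 1) ^ 3 * (a ^ 2 + 8 * a + 16 + b) ^ 2 ≤ (a + 3) * R + 1 + (a + 3) * (a + 3 + 1) * (a ^ 2 + 8 * a + 16 + b) → N ≤ R := by
    intro R hR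
    rw [← hN] at hR
    exact Nat.le_of_mul_le_mul_left (by omega) hypos
  set LB := (a + 4) * (a ^ 2 + 8 * a + 16 + b) * (a ^ 2 + 8 * a + 15 + b) with hLBd
  have hT : (a + 3) * (a + 3) * LB ≤ 2 * ((a + 3) * Tc) * LB := by
    apply Nat.mul_le_mul_right
    calc (a + 3) * (a + 3) ≤ (a + 3) * (2 * Tc) := Nat.mul_le_mul_left _ hTc
      _ = _ := by ring
  refine ⟨key _ ?_, key _ ?_, key _ ?_, key _ ?_, key _ ?_⟩
  · have h1 : 16 * ((a + 3 + 1) ^ 3 * (a ^ 2 + 8 * a + 16 + b) ^ 2) ≤ 17 * (a + 3 + 1) ^ 2 * LB + 16 +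
        16 * ((a + 3) * (a + 3 + 1) * (a ^ 2 + 8 * a + 16 + b)) := by
      rw [hLBd]
      zify
      rw [← sub_nonneg]
      ring_nf
      positivity
    have h2 := Nat.mul_le_mul_right LB hA
    have e : 16 * ((a + 3) * A) * LB = 16 * ((a + 3) * (A * LB)) := by ring
    rw [e] at h2
    omega
  · have h1 : 2 * ((a + 3 + 1) ^ 3 * (a ^ 2 + 8 * a + 16 + b) ^ 2) ≤
        2 * ((a + 3) * ((a + 3 + 1) ^ 2 * (a ^ 2 + 8 * a + 16 + b) ^ 2)) + (a + 3) * (a + 3) * LB + 2 +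
        2 * ((a + 3) * (a + 3 + 1) * (a ^ 2 + 8 * a + 16 + b)) := by
      rw [hLBd]
      zify
      rw [← sub_nonneg]
      ring_nf
      positivity
    have e : (a + 3) * ((a + 3 + 1) ^ 2 * (a ^ 2 + 8 * a + 16 + b) ^ 2 + Tc * LB) =
      (a + 3) * ((a + 3 + 1) ^ 2 * (a ^ 2 + 8 * a + 16 + b) ^ 2) + (a + 3) * Tc * LB := by ring
    rw [e]
    have e2 : 2 * ((a + 3) * Tc) * LB = 2 * ((a + 3) * Tc * LB) := by ring
    rw [e2] at hT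
    omega
  · rw [hLBd]
    zify
    rw [← sub_nonneg]
    ring_nf
    positivity
  · have h1 : 2 * ((a + 3 + 1) ^ 3 * (a ^ 2 + 8 * a + 16 + b) ^ 2) ≤
        2 * ((a + 3) * ((a + 3 + 1 + 1) * (LB + (a ^ 2 + 8 * a + 15 + b)))) +
        (a + 3) * (a + 3) * LB + 2 + 2 * ((a + 3) * (a + 3 + 1) * (a ^ 2 + 8 * a + 16 + b)) := by
      rw [hLBd]
      zify
      rw [← sub_nonneg]
      ring_nf
      positivity
    have e : (a + 3) * ((a + 3 + 1 + 1) * (LB + (a ^ 2 + 8 * a + 15 + b)) + Tc * LB) =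
      (a + 3) * ((a + 3 + 1 + 1) * (LB + (a ^ 2 + 8 * a + 15 + b))) + (a + 3) * Tc * LB := by ring
    rw [e]
    have e2 : 2 * ((a + 3) * Tc) * LB = 2 * ((a + 3) * Tc * LB) := by ring
    rw [e2] at hT
    omega
  · zify
    rw [← sub_nonneg]
    ring_nf
    positivity

/-- The numerical inequality for totally singular subspaces. -/
theorem minus_a3 {y x u z z₂ : ℕ} (hy : 1 ≤ y) (hu : 1 ≤ u) (hx : x = (y + 1) * u) (hz : z + 1 + y * x = (y + 1) * x ^ 2)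
    (hz₂ : z₂ + 1 + y * u = x * u) :
    ((y + 1) * x - 1) * (x - 1) * (u - 1) ≤ y * z * z₂ := by
  subst hx
  obtain ⟨v, rfl⟩ : ∃ v, u = v + 1 := ⟨u - 1, by omega⟩
  obtain ⟨a, rfl⟩ : ∃ a, y = a + 1 := ⟨y - 1, by omega⟩
  set x := (a + 1 + 1) * (v + 1) with hx
  have hx1 : 1 ≤ x := Nat.mul_pos (by omega) (by omega)
  obtain ⟨x₁, hx₁⟩ : ∃ x₁, x = x₁ + 1 := ⟨x - 1, by omega⟩
  have hz' : z = ((a + 2) * x + 1) * x₁ := by
    have : z + 1 + (a + 1) * x = ((a + 2) * x + 1) * x₁ + 1 + (a + 1) * x := by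
      rw [hz, hx₁]
      ring
    omega
  have hz₂' : z₂ = (x + 1) * v := by
    have hx2 : x = (a + 2) * (v + 1) := by
      rw [hx]
    have : z₂ + 1 + (a + 1) * (v + 1) = (x + 1) * v + 1 + (a + 1) * (v + 1) := by
      rw [hz₂]
      rw [hx2]
      ring
    omega
  rw [hz', hz₂', hx₁]
  simp only [Nat.add_sub_cancel]
  have h1 : (a + 1 + 1) * (x₁ + 1) - 1 ≤ (a + 1) * (((a + 2) * (x₁ + 1) + 1) * (x₁ + 1 + 1)) := by
    apply Nat.sub_le_of_le_add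
    zify
    rw [← sub_nonneg]
    ring_nf
    positivity
  calc ((a + 1 + 1) * (x₁ + 1) - 1) * x₁ * v ≤ ((a + 1) * (((a + 2) * (x₁ + 1) + 1) * (x₁ + 1 + 1))) * x₁ * v :=
        Nat.mul_le_mul_right _ (Nat.mul_le_mul_right _ h1)
    _ = _ := by ring

end Cfsg.Agent.Lib.MinIndex.OS7
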