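import Mathlib
import Cfsg.Agent.Lib.MinIndex.OS7
import Cfsg.Agent.Lib.Classical.Witt.Index

/-!
# The minimal index of a proper subgroup of the orthogonal groups of minus type
-/

set_option autoImplicit false
set_option linter.unusedSectionVars false
set_option linter.unusedSimpArgs false
set_option linter.unusedVariables false

namespace Cfsg.Agent.Lib.MinIndex.OS8

open Matrix QuadraticMap Module
open Cfsg.Agent.Lib.Classical.Orth.Basic
open Cfsg.Agent.Lib.Classical.Orth.Models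
open Cfsg.Agent.Lib.Classical.Witt.Hyp
open Cfsg.Agent.Lib.Classical.Witt.TS
open Cfsg.Agent.Lib.MinIndex.OBase Cfsg.Agent.Lib.MinIndex.OVec Cfsg.Agent.Lib.MinIndex.OGood
open Cfsg.Agent.Lib.MinIndex.OStep2 Cfsg.Agent.Lib.MinIndex.OFix Cfsg.Agent.Lib.MinIndex.OFix2
open Cfsg.Agent.Lib.MinIndex.OCount Cfsg.Agent.Lib.MinIndex.OFinal Cfsg.Agent.Lib.MinIndex.OFam
open Cfsg.Agent.Lib.MinIndex.OPlus Cfsg.Agent.Lib.MinIndex.OS2 Cfsg.Agent.Lib.MinIndex.OS3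
open Cfsg.Agent.Lib.MinIndex.OS4 Cfsg.Agent.Lib.MinIndex.OS5 Cfsg.Agent.Lib.MinIndex.OS6 Cfsg.Agent.Lib.MinIndex.OS7

variable {F : Type*} [Field F] [Fintype F]

/-- The form as an instance of the setting. -/
theorem oc_minus (m : ℕ) (hm : 3 ≤ m) {a b : F} (hab : ∀ z₁ z₂ : F, z₁ ^ 2 + a * z₁ * z₂ + b * z₂ ^ 2 = 0 → z₁ = 0 ∧ z₂ = 0) :
    OC (minusForm m F a b) :=
  ⟨minusForm_nondegenerate m a b hab, by
    simp only [Fintype.card_sum, Fintype.card_fin]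
    omega⟩

variable {y k : ℕ} {a b : F} [OC (minusForm (k + 2) F a b)]

/-- The numbers of vectors for the minus form. -/
theorem minus_data (hF : Fintype.card F = y + 1) (hab : ∀ z₁ z₂ : F, z₁ ^ 2 + a * z₁ * z₂ + b * z₂ ^ 2 = 0 → z₁ = 0 ∧ z₂ = 0)
    {c c' d d' : (Fin (k + 2) ⊕ Fin (k + 2)) ⊕ Fin 2 → F} (h : HP (minusForm (k + 2) F a b) c c') (h' : HP (minusForm (k + 2) F a b) d d')
    (hd : d ∈ WW (minusForm (k + 2) F a b) c c') (hd' : d' ∈ WW (minusForm (k + 2) F a b) c c') :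
    Nat.card (WW (minusForm (k + 2) F a b) c c') = (y + 1) ^ 2 * ((y + 1) ^ (k + 1)) ^ 2 ∧
    cnt (⇑(minusForm (k + 2) F a b)) 0 + y * (y + 1) * (y + 1) ^ (k + 1) = (y + 1) ^ 3 * ((y + 1) ^ (k + 1)) ^ 2 ∧
    cntU (minusForm (k + 2) F a b) (WW (minusForm (k + 2) F a b) c c') 0 + y * (y + 1) ^ (k + 1) = (y + 1) * ((y + 1) ^ (k + 1)) ^ 2 ∧
    (y + 1) * cntU (minusForm (k + 2) F a b) (WW2 (minusForm (k + 2) F a b) c c' d d') 0 + y * (y + 1) ^ (k + 1) = ((y + 1) ^ (k + 1)) ^ 2 ∧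
    ∀ κ : F, (y + 1) * ((y + 1) ^ (k + 1)) ^ 2 ≤ cntU (minusForm (k + 2) F a b) (WW (minusForm (k + 2) F a b) c c') κ + (y + 1) * (y + 1) ^ (k + 1) := by
  classical
  set Q := minusForm (k + 2) F a b with hQ
  obtain ⟨hR1, hR2, hR3, hR4⟩ := rels h h' hd hd'
  have hcardι : Fintype.card ((Fin (k + 2) ⊕ Fin (k + 2)) ⊕ Fin 2) = 2 * (k + 2) + 2 := by
    simp only [Fintype.card_sum, Fintype.card_fin]
    omega
  rw [hF] at hR1 hR2 hR3 hR4
  rw [hcardι] at hR1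
  simp only [Nat.add_sub_cancel] at hR3 hR4
  set x := (y + 1) ^ (k + 1) with hx
  have hcoe : (⇑Q) = Cfsg.quadFormMinus (k + 2) F a b := coe_minusForm (k + 2) F a b
  have hp2 : (y + 1) ^ (2 * (k + 2) + 2) = (y + 1) ^ 4 * x ^ 2 := by
    rw [hx]
    ring
  have hp3 : (y + 1) ^ (k + 2 + 1) = (y + 1) ^ 2 * x := by
    rw [hx]
    ring
  have hp5 : (y + 1) ^ (2 * (k + 2) + 1) = (y + 1) ^ 3 * x ^ 2 := by
    rw [hx]
    ring
  have hT₀ := cntMinus_zero hF (k + 2) hab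
  rw [← hcoe, Nat.add_sub_cancel, hp2, hp3] at hT₀
  obtain ⟨a1, a2, a3, a4, a5⟩ := minus_alg (y := y) (x := x) (w₂ := Nat.card (WW2 Q c c' d d')) (W₀ := Nat.card (WW Q c c'))
    (T₀ := cnt (⇑Q) 0) (C₀ := cntU Q (WW Q c c') 0) (D₀ := cntU Q (WW2 Q c c' d d') 0) (by rw [hR1, hp2]) hR2
    (by rw [← hT₀]; ring) (hR3 0) (hR4 0)
  refine ⟨a2, a3, a4, a5, fun κ => ?_⟩
  have h1 := cntMinus_ge hF (k + 2) a b κ
  rw [← hcoe, hp5, hp3] at h1
  have h2 := hR3 κ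
  rw [a2] at h2
  exact minus_alg2 h1 h2

/-- The facts for fixed root groups. -/
theorem minus_anum (hF : Fintype.card F = y + 1) (hy : 1 ≤ y) (hk : 1 ≤ k) (hab : ∀ z₁ z₂ : F, z₁ ^ 2 + a * z₁ * z₂ + b * z₂ ^ 2 = 0 → z₁ = 0 ∧ z₂ = 0)
    {c c' d d' : (Fin (k + 2) ⊕ Fin (k + 2)) ⊕ Fin 2 → F} (h : HP (minusForm (k + 2) F a b) c c') (h' : HP (minusForm (k + 2) F a b) d d')
    (hd : d ∈ WW (minusForm (k + 2) F a b) c c') (hd' : d' ∈ WW (minusForm (k + 2) F a b) c c') {N : ℕ}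
    (hN : y * N + 1 + y * (y + 1) * (y + 1) ^ (k + 1) = (y + 1) ^ 3 * ((y + 1) ^ (k + 1)) ^ 2) :
    ANum (minusForm (k + 2) F a b) c c' d d' N := by
  classical
  obtain ⟨a1, a2, a3, a4, a5⟩ := minus_data (y := y) hF hab h h' hd hd'
  set Q := minusForm (k + 2) F a b with hQ
  set x := (y + 1) ^ (k + 1) with hx
  have hcoe : (⇑Q) = Cfsg.quadFormMinus (k + 2) F a b := coe_minusForm (k + 2) F a b
  have hz1 := card_singOf (Q := Q) (WW Q c c')
  have hz2 := card_singOf (Q := Q) (WW2 Q c c' d d')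
  have hz3 := card_singOf (Q := Q) (⊤ : Submodule F ((Fin (k + 2) ⊕ Fin (k + 2)) ⊕ Fin 2 → F))
  rw [cntU_top] at hz3
  set z := (singOf Q (WW Q c c')).card with hz
  set z₂ := (singOf Q (WW2 Q c c' d d')).card with hz₂
  have hxq : (y + 1) ^ 2 ≤ x := by
    rw [hx]
    exact Nat.pow_le_pow_right (by omega) (by omega)
  have hxpos : 0 < x := lt_of_lt_of_le (by positivity) hxq
  suffices hS : ANum Q c c' d d' N from hS
  refine ⟨?_, ?_, ?_⟩
  · rw [hF, Nat.add_sub_cancel]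
    omega
  · rw [hF]
    have e1 : x ≤ x ^ 2 := Nat.le_self_pow (by norm_num) x
    have e2 : (y + 1) * x ^ 2 = y * x ^ 2 + x ^ 2 := by ring
    have e3 : y * x ≤ y * x ^ 2 := Nat.mul_le_mul_left _ e1
    rw [← hz1] at a3
    omega
  · intro X hX hX3
    set r := finrank F X with hr
    have hr1 : r ≤ k + 2 := by
      apply Cfsg.Agent.Lib.Classical.Witt.Index.finrank_le_of_ts_minus (k + 2) hab X
      intro w hw
      have h1 := hX w hw
      rw [hcoe] at h1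
      exact h1
    rw [hF, Nat.add_sub_cancel]
    have h2' := three_le (q := y + 1) (r := r) (R := k + 2) (by omega) hr1
    refine h2'.trans ?_
    obtain ⟨j, rfl⟩ : ∃ j, k = j + 1 := ⟨k - 1, by omega⟩
    set u := (y + 1) ^ (j + 1) with hu
    have hxu : x = (y + 1) * u := by
      rw [hx, hu]
      ring
    have hu1 : 1 ≤ u := by
      rw [hu]
      exact Nat.one_le_pow _ _ (by omega)
    have hz₂1 : z₂ + 1 + y * u = x * u := by
      rw [hz2]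
      apply Nat.eq_of_mul_eq_mul_left (show 0 < y + 1 by omega)
      have e : (y + 1) * (cntU Q (WW2 Q c c' d d') 0 + y * u) = (y + 1) * cntU Q (WW2 Q c c' d d') 0 + y * ((y + 1) * u) := by ring
      rw [e, ← hxu, a4, hxu]
      ring
    have hk1 : j + 1 + 2 - 1 = j + 2 := by omega
    have hk2 : j + 1 + 2 - 2 = j + 1 := by omega
    rw [hk1, hk2]
    have e1 : (y + 1) ^ (j + 1 + 2) = (y + 1) * x := by
      rw [hx]
      ring
    have e2 : (y + 1) ^ (j + 2) = x := by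
      rw [hx]
    have e3 : (y + 1) ^ (j + 1) = u := rfl
    rw [e1, e2, e3]
    rw [← hz1] at a3
    exact minus_a3 hy hu1 hxu a3 hz₂1

/-- The degree as an expression. -/
theorem minus_N {y k : ℕ} (hy : 1 ≤ y) :
    y * (((y + 1) ^ (k + 3) + 1) * ((y + 1) ^ (k + 3 - 1) - 1) / (y + 1 - 1)) + 1 + y * (y + 1) * (y + 1) ^ (k + 1) =
      (y + 1) ^ 3 * ((y + 1) ^ (k + 1)) ^ 2 := by
  set x := (y + 1) ^ (k + 1) with hx
  have hp3 : (y + 1) ^ (k + 3) = (y + 1) ^ 2 * x := by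
    rw [hx]
    ring
  have hp4 : (y + 1) ^ (k + 3 - 1) = (y + 1) * x := by
    rw [hx, show k + 3 - 1 = k + 2 by omega]
    ring
  have hdvd : y ∣ (y + 1) ^ (k + 3 - 1) - 1 := by
    have := Nat.sub_dvd_pow_sub_pow (y + 1) 1 (k + 3 - 1)
    simpa using this
  have h1 : y * (((y + 1) ^ (k + 3) + 1) * ((y + 1) ^ (k + 3 - 1) - 1) / (y + 1 - 1)) =
      ((y + 1) ^ (k + 3) + 1) * ((y + 1) ^ (k + 3 - 1) - 1) := by
    rw [Nat.add_sub_cancel]
    exact Nat.mul_div_cancel' (Dvd.dvd.mul_left hdvd _)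
  rw [h1, hp3, hp4]
  have hxpos : 0 < x := by
    rw [hx]
    positivity
  have h2 : 1 ≤ (y + 1) * x := Nat.mul_pos (by omega) hxpos
  obtain ⟨A, hA⟩ : ∃ A, (y + 1) * x = A + 1 := ⟨(y + 1) * x - 1, by omega⟩
  rw [hA, Nat.add_sub_cancel]
  have e1 : ((y + 1) ^ 2 * x + 1) * (A + 1) = ((y + 1) ^ 2 * x + 1) * A + (y + 1) ^ 2 * x + 1 := by ring
  have e2 : ((y + 1) ^ 2 * x + 1) * ((y + 1) * x) = (y + 1) ^ 3 * x ^ 2 + (y + 1) * x := by ring
  rw [hA, e1] at e2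
  have e3 : (y + 1) ^ 2 * x = y * (y + 1) * x + (y + 1) * x := by ring
  omega

/-- The subgroup of the projective group from a singular line. -/
theorem exists_index_line {ι : Type} [Fintype ι] [DecidableEq ι] {Q : QuadraticForm F (ι → F)} [OC Q] {Q₀ : (ι → F) → F} (hQ : ⇑Q = Q₀)
    {c c' : ι → F} (h : HP Q c c') {N : ℕ} (hV : (singOf Q ⊤).card = (Fintype.card F - 1) * N) :
    ∃ H : Subgroup (Cfsg.POmega F Q₀), H.index = N := by
  subst hQ
  have hidx := index_lineStab h hV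
  refine ⟨(lineStab Q c).map (QuotientGroup.mk' (Subgroup.center (GG Q))), ?_⟩
  rw [Subgroup.index_map_eq _ (QuotientGroup.mk'_surjective _) (by
    rw [QuotientGroup.ker_mk']
    exact center_le_lineStab h.ne_zero), hidx]

/-- **The minimal index for the minus type over large fields.** -/
theorem minus_main {q : ℕ} (hF : Fintype.card F = q) (hq : 4 ≤ q) (m : ℕ) (hm : 4 ≤ m) (a b : F)
    (hab : ∀ z₁ z₂ : F, z₁ ^ 2 + a * z₁ * z₂ + b * z₂ ^ 2 = 0 → z₁ = 0 ∧ z₂ = 0) :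
    (∀ H : Subgroup (Cfsg.POmega F (Cfsg.quadFormMinus (m - 1) F a b)), H ≠ ⊤ → (q ^ m + 1) * (q ^ (m - 1) - 1) / (q - 1) ≤ H.index) ∧
      ∃ H : Subgroup (Cfsg.POmega F (Cfsg.quadFormMinus (m - 1) F a b)), H.index = (q ^ m + 1) * (q ^ (m - 1) - 1) / (q - 1) := by
  classical
  obtain ⟨y, rfl⟩ : ∃ y, q = y + 1 := ⟨q - 1, by omega⟩
  obtain ⟨k, rfl⟩ : ∃ k, m = k + 3 := ⟨m - 3, by omega⟩
  rw [show k + 3 - 1 = k + 2 by omega]
  haveI := oc_minus (F := F) (k + 2) (by omega) hab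
  obtain ⟨c, c', h⟩ := exists_HP (minusForm (k + 2) F a b)
  obtain ⟨d, d', h', hd, hd'⟩ := exists_HP_W h
  have hy3 : 3 ≤ y := by omega
  obtain ⟨a1, a2, a3, a4, a5⟩ := minus_data (y := y) hF hab h h' hd hd'
  have hN1 := minus_N (y := y) (k := k) (by omega)
  rw [show k + 3 - 1 = k + 2 by omega] at hN1
  set N := ((y + 1) ^ (k + 3) + 1) * ((y + 1) ^ (k + 2) - 1) / (y + 1 - 1) with hN
  have hA' : ANum (minusForm (k + 2) F a b) c c' d d' N := minus_anum hF (by omega) (by omega) hab h h' hd hd' hN1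
  set Q := minusForm (k + 2) F a b with hQ
  set x := (y + 1) ^ (k + 1) with hx
  have hcoe : (⇑Q) = Cfsg.quadFormMinus (k + 2) F a b := coe_minusForm (k + 2) F a b
  have hz1 := card_singOf (Q := Q) (WW Q c c')
  set z := (singOf Q (WW Q c c')).card with hz
  have hxq : (y + 1) ^ 2 ≤ x := by
    rw [hx]
    exact Nat.pow_le_pow_right (by omega) (by omega)
  obtain ⟨LB, hLB⟩ : ∃ LB, LB + (y + 1) * x = (y + 1) * x ^ 2 := by
    have h1 : (y + 1) * x ≤ (y + 1) * x ^ 2 := Nat.mul_le_mul_left _ (Nat.le_self_pow (by norm_num) x)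
    exact ⟨_, Nat.sub_add_cancel h1⟩
  have hLb : ∀ κ : F, κ ≠ 0 → LB ≤ cntU Q (WW Q c c') κ := by
    intro κ _
    have := a5 κ
    omega
  obtain ⟨T, p, hT, hTc, hA, hp, hp0⟩ := exists_TA hF hy3
  rw [← hz1] at a3
  obtain ⟨n1, n2, n3, n4, n5⟩ := minus_nums hy3 hxq a3 hLB rfl hN1 hTc hA
  have hB : ONum Q c c' N p := mk_ONum T hT hF hLb rfl a1 n1 n2 n3 n4 n5
  obtain ⟨μ, hμ, hμ'⟩ := exists_mu (F := F) (by omega)
  exact main_theorem hcoe h h' hd hd' hA' hB hμ hμ' hp hp0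

end Cfsg.Agent.Lib.MinIndex.OS8
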