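import Mathlib
import Cfsg.Agent.Lib.MinIndex.OS8

/-!
# The minimal index of a proper subgroup of the orthogonal groups of minus type over the field with two elements
-/

set_option autoImplicit false
set_option linter.unusedSectionVars false
set_option linter.unusedSimpArgs false
set_option linter.unusedVariables false

namespace Cfsg.Agent.Lib.MinIndex.OS9

open Matrix QuadraticMap Module
open Cfsg.Agent.Lib.Classical.Orth.Basic
open Cfsg.Agent.Lib.Classical.Orth.Models
open Cfsg.Agent.Lib.Classical.Witt.Hyp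
open Cfsg.Agent.Lib.Classical.Witt.TS
open Cfsg.Agent.Lib.MinIndex.OBase Cfsg.Agent.Lib.MinIndex.OVec Cfsg.Agent.Lib.MinIndex.OGood
open Cfsg.Agent.Lib.MinIndex.OStep2 Cfsg.Agent.Lib.MinIndex.OFix Cfsg.Agent.Lib.MinIndex.OFix2
open Cfsg.Agent.Lib.MinIndex.OCount Cfsg.Agent.Lib.MinIndex.OFinal Cfsg.Agent.Lib.MinIndex.OFam
open Cfsg.Agent.Lib.MinIndex.OPlus Cfsg.Agent.Lib.MinIndex.OS2 Cfsg.Agent.Lib.MinIndex.OS3
open Cfsg.Agent.Lib.MinIndex.OS4 Cfsg.Agent.Lib.MinIndex.OS5 Cfsg.Agent.Lib.MinIndex.OS6 Cfsg.Agent.Lib.MinIndex.OS7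
open Cfsg.Agent.Lib.MinIndex.OS8

variable {F : Type*} [Field F] [Fintype F]

/-- Over the field with two elements the values of the form split a subspace. -/
theorem cntU_two {ι : Type} [Fintype ι] [DecidableEq ι] {Q : QuadraticForm F (ι → F)} (hel : ∀ x : F, x = 0 ∨ x = 1) (U : Submodule F (ι → F)) :
    cntU Q U 0 + cntU Q U 1 = Nat.card U := by
  classical
  unfold cntU
  rw [Nat.card_eq_fintype_card, Fintype.card_subtype, ← Finset.card_union_of_disjoint]
  · congr 1
    ext x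
    simp only [Finset.mem_union, Finset.mem_filter, Finset.mem_univ, true_and]
    constructor
    · rintro (h | h) <;> exact h.1
    · intro hx
      rcases hel (Q x) with e | e
      · exact Or.inl ⟨hx, e⟩
      · exact Or.inr ⟨hx, e⟩
  · rw [Finset.disjoint_left]
    intro x hx hx'
    have h1 := (Finset.mem_filter.1 hx).2.2
    have h2 := (Finset.mem_filter.1 hx').2.2
    rw [h1] at h2
    exact zero_ne_one h2

/-- **The minimal index for the minus type over the field with two elements.** -/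
theorem minus_two (hF : Fintype.card F = 2) (m : ℕ) (hm : 4 ≤ m) (a b : F)
    (hab : ∀ z₁ z₂ : F, z₁ ^ 2 + a * z₁ * z₂ + b * z₂ ^ 2 = 0 → z₁ = 0 ∧ z₂ = 0) :
    (∀ H : Subgroup (Cfsg.POmega F (Cfsg.quadFormMinus (m - 1) F a b)), H ≠ ⊤ → (2 ^ m + 1) * (2 ^ (m - 1) - 1) / (2 - 1) ≤ H.index) ∧
      ∃ H : Subgroup (Cfsg.POmega F (Cfsg.quadFormMinus (m - 1) F a b)), H.index = (2 ^ m + 1) * (2 ^ (m - 1) - 1) / (2 - 1) := by
  classical
  have hel := el_two hF
  have h2 := two_zero hF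
  obtain ⟨k, rfl⟩ : ∃ k, m = k + 3 := ⟨m - 3, by omega⟩
  rw [show k + 3 - 1 = k + 2 by omega]
  have hk : 1 ≤ k := by omega
  haveI := oc_minus (F := F) (k + 2) (by omega) hab
  have hF' : Fintype.card F = 1 + 1 := hF
  obtain ⟨c, c', h⟩ := exists_HP (minusForm (k + 2) F a b)
  obtain ⟨d, d', h', hd, hd'⟩ := exists_HP_W h
  obtain ⟨a1, a2, a3, a4, a5⟩ := minus_data (y := 1) hF' hab h h' hd hd'
  set N := (2 ^ (k + 3) + 1) * (2 ^ (k + 2) - 1) / (2 - 1) with hN
  have hx' : (1 + 1 : ℕ) ^ (k + 1) = 2 ^ (k + 1) := rfl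
  set x := (1 + 1) ^ (k + 1) with hx
  have hp7 : (2 : ℕ) ^ (k + 3) = 4 * x := by
    rw [hx]
    ring
  have hp8 : (2 : ℕ) ^ (k + 2) = 2 * x := by
    rw [hx]
    ring
  have hxq : 4 ≤ x := by
    rw [hx]
    calc 4 = (1 + 1) ^ 2 := by norm_num
      _ ≤ (1 + 1) ^ (k + 1) := Nat.pow_le_pow_right (by omega) (by omega)
  have hsq : 4 * x ≤ x ^ 2 := by
    rw [pow_two]
    exact Nat.mul_le_mul_right _ hxq
  have hN1 : N + 1 + 2 * x = 8 * x ^ 2 := by
    rw [hN, hp7, hp8]
    simp only [show (2 : ℕ) - 1 = 1 from rfl, Nat.div_one]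
    obtain ⟨A, hA⟩ : ∃ A, 2 * x = A + 1 := ⟨2 * x - 1, by omega⟩
    rw [hA, Nat.add_sub_cancel]
    have e1 : (4 * x + 1) * (A + 1) = (4 * x + 1) * A + 4 * x + 1 := by ring
    have e2 : (4 * x + 1) * (2 * x) = 8 * x ^ 2 + 2 * x := by ring
    rw [hA, e1] at e2
    omega
  have hA' : ANum (minusForm (k + 2) F a b) c c' d d' N := by
    apply minus_anum (y := 1) hF' le_rfl hk hab h h' hd hd'
    have e1 : 1 * N + 1 + 1 * (1 + 1) * x = N + 1 + 2 * x := by ring
    have e2 : (1 + 1) ^ 3 * x ^ 2 = 8 * x ^ 2 := by ring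
    rw [e1, e2]
    exact hN1
  set Q := minusForm (k + 2) F a b with hQ
  have hcoe : (⇑Q) = Cfsg.quadFormMinus (k + 2) F a b := coe_minusForm (k + 2) F a b
  have hcardι : Fintype.card ((Fin (k + 2) ⊕ Fin (k + 2)) ⊕ Fin 2) = 2 * k + 6 := by
    simp only [Fintype.card_sum, Fintype.card_fin]
    omega
  have hz1 := card_singOf (Q := Q) (WW Q c c')
  have hz3 := card_singOf (Q := Q) (⊤ : Submodule F ((Fin (k + 2) ⊕ Fin (k + 2)) ⊕ Fin 2 → F))
  rw [cntU_top] at hz3
  have hzW := card_singW (Q := Q) c c'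
  set z := (singOf Q (WW Q c c')).card with hz
  have hW : Fintype.card (WW Q c c') = 4 * x ^ 2 := by
    rw [← Nat.card_eq_fintype_card, a1]
    norm_num
  have hC₀ : cntU Q (WW Q c c') 0 + x = 2 * x ^ 2 := by
    rw [one_mul] at a3
    rw [a3]
  have hC₁ : cntU Q (WW Q c c') 1 = 2 * x ^ 2 + x := by
    have h1 := cntU_two (Q := Q) hel (WW Q c c')
    rw [Nat.card_eq_fintype_card, hW] at h1
    have e : 4 * x ^ 2 = 2 * x ^ 2 + 2 * x ^ 2 := by ring
    omega
  have hLb : ∀ κ : F, κ ≠ 0 → 2 * x ^ 2 + x ≤ cntU Q (WW Q c c') κ := by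
    intro κ hκ
    rw [(hel κ).resolve_left hκ, hC₁]
  have hcls1 : ∀ u : WW Q c c', Q u.1 ≠ 0 → 2 * x ^ 2 + x ≤ (clsW u).card := by
    intro u hu
    have := clsW_ge u hu hLb {1} (by
      intro s hs
      rw [Finset.mem_singleton] at hs
      exact ⟨1, one_ne_zero, by rw [hs, one_mul]⟩)
    simpa using this
  have hzW' : (singW Q c c').card = z := hzW
  have hz1' : z + 1 + x = 2 * x ^ 2 := by
    omega
  have hC : TNum2 Q c c' N := by
    refine ⟨?_, ?_, ?_, ?_, ?_⟩
    · intro s hs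
      by_cases hQs : Q s.1 = 0
      · have := singW_le_clsW hQs
        omega
      · have := hcls1 s hQs
        omega
    · refine ⟨2 + 2 * (k + 1), ?_⟩
      rw [hW, hx]
      ring
    · rw [hW]
      omega
    · intro u hu
      have := hcls1 u hu
      omega
    · intro κ
      rw [hW]
      by_cases hκ : κ = 0
      · rw [hκ]
        omega
      · have := hLb κ hκ
        omega
  have hL : (singOf Q ⊤).card = (Fintype.card F - 1) * N := by
    rw [hF]
    simp only [show (2 : ℕ) - 1 = 1 from rfl, one_mul]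
    have e1 : 1 * (1 + 1) * x = 2 * x := by ring
    have e2 : (1 + 1) ^ 3 * x ^ 2 = 8 * x ^ 2 := by ring
    rw [e1, e2] at a2
    omega
  have hB : SNum Q c c' N := by
    refine ⟨?_, ?_, Or.inr ⟨?_, ?_, hL⟩⟩
    · rw [hW]
      omega
    · intro u hu
      have := hcls1 u hu
      rw [hF, hW]
      simp only [show (2 : ℕ) - 1 = 1 from rfl, one_mul]
      omega
    · rw [hF, hW, hzW']
      simp only [show (2 : ℕ) - 1 = 1 from rfl, one_mul]
      omega
    · rw [hF, hW]
      simp only [show (2 : ℕ) - 1 = 1 from rfl, one_mul]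
      intro hdvd
      have hpos : 0 < 4 * x ^ 2 := by
        have : 0 < x ^ 2 := by positivity
        omega
      have := Nat.le_of_dvd hpos hdvd
      omega
  have hT : TSNum h N := by
    left
    refine ⟨?_, ?_⟩
    · rw [hF, hzW']
      omega
    · intro u y hu hy hQu hQy huy hu0 hyu
      by_cases hk1 : k = 1
      · refine exists_imgA_witt h (by rw [hcardι]; omega) (fun X hX => ?_) hu hy hQu hQy huy hu0 hyu
        have h1 := Cfsg.Agent.Lib.Classical.Witt.Index.finrank_le_of_ts_minus (k + 2) hab X (by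
          intro w hw
          have h3 := hX w hw
          rw [hcoe] at h3
          exact h3)
        omega
      · exact exists_imgA_two h h2 hel (by rw [hcardι]; omega) hu hy hQu hQy huy hu0 hyu
  constructor
  · exact lower_index hcoe (fun H' hH' => lower_two h2 hel h h' hd hd' (le_refl N) hA' hB hC hT H' hH')
  · exact exists_index_line hcoe h hL

end Cfsg.Agent.Lib.MinIndex.OS9
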