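import Mathlib
import Cfsg.Agent.Lib.MinIndex.OFix2

/-!
# Minimal degree of the orthogonal groups over small prime fields: equivariant subgroups and double counting
-/

set_option autoImplicit false
set_option linter.unusedSectionVars false
set_option linter.unusedSimpArgs false
set_option linter.unusedVariables false

namespace Cfsg.Agent.Lib.MinIndex.OT1

open Matrix QuadraticMap Module
open Cfsg.Agent.Lib.Classical.Orth.Basic
open Cfsg.Agent.Lib.Classical.Witt.Hyp
open Cfsg.Agent.Lib.MinIndex.SpCount Cfsg.Agent.Lib.MinIndex.UCount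
open Cfsg.Agent.Lib.MinIndex.OBase Cfsg.Agent.Lib.MinIndex.OVec Cfsg.Agent.Lib.MinIndex.OGood
open Cfsg.Agent.Lib.MinIndex.OTypes Cfsg.Agent.Lib.MinIndex.OLine Cfsg.Agent.Lib.MinIndex.OStep
open Cfsg.Agent.Lib.MinIndex.OStep2 Cfsg.Agent.Lib.MinIndex.OStep3 Cfsg.Agent.Lib.MinIndex.OFix
open Cfsg.Agent.Lib.MinIndex.OFix2

variable {ι : Type} [Fintype ι] [DecidableEq ι] {F : Type*} [Field F] [Fintype F]
variable {Q : QuadraticForm F (ι → F)} [OC Q]

set_option quotPrecheck false in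
local notation "𝔣" => polar (⇑Q)

variable {c c' : ι → F}

/-- The scalars are the multiples of one. -/
def PF (F : Type*) [Field F] : Prop := ∀ s : F, ∃ n : ℕ, (n : F) = s

theorem smul_mem_PF (hP : PF F) {V : Type*} [AddCommGroup V] [Module F V] (S : AddSubgroup V) {x : V} (hx : x ∈ S)
    (s : F) : s • x ∈ S := by
  obtain ⟨n, rfl⟩ := hP s
  rw [Nat.cast_smul_eq_nsmul]
  exact S.nsmul_mem hx n

section Points

variable {Ω : Type*} [MulAction (GG Q) Ω] [Fintype Ω]
variable (h : HP Q c c') (ψ : AddChar F ℂ) (hψ : ψ ≠ 1)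

/-- The stabilizer as a subgroup of the vectors. -/
noncomputable def Kv (h : HP Q c c') (ω : Ω) : AddSubgroup (ι → F) :=
  ((wS h Ω).stab ω).map (WW Q c c').subtype.toAddMonoidHom

theorem mem_Kv {ω : Ω} {x : ι → F} : x ∈ Kv h ω ↔ ∃ hx : x ∈ WW Q c c', E h.hc (WW_left hx) • ω = ω := by
  unfold Kv
  rw [AddSubgroup.mem_map]
  constructor
  · rintro ⟨⟨y, hy⟩, hy', rfl⟩
    exact ⟨hy, hy'⟩
  · rintro ⟨hx, hx'⟩
    exact ⟨⟨x, hx⟩, hx', rfl⟩

/-- A function from points to subgroups with the expected symmetries. -/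
structure EqF (h : HP Q c c') (T : Ω → AddSubgroup (ι → F)) : Prop where
  sub : ∀ ω, ∀ x ∈ T ω, x ∈ WW Q c c'
  orb : ∀ ω ω', ω' ∈ (wS h Ω).orb ω → T ω' = T ω
  img : ∀ g : GG Q, Nrm g 1 c c' → ∀ ω, ∀ x ∈ T ω, act g.1 x ∈ T (g • ω)

theorem eqF_AN : EqF h (ANv h ψ hψ (Ω := Ω)) where
  sub ω x hx := ((mem_ANv h ψ hψ).1 hx).1
  orb ω ω' hm := ANv_of_mem_orb h ψ hψ hm
  img g hN ω x hx := mem_AN_image h ψ hψ hN hx

theorem eqF_K : EqF h (Kv h (Ω := Ω)) where
  sub ω x hx := ((mem_Kv h).1 hx).1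
  orb ω ω' hm := by
    unfold Kv
    rw [(wS h Ω).stab_of_mem_orb hm]
  img g hN ω x hx := by
    obtain ⟨hxW, hx'⟩ := (mem_Kv h).1 hx
    have hgx : act g.1 x ∈ WW Q c c' := hN.act_mem hxW
    refine (mem_Kv h).2 ⟨hgx, ?_⟩
    have h1 := conj_E g h.hc (WW_left hxW)
    have h2 : E h.hc (WW_left hgx) = E (by rw [Q_act]; exact h.hc : Q (act g.1 c) = 0)
        (by rw [polar_act]; exact WW_left hxW : 𝔣 (act g.1 c) (act g.1 x) = 0) := by
      refine E_congr ?_ rfl _ _ _ _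
      rw [hN.left, one_smul]
    rw [h2, ← h1, mul_smul, mul_smul, inv_smul_smul, hx']

variable {h}

theorem EqF.mem_iff {T : Ω → AddSubgroup (ι → F)} (hT : EqF h T) {g : GG Q} (hN : Nrm g 1 c c') {ω : Ω} {x : ι → F} :
    x ∈ T (g • ω) ↔ act (g⁻¹).1 x ∈ T ω := by
  constructor
  · intro hx
    have hN' : Nrm g⁻¹ 1 c c' := by simpa using hN.inv
    have h1 := hT.img g⁻¹ hN' _ x hx
    rwa [inv_smul_smul] at h1
  · intro hx
    have h1 := hT.img g hN _ _ hx
    rwa [act_GG_act_inv] at h1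

theorem EqF.card_eq {T : Ω → AddSubgroup (ι → F)} (hT : EqF h T) {g : GG Q} (hN : Nrm g 1 c c') (ω : Ω) :
    Nat.card (T (g • ω)) = Nat.card (T ω) := by
  refine Nat.card_congr ⟨fun x => ⟨act (g⁻¹).1 x.1, hT.mem_iff hN |>.1 x.2⟩,
    fun x => ⟨act g.1 x.1, hT.img g hN _ _ x.2⟩, ?_, ?_⟩
  · rintro ⟨x, hx⟩
    exact Subtype.ext (act_GG_act_inv g x)
  · rintro ⟨x, hx⟩
    exact Subtype.ext (act_GG_inv_act g x)

variable (h)

theorem card_Kv (ω : Ω) : Nat.card (Kv h ω) = Nat.card ((wS h Ω).stab ω) :=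
  AddSubgroup.card_map_of_injective Subtype.val_injective

theorem card_ANv (ω : Ω) : Nat.card (ANv h ψ hψ ω) = Nat.card (AN h ψ hψ ω) :=
  AddSubgroup.card_map_of_injective Subtype.val_injective

theorem card_orb (ω : Ω) : ((wS h Ω).orb ω).card = Nat.card (ANv h ψ hψ ω) := by
  rw [card_ANv]
  exact card_orb_eq (Q := pW h ψ hψ) ω

theorem card_K_mul (ω : Ω) : Nat.card (Kv h ω) * Nat.card (ANv h ψ hψ ω) = Fintype.card (WW Q c c') := by
  rw [card_Kv, card_ANv]
  exact (pW h ψ hψ).card_ann _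

/-- The orbit of a point under the group fixing the pair and the root group. -/
noncomputable def YY (h : HP Q c c') (ω₀ : Ω) : Finset Ω := by
  classical
  exact Finset.univ.filter fun ω => ∃ g : GG Q, Nrm g 1 c c' ∧ ω ∈ (wS h Ω).orb (g • ω₀)

theorem mem_YY {ω₀ ω : Ω} : ω ∈ YY h ω₀ ↔ ∃ g : GG Q, Nrm g 1 c c' ∧ ω ∈ (wS h Ω).orb (g • ω₀) := by
  classical
  simp [YY]

variable {h}

/-- **The double count.** -/
theorem dc {T : Ω → AddSubgroup (ι → F)} (hT : EqF h T) (ω₀ : Ω) {A : Type*} (P : Finset A)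
    (R : A → AddSubgroup (ι → F) → Prop) {w τ : ℕ}
    (hw : ∀ g : GG Q, Nrm g 1 c c' → w ≤ ((wS h Ω).orb (g • ω₀)).card)
    (hP : ∀ p ∈ P, ∃ g : GG Q, Nrm g 1 c c' ∧ R p (T (g • ω₀)))
    (hτ : ∀ g : GG Q, Nrm g 1 c c' → ∀ P' : Finset A, P' ⊆ P → (∀ p ∈ P', R p (T (g • ω₀))) → P'.card ≤ τ) :
    P.card * w ≤ (YY h ω₀).card * τ := by
  classical
  refine Finset.card_mul_le_card_mul (fun p ω => R p (T ω)) ?_ ?_
  · intro p hp
    obtain ⟨g, hN, hg⟩ := hP p hp
    refine (hw g hN).trans (Finset.card_le_card ?_)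
    intro ω hω
    refine (Finset.mem_bipartiteAbove _).2 ⟨(mem_YY h).2 ⟨g, hN, hω⟩, ?_⟩
    change R p (T ω)
    rw [hT.orb _ _ hω]
    exact hg
  · intro ω hω
    obtain ⟨g, hN, hg⟩ := (mem_YY h).1 hω
    refine hτ g hN _ (Finset.filter_subset _ _) ?_
    intro p hp
    have : R p (T ω) := (Finset.mem_filter.1 hp).2
    rwa [hT.orb _ _ hg] at this

end Points

/-! ### Counting pairs in a subgroup -/

section Tau

/-- The elements of a subgroup. -/
noncomputable def Sf (S : AddSubgroup (ι → F)) : Finset (ι → F) := by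
  classical
  exact Finset.univ.filter (· ∈ S)

theorem mem_Sf {S : AddSubgroup (ι → F)} {x : ι → F} : x ∈ Sf S ↔ x ∈ S := by
  classical
  simp [Sf]

theorem card_Sf (S : AddSubgroup (ι → F)) : (Sf S).card = Nat.card S := by
  classical
  rw [Nat.card_eq_fintype_card, Fintype.card_subtype]
  rfl

/-- The number of independent pairs in a subgroup closed under scalars. -/
theorem tau_indep (hP : PF F) (S : AddSubgroup (ι → F)) (P : Finset ((ι → F) × (ι → F)))
    (hS : ∀ p ∈ P, p.1 ∈ S ∧ p.2 ∈ S) (h0 : ∀ p ∈ P, p.1 ≠ 0 ∧ ∀ t : F, p.2 ≠ t • p.1) :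
    P.card ≤ (Nat.card S - 1) * (Nat.card S - Fintype.card F) := by
  classical
  set X := (Sf S).erase 0 with hX
  have hXc : X.card = Nat.card S - 1 := by
    rw [hX, Finset.card_erase_of_mem (mem_Sf.2 S.zero_mem), card_Sf]
  have hfib : ∀ a ∈ X, (P.filter fun p => p.1 = a).card ≤ Nat.card S - Fintype.card F := by
    intro a ha
    have ha0 : a ≠ 0 := (Finset.mem_erase.1 ha).1
    have haS : a ∈ S := mem_Sf.1 (Finset.mem_erase.1 ha).2
    set L := Finset.univ.image fun t : F => t • a with hL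
    have hLc : L.card = Fintype.card F := by
      rw [hL, Finset.card_image_of_injective, Finset.card_univ]
      intro s t hst
      exact smul_left_injective F ha0 hst
    have hLS : L ⊆ Sf S := by
      intro x hx
      obtain ⟨t, -, rfl⟩ := Finset.mem_image.1 hx
      exact mem_Sf.2 (smul_mem_PF hP S haS t)
    have h1 : (P.filter fun p => p.1 = a).card ≤ (Sf S \ L).card := by
      apply Finset.card_le_card_of_injOn (fun p => p.2)
      · intro p hp
        have hp' := Finset.mem_filter.1 (Finset.mem_coe.1 hp)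
        refine Finset.mem_coe.2 (Finset.mem_sdiff.2 ⟨mem_Sf.2 (hS p hp'.1).2, ?_⟩)
        intro hm
        obtain ⟨t, -, ht⟩ := Finset.mem_image.1 hm
        apply (h0 p hp'.1).2 t
        rw [hp'.2, ht]
      · intro p hp p' hp' e
        have h2 := (Finset.mem_filter.1 (Finset.mem_coe.1 hp)).2
        have h3 := (Finset.mem_filter.1 (Finset.mem_coe.1 hp')).2
        exact Prod.ext (h2.trans h3.symm) e
    rw [Finset.card_sdiff_of_subset hLS, hLc, card_Sf] at h1
    exact h1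
  have h1 := Finset.card_le_mul_card_image_of_maps_to (s := P) (t := X) (f := fun p => p.1) (n := Nat.card S - Fintype.card F)
    (fun p hp => Finset.mem_erase.2 ⟨(h0 p hp).1, mem_Sf.2 (hS p hp).1⟩)
    (fun a ha => hfib a ha)
  rw [hXc] at h1
  calc P.card ≤ _ := h1
    _ = _ := by ring

/-- The number of pairs with different values of the form in a subgroup. -/
theorem tau_vals (S : AddSubgroup (ι → F)) (P : Finset ((ι → F) × (ι → F))) {α β : F} (hαβ : α ≠ β)
    (hS : ∀ p ∈ P, p.1 ∈ S ∧ p.2 ∈ S) (h0 : ∀ p ∈ P, p.1 ≠ 0 ∧ p.2 ≠ 0 ∧ Q p.1 = α ∧ Q p.2 = β) :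
    4 * P.card ≤ (Nat.card S - 1) ^ 2 := by
  classical
  set X := (Sf S).erase 0 with hX
  have hXc : X.card = Nat.card S - 1 := by
    rw [hX, Finset.card_erase_of_mem (mem_Sf.2 S.zero_mem), card_Sf]
  set A := X.filter fun x => Q x = α with hA
  set B := X.filter fun x => Q x = β with hB
  have hdisj : Disjoint A B := by
    rw [Finset.disjoint_left]
    intro x hx hx'
    exact hαβ ((Finset.mem_filter.1 hx).2.symm.trans (Finset.mem_filter.1 hx').2)
  have hAB : A.card + B.card ≤ X.card := by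
    rw [← Finset.card_union_of_disjoint hdisj]
    exact Finset.card_le_card (Finset.union_subset (Finset.filter_subset _ _) (Finset.filter_subset _ _))
  have hP : P ⊆ A ×ˢ B := by
    intro p hp
    obtain ⟨h1, h2, h3, h4⟩ := h0 p hp
    obtain ⟨h5, h6⟩ := hS p hp
    exact Finset.mem_product.2 ⟨Finset.mem_filter.2 ⟨Finset.mem_erase.2 ⟨h1, mem_Sf.2 h5⟩, h3⟩,
      Finset.mem_filter.2 ⟨Finset.mem_erase.2 ⟨h2, mem_Sf.2 h6⟩, h4⟩⟩
  have h1 := Finset.card_le_card hP
  rw [Finset.card_product] at h1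
  rw [← hXc]
  nlinarith [sq_nonneg ((A.card : ℤ) - B.card), hAB, h1, Nat.mul_le_mul hAB hAB, sq_nonneg (A.card + B.card)]

end Tau

end Cfsg.Agent.Lib.MinIndex.OT1
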