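import Mathlib
import Cfsg.Agent.Lib.MinIndex.OT1
import Cfsg.Agent.Lib.MinIndex.OFam

/-!
# Minimal degree of the orthogonal groups over small prime fields: numbers of pairs of vectors
-/

set_option autoImplicit false
set_option linter.unusedSectionVars false
set_option linter.unusedSimpArgs false
set_option linter.unusedVariables false

namespace Cfsg.Agent.Lib.MinIndex.OT2

open Matrix QuadraticMap Module
open Cfsg.Agent.Lib.Classical.Orth.Basic
open Cfsg.Agent.Lib.Classical.Witt.Hyp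
open Cfsg.Agent.Lib.MinIndex.OBase Cfsg.Agent.Lib.MinIndex.OVec Cfsg.Agent.Lib.MinIndex.OGood
open Cfsg.Agent.Lib.MinIndex.OFix Cfsg.Agent.Lib.MinIndex.OFix2 Cfsg.Agent.Lib.MinIndex.OT1
open Cfsg.Agent.Lib.MinIndex.OCount Cfsg.Agent.Lib.MinIndex.OFam

variable {ι : Type} [Fintype ι] [DecidableEq ι] {F : Type*} [Field F] [Fintype F]
variable {Q : QuadraticForm F (ι → F)} [OC Q]

set_option quotPrecheck false in
local notation "𝔣" => polar (⇑Q)

variable {c c' : ι → F}

open _root_.Classical in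
/-- **Fibers** of a nonzero additive functional on a subgroup closed under scalars. -/
theorem fiber_card (S : AddSubgroup (ι → F)) (hS : ∀ s : F, ∀ x ∈ S, s • x ∈ S) {y a₁ : ι → F} (ha₁ : a₁ ∈ S)
    (hy : 𝔣 y a₁ ≠ 0) (δ : F) :
    Fintype.card F * ((Sf S).filter fun a => 𝔣 y a = δ).card = Nat.card S := by
  have hle : ∀ δ δ' : F, ((Sf S).filter fun a => 𝔣 y a = δ).card ≤ ((Sf S).filter fun a => 𝔣 y a = δ').card := by
    intro δ δ'
    apply Finset.card_le_card_of_injOn (fun a => a + ((δ' - δ) / 𝔣 y a₁) • a₁)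
    · intro a ha
      have ha' := Finset.mem_filter.1 (Finset.mem_coe.1 ha)
      refine Finset.mem_coe.2 (Finset.mem_filter.2 ⟨mem_Sf.2 (S.add_mem (mem_Sf.1 ha'.1) (hS _ _ ha₁)), ?_⟩)
      rw [polar_add_right, polar_smul_right', ha'.2]
      field_simp
      ring
    · intro a _ b _ e
      exact add_right_cancel e
  have h1 := Finset.card_eq_sum_card_fiberwise (s := Sf S) (t := Finset.univ) (f := fun a => 𝔣 y a)
    (fun a _ => Finset.mem_coe.2 (Finset.mem_univ _))
  have h2 : ∀ δ' ∈ (Finset.univ : Finset F), ((Sf S).filter fun a => 𝔣 y a = δ').card = ((Sf S).filter fun a => 𝔣 y a = δ).card :=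
    fun δ' _ => le_antisymm (hle _ _) (hle _ _)
  rw [Finset.sum_congr rfl h2, Finset.sum_const, smul_eq_mul, Finset.card_univ, card_Sf] at h1
  exact h1.symm

/-- Vectors of the second complement which are perpendicular to it are zero. -/
theorem nondeg2 (h : HP Q c c') {a a' x : ι → F} (ha : HP Q a a') (ha1 : a ∈ WW Q c c') (ha2 : a' ∈ WW Q c c')
    (hx : x ∈ WW2 Q c c' a a') (hperp : ∀ y ∈ WW2 Q c c' a a', 𝔣 x y = 0) : x = 0 := by
  obtain ⟨hxW, hxW'⟩ := hx
  apply h.nondeg hxW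
  intro y hy
  have hy' : y - 𝔣 a' y • a - 𝔣 a y • a' ∈ WW2 Q c c' a a' :=
    ⟨Submodule.sub_mem _ (Submodule.sub_mem _ hy (Submodule.smul_mem _ _ ha1)) (Submodule.smul_mem _ _ ha2),
      ha.sub_mem y⟩
  have h1 := hperp _ hy'
  rw [polar_sub_right, polar_sub_right, polar_smul_right', polar_smul_right', WW_left' hxW', WW_right' hxW'] at h1
  simpa using h1

open _root_.Classical in
/-- **The uniform count**: the vectors with prescribed value and prescribed pairing with a nonzero vector. -/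
theorem count_uniform (h : HP Q c c') {x : ι → F} (hx : x ∈ WW Q c c') (hx0 : x ≠ 0) (β δ : F) {n : ℕ}
    (hn : Nat.card (WW Q c c') = Fintype.card F * Fintype.card F * (Fintype.card F * n)) :
    (Fintype.card F - 1) * n ≤ (Finset.univ.filter fun y => y ∈ WW Q c c' ∧ Q y = β ∧ 𝔣 x y = δ).card := by
  have hq : 0 < Fintype.card F := Fintype.card_pos
  obtain ⟨a, a', ha, ha1, ha2, ha3, ha4⟩ := exists_room h hx
  obtain ⟨-, hR2, -, -⟩ := rels h ha ha1 ha2
  have hV : Nat.card (WW2 Q c c' a a') = Fintype.card F * n := by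
    rw [hn] at hR2
    exact (Nat.eq_of_mul_eq_mul_left (Nat.mul_pos hq hq) hR2).symm
  set S := (WW2 Q c c' a a').toAddSubgroup with hS
  have hScard : Nat.card S = Fintype.card F * n := hV
  have hSc : ∀ s : F, ∀ z ∈ S, s • z ∈ S := fun s z hz => Submodule.smul_mem (WW2 Q c c' a a') s hz
  have hxV : x ∈ WW2 Q c c' a a' := ⟨hx, mem_WW.2 ⟨by rw [polar_symm]; exact ha3, by rw [polar_symm]; exact ha4⟩⟩
  obtain ⟨y₁, hy₁, hy₁0⟩ : ∃ y₁ ∈ WW2 Q c c' a a', 𝔣 x y₁ ≠ 0 := by
    by_contra hcon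
    push Not at hcon
    exact hx0 (nondeg2 h ha ha1 ha2 hxV hcon)
  have hA := fiber_card S hSc (y := x) (a₁ := y₁) hy₁ hy₁0 δ
  rw [hScard] at hA
  have hA' := Nat.eq_of_mul_eq_mul_left hq hA
  set A := (Sf S).filter fun a => 𝔣 x a = δ with hAdef
  set U := (Finset.univ : Finset F).erase 0 with hU
  have hUc : U.card = Fintype.card F - 1 := by
    rw [hU, Finset.card_erase_of_mem (Finset.mem_univ _), Finset.card_univ]
  have hprod : (A ×ˢ U).card = (Fintype.card F - 1) * n := by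
    rw [Finset.card_product, hA', hUc, mul_comm]
  rw [← hprod]
  apply Finset.card_le_card_of_injOn (fun t => t.2 • a + ((β - Q t.1) / t.2) • a' + t.1)
  · rintro ⟨y, l⟩ ht
    obtain ⟨h1, h2⟩ := Finset.mem_product.1 (Finset.mem_coe.1 ht)
    simp only at h1 h2
    obtain ⟨h3, h4⟩ := Finset.mem_filter.1 h1
    have hl : l ≠ 0 := (Finset.mem_erase.1 h2).1
    have hyV : y ∈ WW2 Q c c' a a' := mem_Sf.1 h3
    refine Finset.mem_coe.2 (Finset.mem_filter.2 ⟨Finset.mem_univ _, ?_, ?_, ?_⟩)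
    · exact Submodule.add_mem _ (Submodule.add_mem _ (Submodule.smul_mem _ _ ha1) (Submodule.smul_mem _ _ ha2)) hyV.1
    · have := Q_triple ha hyV.2 l ((β - Q y) / l) 1
      rw [one_smul] at this
      rw [this]
      field_simp
      ring
    · rw [polar_add_right, polar_add_right, polar_smul_right', polar_smul_right', ha3, ha4, h4]
      ring
  · rintro ⟨y, l⟩ ht ⟨y', l'⟩ ht' e
    obtain ⟨h1, h2⟩ := Finset.mem_product.1 (Finset.mem_coe.1 ht)
    obtain ⟨h1', h2'⟩ := Finset.mem_product.1 (Finset.mem_coe.1 ht')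
    simp only at h1 h2 h1' h2' e
    have hyV : y ∈ WW2 Q c c' a a' := mem_Sf.1 (Finset.mem_filter.1 h1).1
    have hyV' : y' ∈ WW2 Q c c' a a' := mem_Sf.1 (Finset.mem_filter.1 h1').1
    have e1 := congrArg (𝔣 a') e
    have e2 := congrArg (𝔣 a) e
    rw [polar_add_right, polar_add_right, polar_add_right, polar_add_right, polar_smul_right', polar_smul_right',
      polar_smul_right', polar_smul_right', ha.hp', ha.cc', WW_right hyV.2, WW_right hyV'.2] at e1
    rw [polar_add_right, polar_add_right, polar_add_right, polar_add_right, polar_smul_right', polar_smul_right',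
      polar_smul_right', polar_smul_right', ha.cc, ha.hp, WW_left hyV.2, WW_left hyV'.2] at e2
    simp only [mul_one, mul_zero, add_zero, zero_add] at e1 e2
    have e3 : y = y' := by
      rw [e1] at e2 e
      rw [e2] at e
      exact add_left_cancel e
    exact Prod.ext e3 e1

open _root_.Classical in
/-- The number of singular vectors perpendicular to a singular vector and not proportional to it. -/
theorem count_T (h : HP Q c c') {x x' : ι → F} (hx : x ∈ WW Q c c') (hx' : x' ∈ WW Q c c') (hHP : HP Q x x') :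
    Fintype.card F * (singOf Q (WW2 Q c c' x x')).card ≤
      (Finset.univ.filter fun y => y ∈ WW Q c c' ∧ Q y = 0 ∧ 𝔣 x y = 0 ∧ ∀ t : F, y ≠ t • x).card := by
  have hprod : ((Finset.univ : Finset F) ×ˢ singOf Q (WW2 Q c c' x x')).card =
      Fintype.card F * (singOf Q (WW2 Q c c' x x')).card := by
    rw [Finset.card_product, Finset.card_univ]
  rw [← hprod]
  apply Finset.card_le_card_of_injOn (fun t => t.1 • x + t.2)
  · rintro ⟨l, y⟩ ht
    obtain ⟨-, h2⟩ := Finset.mem_product.1 (Finset.mem_coe.1 ht)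
    simp only at h2
    obtain ⟨hy0, hQy, hyV⟩ := mem_singOf.1 h2
    have hxy : 𝔣 x y = 0 := WW_left hyV.2
    have hx'y : 𝔣 x' y = 0 := WW_right hyV.2
    refine Finset.mem_coe.2 (Finset.mem_filter.2 ⟨Finset.mem_univ _, ?_, ?_, ?_, ?_⟩)
    · exact Submodule.add_mem _ (Submodule.smul_mem _ _ hx) hyV.1
    · rw [Q_add, Q_smul, hHP.hc, hQy, polar_smul_left', hxy]
      ring
    · rw [polar_add_right, polar_smul_right', hHP.cc, hxy]
      ring
    · intro t ht
      have h3 := congrArg (𝔣 x') ht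
      rw [polar_add_right, polar_smul_right', polar_smul_right', hHP.hp', hx'y] at h3
      simp only [mul_one, add_zero] at h3
      rw [h3] at ht
      exact hy0 (add_left_cancel (ht.trans (add_zero _).symm))
  · rintro ⟨l, y⟩ ht ⟨l', y'⟩ ht' e
    obtain ⟨-, h2⟩ := Finset.mem_product.1 (Finset.mem_coe.1 ht)
    obtain ⟨-, h2'⟩ := Finset.mem_product.1 (Finset.mem_coe.1 ht')
    simp only at h2 h2' e
    obtain ⟨-, -, hyV⟩ := mem_singOf.1 h2
    obtain ⟨-, -, hyV'⟩ := mem_singOf.1 h2'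
    have e1 := congrArg (𝔣 x') e
    rw [polar_add_right, polar_add_right, polar_smul_right', polar_smul_right', hHP.hp', WW_right hyV.2,
      WW_right hyV'.2] at e1
    simp only [mul_one, add_zero] at e1
    rw [e1] at e
    exact Prod.ext e1 (add_left_cancel e)

/-- The nonzero singular vectors of the second complement do not depend on the pair. -/
theorem singOf_WW2_eq (h : HP Q c c') {a a' b b' : ι → F} (ha : HP Q a a') (ha1 : a ∈ WW Q c c') (ha2 : a' ∈ WW Q c c')
    (hb : HP Q b b') (hb1 : b ∈ WW Q c c') (hb2 : b' ∈ WW Q c c') :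
    (singOf Q (WW2 Q c c' a a')).card = (singOf Q (WW2 Q c c' b b')).card := by
  have hq : 0 < Fintype.card F := Fintype.card_pos
  obtain ⟨-, h1, -, h2⟩ := rels h ha ha1 ha2
  obtain ⟨-, h1', -, h2'⟩ := rels h hb hb1 hb2
  have h3 : Nat.card (WW2 Q c c' a a') = Nat.card (WW2 Q c c' b b') := by
    rw [h1] at h1'
    exact Nat.eq_of_mul_eq_mul_left (Nat.mul_pos hq hq) h1'
  have h4 := h2 0
  have h5 := h2' 0
  rw [← card_singOf, h3] at h4
  rw [← card_singOf] at h5
  have h6 : Fintype.card F * ((singOf Q (WW2 Q c c' a a')).card + 1) =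
      Fintype.card F * ((singOf Q (WW2 Q c c' b b')).card + 1) := by
    have : (Fintype.card F - 1) * Nat.card (WW2 Q c c' b b') + Fintype.card F * ((singOf Q (WW2 Q c c' a a')).card + 1) =
      (Fintype.card F - 1) * Nat.card (WW2 Q c c' b b') + Fintype.card F * ((singOf Q (WW2 Q c c' b b')).card + 1) := by
      rw [card_singOf, card_singOf, ← h4, ← h5]
    exact Nat.add_left_cancel this
  have h7 := Nat.eq_of_mul_eq_mul_left hq h6
  omega

/-- The vectors of a class. -/
noncomputable def Cl (Q : QuadraticForm F (ι → F)) (c c' : ι → F) (α : F) : Finset (ι → F) := by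
  classical
  exact Finset.univ.filter fun x => x ∈ WW Q c c' ∧ x ≠ 0 ∧ Q x = α

theorem mem_Cl {α : F} {x : ι → F} : x ∈ Cl Q c c' α ↔ x ∈ WW Q c c' ∧ x ≠ 0 ∧ Q x = α := by
  classical
  simp [Cl]

/-- The pairs of independent vectors with prescribed values. -/
noncomputable def Pairs (Q : QuadraticForm F (ι → F)) (c c' : ι → F) (α β δ : F) : Finset ((ι → F) × (ι → F)) := by
  classical
  exact Finset.univ.filter fun p => p.1 ∈ WW Q c c' ∧ p.2 ∈ WW Q c c' ∧ p.1 ≠ 0 ∧ (∀ t : F, p.2 ≠ t • p.1) ∧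
    Q p.1 = α ∧ Q p.2 = β ∧ polar (⇑Q) p.1 p.2 = δ

theorem mem_Pairs {α β δ : F} {p : (ι → F) × (ι → F)} : p ∈ Pairs Q c c' α β δ ↔
    p.1 ∈ WW Q c c' ∧ p.2 ∈ WW Q c c' ∧ p.1 ≠ 0 ∧ (∀ t : F, p.2 ≠ t • p.1) ∧
      Q p.1 = α ∧ Q p.2 = β ∧ 𝔣 p.1 p.2 = δ := by
  classical
  simp [Pairs]

open _root_.Classical in
/-- A lower bound for the number of pairs. -/
theorem card_Pairs_ge {α β δ : F} {u : ℕ}
    (hu : ∀ x ∈ Cl Q c c' α, u ≤ (Finset.univ.filter fun y => y ∈ WW Q c c' ∧ Q y = β ∧ 𝔣 x y = δ ∧ ∀ t : F, y ≠ t • x).card) :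
    (Cl Q c c' α).card * u ≤ (Pairs Q c c' α β δ).card := by
  have h1 := Finset.card_nsmul_le_sum (Cl Q c c' α)
    (fun x => (Finset.univ.filter fun y => y ∈ WW Q c c' ∧ Q y = β ∧ 𝔣 x y = δ ∧ ∀ t : F, y ≠ t • x).card) u hu
  rw [smul_eq_mul] at h1
  refine h1.trans ?_
  rw [← Finset.card_sigma]
  apply Finset.card_le_card_of_injOn (fun t => (t.1, t.2))
  · rintro ⟨x, y⟩ ht
    obtain ⟨h2, h3⟩ := Finset.mem_sigma.1 (Finset.mem_coe.1 ht)
    obtain ⟨h4, h5, h6⟩ := mem_Cl.1 h2
    obtain ⟨-, h7, h8, h9, h10⟩ := Finset.mem_filter.1 h3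
    exact Finset.mem_coe.2 (mem_Pairs.2 ⟨h4, h7, h5, h10, h6, h8, h9⟩)
  · rintro ⟨x, y⟩ _ ⟨x', y'⟩ _ e
    simp only [Prod.mk.injEq] at e
    obtain ⟨rfl, rfl⟩ := e
    rfl

open _root_.Classical in
/-- The number of totally singular pairs. -/
theorem card_Pairs_T (h : HP Q c c') {a a' : ι → F} (ha : HP Q a a') (ha1 : a ∈ WW Q c c') (ha2 : a' ∈ WW Q c c') :
    (Cl Q c c' 0).card * (Fintype.card F * (singOf Q (WW2 Q c c' a a')).card) ≤ (Pairs Q c c' 0 0 0).card := by
  apply card_Pairs_ge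
  intro x hx
  obtain ⟨h1, h2, h3⟩ := mem_Cl.1 hx
  obtain ⟨x', hx', hHP⟩ := exists_partner_W_sing h h1 h2 h3
  rw [singOf_WW2_eq h ha ha1 ha2 hHP h1 hx']
  exact count_T h h1 hx' hHP

end Cfsg.Agent.Lib.MinIndex.OT2
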