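import Mathlib
import Cfsg.Agent.Lib.MinIndex.OT2

/-!
# Minimal degree of the orthogonal groups over small prime fields: Witt's theorem for pairs of vectors in `Ω`
-/

set_option autoImplicit false
set_option linter.unusedSectionVars false
set_option linter.unusedSimpArgs false
set_option linter.unusedVariables false

namespace Cfsg.Agent.Lib.MinIndex.OT3

open Matrix QuadraticMap Module
open Cfsg.Agent.Lib.Classical.Orth.Basic
open Cfsg.Agent.Lib.Classical.Orth.Spinor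
open Cfsg.Agent.Lib.Classical.Orth.Dickson
open Cfsg.Agent.Lib.Classical.Orth.Adjust
open Cfsg.Agent.Lib.Classical.Witt.Hyp
open Cfsg.Agent.Lib.MinIndex.OBase Cfsg.Agent.Lib.MinIndex.OVec Cfsg.Agent.Lib.MinIndex.OGood
open Cfsg.Agent.Lib.MinIndex.OLine Cfsg.Agent.Lib.MinIndex.OStep2 Cfsg.Agent.Lib.MinIndex.OT1

variable {ι : Type} [Fintype ι] [DecidableEq ι] {F : Type*} [Field F] [Fintype F]
variable {Q : QuadraticForm F (ι → F)} [OC Q]

set_option quotPrecheck false in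
local notation "𝔣" => polar (⇑Q)

variable {c c' : ι → F}

/-- Independence of a hyperbolic pair and two vectors of its complement. -/
theorem li_four (h : HP Q c c') {a b : ι → F} (ha : a ∈ WW Q c c') (hb : b ∈ WW Q c c') (ha0 : a ≠ 0)
    (hab : ∀ t : F, b ≠ t • a) : LinearIndependent F ![c, c', a, b] := by
  rw [Fintype.linearIndependent_iff]
  intro t ht i
  simp only [Fin.sum_univ_four, Matrix.cons_val_zero, Matrix.cons_val_one, Matrix.cons_val] at ht
  have h1 := congrArg (𝔣 c') ht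
  have h2 := congrArg (𝔣 c) ht
  simp only [polar_add_right, polar_smul_right', h.cc, h.cc', h.hp, h.hp', WW_left ha, WW_right ha, WW_left hb,
    WW_right hb] at h1 h2
  have h0 : 𝔣 c' 0 = 0 := by simp [polar]
  have h0' : 𝔣 c 0 = 0 := by simp [polar]
  rw [h0] at h1
  rw [h0'] at h2
  simp only [mul_zero, mul_one, add_zero, zero_add] at h1 h2
  rw [h1, h2] at ht
  simp only [zero_smul, zero_add] at ht
  have h3 : t 3 = 0 := by
    by_contra hne
    apply hab (-(t 3)⁻¹ * t 2)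
    have e : t 3 • b = -(t 2 • a) := eq_neg_of_add_eq_zero_right ht
    have e2 := congrArg (fun x => (t 3)⁻¹ • x) e
    simp only [smul_smul, inv_mul_cancel₀ hne, one_smul, smul_neg] at e2
    rw [e2, neg_mul, neg_smul]
  rw [h3, zero_smul, add_zero] at ht
  have h4 := (smul_eq_zero.mp ht).resolve_right ha0
  fin_cases i
  · exact h1
  · exact h2
  · exact h4
  · exact h3

theorem Q_four (h : HP Q c c') {a b : ι → F} (ha : a ∈ WW Q c c') (hb : b ∈ WW Q c c') (t : Fin 4 → F) :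
    Q (∑ i, t i • ![c, c', a, b] i) = t 0 * t 1 + t 2 * t 2 * Q a + t 3 * t 3 * Q b + t 2 * t 3 * 𝔣 a b := by
  simp only [Fin.sum_univ_four, Matrix.cons_val_zero, Matrix.cons_val_one, Matrix.cons_val]
  have hu : t 2 • a + t 3 • b ∈ WW Q c c' := Submodule.add_mem _ (Submodule.smul_mem _ _ ha) (Submodule.smul_mem _ _ hb)
  have h1 := Q_triple h hu (t 0) (t 1) 1
  rw [one_smul] at h1
  have e : t 0 • c + t 1 • c' + t 2 • a + t 3 • b = t 0 • c + t 1 • c' + (t 2 • a + t 3 • b) := by abel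
  rw [e, h1, Q_add, Q_smul, Q_smul, polar_smul_left', polar_smul_right']
  ring

/-- Witt's theorem for pairs in the isometry group. -/
theorem exists_iso_pair (h : HP Q c c') {a b a' b' : ι → F} (ha : a ∈ WW Q c c') (hb : b ∈ WW Q c c')
    (ha' : a' ∈ WW Q c c') (hb' : b' ∈ WW Q c c') (ha0 : a ≠ 0) (ha0' : a' ≠ 0) (hab : ∀ t : F, b ≠ t • a)
    (hab' : ∀ t : F, b' ≠ t • a') (hQa : Q a = Q a') (hQb : Q b = Q b') (hf : 𝔣 a b = 𝔣 a' b') :
    ∃ g : ↥(Cfsg.isometryGroup F (⇑Q)), act g c = c ∧ act g c' = c' ∧ act g a = a' ∧ act g b = b' := by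
  obtain ⟨g, hg⟩ := exists_iso_family (Q := Q) ![c, c', a, b] ![c, c', a', b'] (li_four h ha hb ha0 hab)
    (li_four h ha' hb' ha0' hab') (by
    intro t
    rw [Q_four h ha hb, Q_four h ha' hb', hQa, hQb, hf])
  exact ⟨g, hg 0, hg 1, hg 2, hg 3⟩

/-- **Witt's theorem for pairs in `Ω`, characteristic two.** -/
theorem witt_two (h2 : (2 : F) = 0) (h : HP Q c c') {a b a' b' : ι → F} (ha : a ∈ WW Q c c') (hb : b ∈ WW Q c c')
    (ha' : a' ∈ WW Q c c') (hb' : b' ∈ WW Q c c') (ha0 : a ≠ 0) (ha0' : a' ≠ 0) (hab : ∀ t : F, b ≠ t • a)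
    (hab' : ∀ t : F, b' ≠ t • a') (hQa : Q a = Q a') (hQb : Q b = Q b') (hf : 𝔣 a b = 𝔣 a' b') :
    ∃ g : GG Q, Nrm g 1 c c' ∧ act g.1 a = a' ∧ act g.1 b = b' := by
  classical
  haveI : CharP F 2 := CharTwo.of_one_ne_zero_of_two_eq_zero one_ne_zero h2
  obtain ⟨g₀, h1, h3, h4, h5⟩ := exists_iso_pair h ha hb ha' hb' ha0 ha0' hab hab' hQa hQb hf
  obtain ⟨y, hyW, hy, hya, hyb⟩ := exists_nonsing_W (Q := Q) h ha' hb'
  have hr : ∀ x, 𝔣 y x = 0 → act (reflectionIso Q y hy) x = x := by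
    intro x hx
    rw [reflectionIso_act, hx]
    simp
  have hdim := OC.dim (Q := Q)
  have hF : (∃ c : F, c ≠ 0 ∧ c ≠ 1) ∨ Fintype.card ι ≠ 4 := Or.inr (by omega)
  rcases Int.units_eq_one_or (dicksonHom OC.nd hF g₀) with hd | hd
  · refine ⟨⟨g₀, (mem_omega_iff_char_two OC.nd hF g₀).2 hd⟩, Nrm.one_of_fix h1 h3, h4, h5⟩
  · have hmem : reflectionIso Q y hy * g₀ ∈ Cfsg.Omega F (⇑Q) := by
      rw [mem_omega_iff_char_two OC.nd hF, map_mul, dicksonHom_reflection, hd]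
      rfl
    have hc1 : act (reflectionIso Q y hy) c = c := hr c (WW_left' hyW)
    have hc2 : act (reflectionIso Q y hy) c' = c' := hr c' (WW_right' hyW)
    have hc3 : act (reflectionIso Q y hy) a' = a' := hr a' (by rw [polar_symm]; exact hya)
    have hc4 : act (reflectionIso Q y hy) b' = b' := hr b' (by rw [polar_symm]; exact hyb)
    refine ⟨⟨_, hmem⟩, Nrm.one_of_fix ?_ ?_, ?_, ?_⟩
    · show act (reflectionIso Q y hy * g₀) c = c
      rw [act_mul, h1, hc1]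
    · show act (reflectionIso Q y hy * g₀) c' = c'
      rw [act_mul, h3, hc2]
    · show act (reflectionIso Q y hy * g₀) a = a'
      rw [act_mul, h4, hc3]
    · show act (reflectionIso Q y hy * g₀) b = b'
      rw [act_mul, h5, hc4]

/-- **Witt's theorem for pairs in `Ω`, odd characteristic with `-1` not a square, one singular vector.** -/
theorem witt_sing (h2 : (2 : F) ≠ 0) (hm1 : ¬ IsSquare (-1 : F)) (h : HP Q c c') {a b a' b' : ι → F} (ha : a ∈ WW Q c c')
    (hb : b ∈ WW Q c c') (ha' : a' ∈ WW Q c c') (hb' : b' ∈ WW Q c c') (ha0 : a ≠ 0) (ha0' : a' ≠ 0)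
    (hab : ∀ t : F, b ≠ t • a) (hab' : ∀ t : F, b' ≠ t • a') (hQa : Q a = 0) (hQa' : Q a' = 0) (hQb : Q b = Q b')
    (hf : 𝔣 a b = 0) (hf' : 𝔣 a' b' = 0) :
    ∃ g : GG Q, Nrm g 1 c c' ∧ (act g.1 a = a' ∨ act g.1 a = -a') ∧ act g.1 b = b' := by
  classical
  obtain ⟨g₀, h1, h3, h4, h5⟩ := exists_iso_pair h ha hb ha' hb' ha0 ha0' hab hab' (by rw [hQa, hQa']) hQb (by rw [hf, hf'])
  -- a reflection
  obtain ⟨y, hyW, hy, hya, hyb⟩ := exists_nonsing_W (Q := Q) h ha' hb'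
  have hr : ∀ x, 𝔣 y x = 0 → act (reflectionIso Q y hy) x = x := by
    intro x hx
    rw [reflectionIso_act, hx]
    simp
  -- a partner
  have hba0 : ∀ t : F, a' ≠ t • b' := by
    intro t ht
    have ht0 : t ≠ 0 := by
      rintro rfl
      exact ha0' (by rw [ht, zero_smul])
    apply hab' t⁻¹
    rw [ht, smul_smul, inv_mul_cancel₀ ht0, one_smul]
  obtain ⟨s, hsW, hs1, hs2⟩ := exists_perp_sep h hb' ha' hba0
  have haa := polar_zero_self hQa'
  set a'' := s - Q s • a' with ha''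
  have ha''W : a'' ∈ WW Q c c' := Submodule.sub_mem _ hsW (Submodule.smul_mem _ _ ha')
  have hHP : HP Q a' a'' := by
    refine ⟨hQa', ?_, ?_⟩
    · rw [ha'', Q_sub, Q_smul, hQa', polar_smul_right', polar_symm s a', hs2]
      ring
    · rw [ha'', polar_sub_right, polar_smul_right', haa, hs2]
      ring
  have hb'a'' : 𝔣 b' a'' = 0 := by
    rw [ha'', polar_sub_right, polar_smul_right', hs1, polar_symm b' a', hf']
    ring
  -- the element which changes both signs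
  have hQ1 : Q (a' + a'') = 1 := by
    rw [Q_add, hHP.hc, hHP.hc', hHP.hp]
    ring
  have hQ2 : Q (a' - a'') = -1 := by
    rw [Q_sub, hHP.hc, hHP.hc', hHP.hp]
    ring
  have hne1 : Q (a' + a'') ≠ 0 := by rw [hQ1]; exact one_ne_zero
  have hne2 : Q (a' - a'') ≠ 0 := by rw [hQ2]; exact neg_ne_zero.2 one_ne_zero
  set r₁ := reflectionIso Q _ hne1 with hr₁
  set r₂ := reflectionIso Q _ hne2 with hr₂
  have hS1 : IsSquare (Q (a' + a'')) := by rw [hQ1]; exact IsSquare.one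
  have hS2 : ¬ IsSquare (Q (a' - a'')) := by rw [hQ2]; exact hm1
  have p1 : plusSign Q r₁ = -1 := by rw [hr₁, plusSign_reflection Q h2, if_pos hS1]
  have p2 : plusSign Q r₂ = 1 := by rw [hr₂, plusSign_reflection Q h2, if_neg hS2]
  have s1 : spinorSign Q h2 r₁ = 1 := by rw [hr₁, spinorSign_reflection Q h2, if_pos hS1]
  have s2 : spinorSign Q h2 r₂ = -1 := by rw [hr₂, spinorSign_reflection Q h2, if_neg hS2]
  set t₀ := r₁ * r₂ with ht₀
  have r1x : ∀ x, act r₁ x = x - ((Q (a' + a''))⁻¹ * 𝔣 (a' + a'') x) • (a' + a'') := fun x => reflectionIso_act _ _ x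
  have r2x : ∀ x, act r₂ x = x - ((Q (a' - a''))⁻¹ * 𝔣 (a' - a'') x) • (a' - a'') := fun x => reflectionIso_act _ _ x
  have hperp : ∀ x, 𝔣 a' x = 0 → 𝔣 a'' x = 0 → act t₀ x = x := by
    intro x hx1 hx2
    rw [ht₀, act_mul, r2x, polar_sub_left, hx1, hx2, sub_zero, mul_zero, zero_smul, sub_zero, r1x, polar_add_left, hx1, hx2]
    simp
  have hta : act t₀ a' = -a' := by
    have e1 : 𝔣 (a' - a'') a' = -1 := by
      rw [polar_sub_left, haa, polar_symm a'' a', hHP.hp]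
      ring
    have e2 : 𝔣 (a' + a'') a'' = 1 := by
      rw [polar_add_left, hHP.hp, hHP.cc']
      ring
    rw [ht₀, act_mul, r2x, hQ2, e1]
    have e3 : (-1 : F)⁻¹ * (-1) = 1 := by
      rw [inv_neg, inv_one]
      ring
    rw [e3, one_smul, sub_sub_cancel, r1x, hQ1, e2, inv_one, mul_one, one_smul]
    abel
  -- first correction
  obtain ⟨g₁, hg1a, hg1b, hg1c, hg1d, hg1s⟩ : ∃ g₁ : ↥(Cfsg.isometryGroup F (⇑Q)), act g₁ c = c ∧ act g₁ c' = c' ∧
      act g₁ a = a' ∧ act g₁ b = b' ∧ plusSign Q g₁ * spinorSign Q h2 g₁ = 1 := by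
    rcases Int.units_eq_one_or (plusSign Q g₀ * spinorSign Q h2 g₀) with hs | hs
    · exact ⟨g₀, h1, h3, h4, h5, hs⟩
    · refine ⟨reflectionIso Q y hy * g₀, ?_, ?_, ?_, ?_, ?_⟩
      · rw [act_mul, h1, hr c (WW_left' hyW)]
      · rw [act_mul, h3, hr c' (WW_right' hyW)]
      · rw [act_mul, h4, hr a' (by rw [polar_symm]; exact hya)]
      · rw [act_mul, h5, hr b' (by rw [polar_symm]; exact hyb)]
      · rw [map_mul, map_mul]
        have e : plusSign Q (reflectionIso Q y hy) * plusSign Q g₀ * (spinorSign Q h2 (reflectionIso Q y hy) * spinorSign Q h2 g₀) =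
            (plusSign Q (reflectionIso Q y hy) * spinorSign Q h2 (reflectionIso Q y hy)) * (plusSign Q g₀ * spinorSign Q h2 g₀) := by
          ac_rfl
        rw [e, sign_reflection h2, hs]
        rfl
  -- second correction
  rcases Int.units_eq_one_or (plusSign Q g₁) with hp | hp
  · have hs : spinorSign Q h2 g₁ = 1 := by
      rw [hp, one_mul] at hg1s
      exact hg1s
    have hmem : g₁ ∈ Cfsg.Omega F (⇑Q) := (mem_omega_iff Q OC.nd h2 g₁).2 ⟨hp, hs⟩
    exact ⟨⟨g₁, hmem⟩, Nrm.one_of_fix hg1a hg1b, Or.inl hg1c, hg1d⟩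
  · have hs : spinorSign Q h2 g₁ = -1 := by
      rw [hp] at hg1s
      rcases Int.units_eq_one_or (spinorSign Q h2 g₁) with e | e
      · rw [e] at hg1s
        exact absurd hg1s (by decide)
      · exact e
    have hmem : t₀ * g₁ ∈ Cfsg.Omega F (⇑Q) := by
      rw [mem_omega_iff Q OC.nd h2, map_mul, map_mul, ht₀, map_mul, map_mul, p1, p2, s1, s2, hp, hs]
      exact ⟨rfl, rfl⟩
    refine ⟨⟨_, hmem⟩, Nrm.one_of_fix ?_ ?_, Or.inr ?_, ?_⟩
    · show act (t₀ * g₁) c = c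
      rw [act_mul, hg1a]
      exact hperp c (WW_left' ha') (WW_left' ha''W)
    · show act (t₀ * g₁) c' = c'
      rw [act_mul, hg1b]
      exact hperp c' (WW_right' ha') (WW_right' ha''W)
    · show act (t₀ * g₁) a = -a'
      rw [act_mul, hg1c, hta]
    · show act (t₀ * g₁) b = b'
      rw [act_mul, hg1d]
      exact hperp b' hf' (by rw [polar_symm]; exact hb'a'')

/-- A hyperbolic pair perpendicular to a hyperbolic pair and a nondegenerate plane. -/
theorem exists_room_plane (h : HP Q c c') {a b : ι → F} (ha : a ∈ WW Q c c') (hb : b ∈ WW Q c c')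
    (hd : ∀ α β : F, 𝔣 a (α • a + β • b) = 0 → 𝔣 b (α • a + β • b) = 0 → α = 0 ∧ β = 0) :
    ∃ e e', HP Q e e' ∧ 𝔣 e c = 0 ∧ 𝔣 e' c = 0 ∧ 𝔣 e c' = 0 ∧ 𝔣 e' c' = 0 ∧ 𝔣 e a = 0 ∧ 𝔣 e' a = 0 ∧ 𝔣 e b = 0 ∧ 𝔣 e' b = 0 := by
  have hdim := OC.dim (Q := Q)
  obtain ⟨s, hs0, hQs, hs⟩ := exists_sing_orth_vec (Q := Q) ![c, c', a, b] (by omega)
  have hs1 : 𝔣 c s = 0 := hs 0
  have hs2 : 𝔣 c' s = 0 := hs 1
  have hs3 : 𝔣 a s = 0 := hs 2
  have hs4 : 𝔣 b s = 0 := hs 3
  have hnot : s ∉ Submodule.span F (Set.range ![c, c', a, b]) := by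
    intro hm
    obtain ⟨t, ht⟩ := (Submodule.mem_span_range_iff_exists_fun F).1 hm
    simp only [Fin.sum_univ_four, Matrix.cons_val_zero, Matrix.cons_val_one, Matrix.cons_val] at ht
    have h1 := congrArg (𝔣 c') ht
    have h2 := congrArg (𝔣 c) ht
    simp only [polar_add_right, polar_smul_right', h.cc, h.cc', h.hp, h.hp', hs1, hs2, WW_left ha, WW_right ha, WW_left hb,
      WW_right hb] at h1 h2
    simp only [mul_zero, mul_one, add_zero, zero_add] at h1 h2
    rw [h1, h2] at ht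
    simp only [zero_smul, zero_add] at ht
    have e : t 2 • a + t 3 • b = s := ht
    obtain ⟨h3, h4⟩ := hd (t 2) (t 3) (by rw [e]; exact hs3) (by rw [e]; exact hs4)
    apply hs0
    rw [← e, h3, h4]
    simp
  obtain ⟨y, hy1, hy2⟩ := exists_sep (Q := Q) hnot
  have hy3 : 𝔣 c y = 0 := hy2 _ (Submodule.subset_span ⟨0, rfl⟩)
  have hy4 : 𝔣 c' y = 0 := hy2 _ (Submodule.subset_span ⟨1, rfl⟩)
  have hy5 : 𝔣 a y = 0 := hy2 _ (Submodule.subset_span ⟨2, rfl⟩)
  have hy6 : 𝔣 b y = 0 := hy2 _ (Submodule.subset_span ⟨3, rfl⟩)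
  have hss := polar_zero_self hQs
  refine ⟨s, y - Q y • s, ⟨hQs, ?_, ?_⟩, ?_, ?_, ?_, ?_, ?_, ?_, ?_, ?_⟩
  · rw [Q_sub, Q_smul, hQs, polar_smul_right', polar_symm y s, hy1]
    ring
  · rw [polar_sub_right, polar_smul_right', hss, hy1]
    ring
  · rw [polar_symm]; exact hs1
  · rw [polar_sub_left, polar_smul_left', polar_symm y c, hy3, polar_symm s c, hs1]
    ring
  · rw [polar_symm]; exact hs2
  · rw [polar_sub_left, polar_smul_left', polar_symm y c', hy4, polar_symm s c', hs2]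
    ring
  · rw [polar_symm]; exact hs3
  · rw [polar_sub_left, polar_smul_left', polar_symm y a, hy5, polar_symm s a, hs3]
    ring
  · rw [polar_symm]; exact hs4
  · rw [polar_sub_left, polar_smul_left', polar_symm y b, hy6, polar_symm s b, hs4]
    ring

/-- **Witt's theorem for pairs spanning a nondegenerate plane.** -/
theorem witt_plane (h : HP Q c c') {a b a' b' : ι → F} (ha : a ∈ WW Q c c') (hb : b ∈ WW Q c c')
    (ha' : a' ∈ WW Q c c') (hb' : b' ∈ WW Q c c') (ha0 : a ≠ 0) (ha0' : a' ≠ 0) (hab : ∀ t : F, b ≠ t • a)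
    (hab' : ∀ t : F, b' ≠ t • a') (hQa : Q a = Q a') (hQb : Q b = Q b') (hf : 𝔣 a b = 𝔣 a' b')
    (hd : ∀ α β : F, 𝔣 a' (α • a' + β • b') = 0 → 𝔣 b' (α • a' + β • b') = 0 → α = 0 ∧ β = 0) :
    ∃ g : GG Q, Nrm g 1 c c' ∧ act g.1 a = a' ∧ act g.1 b = b' := by
  obtain ⟨g₀, h1, h3, h4, h5⟩ := exists_iso_pair h ha hb ha' hb' ha0 ha0' hab hab' hQa hQb hf
  obtain ⟨e, e', hHP, he1, he2, he3, he4, he5, he6, he7, he8⟩ := exists_room_plane h ha' hb' hd
  obtain ⟨s, hs, hsg⟩ := exists_adjust hHP g₀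
  refine ⟨⟨s * g₀, hsg⟩, Nrm.one_of_fix ?_ ?_, ?_, ?_⟩
  · show act (s * g₀) c = c
    rw [act_mul, h1]
    exact hs c he1 he2
  · show act (s * g₀) c' = c'
    rw [act_mul, h3]
    exact hs c' he3 he4
  · show act (s * g₀) a = a'
    rw [act_mul, h4]
    exact hs a' he5 he6
  · show act (s * g₀) b = b'
    rw [act_mul, h5]
    exact hs b' he7 he8

end Cfsg.Agent.Lib.MinIndex.OT3
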