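import Mathlib
import Cfsg.Agent.Lib.MinIndex.OT3

/-!
# Minimal degree of the orthogonal groups over small prime fields: annihilators are lines or everything
-/

set_option autoImplicit false
set_option linter.unusedSectionVars false
set_option linter.unusedSimpArgs false
set_option linter.unusedVariables false

namespace Cfsg.Agent.Lib.MinIndex.OT4

open Matrix QuadraticMap Module
open Cfsg.Agent.Lib.Classical.Orth.Basic
open Cfsg.Agent.Lib.Classical.Witt.Hyp
open Cfsg.Agent.Lib.MinIndex.OBase Cfsg.Agent.Lib.MinIndex.OVec Cfsg.Agent.Lib.MinIndex.OGood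
open Cfsg.Agent.Lib.MinIndex.OTypes Cfsg.Agent.Lib.MinIndex.OLine Cfsg.Agent.Lib.MinIndex.OStep
open Cfsg.Agent.Lib.MinIndex.OFix Cfsg.Agent.Lib.MinIndex.OFix2 Cfsg.Agent.Lib.MinIndex.OT1
open Cfsg.Agent.Lib.MinIndex.OCount Cfsg.Agent.Lib.MinIndex.OFam Cfsg.Agent.Lib.MinIndex.OT2
open Cfsg.Agent.Lib.MinIndex.OT3

variable {ι : Type} [Fintype ι] [DecidableEq ι] {F : Type*} [Field F] [Fintype F]
variable {Q : QuadraticForm F (ι → F)} [OC Q]

set_option quotPrecheck false in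
local notation "𝔣" => polar (⇑Q)

variable {c c' : ι → F}

open _root_.Classical in
/-- **The count of singular vectors** of a space with a totally singular subgroup equal to its perpendicular. -/
theorem lag_count (S : AddSubgroup (ι → F)) (hsub : ∀ a ∈ S, a ∈ WW Q c c') (hc : ∀ s : F, ∀ x ∈ S, s • x ∈ S)
    (hts : ∀ a ∈ S, Q a = 0) (hperp : ∀ y ∈ WW Q c c', (∀ a ∈ S, 𝔣 y a = 0) → y ∈ S) :
    Fintype.card F * cntU Q (WW Q c c') 0 = Fintype.card F * Nat.card S + (Nat.card (WW Q c c') - Nat.card S) := by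
  have hq : 0 < Fintype.card F := Fintype.card_pos
  set WF := Sf (WW Q c c').toAddSubgroup with hWF
  have hmemW : ∀ {y}, y ∈ WF ↔ y ∈ WW Q c c' := fun {y} => mem_Sf
  have hWFc : WF.card = Nat.card (WW Q c c') := card_Sf (WW Q c c').toAddSubgroup
  set R : (ι → F) → (ι → F) → Prop := fun y a => Q (y + a) = 0 with hR
  have hdc := Finset.sum_card_bipartiteAbove_eq_sum_card_bipartiteBelow (s := WF) (t := Sf S) R
  have hB : ∀ a ∈ Sf S, (Finset.bipartiteBelow R WF a).card = cntU Q (WW Q c c') 0 := by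
    intro a ha
    have haW := hsub a (mem_Sf.1 ha)
    unfold cntU
    apply Finset.card_bij (fun y _ => y + a)
    · intro y hy
      obtain ⟨h1, h2⟩ := (Finset.mem_bipartiteBelow _).1 hy
      simp only [Finset.mem_filter, Finset.mem_univ, true_and]
      exact ⟨Submodule.add_mem _ (hmemW.1 h1) haW, h2⟩
    · intro y _ y' _ e
      exact add_right_cancel e
    · intro z hz
      simp only [Finset.mem_filter, Finset.mem_univ, true_and] at hz
      refine ⟨z - a, (Finset.mem_bipartiteBelow _).2 ⟨hmemW.2 (Submodule.sub_mem _ hz.1 haW), ?_⟩, sub_add_cancel z a⟩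
      show Q (z - a + a) = 0
      rw [sub_add_cancel]
      exact hz.2
  rw [Finset.sum_congr rfl hB, Finset.sum_const, smul_eq_mul, card_Sf] at hdc
  have hA : ∀ y ∈ WF, Fintype.card F * (Finset.bipartiteAbove R (Sf S) y).card =
      if y ∈ S then Fintype.card F * Nat.card S else Nat.card S := by
    intro y hy
    by_cases hyS : y ∈ S
    · rw [if_pos hyS]
      congr 1
      rw [← card_Sf]
      congr 1
      ext a
      simp only [Finset.mem_bipartiteAbove, and_iff_left_iff_imp]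
      intro ha
      exact hts _ (S.add_mem hyS (mem_Sf.1 ha))
    · rw [if_neg hyS]
      obtain ⟨a₁, ha₁, hne⟩ : ∃ a₁ ∈ S, 𝔣 y a₁ ≠ 0 := by
        by_contra hcon
        push Not at hcon
        exact hyS (hperp y (hmemW.1 hy) hcon)
      have h1 := fiber_card S hc ha₁ hne (-Q y)
      rw [← h1]
      congr 2
      ext a
      simp only [Finset.mem_bipartiteAbove, Finset.mem_filter]
      refine and_congr_right fun ha => ?_
      show Q (y + a) = 0 ↔ _
      rw [Q_add, hts a (mem_Sf.1 ha)]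
      constructor
      · intro e
        linear_combination e
      · intro e
        rw [e]
        ring
  have h2 : Fintype.card F * ∑ y ∈ WF, (Finset.bipartiteAbove R (Sf S) y).card =
      ∑ y ∈ WF, if y ∈ S then Fintype.card F * Nat.card S else Nat.card S := by
    rw [Finset.mul_sum]
    exact Finset.sum_congr rfl hA
  rw [Finset.sum_ite, Finset.sum_const, Finset.sum_const, smul_eq_mul, smul_eq_mul] at h2
  have h3 : (WF.filter fun y => y ∈ S).card = Nat.card S := by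
    rw [← card_Sf]
    congr 1
    ext y
    simp only [Finset.mem_filter, mem_Sf]
    exact ⟨fun h => h.2, fun h => ⟨hmemW.2 (hsub y h), h⟩⟩
  have h4 : (WF.filter fun y => y ∉ S).card = Nat.card (WW Q c c') - Nat.card S := by
    have := Finset.card_filter_add_card_filter_not (s := WF) (fun y => y ∈ S)
    omega
  rw [h3, h4, hdc] at h2
  have hxpos : 0 < Nat.card S := Nat.card_pos
  apply Nat.eq_of_mul_eq_mul_left hxpos
  calc Nat.card S * (Fintype.card F * cntU Q (WW Q c c') 0) = Fintype.card F * (Nat.card S * cntU Q (WW Q c c') 0) := by ring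
    _ = _ := h2
    _ = _ := by ring

/-- Numerical assumptions. -/
structure SNum (Q : QuadraticForm F (ι → F)) [OC Q] (c c' : ι → F) (N₀ D Cm n₃ Pt : ℕ) : Prop where
  hq : (Fintype.card F).Prime
  hv : Nat.card (WW Q c c') = Fintype.card F ^ D
  hn₃ : Fintype.card F ^ D = Fintype.card F * Fintype.card F * (Fintype.card F * n₃)
  hCm : ∀ α : F, Cm ≤ (Cl Q c c' α).card
  hPt : ∀ a a', HP Q a a' → a ∈ WW Q c c' → a' ∈ WW Q c c' →
    Pt ≤ (Cl Q c c' 0).card * (Fintype.card F * (singOf Q (WW2 Q c c' a a')).card)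
  nK : N₀ * (Fintype.card F * (Fintype.card F - 1)) ≤ Cm * Fintype.card F ^ D
  nT : ∀ k, 2 ≤ k → 2 * k ≤ D →
    (2 * k = D → Fintype.card F * cntU Q (WW Q c c') 0 = Fintype.card F * Fintype.card F ^ k + (Fintype.card F ^ D - Fintype.card F ^ k)) →
    N₀ * ((Fintype.card F ^ k - 1) * (Fintype.card F ^ k - Fintype.card F)) ≤ Pt * Fintype.card F ^ k
  nM : ∀ k, 2 ≤ k → 2 * k ≤ D → N₀ * (Fintype.card F ^ k - 1) ≤ 4 * (Cm * ((Fintype.card F - 1) * n₃))
  nA : Fintype.card F = 2 → N₀ * 6 ≤ 4 * (Cm * ((Fintype.card F - 1) * n₃))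

section Points

variable {Ω : Type*} [MulAction (GG Q) Ω] [Fintype Ω]
variable {h : HP Q c c'} (ψ : AddChar F ℂ) (hψ : ψ ≠ 1)

theorem card_orb_g (ω₀ : Ω) (g : GG Q) (hN : Nrm g 1 c c') :
    ((wS h Ω).orb (g • ω₀)).card = Nat.card (ANv h ψ hψ ω₀) := by
  rw [card_orb h ψ hψ, (eqF_AN h ψ hψ).card_eq hN ω₀]

/-- Independent pairs in the images. -/
theorem core_indep (hP : PF F) {T : Ω → AddSubgroup (ι → F)} (hT : EqF h T) (ω₀ : Ω) {α β δ : F}
    (hW : ∀ p ∈ Pairs Q c c' α β δ, ∃ g : GG Q, Nrm g 1 c c' ∧ p.1 ∈ T (g • ω₀) ∧ p.2 ∈ T (g • ω₀)) :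
    (Pairs Q c c' α β δ).card * Nat.card (ANv h ψ hψ ω₀) ≤
      Fintype.card Ω * ((Nat.card (T ω₀) - 1) * (Nat.card (T ω₀) - Fintype.card F)) := by
  classical
  have h1 := dc hT ω₀ (Pairs Q c c' α β δ) (fun p S => p.1 ∈ S ∧ p.2 ∈ S)
    (w := Nat.card (ANv h ψ hψ ω₀)) (τ := (Nat.card (T ω₀) - 1) * (Nat.card (T ω₀) - Fintype.card F))
    (fun g hN => (card_orb_g ψ hψ ω₀ g hN).ge) hW (by
    intro g hN P' hsub hR
    have h2 := tau_indep hP (T (g • ω₀)) P' hR (fun p hp => by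
      obtain ⟨-, -, h3, h4, -⟩ := mem_Pairs.1 (hsub hp)
      exact ⟨h3, h4⟩)
    rwa [hT.card_eq hN] at h2)
  refine h1.trans (Nat.mul_le_mul_right _ ?_)
  exact Finset.card_le_univ _

/-- Pairs with different values in the images. -/
theorem core_vals {T : Ω → AddSubgroup (ι → F)} (hT : EqF h T) (ω₀ : Ω) {α β δ : F} (hαβ : α ≠ β)
    (hW : ∀ p ∈ Pairs Q c c' α β δ, ∃ g : GG Q, Nrm g 1 c c' ∧ p.1 ∈ T (g • ω₀) ∧ p.2 ∈ T (g • ω₀)) :
    4 * ((Pairs Q c c' α β δ).card * Nat.card (ANv h ψ hψ ω₀)) ≤ Fintype.card Ω * (Nat.card (T ω₀) - 1) ^ 2 := by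
  classical
  have h1 := dc hT ω₀ (Pairs Q c c' α β δ) (fun p S => p.1 ∈ S ∧ p.2 ∈ S)
    (w := Nat.card (ANv h ψ hψ ω₀)) (τ := (Nat.card (T ω₀) - 1) ^ 2 / 4)
    (fun g hN => (card_orb_g ψ hψ ω₀ g hN).ge) hW (by
    intro g hN P' hsub hR
    have h2 := tau_vals (T (g • ω₀)) P' hαβ hR (fun p hp => by
      obtain ⟨-, -, h3, h4, h5, h6, -⟩ := mem_Pairs.1 (hsub hp)
      refine ⟨h3, fun h0 => h4 0 (by rw [h0, zero_smul]), h5, h6⟩)
    rw [hT.card_eq hN] at h2
    rw [Nat.le_div_iff_mul_le (by norm_num)]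
    rw [mul_comm]
    exact h2)
  have h2 : (YY h ω₀).card ≤ Fintype.card Ω := Finset.card_le_univ _
  have h3 := Nat.div_mul_le_self ((Nat.card (T ω₀) - 1) ^ 2) 4
  calc 4 * ((Pairs Q c c' α β δ).card * Nat.card (ANv h ψ hψ ω₀)) ≤ 4 * ((YY h ω₀).card * ((Nat.card (T ω₀) - 1) ^ 2 / 4)) :=
        Nat.mul_le_mul_left _ h1
    _ = (YY h ω₀).card * ((Nat.card (T ω₀) - 1) ^ 2 / 4 * 4) := by ring
    _ ≤ Fintype.card Ω * (Nat.card (T ω₀) - 1) ^ 2 := Nat.mul_le_mul h2 h3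

/-- Single vectors in the images. -/
theorem core_single {T : Ω → AddSubgroup (ι → F)} (hT : EqF h T) (ω₀ : Ω) {r : ι → F} (hr : r ∈ T ω₀) (hr0 : r ≠ 0) :
    (Cl Q c c' (Q r)).card * Nat.card (ANv h ψ hψ ω₀) ≤ (YY h ω₀).card * (Nat.card (T ω₀) - 1) := by
  classical
  have hrW := hT.sub _ _ hr
  refine dc hT ω₀ (Cl Q c c' (Q r)) (fun x S => x ∈ S) (fun g hN => (card_orb_g ψ hψ ω₀ g hN).ge) ?_ ?_
  · intro x hx
    obtain ⟨h1, h2, h3⟩ := mem_Cl.1 hx
    obtain ⟨g, hg1, hg2, hg3⟩ := exists_omega_triple h h hrW h1 hr0 h2 h3.symm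
    refine ⟨g, Nrm.one_of_fix hg1 hg2, ?_⟩
    rw [← hg3]
    exact hT.img g (Nrm.one_of_fix hg1 hg2) _ _ hr
  · intro g hN P' hsub hR
    have h1 : P' ⊆ (Sf (T (g • ω₀))).erase 0 := by
      intro x hx
      exact Finset.mem_erase.2 ⟨(mem_Cl.1 (hsub hx)).2.1, mem_Sf.2 (hR x hx)⟩
    have h2 := Finset.card_le_card h1
    rw [Finset.card_erase_of_mem (mem_Sf.2 (T (g • ω₀)).zero_mem), card_Sf, hT.card_eq hN] at h2
    exact h2

/-- An independent pair in a subgroup with more elements than the field. -/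
theorem exists_indep (S : AddSubgroup (ι → F)) (hS : Fintype.card F < Nat.card S) :
    ∃ a ∈ S, a ≠ 0 ∧ ∃ b ∈ S, ∀ t : F, b ≠ t • a := by
  classical
  have hq : 2 ≤ Fintype.card F := Fintype.one_lt_card
  obtain ⟨a, ha, ha0⟩ : ∃ a ∈ S, a ≠ 0 := by
    by_contra hcon
    push Not at hcon
    have : S = ⊥ := (AddSubgroup.eq_bot_iff_forall _).2 hcon
    rw [this] at hS
    simp at hS
  refine ⟨a, ha, ha0, ?_⟩
  by_contra hcon
  push Not at hcon
  choose t ht using fun b : S => hcon b.1 b.2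
  have hinj : Function.Injective t := by
    intro x y e
    apply Subtype.ext
    rw [ht x, ht y, e]
  have h1 := Nat.card_le_card_of_injective t hinj
  rw [Nat.card_eq_fintype_card (α := F)] at h1
  omega

/-- A nonzero value of the polar form on a subgroup gives independence. -/
theorem Q_smul_small (hF : ∀ t : F, t = 0 ∨ t * t = 1) (x : ι → F) (t : F) : Q (t • x) = 0 ∨ Q (t • x) = Q x := by
  rcases hF t with rfl | ht
  · left
    simp
  · right
    rw [Q_smul, ht, one_mul]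

/-- The counting for pairs with different values. -/
theorem card_Pairs_vals (h : HP Q c c') (hF : ∀ t : F, t = 0 ∨ t * t = 1) {α β δ : F} (hαβ : α ≠ β) (hβ : β ≠ 0)
    {n : ℕ} (hn : Nat.card (WW Q c c') = Fintype.card F * Fintype.card F * (Fintype.card F * n)) :
    (Cl Q c c' α).card * ((Fintype.card F - 1) * n) ≤ (Pairs Q c c' α β δ).card := by
  classical
  apply card_Pairs_ge
  intro x hx
  obtain ⟨h1, h2, h3⟩ := mem_Cl.1 hx
  refine (count_uniform h h1 h2 β δ hn).trans (Finset.card_le_card ?_)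
  intro y hy
  obtain ⟨-, h4, h5, h6⟩ := Finset.mem_filter.1 hy
  refine Finset.mem_filter.2 ⟨Finset.mem_univ _, h4, h5, h6, ?_⟩
  intro t ht
  rcases Q_smul_small (Q := Q) hF x t with e | e
  · apply hβ
    rw [← h5, ht, e]
  · apply hαβ
    rw [← h3, ← e, ← ht, h5]

variable {N₀ D Cm n₃ Pt : ℕ} (hnum : SNum Q c c' N₀ D Cm n₃ Pt) (hd : Fintype.card Ω < N₀)

include hnum hd

/-- The end of the argument for pairs with different values. -/
theorem finish_vals (hF : ∀ t : F, t = 0 ∨ t * t = 1) {T : Ω → AddSubgroup (ι → F)} (hT : EqF h T) (ω₀ : Ω) {k : ℕ}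
    (hk2 : 2 ≤ k) (hkD : 2 * k ≤ D) (hx : Nat.card (T ω₀) = Fintype.card F ^ k)
    (hw : Fintype.card F ^ k ≤ Nat.card (ANv h ψ hψ ω₀)) {α β δ : F} (hαβ : α ≠ β) (hβ : β ≠ 0)
    (hW : ∀ p ∈ Pairs Q c c' α β δ, ∃ g : GG Q, Nrm g 1 c c' ∧ p.1 ∈ T (g • ω₀) ∧ p.2 ∈ T (g • ω₀)) : False := by
  classical
  set q := Fintype.card F with hq
  have hq2 : 2 ≤ q := Fintype.one_lt_card
  set x := q ^ k with hxd
  have hx2 : q ^ 2 ≤ x := Nat.pow_le_pow_right (by omega) hk2
  have hx1 : 2 ≤ x := by nlinarith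
  have h1 := core_vals ψ hψ hT ω₀ hαβ hW
  rw [hx] at h1
  have h2 := card_Pairs_vals h hF (δ := δ) hαβ hβ (n := n₃) (by rw [hnum.hv]; exact hnum.hn₃)
  have h3 : N₀ * (x - 1) ≤ 4 * (Cm * ((q - 1) * n₃)) := hnum.nM k hk2 hkD
  have h4 := hnum.hCm α
  set P := (Pairs Q c c' α β δ).card with hPd
  set W := Nat.card (ANv h ψ hψ ω₀) with hWd
  set u := (q - 1) * n₃ with hud
  set d := Fintype.card Ω with hdd
  obtain ⟨y, hy⟩ : ∃ y, x = y + 1 := ⟨x - 1, by omega⟩
  have hy0 : 0 < y := by omega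
  rw [hy, Nat.add_sub_cancel] at h1 h3
  rw [hy] at hw
  have h5 : Cm * u ≤ P := (Nat.mul_le_mul_right _ h4).trans h2
  have h6 : N₀ * y * (y + 1) ≤ d * y * (y + 1) := by
    calc N₀ * y * (y + 1) ≤ 4 * (Cm * u) * (y + 1) := Nat.mul_le_mul_right _ h3
      _ ≤ 4 * (Cm * u) * W := Nat.mul_le_mul_left _ hw
      _ ≤ 4 * (P * W) := by
        have := Nat.mul_le_mul_right W h5
        nlinarith
      _ ≤ d * y ^ 2 := h1
      _ ≤ d * y * (y + 1) := by nlinarith
  have h7 : N₀ ≤ d := by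
    have hpos : 0 < y * (y + 1) := by positivity
    refine Nat.le_of_mul_le_mul_right (c := y * (y + 1)) ?_ hpos
    nlinarith
  omega

/-- The end of the argument for totally singular subgroups. -/
theorem finish_T {T : Ω → AddSubgroup (ι → F)} (hT : EqF h T) (hP : PF F) (ω₀ : Ω) {k : ℕ}
    (hk2 : 2 ≤ k) (hkD : 2 * k ≤ D) (hx : Nat.card (T ω₀) = Fintype.card F ^ k)
    (hw : Fintype.card F ^ k ≤ Nat.card (ANv h ψ hψ ω₀))
    (hL : 2 * k = D → Fintype.card F * cntU Q (WW Q c c') 0 = Fintype.card F * Fintype.card F ^ k + (Fintype.card F ^ D - Fintype.card F ^ k))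
    (hW : ∀ p ∈ Pairs Q c c' 0 0 0, ∃ g : GG Q, Nrm g 1 c c' ∧ p.1 ∈ T (g • ω₀) ∧ p.2 ∈ T (g • ω₀)) : False := by
  classical
  set q := Fintype.card F with hq
  have hq2 : 2 ≤ q := Fintype.one_lt_card
  set x := q ^ k with hxd
  have hx2 : q ^ 2 ≤ x := Nat.pow_le_pow_right (by omega) hk2
  have h1 := core_indep ψ hψ hP hT ω₀ hW
  rw [hx] at h1
  obtain ⟨a, a', ha, ha1, ha2⟩ := exists_HP_W h
  have h2 := card_Pairs_T h ha ha1 ha2
  have h3 := hnum.hPt a a' ha ha1 ha2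
  have h4 := hnum.nT k hk2 hkD hL
  set P := (Pairs Q c c' 0 0 0).card with hPd
  set W := Nat.card (ANv h ψ hψ ω₀) with hWd
  set d := Fintype.card Ω with hdd
  set τ := (x - 1) * (x - q) with hτ
  have hτpos : 0 < τ := by
    apply Nat.mul_pos
    · have : 4 ≤ q ^ 2 := by nlinarith
      omega
    · have : q < q ^ 2 := by nlinarith
      omega
  have h5 : N₀ * τ ≤ d * τ := by
    calc N₀ * τ ≤ Pt * x := h4
      _ ≤ P * W := Nat.mul_le_mul (h3.trans h2) hw
      _ ≤ d * τ := h1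
  have h6 := Nat.le_of_mul_le_mul_right h5 hτpos
  omega

/-- The end of the argument for anisotropic planes. -/
theorem finish_A {T : Ω → AddSubgroup (ι → F)} (hT : EqF h T) (hP : PF F) (hq2 : Fintype.card F = 2) (ω₀ : Ω)
    (hx : Nat.card (T ω₀) = 4) (hw : 4 ≤ Nat.card (ANv h ψ hψ ω₀)) (hF : ∀ t : F, t = 0 ∨ t = 1)
    (h2 : (2 : F) = 0)
    (hW : ∀ p ∈ Pairs Q c c' 1 1 1, ∃ g : GG Q, Nrm g 1 c c' ∧ p.1 ∈ T (g • ω₀) ∧ p.2 ∈ T (g • ω₀)) : False := by
  classical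
  have h1 := core_indep ψ hψ hP hT ω₀ hW
  rw [hx, hq2] at h1
  have h3 : (Cl Q c c' 1).card * ((Fintype.card F - 1) * n₃) ≤ (Pairs Q c c' 1 1 1).card := by
    apply card_Pairs_ge
    intro x hx
    obtain ⟨h4, h5, h6⟩ := mem_Cl.1 hx
    refine (count_uniform h h4 h5 1 1 (n := n₃) (by rw [hnum.hv]; exact hnum.hn₃)).trans (Finset.card_le_card ?_)
    intro y hy
    obtain ⟨-, h7, h8, h9⟩ := Finset.mem_filter.1 hy
    refine Finset.mem_filter.2 ⟨Finset.mem_univ _, h7, h8, h9, ?_⟩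
    intro t ht
    rw [ht, polar_smul_right', polar_self_eq, h2] at h9
    simp at h9
  have h4 := hnum.nA hq2
  have h5 := hnum.hCm 1
  set P := (Pairs Q c c' 1 1 1).card with hPd
  set W := Nat.card (ANv h ψ hψ ω₀) with hWd
  set u := (Fintype.card F - 1) * n₃ with hud
  set d := Fintype.card Ω with hdd
  have h6 : Cm * u ≤ P := (Nat.mul_le_mul_right _ h5).trans h3
  have h7 : N₀ * 6 ≤ d * 6 := by
    calc N₀ * 6 ≤ 4 * (Cm * u) := h4
      _ ≤ 4 * P := Nat.mul_le_mul_left _ h6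
      _ ≤ P * W := by
        rw [mul_comm]
        exact Nat.mul_le_mul_left _ hw
      _ ≤ d * ((4 - 1) * (4 - 2)) := h1
      _ = d * 6 := by norm_num
  omega

end Points

end Cfsg.Agent.Lib.MinIndex.OT4
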