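import Mathlib
import Cfsg.Agent.Lib.MinIndex.OT4

/-!
# Minimal degree of the orthogonal groups over small prime fields: the selection of pairs, the types of annihilators
-/

set_option autoImplicit false
set_option linter.unusedSectionVars false
set_option linter.unusedSimpArgs false
set_option linter.unusedVariables false

namespace Cfsg.Agent.Lib.MinIndex.OT5

open Matrix QuadraticMap Module
open Cfsg.Agent.Lib.Classical.Orth.Basic
open Cfsg.Agent.Lib.Classical.Witt.Hyp
open Cfsg.Agent.Lib.MinIndex.OBase Cfsg.Agent.Lib.MinIndex.OVec Cfsg.Agent.Lib.MinIndex.OGood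
open Cfsg.Agent.Lib.MinIndex.OTypes Cfsg.Agent.Lib.MinIndex.OLine Cfsg.Agent.Lib.MinIndex.OStep
open Cfsg.Agent.Lib.MinIndex.OFix Cfsg.Agent.Lib.MinIndex.OFix2 Cfsg.Agent.Lib.MinIndex.OT1
open Cfsg.Agent.Lib.MinIndex.OCount Cfsg.Agent.Lib.MinIndex.OFam Cfsg.Agent.Lib.MinIndex.OT2
open Cfsg.Agent.Lib.MinIndex.OT3 Cfsg.Agent.Lib.MinIndex.OT4

variable {ι : Type} [Fintype ι] [DecidableEq ι] {F : Type*} [Field F] [Fintype F]
variable {Q : QuadraticForm F (ι → F)} [OC Q]

set_option quotPrecheck false in
local notation "𝔣" => polar (⇑Q)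

variable {c c' : ι → F}

/-- A vector of a subgroup outside of a line. -/
theorem exists_out (S : AddSubgroup (ι → F)) (hS : Fintype.card F < Nat.card S) (a : ι → F) :
    ∃ b ∈ S, ∀ t : F, b ≠ t • a := by
  by_contra hcon
  push Not at hcon
  choose t ht using fun b : S => hcon b.1 b.2
  have hinj : Function.Injective t := by
    intro x y e
    apply Subtype.ext
    rw [ht x, ht y, e]
  have h1 := Nat.card_le_card_of_injective t hinj
  rw [Nat.card_eq_fintype_card (α := F)] at h1
  omega

/-- The nondegeneracy of a plane through the discriminant. -/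
theorem plane_nondeg {a b : ι → F} (hd : 𝔣 a b * 𝔣 a b - 4 * Q a * Q b ≠ 0) (s t : F)
    (h1 : 𝔣 a (s • a + t • b) = 0) (h2 : 𝔣 b (s • a + t • b) = 0) : s = 0 ∧ t = 0 := by
  rw [polar_add_right, polar_smul_right', polar_smul_right', polar_self_eq] at h1
  rw [polar_add_right, polar_smul_right', polar_smul_right', polar_self_eq, polar_symm b a] at h2
  have e1 : (𝔣 a b * 𝔣 a b - 4 * Q a * Q b) * s = 0 := by
    linear_combination (-2 * Q b) * h1 + 𝔣 a b * h2
  have e2 : (𝔣 a b * 𝔣 a b - 4 * Q a * Q b) * t = 0 := by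
    linear_combination (𝔣 a b) * h1 - (2 * Q a) * h2
  exact ⟨(mul_eq_zero.1 e1).resolve_left hd, (mul_eq_zero.1 e2).resolve_left hd⟩

section Points

variable {Ω : Type*} [MulAction (GG Q) Ω] [Fintype Ω]
variable {h : HP Q c c'} (ψ : AddChar F ℂ) (hψ : ψ ≠ 1)
variable {N₀ D Cm n₃ Pt : ℕ} (hnum : SNum Q c c' N₀ D Cm n₃ Pt) (hd : Fintype.card Ω < N₀)

include hnum hd

/-- **The core of the analysis** of the subgroups of the complement. -/
theorem types_core (hP : PF F) (hF : ∀ t : F, t = 0 ∨ t * t = 1) (hq23 : Fintype.card F = 2 ∨ Fintype.card F = 3)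
    {T : Ω → AddSubgroup (ι → F)} (hT : EqF h T) (ω₀ : Ω) {k : ℕ} (hk2 : 2 ≤ k) (hkD : 2 * k ≤ D)
    (hx : Nat.card (T ω₀) = Fintype.card F ^ k) (hw : Fintype.card F ^ k ≤ Nat.card (ANv h ψ hψ ω₀))
    (hL : (∀ a ∈ T ω₀, Q a = 0) → 2 * k = D → Fintype.card F * cntU Q (WW Q c c') 0 =
      Fintype.card F * Fintype.card F ^ k + (Fintype.card F ^ D - Fintype.card F ^ k)) : False := by
  classical
  set S := T ω₀ with hS
  have hq2 : 2 ≤ Fintype.card F := Fintype.one_lt_card
  have hqx : Fintype.card F < Nat.card S := by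
    rw [hx]
    calc Fintype.card F = Fintype.card F ^ 1 := (pow_one _).symm
      _ < Fintype.card F ^ k := Nat.pow_lt_pow_right (by omega) (by omega)
  have hSW : ∀ x ∈ S, x ∈ WW Q c c' := hT.sub ω₀
  -- images of pairs
  have himg : ∀ {x : ι → F} (g : GG Q), Nrm g 1 c c' → x ∈ S → act g.1 x ∈ T (g • ω₀) := fun g hN hx => hT.img g hN ω₀ _ hx
  by_cases hts : ∀ a ∈ S, Q a = 0
  · -- totally singular subgroups
    obtain ⟨a, ha, ha0, b, hb, hab⟩ := exists_indep S hqx
    have hfab : 𝔣 a b = 0 := by
      have h1 := hts _ (S.add_mem ha hb)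
      rw [Q_add, hts a ha, hts b hb] at h1
      simpa using h1
    refine finish_T ψ hψ hnum hd hT hP ω₀ hk2 hkD hx hw (hL hts) ?_
    intro p hp
    obtain ⟨h1, h3, h4, h5, h6, h7, h8⟩ := mem_Pairs.1 hp
    rcases hq23 with hq | hq
    · have h2 : (2 : F) = 0 := by
        have := FiniteField.cast_card_eq_zero F
        rw [hq] at this
        exact_mod_cast this
      obtain ⟨g, hN, hg1, hg2⟩ := witt_two h2 h (hSW a ha) (hSW b hb) h1 h3 ha0 h4 hab h5 (by rw [hts a ha, h6])
        (by rw [hts b hb, h7]) (by rw [hfab, h8])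
      exact ⟨g, hN, by rw [← hg1]; exact himg g hN ha, by rw [← hg2]; exact himg g hN hb⟩
    · have h2 : (2 : F) ≠ 0 := fun h0 => by
        have hch : (3 : F) = 0 := by
          have := FiniteField.cast_card_eq_zero F
          rw [hq] at this
          exact_mod_cast this
        have : (1 : F) = 0 := by linear_combination hch - h0
        exact one_ne_zero this
      have hm1 : ¬ IsSquare (-1 : F) := by
        rintro ⟨r, hr⟩
        rcases hF r with rfl | hr'
        · simp at hr
        · rw [hr'] at hr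
          apply h2
          linear_combination -hr
      obtain ⟨g, hN, hg1, hg2⟩ := witt_sing h2 hm1 h (hSW a ha) (hSW b hb) h1 h3 ha0 h4 hab h5 (hts a ha) h6
        (by rw [hts b hb, h7]) hfab h8
      refine ⟨g, hN, ?_, by rw [← hg2]; exact himg g hN hb⟩
      rcases hg1 with hg1 | hg1
      · rw [← hg1]
        exact himg g hN ha
      · have : p.1 = -act g.1 a := by rw [hg1, neg_neg]
        rw [this]
        exact AddSubgroup.neg_mem _ (himg g hN ha)
  · push Not at hts
    obtain ⟨b, hb, hQb⟩ := hts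
    have hbW := hSW b hb
    have hb0 : b ≠ 0 := by
      rintro rfl
      simp at hQb
    rcases hq23 with hq | hq
    · -- characteristic two
      have h2 : (2 : F) = 0 := by
        have := FiniteField.cast_card_eq_zero F
        rw [hq] at this
        exact_mod_cast this
      have hF2 : ∀ t : F, t = 0 ∨ t = 1 := by
        intro t
        rcases hF t with rfl | ht
        · exact Or.inl rfl
        · right
          have e : (t - 1) * (t - 1) = 0 := by linear_combination ht + (1 - t) * h2
          have := mul_self_eq_zero.1 e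
          exact sub_eq_zero.1 this
      by_cases hsing : ∃ a ∈ S, a ≠ 0 ∧ Q a = 0
      · obtain ⟨a, ha, ha0, hQa⟩ := hsing
        have hab : ∀ t : F, b ≠ t • a := by
          intro t e
          apply hQb
          rw [e, Q_smul, hQa, mul_zero]
        refine finish_vals ψ hψ hnum hd hF hT ω₀ hk2 hkD hx hw (α := 0) (β := Q b) (δ := 𝔣 a b) (Ne.symm hQb) hQb ?_
        intro p hp
        obtain ⟨h1, h3, h4, h5, h6, h7, h8⟩ := mem_Pairs.1 hp
        obtain ⟨g, hN, hg1, hg2⟩ := witt_two h2 h (hSW a ha) hbW h1 h3 ha0 h4 hab h5 (by rw [hQa, h6]) h7.symm h8.symm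
        exact ⟨g, hN, by rw [← hg1]; exact himg g hN ha, by rw [← hg2]; exact himg g hN hb⟩
      · push Not at hsing
        have hone : ∀ x ∈ S, x ≠ 0 → Q x = 1 := by
          intro x hx hx0
          rcases hF2 (Q x) with e | e
          · exact absurd e (hsing x hx hx0)
          · exact e
        obtain ⟨a, ha, ha0, b₁, hb₁, hab⟩ := exists_indep S hqx
        have hneg : ∀ x : ι → F, -x = x := by
          intro x
          have : (2 : F) • x = 0 := by rw [h2, zero_smul]
          have e : x + x = 0 := by rw [← two_smul F x, this]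
          exact neg_eq_of_add_eq_zero_right e
        have hf1 : ∀ x ∈ S, ∀ y ∈ S, x ≠ 0 → y ≠ 0 → x ≠ y → 𝔣 x y = 1 := by
          intro x hx y hy hx0 hy0 hxy
          have hne : x + y ≠ 0 := by
            intro e
            apply hxy
            have := eq_neg_of_add_eq_zero_left e
            rw [this, hneg]
          have e1 := hone _ (S.add_mem hx hy) hne
          rw [Q_add, hone x hx hx0, hone y hy hy0] at e1
          linear_combination e1 - h2
        have hb₁0 : b₁ ≠ 0 := fun e => hab 0 (by rw [e, zero_smul])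
        have hne1 : a ≠ b₁ := fun e => hab 1 (by rw [one_smul, e])
        have hsub : Sf S ⊆ {0, a, b₁, a + b₁} := by
          intro d hd'
          have hdS := mem_Sf.1 hd'
          by_contra hnot
          simp only [Finset.mem_insert, Finset.mem_singleton, not_or] at hnot
          obtain ⟨h1, h3, h4, h5⟩ := hnot
          have hne : a + b₁ + d ≠ 0 := by
            intro e
            apply h5
            have := eq_neg_of_add_eq_zero_right e
            rw [this, hneg]
          have hne2 : a + b₁ ≠ 0 := by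
            intro e
            apply hne1
            have := eq_neg_of_add_eq_zero_left e
            rw [this, hneg]
          have e1 := hone _ (S.add_mem (S.add_mem ha hb₁) hdS) hne
          rw [Q_add, hone _ (S.add_mem ha hb₁) hne2, hone d hdS h1, polar_add_left, hf1 a ha d hdS ha0 h1 (Ne.symm h3),
            hf1 b₁ hb₁ d hdS hb₁0 h1 (Ne.symm h4)] at e1
          apply one_ne_zero (α := F)
          linear_combination -e1 + 2 * h2
        have hc4 : Nat.card S ≤ 4 := by
          rw [← card_Sf]
          exact (Finset.card_le_card hsub).trans Finset.card_le_four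
        have hk22 : k = 2 := by
          rw [hx, hq] at hc4
          by_contra hne
          have : 2 ^ 3 ≤ 2 ^ k := Nat.pow_le_pow_right (by norm_num) (by omega)
          omega
        have hx4 : Nat.card (T ω₀) = 4 := by rw [hx, hq, hk22]; norm_num
        have hw4 : 4 ≤ Nat.card (ANv h ψ hψ ω₀) := by
          rw [hq, hk22] at hw
          exact hw
        refine finish_A ψ hψ hnum hd hT hP hq ω₀ hx4 hw4 hF2 h2 ?_
        intro p hp
        obtain ⟨h1, h3, h4, h5, h6, h7, h8⟩ := mem_Pairs.1 hp
        obtain ⟨g, hN, hg1, hg2⟩ := witt_two h2 h (hSW a ha) (hSW b₁ hb₁) h1 h3 ha0 h4 hab h5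
          (by rw [hone a ha ha0, h6]) (by rw [hone b₁ hb₁ hb₁0, h7]) (by rw [hf1 a ha b₁ hb₁ ha0 hb₁0 hne1, h8])
        exact ⟨g, hN, by rw [← hg1]; exact himg g hN ha, by rw [← hg2]; exact himg g hN hb₁⟩
    · -- characteristic three
      have h3 : (3 : F) = 0 := by
        have := FiniteField.cast_card_eq_zero F
        rw [hq] at this
        exact_mod_cast this
      have h2 : (2 : F) ≠ 0 := fun h0 => by
        have : (1 : F) = 0 := by linear_combination h3 - h0
        exact one_ne_zero this
      have hm1 : ¬ IsSquare (-1 : F) := by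
        rintro ⟨r, hr⟩
        rcases hF r with rfl | hr'
        · simp at hr
        · rw [hr'] at hr
          apply h2
          linear_combination -hr
      obtain ⟨a, ha, hab⟩ := exists_out S hqx b
      have haW := hSW a ha
      by_cases hdisc : 𝔣 a b * 𝔣 a b - 4 * Q a * Q b = 0
      · -- a singular vector perpendicular to `b`
        set r := a - (𝔣 a b / (2 * Q b)) • b with hr
        have hrS : r ∈ S := S.sub_mem ha (smul_mem_PF hP S hb _)
        have hrW := hSW r hrS
        have hr0 : r ≠ 0 := by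
          intro e
          apply hab (𝔣 a b / (2 * Q b))
          exact sub_eq_zero.1 e
        have h2b : 2 * Q b ≠ 0 := mul_ne_zero h2 hQb
        have hrb : 𝔣 r b = 0 := by
          rw [hr, polar_sub_left, polar_smul_left', polar_self_eq]
          field_simp
          ring
        have hra : 𝔣 r a = 0 := by
          rw [hr, polar_sub_left, polar_smul_left', polar_self_eq, polar_symm b a]
          field_simp
          linear_combination -hdisc
        have hQr : Q r = 0 := by
          have e1 : 𝔣 r r = 0 := by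
            conv_lhs => rw [hr, polar_sub_right, polar_smul_right']
            rw [← hr, hra, hrb]
            ring
          rw [polar_self_eq] at e1
          exact (mul_eq_zero.1 e1).resolve_left h2
        have hbr : ∀ t : F, b ≠ t • r := by
          intro t e
          apply hQb
          rw [e, Q_smul, hQr, mul_zero]
        refine finish_vals ψ hψ hnum hd hF hT ω₀ hk2 hkD hx hw (α := 0) (β := Q b) (δ := 0) (Ne.symm hQb) hQb ?_
        intro p hp
        obtain ⟨h4, h5, h6, h7, h8, h9, h10⟩ := mem_Pairs.1 hp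
        obtain ⟨g, hN, hg1, hg2⟩ := witt_sing h2 hm1 h hrW hbW h4 h5 hr0 h6 hbr h7 hQr h8 h9.symm hrb h10
        refine ⟨g, hN, ?_, by rw [← hg2]; exact himg g hN hb⟩
        rcases hg1 with hg1 | hg1
        · rw [← hg1]
          exact himg g hN hrS
        · have : p.1 = -act g.1 r := by rw [hg1, neg_neg]
          rw [this]
          exact AddSubgroup.neg_mem _ (himg g hN hrS)
      · -- a nondegenerate plane
        obtain ⟨a₁, ha₁, b₁, hb₁, hQb₁, hne, hdisc₁⟩ : ∃ a₁ ∈ S, ∃ b₁ ∈ S, Q b₁ ≠ 0 ∧ Q a₁ ≠ Q b₁ ∧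
            𝔣 a₁ b₁ * 𝔣 a₁ b₁ - 4 * Q a₁ * Q b₁ ≠ 0 := by
          by_cases hab' : Q a = Q b
          · by_cases hp : Q (a + b) = Q b
            · -- the vector `a - b`
              have e1 : Q (a - b) = 0 := by
                have e2 : Q (a - b) = Q a + Q b - 𝔣 a b := Q_sub _ _ _
                have e3 : Q (a + b) = Q a + Q b + 𝔣 a b := Q_add _ _ _
                rw [e2]
                rw [e3, hab'] at hp
                linear_combination hab' + hp - 0 * h3 + (Q b) * h3 - 2 * hp
              refine ⟨a - b, S.sub_mem ha hb, a, ha, by rw [hab']; exact hQb, by rw [e1, hab']; exact Ne.symm hQb, ?_⟩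
              have e4 : 𝔣 (a - b) a = 2 * Q a - 𝔣 a b := by
                rw [polar_sub_left, polar_self_eq, polar_symm b a]
              rw [e4, e1]
              intro e5
              apply hdisc
              have e6 : Q (a + b) = Q a + Q b + 𝔣 a b := Q_add _ _ _
              rw [e6, hab'] at hp
              rw [hab']
              have e7 : 𝔣 a b = - Q b := by linear_combination hp
              rw [e7]
              linear_combination (-(Q b) ^ 2) * h3
            · refine ⟨a + b, S.add_mem ha hb, a, ha, by rw [hab']; exact hQb, ?_, ?_⟩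
              · rw [hab']
                exact hp
              · have e4 : 𝔣 (a + b) a = 2 * Q a + 𝔣 a b := by
                  rw [polar_add_left, polar_self_eq, polar_symm b a]
                have e6 : Q (a + b) = Q a + Q b + 𝔣 a b := Q_add _ _ _
                rw [e4, e6]
                intro e5
                apply hdisc
                linear_combination e5
          · exact ⟨a, ha, b, hb, hQb, hab', hdisc⟩
        have ha₁0 : a₁ ≠ 0 := by
          rintro rfl
          apply hdisc₁
          simp [polar]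
        have hab₁ : ∀ t : F, b₁ ≠ t • a₁ := by
          intro t e
          apply hdisc₁
          rw [e, polar_smul_right', Q_smul, polar_self_eq]
          ring
        refine finish_vals ψ hψ hnum hd hF hT ω₀ hk2 hkD hx hw (α := Q a₁) (β := Q b₁) (δ := 𝔣 a₁ b₁) hne hQb₁ ?_
        intro p hp
        obtain ⟨h4, h5, h6, h7, h8, h9, h10⟩ := mem_Pairs.1 hp
        have hdp : 𝔣 p.1 p.2 * 𝔣 p.1 p.2 - 4 * Q p.1 * Q p.2 ≠ 0 := by
          rw [h8, h9, h10]
          exact hdisc₁
        obtain ⟨g, hN, hg1, hg2⟩ := witt_plane h (hSW a₁ ha₁) (hSW b₁ hb₁) h4 h5 ha₁0 h6 hab₁ h7 h8.symm h9.symm h10.symm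
          (plane_nondeg hdp)
        exact ⟨g, hN, by rw [← hg1]; exact himg g hN ha₁, by rw [← hg2]; exact himg g hN hb₁⟩

/-- **Annihilators**: an annihilator containing two independent vectors is everything. -/
theorem types (hP : PF F) (hF : ∀ t : F, t = 0 ∨ t * t = 1) (hq23 : Fintype.card F = 2 ∨ Fintype.card F = 3)
    (ω₀ : Ω) {r : ι → F} (hr : r ∈ Kv h ω₀) (hr0 : r ≠ 0) {a b : ι → F} (ha : a ∈ ANv h ψ hψ ω₀) (hb : b ∈ ANv h ψ hψ ω₀)
    (ha0 : a ≠ 0) (hab : ∀ t : F, b ≠ t • a) : False := by
  classical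
  set q := Fintype.card F with hq
  have hq2 : 2 ≤ q := Fintype.one_lt_card
  have hqp := hnum.hq
  have hmul : Nat.card (Kv h ω₀) * Nat.card (ANv h ψ hψ ω₀) = q ^ D := by
    rw [card_K_mul h ψ hψ ω₀, ← Nat.card_eq_fintype_card, hnum.hv]
  obtain ⟨k₂, -, hk₂⟩ := (Nat.dvd_prime_pow hqp).1 (Dvd.intro _ hmul)
  obtain ⟨k₁, -, hk₁⟩ := (Nat.dvd_prime_pow hqp).1 (Dvd.intro_left _ hmul)
  have hsum : k₂ + k₁ = D := by
    rw [hk₂, hk₁, ← pow_add] at hmul
    exact Nat.pow_right_injective hq2 hmul
  have hk₂0 : k₂ ≠ 0 := by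
    rintro rfl
    rw [pow_zero] at hk₂
    have := AddSubgroup.eq_bot_of_card_eq _ hk₂
    rw [this] at hr
    exact hr0 ((AddSubgroup.mem_bot).1 hr)
  have hk₁2 : 2 ≤ k₁ := by
    by_contra hlt
    have hle : q ^ k₁ ≤ q ^ 1 := Nat.pow_le_pow_right (by omega) (by omega)
    rw [pow_one, ← hk₁] at hle
    let f : Option F → ANv h ψ hψ ω₀ := fun i => match i with
      | none => ⟨b, hb⟩
      | some t => ⟨t • a, smul_mem_PF hP _ ha t⟩
    have hinj : Function.Injective f := by
      rintro (_ | s) (_ | t) e
      · rfl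
      · exact absurd (congrArg Subtype.val e) (hab t)
      · exact absurd (congrArg Subtype.val e).symm (hab s)
      · have e' : s • a = t • a := congrArg Subtype.val e
        rw [smul_left_injective F ha0 e']
    have h1 := Nat.card_le_card_of_injective f hinj
    rw [Nat.card_eq_fintype_card (α := Option F), Fintype.card_option] at h1
    omega
  have hqpos : 0 < q := by omega
  by_cases hk₂1 : k₂ = 1
  · -- a line of fixed vectors
    have h1 := core_single ψ hψ (eqF_K h (Ω := Ω)) ω₀ hr hr0
    have hYY : (YY h ω₀).card ≤ Fintype.card Ω := Finset.card_le_univ _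
    rw [hk₂, hk₂1, pow_one, hk₁] at h1
    have h2 := hnum.hCm (Q r)
    have h3 := hnum.nK
    have hD : D = k₁ + 1 := by omega
    rw [hD, pow_succ] at h3
    rw [← hq] at h3 h1
    have hq1 : 0 < q * (q - 1) := Nat.mul_pos hqpos (by omega)
    have h4 : N₀ * (q * (q - 1)) ≤ Fintype.card Ω * (q * (q - 1)) := by
      calc N₀ * (q * (q - 1)) ≤ Cm * (q ^ k₁ * q) := h3
        _ ≤ (Cl Q c c' (Q r)).card * (q ^ k₁ * q) := Nat.mul_le_mul_right _ h2
        _ = ((Cl Q c c' (Q r)).card * q ^ k₁) * q := by ring
        _ ≤ ((YY h ω₀).card * (q - 1)) * q := Nat.mul_le_mul_right _ h1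
        _ ≤ (Fintype.card Ω * (q - 1)) * q := Nat.mul_le_mul_right _ (Nat.mul_le_mul_right _ hYY)
        _ = _ := by ring
    have h5 := Nat.le_of_mul_le_mul_right h4 hq1
    omega
  · have hk₂2 : 2 ≤ k₂ := by omega
    by_cases hle : k₁ ≤ k₂
    · -- the annihilator
      refine types_core ψ hψ hnum hd hP hF hq23 (eqF_AN h ψ hψ (Ω := Ω)) ω₀ hk₁2 (by omega) hk₁ hk₁.ge ?_
      intro hts hD
      have hk : k₁ = k₂ := by omega
      have hperp : ∀ x ∈ ANv h ψ hψ ω₀, ∀ y ∈ ANv h ψ hψ ω₀, 𝔣 x y = 0 := by
        intro x hx y hy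
        have h1 := hts _ (AddSubgroup.add_mem _ hx hy)
        rw [Q_add, hts x hx, hts y hy] at h1
        simpa using h1
      have hKsub : ∀ y ∈ WW Q c c', (∀ x ∈ ANv h ψ hψ ω₀, 𝔣 y x = 0) → y ∈ Kv h ω₀ := by
        intro y hy hall
        refine (mem_Kv h).2 ⟨hy, ?_⟩
        apply stab_of_perp h ψ hψ (r := ⟨y, hy⟩)
        intro x hx
        have := hall x.1 ((mem_ANv h ψ hψ).2 ⟨x.2, hx⟩)
        rw [polar_symm]
        exact this
      have hle' : ANv h ψ hψ ω₀ ≤ Kv h ω₀ := by
        intro x hx
        exact hKsub x ((mem_ANv h ψ hψ).1 hx).1 (fun y hy => hperp x hx y hy)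
      have heq : ANv h ψ hψ ω₀ = Kv h ω₀ := AddSubgroup.eq_of_le_of_card_ge hle' (by
        rw [hk₂, hk₁, hk])
      have hL := lag_count (Q := Q) (c := c) (c' := c') (ANv h ψ hψ ω₀) ((eqF_AN h ψ hψ (Ω := Ω)).sub ω₀)
        (fun s x hx => smul_mem_PF hP _ hx s) hts (fun y hy hall => by
          rw [heq]
          exact hKsub y hy hall)
      rw [hk₁, hnum.hv] at hL
      exact hL
    · -- the stabilizer
      refine types_core ψ hψ hnum hd hP hF hq23 (eqF_K h (Ω := Ω)) ω₀ hk₂2 (by omega) hk₂ ?_ ?_
      · rw [hk₁]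
        exact Nat.pow_le_pow_right (by omega) (by omega)
      · intro _ hD
        omega

end Points

end Cfsg.Agent.Lib.MinIndex.OT5
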