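import Mathlib
import Cfsg.Agent.Lib.MinIndex.OT5

/-!
# Minimal degree of the orthogonal groups over small prime fields: regular points and the remaining points
-/

set_option autoImplicit false
set_option linter.unusedSectionVars false
set_option linter.unusedSimpArgs false
set_option linter.unusedVariables false

namespace Cfsg.Agent.Lib.MinIndex.OT6

open Matrix QuadraticMap Module
open Cfsg.Agent.Lib.Classical.Orth.Basic
open Cfsg.Agent.Lib.Classical.Witt.Hyp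
open Cfsg.Agent.Lib.MinIndex.OBase Cfsg.Agent.Lib.MinIndex.OVec Cfsg.Agent.Lib.MinIndex.OGood
open Cfsg.Agent.Lib.MinIndex.OTypes Cfsg.Agent.Lib.MinIndex.OLine Cfsg.Agent.Lib.MinIndex.OStep
open Cfsg.Agent.Lib.MinIndex.OFix Cfsg.Agent.Lib.MinIndex.OFix2 Cfsg.Agent.Lib.MinIndex.OT1
open Cfsg.Agent.Lib.MinIndex.OCount Cfsg.Agent.Lib.MinIndex.OFam Cfsg.Agent.Lib.MinIndex.OT2
open Cfsg.Agent.Lib.MinIndex.OT3 Cfsg.Agent.Lib.MinIndex.OT4 Cfsg.Agent.Lib.MinIndex.OT5

variable {ι : Type} [Fintype ι] [DecidableEq ι] {F : Type*} [Field F] [Fintype F]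
variable {Q : QuadraticForm F (ι → F)} [OC Q]

set_option quotPrecheck false in
local notation "𝔣" => polar (⇑Q)

variable {c c' : ι → F}

section Points

variable {Ω : Type*} [MulAction (GG Q) Ω] [Fintype Ω]
variable (h : HP Q c c') (ψ : AddChar F ℂ) (hψ : ψ ≠ 1)

/-- A regular point. -/
def Reg (h : HP Q c c') (ω : Ω) : Prop := ∀ r ∈ Kv h ω, r = 0

variable {h}

theorem reg_orb {ω ω' : Ω} (hm : ω' ∈ (wS h Ω).orb ω) : Reg h ω' ↔ Reg h ω := by
  unfold Reg
  rw [(eqF_K h).orb ω ω' hm]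

theorem reg_g {g : GG Q} (hN : Nrm g 1 c c') {ω : Ω} (hR : Reg h ω) : Reg h (g • ω) := by
  intro r hr
  have h1 := hR _ ((eqF_K h).mem_iff hN |>.1 hr)
  have h2 := act_GG_act_inv g r
  rw [h1] at h2
  rw [← h2]
  simp

theorem reg_g_iff {g : GG Q} (hN : Nrm g 1 c c') {ω : Ω} : Reg h (g • ω) ↔ Reg h ω := by
  constructor
  · intro hR
    have hN' : Nrm g⁻¹ 1 c c' := by simpa using hN.inv
    have := reg_g hN' hR
    rwa [inv_smul_smul] at this
  · exact reg_g hN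

theorem card_K_of_reg {ω : Ω} (hR : Reg h ω) : Nat.card (Kv h ω) = 1 := by
  have : Kv h ω = ⊥ := (AddSubgroup.eq_bot_iff_forall _).2 hR
  rw [this]
  simp

include ψ hψ in
theorem card_orb_of_reg {ω : Ω} (hR : Reg h ω) : ((wS h Ω).orb ω).card = Nat.card (WW Q c c') := by
  have h1 := card_K_mul h ψ hψ ω
  rw [card_K_of_reg hR, one_mul] at h1
  rw [card_orb h ψ hψ, h1, Nat.card_eq_fintype_card]

theorem mem_orb_E {ω ω' : Ω} {r : ι → F} (hr : r ∈ WW Q c c') (e : E h.hc (WW_left hr) • ω = ω') :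
    ω' ∈ (wS h Ω).orb ω :=
  (wS h Ω).mem_orb.2 ⟨⟨r, hr⟩, e⟩

/-- The action of an element fixing the pair on the root group. -/
theorem nrm_E_smul {t : GG Q} (hN : Nrm t 1 c c') {r : ι → F} (hr : r ∈ WW Q c c') (ω : Ω) :
    t • E h.hc (WW_left hr) • ω = E h.hc (WW_left (hN.act_mem hr)) • t • ω := by
  rw [← mul_smul, ← mul_smul]
  congr 1
  have h1 := conj_E t h.hc (WW_left hr)
  have h2 : E h.hc (WW_left (hN.act_mem hr)) = E (by rw [Q_act]; exact h.hc : Q (act t.1 c) = 0)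
      (by rw [polar_act]; exact WW_left hr : 𝔣 (act t.1 c) (act t.1 r) = 0) :=
    E_congr (by rw [hN.left, one_smul]) rfl _ _ _ _
  rw [h2, ← h1]
  group

variable {N₀ D Cm n₃ Pt : ℕ} (hnum : SNum Q c c' N₀ D Cm n₃ Pt) (hd : Fintype.card Ω < N₀)

variable (h) in
include ψ hψ hnum hd in
/-- **Regular points exist.** -/
theorem exists_reg (hP : PF F) (hF : ∀ t : F, t = 0 ∨ t * t = 1) (hq23 : Fintype.card F = 2 ∨ Fintype.card F = 3)
    (hno : ∀ (ω : Ω) (e : ι → F), e ≠ 0 → Q e = 0 → ¬ RFix Q ω e) (ω : Ω) : ∃ g : GG Q, Reg h (g • ω) := by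
  by_contra hcon
  push Not at hcon
  apply no_lines h ω (hno ω)
  intro d d' h'
  obtain ⟨g, hg, hg'⟩ := exists_omega_pair h' h
  have hnr := hcon g
  unfold Reg at hnr
  push Not at hnr
  obtain ⟨r, hr, hr0⟩ := hnr
  have hall : ∃ u ∈ WW Q c c', u ≠ 0 ∧ ∀ x ∈ ANv h ψ hψ (g • ω), ∃ s : F, x = s • u := by
    obtain ⟨a₀, ha₀, ha₀0⟩ := exists_ne_ANv h ψ hψ (hno (g • ω) c h.ne_zero h.hc)
    refine ⟨a₀, ((mem_ANv h ψ hψ).1 ha₀).1, ha₀0, ?_⟩
    by_contra hc2
    push Not at hc2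
    obtain ⟨b, hb, hab⟩ := hc2
    exact types ψ hψ hnum hd hP hF hq23 (g • ω) hr hr0 ha₀ hb ha₀0 hab
  obtain ⟨u, huW, hu0, hu⟩ := hall
  have hgi : act (g⁻¹).1 c = d := by rw [← hg, act_GG_inv_act]
  have hgi' : act (g⁻¹).1 c' = d' := by rw [← hg', act_GG_inv_act]
  have hu'W : act (g⁻¹).1 u ∈ WW Q d d' := mem_WW.2 ⟨by
    rw [← hgi, polar_act]
    exact WW_left huW, by
    rw [← hgi', polar_act]
    exact WW_right huW⟩
  refine ⟨act (g⁻¹).1 u, hu'W, ?_, lineAt_of_ANv h' ψ hψ hu'W ?_⟩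
  · intro h0
    apply hu0
    have := act_GG_act_inv g u
    rw [h0] at this
    rw [← this]
    simp
  · intro a ha
    obtain ⟨s, hs⟩ := hu _ (mem_ANv_transfer h ψ hψ h' hg hg' ha)
    refine ⟨s, ?_⟩
    have h1 := act_GG_inv_act g a
    rw [hs, act_smul] at h1
    exact h1.symm

/-- The points which are not regular. -/
noncomputable def Rs (h : HP Q c c') (Ω : Type*) [MulAction (GG Q) Ω] [Fintype Ω] : Finset Ω := by
  classical
  exact Finset.univ.filter fun ω => ¬ Reg h ω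

theorem mem_Rs {ω : Ω} : ω ∈ Rs h Ω ↔ ¬ Reg h ω := by
  classical
  simp [Rs]

include ψ hψ in
/-- At most one regular orbit. -/
theorem reg_unique (hn : Fintype.card Ω < 2 * Nat.card (WW Q c c')) {ω ω' : Ω} (hR : Reg h ω) (hR' : Reg h ω') :
    ω' ∈ (wS h Ω).orb ω := by
  classical
  by_contra hne
  have hdisj : Disjoint ((wS h Ω).orb ω) ((wS h Ω).orb ω') := by
    rw [Finset.disjoint_left]
    intro y hy hy'
    apply hne
    have h1 := (wS h Ω).orb_eq_of_mem hy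
    have h2 := (wS h Ω).orb_eq_of_mem hy'
    rw [← h1, h2]
    exact (wS h Ω).self_mem_orb ω'
  have h3 := Finset.card_le_univ ((wS h Ω).orb ω ∪ (wS h Ω).orb ω')
  rw [Finset.card_union_of_disjoint hdisj, card_orb_of_reg ψ hψ hR, card_orb_of_reg ψ hψ hR'] at h3
  omega

include ψ hψ in
/-- The number of points. -/
theorem card_eq_reg (hn : Fintype.card Ω < 2 * Nat.card (WW Q c c')) {ω : Ω} (hR : Reg h ω) :
    Fintype.card Ω = Nat.card (WW Q c c') + (Rs h Ω).card := by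
  classical
  have hdisj : Disjoint ((wS h Ω).orb ω) (Rs h Ω) := by
    rw [Finset.disjoint_left]
    intro y hy hy'
    exact (mem_Rs.1 hy') ((reg_orb hy).2 hR)
  have hun : (wS h Ω).orb ω ∪ Rs h Ω = Finset.univ := by
    ext y
    simp only [Finset.mem_union, Finset.mem_univ, iff_true]
    by_cases hy : Reg h y
    · exact Or.inl (reg_unique ψ hψ hn hR hy)
    · exact Or.inr (mem_Rs.2 hy)
  have h1 := Finset.card_union_of_disjoint hdisj
  rw [hun, Finset.card_univ, card_orb_of_reg ψ hψ hR] at h1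
  exact h1

include ψ hψ hnum hd in
/-- Points which are not regular lie on lines, and give a bound. -/
theorem R_bound (hP : PF F) (hF : ∀ t : F, t = 0 ∨ t * t = 1) (hq23 : Fintype.card F = 2 ∨ Fintype.card F = 3)
    (hno : ∀ (ω : Ω) (e : ι → F), e ≠ 0 → Q e = 0 → ¬ RFix Q ω e) {ω : Ω} (hω : ¬ Reg h ω) :
    ∃ u ∈ WW Q c c', u ≠ 0 ∧ (Cl Q c c' (Q u)).card * Fintype.card F ≤ (Rs h Ω).card * (Fintype.card F - 1) := by
  classical
  unfold Reg at hω
  push Not at hω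
  obtain ⟨r, hr, hr0⟩ := hω
  obtain ⟨a₀, ha₀, ha₀0⟩ := exists_ne_ANv h ψ hψ (hno ω c h.ne_zero h.hc)
  have hW := ((mem_ANv h ψ hψ).1 ha₀).1
  refine ⟨a₀, hW, ha₀0, ?_⟩
  have hline : ∀ x ∈ ANv h ψ hψ ω, ∃ s : F, x = s • a₀ := by
    by_contra hc2
    push Not at hc2
    obtain ⟨b, hb, hab⟩ := hc2
    exact types ψ hψ hnum hd hP hF hq23 ω hr hr0 ha₀ hb ha₀0 hab
  have hcard : Nat.card (ANv h ψ hψ ω) = Fintype.card F := by
    rw [← Nat.card_eq_fintype_card (α := F)]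
    refine Nat.card_congr (Equiv.ofBijective (fun s : F => (⟨s • a₀, smul_mem_PF hP _ ha₀ s⟩ : ANv h ψ hψ ω)) ⟨?_, ?_⟩).symm
    · intro s t e
      exact smul_left_injective F ha₀0 (congrArg Subtype.val e)
    · rintro ⟨x, hx⟩
      obtain ⟨s, hs⟩ := hline x hx
      exact ⟨s, Subtype.ext hs.symm⟩
  have h1 := core_single ψ hψ (eqF_AN h ψ hψ (Ω := Ω)) ω ha₀ ha₀0
  rw [hcard] at h1
  refine h1.trans (Nat.mul_le_mul_right _ (Finset.card_le_card ?_))
  intro y hy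
  obtain ⟨g, hN, hg⟩ := (mem_YY h).1 hy
  apply mem_Rs.2
  rw [reg_orb hg, reg_g_iff hN]
  unfold Reg
  push Not
  exact ⟨r, hr, hr0⟩

/-! ### All points regular -/

/-- All Eichler transformations act without fixed points. -/
theorem free_of_reg (hall : ∀ ω : Ω, Reg h ω) {e b : ι → F} (he : Q e = 0) (he0 : e ≠ 0) (hb : 𝔣 e b = 0) (ω : Ω)
    (hfix : E he hb • ω = ω) : ∃ t : F, b = t • e := by
  obtain ⟨g, hg⟩ := exists_omega_vec (Q := Q) he0 h.ne_zero he h.hc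
  have hb₁ : 𝔣 c (act g.1 b) = 0 := by
    rw [← hg, polar_act]
    exact hb
  set b₁ := act g.1 b with hb₁d
  set b₀ := b₁ - 𝔣 b₁ c' • c with hb₀
  have hb₀W : b₀ ∈ WW Q c c' := mem_WW.2 ⟨by
    rw [hb₀, polar_sub_right, polar_smul_right', hb₁, h.cc]
    ring, by
    rw [hb₀, polar_sub_right, polar_smul_right', polar_symm c' b₁, h.hp']
    ring⟩
  have h1 := conj_E g he hb
  have h2 : E (by rw [Q_act]; exact he : Q (act g.1 e) = 0) (by rw [polar_act]; exact hb : 𝔣 (act g.1 e) (act g.1 b)  = 0) =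
      E h.hc (WW_left hb₀W) := by
    have e1 : b₁ = b₀ + 𝔣 b₁ c' • c := by
      rw [hb₀]
      abel
    have h3 : 𝔣 c (b₀ + 𝔣 b₁ c' • c) = 0 := by rw [← e1]; exact hb₁
    rw [← E_add_self h.hc _ (WW_left hb₀W) h3]
    exact E_congr hg e1 _ _ _ _
  have h4 : E h.hc (WW_left hb₀W) • (g • ω) = g • ω := by
    rw [← h2, ← h1, mul_smul, mul_smul, inv_smul_smul, hfix]
  have h5 : b₀ = 0 := hall (g • ω) b₀ ((mem_Kv h).2 ⟨hb₀W, h4⟩)
  refine ⟨𝔣 b₁ c', ?_⟩
  have h6 : b₁ = 𝔣 b₁ c' • c := sub_eq_zero.1 h5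
  have h7 := act_GG_inv_act g b
  rw [← hb₁d, h6, act_smul, ← hg, act_GG_inv_act] at h7
  exact h7.symm

include ψ hψ in
/-- If all points are regular and there are as many points as vectors then the root group is transitive. -/
theorem transitive_of_reg (hR : ∀ ω : Ω, Reg h ω) (hc : Fintype.card Ω = Nat.card (WW Q c c')) (ω ω' : Ω) :
    ∃ r : ι → F, ∃ hr : r ∈ WW Q c c', E h.hc (WW_left hr) • ω = ω' := by
  classical
  have h1 : (wS h Ω).orb ω = Finset.univ := by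
    apply Finset.eq_univ_of_card
    rw [card_orb_of_reg ψ hψ (hR ω), hc]
  have h2 : ω' ∈ (wS h Ω).orb ω := by
    rw [h1]
    exact Finset.mem_univ _
  obtain ⟨w, hw⟩ := (wS h Ω).mem_orb.1 h2
  exact ⟨w.1, w.2, hw⟩

section Fix

variable (hR : ∀ ω : Ω, Reg h ω)
  (htr : ∀ ω ω' : Ω, ∃ r : ι → F, ∃ hr : r ∈ WW Q c c', E h.hc (WW_left hr) • ω = ω')

include hR htr

/-- **An element fixing the pair and no vector of the complement has a unique fixed point.** -/
theorem exists_fix_inj {t : GG Q} (hN : Nrm t 1 c c') (hinj : ∀ x ∈ WW Q c c', act t.1 x = x → x = 0) (ω₀ : Ω) :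
    ∃ ω₁ : Ω, t • ω₁ = ω₁ ∧ ∀ ω₂ : Ω, t • ω₂ = ω₂ → ω₂ = ω₁ := by
  classical
  obtain ⟨τ, hτ, hτ'⟩ := htr ω₀ (t • ω₀)
  -- the map on the complement
  let φ : WW Q c c' → WW Q c c' := fun x => ⟨act t.1 x.1 - x.1, Submodule.sub_mem _ (hN.act_mem x.2) x.2⟩
  have hφ : Function.Injective φ := by
    rintro ⟨x, hx⟩ ⟨y, hy⟩ e
    have e1 : act t.1 x - x = act t.1 y - y := congrArg Subtype.val e
    have e2 : act t.1 (x - y) = x - y := by
      rw [act_sub]
      linear_combination (norm := module) e1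
    have := hinj (x - y) (Submodule.sub_mem _ hx hy) e2
    exact Subtype.ext (sub_eq_zero.1 this)
  obtain ⟨⟨b, hb⟩, hb'⟩ := (Finite.injective_iff_surjective.1 hφ) ⟨-τ, Submodule.neg_mem _ hτ⟩
  have hb1 : act t.1 b - b = -τ := congrArg Subtype.val hb'
  have hfix : t • E h.hc (WW_left hb) • ω₀ = E h.hc (WW_left hb) • ω₀ := by
    rw [nrm_E_smul (h := h) hN hb, ← hτ', ← mul_smul, E_mul]
    congr 1
    exact E_congr rfl (by linear_combination (norm := module) hb1) _ _ _ _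
  refine ⟨_, hfix, fun ω₂ hω₂ => ?_⟩
  obtain ⟨r, hr, hr'⟩ := htr (E h.hc (WW_left hb) • ω₀) ω₂
  have h1 := hω₂
  rw [← hr', nrm_E_smul (h := h) hN hr, hfix] at h1
  have hdiff : act t.1 r - r ∈ Kv h (E h.hc (WW_left hb) • ω₀) := by
    refine (mem_Kv h).2 ⟨Submodule.sub_mem _ (hN.act_mem hr) hr, ?_⟩
    have e1 : act t.1 r = r + (act t.1 r - r) := by abel
    have h3 : E h.hc (WW_left (hN.act_mem hr)) = E h.hc (WW_left hr) * E h.hc (WW_left (Submodule.sub_mem _ (hN.act_mem hr) hr)) := by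
      rw [E_mul]
      exact E_congr rfl e1 _ _ _ _
    rw [h3, mul_smul] at h1
    exact MulAction.injective (E h.hc (WW_left hr)) h1
  have h5 := hR _ _ hdiff
  have h6 : act t.1 r = r := sub_eq_zero.1 h5
  have h7 := hinj r hr h6
  rw [← hr']
  have : E h.hc (WW_left hr) = 1 := E_zero _ _ h7
  rw [this, one_smul]

/-- **Fixed points of elements of order prime to the characteristic.** -/
theorem exists_fix_coprime {t : GG Q} (hN : Nrm t 1 c c') {o : ℕ} (ho : t ^ o = 1) (ho0 : (o : F) ≠ 0) (ω₀ : Ω) :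
    ∃ ω₁ : Ω, t • ω₁ = ω₁ := by
  classical
  obtain ⟨τ, hτ, hτ'⟩ := htr ω₀ (t • ω₀)
  -- the sequence
  let s : ℕ → WW Q c c' := fun k => Nat.rec 0 (fun _ x => ⟨act t.1 x.1 + τ, Submodule.add_mem _ (hN.act_mem x.2) hτ⟩) k
  have hs0 : s 0 = 0 := rfl
  have hs : ∀ k, (s (k + 1)).1 = act t.1 (s k).1 + τ := fun k => rfl
  have hpow : ∀ k, t ^ k • ω₀ = E h.hc (WW_left (s k).2) • ω₀ := by
    intro k
    induction k with
    | zero =>
      have : E h.hc (WW_left (s 0).2) = 1 := E_zero _ _ rfl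
      rw [pow_zero, this]
    | succ k ih =>
      rw [pow_succ', mul_smul, ih, nrm_E_smul (h := h) hN (s k).2, ← hτ', ← mul_smul, E_mul]
  have hso : (s o).1 = 0 := by
    apply hR ω₀
    refine (mem_Kv h).2 ⟨(s o).2, ?_⟩
    rw [← hpow o, ho, one_smul]
  -- the average
  set S : ι → F := ∑ k ∈ Finset.range o, (s k).1 with hS
  have hSW : S ∈ WW Q c c' := Submodule.sum_mem _ (fun k _ => (s k).2)
  have hact : ∀ n : ℕ, act t.1 (∑ k ∈ Finset.range n, (s k).1) = ∑ k ∈ Finset.range n, act t.1 (s k).1 := by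
    intro n
    induction n with
    | zero => simp
    | succ n ih => rw [Finset.sum_range_succ, Finset.sum_range_succ, act_add, ih]
  have hsum : act t.1 S + (o : F) • τ = S := by
    rw [hS, hact]
    have e1 : ∑ k ∈ Finset.range o, act t.1 (s k).1 + (o : F) • τ = ∑ k ∈ Finset.range o, (s (k + 1)).1 := by
      simp only [hs]
      rw [Finset.sum_add_distrib, Finset.sum_const, Finset.card_range, Nat.cast_smul_eq_nsmul]
    have e2 : (s 0).1 = 0 := rfl
    have e5 : ∑ k ∈ Finset.range o, (s (k + 1)).1 + (s 0).1 = ∑ k ∈ Finset.range o, (s k).1 + (s o).1 := by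
      rw [← Finset.sum_range_succ' (fun k => (s k).1), Finset.sum_range_succ]
    rw [hso, e2, add_zero, add_zero] at e5
    rw [e1, e5]
  set b := (o : F)⁻¹ • S with hb
  have hbW : b ∈ WW Q c c' := Submodule.smul_mem _ _ hSW
  have hb1 : act t.1 b + τ = b := by
    rw [hb, act_smul]
    have e := congrArg (fun x => (o : F)⁻¹ • x) hsum
    simp only [smul_add, smul_smul, inv_mul_cancel₀ ho0, one_smul] at e
    exact e
  refine ⟨E h.hc (WW_left hbW) • ω₀, ?_⟩
  rw [nrm_E_smul (h := h) hN hbW, ← hτ', ← mul_smul, E_mul]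
  congr 1
  exact E_congr rfl hb1 _ _ _ _

/-- The description of fixed points once one is known: the difference lies in the fixed vectors. -/
theorem fix_diff {t : GG Q} (hN : Nrm t 1 c c') {ω₁ ω₂ : Ω} (h1 : t • ω₁ = ω₁) (h2 : t • ω₂ = ω₂) :
    ∃ r : ι → F, ∃ hr : r ∈ WW Q c c', act t.1 r = r ∧ E h.hc (WW_left hr) • ω₁ = ω₂ := by
  obtain ⟨r, hr, hr'⟩ := htr ω₁ ω₂
  refine ⟨r, hr, ?_, hr'⟩
  have h3 := h2
  rw [← hr', nrm_E_smul (h := h) hN hr, h1] at h3
  have hdiff : act t.1 r - r ∈ Kv h ω₁ := by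
    refine (mem_Kv h).2 ⟨Submodule.sub_mem _ (hN.act_mem hr) hr, ?_⟩
    have e1 : act t.1 r = r + (act t.1 r - r) := by abel
    have h5 : E h.hc (WW_left (hN.act_mem hr)) = E h.hc (WW_left hr) * E h.hc (WW_left (Submodule.sub_mem _ (hN.act_mem hr) hr)) := by
      rw [E_mul]
      exact E_congr rfl e1 _ _ _ _
    rw [h5, mul_smul] at h3
    exact MulAction.injective (E h.hc (WW_left hr)) h3
  exact sub_eq_zero.1 (hR _ _ hdiff)

end Fix

end Points

end Cfsg.Agent.Lib.MinIndex.OT6
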