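import Mathlib
import Cfsg.Agent.Lib.MinIndex.OT6

/-!
# Minimal degree of the orthogonal groups over small prime fields: products of reflections without fixed vectors
-/

set_option autoImplicit false
set_option linter.unusedSectionVars false
set_option linter.unusedSimpArgs false
set_option linter.unusedVariables false

namespace Cfsg.Agent.Lib.MinIndex.OT7

open Matrix QuadraticMap Module
open Cfsg.Agent.Lib.Classical.Orth.Basic
open Cfsg.Agent.Lib.Classical.Orth.Spinor
open Cfsg.Agent.Lib.Classical.Orth.Dickson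
open Cfsg.Agent.Lib.Classical.Witt.Hyp
open Cfsg.Agent.Lib.MinIndex.OBase Cfsg.Agent.Lib.MinIndex.OVec Cfsg.Agent.Lib.MinIndex.OGood
open Cfsg.Agent.Lib.MinIndex.OTypes Cfsg.Agent.Lib.MinIndex.OLine Cfsg.Agent.Lib.MinIndex.OStep
open Cfsg.Agent.Lib.MinIndex.OFix Cfsg.Agent.Lib.MinIndex.OFix2 Cfsg.Agent.Lib.MinIndex.OT1
open Cfsg.Agent.Lib.MinIndex.OCount Cfsg.Agent.Lib.MinIndex.OFam Cfsg.Agent.Lib.MinIndex.OT2
open Cfsg.Agent.Lib.MinIndex.OT3 Cfsg.Agent.Lib.MinIndex.OT4 Cfsg.Agent.Lib.MinIndex.OT5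
open Cfsg.Agent.Lib.MinIndex.OT6

variable {ι : Type} [Fintype ι] [DecidableEq ι] {F : Type*} [Field F] [Fintype F]
variable {Q : QuadraticForm F (ι → F)} [OC Q]

set_option quotPrecheck false in
local notation "𝔣" => polar (⇑Q)

/-- Products of reflections along a basis of a subspace. -/
structure RP (U : Submodule F (ι → F)) (s : ↥(Cfsg.isometryGroup F (⇑Q))) : Prop where
  sub : ∀ x, act s x - x ∈ U
  fixp : ∀ x, (∀ u ∈ U, 𝔣 u x = 0) → act s x = x
  fix : ∀ x, act s x = x → ∀ u ∈ U, 𝔣 u x = 0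

theorem RP.one : RP (Q := Q) ⊥ 1 where
  sub x := by
    rw [act_one, sub_self]
    exact Submodule.zero_mem _
  fixp x _ := act_one x
  fix x _ u hu := by
    rw [(Submodule.mem_bot F).1 hu]
    simp [polar]

theorem mem_sup_span {U : Submodule F (ι → F)} {y u : ι → F} :
    u ∈ U ⊔ Submodule.span F {y} ↔ ∃ u₁ ∈ U, ∃ t : F, u = u₁ + t • y := by
  rw [Submodule.mem_sup]
  constructor
  · rintro ⟨u₁, hu₁, z, hz, rfl⟩
    obtain ⟨t, rfl⟩ := Submodule.mem_span_singleton.1 hz
    exact ⟨u₁, hu₁, t, rfl⟩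
  · rintro ⟨u₁, hu₁, t, rfl⟩
    exact ⟨u₁, hu₁, t • y, Submodule.smul_mem _ _ (Submodule.mem_span_singleton_self y), rfl⟩

/-- One more reflection. -/
theorem RP.step {U : Submodule F (ι → F)} {s : ↥(Cfsg.isometryGroup F (⇑Q))} (hs : RP U s) {y : ι → F} (hy : Q y ≠ 0)
    (hyU : y ∉ U) : RP (U ⊔ Submodule.span F {y}) (reflectionIso Q y hy * s) where
  sub x := by
    rw [act_mul, reflectionIso_act]
    refine mem_sup_span.2 ⟨act s x - x, hs.sub x, -((Q y)⁻¹ * 𝔣 y (act s x)), ?_⟩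
    module
  fixp x hx := by
    rw [act_mul, hs.fixp x (fun u hu => hx u (Submodule.mem_sup_left hu)), reflectionIso_act,
      hx y (Submodule.mem_sup_right (Submodule.mem_span_singleton_self y))]
    simp
  fix x hx := by
    rw [act_mul, reflectionIso_act] at hx
    set z := act s x with hz
    set l := (Q y)⁻¹ * 𝔣 y z with hl
    have h1 : l • y = z - x := by
      linear_combination (norm := module) -hx
    have h2 : l = 0 := by
      by_contra hne
      apply hyU
      have h3 := U.smul_mem l⁻¹ (hs.sub x)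
      rw [← hz, ← h1, smul_smul, inv_mul_cancel₀ hne, one_smul] at h3
      exact h3
    have h4 : z = x := by
      rw [h2, zero_smul] at h1
      exact (sub_eq_zero.1 h1.symm)
    have h5 : 𝔣 y x = 0 := by
      rw [hl, h4] at h2
      exact (mul_eq_zero.1 h2).resolve_left (inv_ne_zero hy)
    intro u hu
    obtain ⟨u₁, hu₁, t, rfl⟩ := mem_sup_span.1 hu
    rw [polar_add_left, polar_smul_left', hs.fix x h4 u₁ hu₁, h5]
    ring

/-- A vector with a nonzero pairing with a vector perpendicular to a subspace is outside. -/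
theorem not_mem_of_pairing {U : Submodule F (ι → F)} {v y : ι → F} (hv : ∀ u ∈ U, 𝔣 v u = 0) (hy : 𝔣 v y ≠ 0) : y ∉ U :=
  fun hm => hy (hv y hm)

/-- The construction from an independent family of vectors of value one. -/
theorem exists_RP_finset (B : Finset (ι → F)) (hB : ∀ y ∈ B, Q y = 1) (hli : LinearIndepOn F id (B : Set (ι → F))) :
    ∃ s, RP (Submodule.span F (B : Set (ι → F))) s ∧
      ∀ h2 : (2 : F) ≠ 0, plusSign Q s = (-1) ^ B.card ∧ spinorSign Q h2 s = 1 := by
  classical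
  induction B using Finset.induction_on with
  | empty =>
    refine ⟨1, by simpa using RP.one, fun h2 => ?_⟩
    simp
  | insert y B hyB ih =>
    have hli' : LinearIndepOn F id (B : Set (ι → F)) := hli.mono (by
      intro x hx
      simp only [Finset.coe_insert]
      exact Or.inr hx)
    obtain ⟨s, hs, hsg⟩ := ih (fun z hz => hB z (Finset.mem_insert_of_mem hz)) hli'
    have hQy : Q y = 1 := hB y (Finset.mem_insert_self _ _)
    have hy : Q y ≠ 0 := by rw [hQy]; exact one_ne_zero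
    have hyU : y ∉ Submodule.span F (B : Set (ι → F)) := by
      have hli2 : LinearIndepOn F id (insert y (B : Set (ι → F))) := by
        simpa using hli
      have := hli2.notMem_span_of_insert (by simpa using hyB)
      simpa using this
    refine ⟨reflectionIso Q y hy * s, ?_, fun h2 => ?_⟩
    · have := hs.step hy hyU
      have e : Submodule.span F (↑(insert y B) : Set (ι → F)) = Submodule.span F (B : Set (ι → F)) ⊔ Submodule.span F {y} := by
        rw [Finset.coe_insert, Submodule.span_insert, sup_comm]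
      rw [e]
      exact this
    · obtain ⟨h3, h4⟩ := hsg h2
      have hS : IsSquare (Q y) := by rw [hQy]; exact IsSquare.one
      rw [map_mul, map_mul, plusSign_reflection Q h2, spinorSign_reflection Q h2, if_pos hS, if_pos hS, h3, h4,
        Finset.card_insert_of_notMem hyB, pow_succ']
      exact ⟨rfl, rfl⟩

/-- The construction from a spanning set of vectors of value one. -/
theorem exists_RP (U : Submodule F (ι → F)) (hspan : ∀ x ∈ U, x ∈ Submodule.span F {y | y ∈ U ∧ Q y = 1}) :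
    ∃ s, RP U s ∧ ∀ h2 : (2 : F) ≠ 0, plusSign Q s = (-1) ^ finrank F U ∧ spinorSign Q h2 s = 1 := by
  classical
  obtain ⟨b, hb1, hb2, hb3⟩ := exists_linearIndependent F {y | y ∈ U ∧ Q y = 1}
  have hfin : b.Finite := Set.toFinite b
  have hbB : (hfin.toFinset : Set (ι → F)) = b := hfin.coe_toFinset
  have hU : Submodule.span F b = U := by
    rw [hb2]
    apply le_antisymm
    · rw [Submodule.span_le]
      intro y hy
      exact hy.1
    · intro x hx
      exact hspan x hx
  obtain ⟨s, hs, hsg⟩ := exists_RP_finset hfin.toFinset (fun y hy => by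
    have : y ∈ b := hfin.mem_toFinset.1 hy
    exact (hb1 this).2) (by
    rw [hbB]
    exact hb3)
  rw [hbB, hU] at hs
  refine ⟨s, hs, fun h2 => ?_⟩
  have h1 : finrank F U = hfin.toFinset.card := by
    have h0 : finrank F (Submodule.span F (hfin.toFinset : Set (ι → F))) = hfin.toFinset.card :=
      finrank_span_finset_eq_card (by rw [hbB]; exact hb3)
    rw [hbB, hU] at h0
    exact h0
  rw [h1]
  exact hsg h2

/-- In characteristic two, spanning through an anisotropic plane. -/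
theorem span_two (h2 : (2 : F) = 0) (hF2 : ∀ t : F, t = 0 ∨ t = 1) (U : Submodule F (ι → F)) {w₁ w₂ : ι → F} (h1 : w₁ ∈ U)
    (h3 : w₂ ∈ U) (hw₁ : Q w₁ = 1) (hw₂ : Q w₂ = 1) (hw : 𝔣 w₁ w₂ = 1) :
    ∀ x ∈ U, x ∈ Submodule.span F {y | y ∈ U ∧ Q y = 1} := by
  intro x hx
  set S := Submodule.span F {y | y ∈ U ∧ Q y = 1} with hS
  have hmem : ∀ {y}, y ∈ U → Q y = 1 → y ∈ S := fun hy hQ => Submodule.subset_span ⟨hy, hQ⟩
  have hw₁S := hmem h1 hw₁
  have hw₂S := hmem h3 hw₂
  set x₁ := x - 𝔣 x w₂ • w₁ - 𝔣 x w₁ • w₂ with hx₁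
  have hx₁U : x₁ ∈ U := U.sub_mem (U.sub_mem hx (U.smul_mem _ h1)) (U.smul_mem _ h3)
  have hw₂1 : 𝔣 w₂ w₁ = 1 := by rw [polar_symm]; exact hw
  have hp : 𝔣 x₁ w₁ = 0 := by
    rw [hx₁, polar_sub_left, polar_sub_left, polar_smul_left', polar_smul_left', polar_self_eq, hw₂1, hw₁, h2]
    ring
  have hx₁S : x₁ ∈ S := by
    rcases hF2 (Q x₁) with e | e
    · have e1 : Q (x₁ + w₁) = 1 := by
        rw [Q_add, e, hw₁, hp]
        ring
      have e2 : x₁ = (x₁ + w₁) - w₁ := by abel
      rw [e2]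
      exact S.sub_mem (hmem (U.add_mem hx₁U h1) e1) hw₁S
    · exact hmem hx₁U e
  have e3 : x = x₁ + 𝔣 x w₂ • w₁ + 𝔣 x w₁ • w₂ := by
    rw [hx₁]
    abel
  rw [e3]
  exact S.add_mem (S.add_mem hx₁S (S.smul_mem _ hw₁S)) (S.smul_mem _ hw₂S)

/-- In characteristic three, spanning through two perpendicular vectors of value one. -/
theorem span_three (h3 : (3 : F) = 0) (hF3 : ∀ t : F, t = 0 ∨ t = 1 ∨ t = -1) (U : Submodule F (ι → F)) {x₀ g : ι → F}
    (h1 : x₀ ∈ U) (h4 : g ∈ U) (hx₀ : Q x₀ = 1) (hg : Q g = 1) (hxg : 𝔣 x₀ g = 0) :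
    ∀ x ∈ U, x ∈ Submodule.span F {y | y ∈ U ∧ Q y = 1} := by
  intro x hx
  set S := Submodule.span F {y | y ∈ U ∧ Q y = 1} with hS
  have hmem : ∀ {y}, y ∈ U → Q y = 1 → y ∈ S := fun hy hQ => Submodule.subset_span ⟨hy, hQ⟩
  have hx₀S := hmem h1 hx₀
  have hgS := hmem h4 hg
  have h2 : (2 : F) ≠ 0 := fun h0 => by
    have : (1 : F) = 0 := by linear_combination h3 - h0
    exact one_ne_zero this
  set x₁ := x - (𝔣 x x₀ / 2) • x₀ - (𝔣 x g / 2) • g with hx₁
  have hx₁U : x₁ ∈ U := U.sub_mem (U.sub_mem hx (U.smul_mem _ h1)) (U.smul_mem _ h4)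
  have hgx : 𝔣 g x₀ = 0 := by rw [polar_symm]; exact hxg
  have hp1 : 𝔣 x₁ x₀ = 0 := by
    rw [hx₁, polar_sub_left, polar_sub_left, polar_smul_left', polar_smul_left', polar_self_eq, hx₀, hgx]
    field_simp
    ring
  have hp2 : 𝔣 x₁ g = 0 := by
    rw [hx₁, polar_sub_left, polar_sub_left, polar_smul_left', polar_smul_left', polar_self_eq, hg, hxg]
    field_simp
    ring
  have hx₁S : x₁ ∈ S := by
    rcases hF3 (Q x₁) with e | e | e
    · have e1 : Q (x₁ + x₀) = 1 := by
        rw [Q_add, e, hx₀, hp1]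
        ring
      have e2 : x₁ = (x₁ + x₀) - x₀ := by abel
      rw [e2]
      exact S.sub_mem (hmem (U.add_mem hx₁U h1) e1) hx₀S
    · exact hmem hx₁U e
    · have e1 : Q (x₁ + x₀ + g) = 1 := by
        rw [Q_add, Q_add, e, hx₀, hg, hp1, polar_add_left, hp2, hxg]
        ring
      have e2 : x₁ = (x₁ + x₀ + g) - x₀ - g := by abel
      rw [e2]
      exact S.sub_mem (S.sub_mem (hmem (U.add_mem (U.add_mem hx₁U h1) h4) e1) hx₀S) hgS
  have e3 : x = x₁ + (𝔣 x x₀ / 2) • x₀ + (𝔣 x g / 2) • g := by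
    rw [hx₁]
    abel
  rw [e3]
  exact S.add_mem (S.add_mem hx₁S (S.smul_mem _ hx₀S)) (S.smul_mem _ hgS)

end Cfsg.Agent.Lib.MinIndex.OT7
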