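import Mathlib
import Cfsg.Agent.Lib.MinIndex.OT7
import Cfsg.Agent.Lib.MinIndex.OS3

/-!
# Minimal degree of the orthogonal groups over the field with three elements: wrappers and dimension seven
-/

set_option autoImplicit false
set_option linter.unusedSectionVars false
set_option linter.unusedSimpArgs false
set_option linter.unusedVariables false

namespace Cfsg.Agent.Lib.MinIndex.OT8

open Matrix QuadraticMap Module
open Cfsg.Agent.Lib.Classical.Orth.Basic
open Cfsg.Agent.Lib.Classical.Orth.Spinor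
open Cfsg.Agent.Lib.Classical.Witt.Hyp
open Cfsg.Agent.Lib.MinIndex.OBase Cfsg.Agent.Lib.MinIndex.OVec Cfsg.Agent.Lib.MinIndex.OGood
open Cfsg.Agent.Lib.MinIndex.OTypes Cfsg.Agent.Lib.MinIndex.OLine Cfsg.Agent.Lib.MinIndex.OStep
open Cfsg.Agent.Lib.MinIndex.OStep2 Cfsg.Agent.Lib.MinIndex.OStep3
open Cfsg.Agent.Lib.MinIndex.OFix Cfsg.Agent.Lib.MinIndex.OFix2 Cfsg.Agent.Lib.MinIndex.OT1
open Cfsg.Agent.Lib.MinIndex.OCount Cfsg.Agent.Lib.MinIndex.OFam Cfsg.Agent.Lib.MinIndex.OT2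
open Cfsg.Agent.Lib.MinIndex.OT3 Cfsg.Agent.Lib.MinIndex.OT4 Cfsg.Agent.Lib.MinIndex.OT5
open Cfsg.Agent.Lib.MinIndex.OT6 Cfsg.Agent.Lib.MinIndex.OT7

section Field

variable {F : Type*} [Field F] [Fintype F]

theorem three_eq_zero (hq : Fintype.card F = 3) : (3 : F) = 0 := by
  have := FiniteField.cast_card_eq_zero F
  rw [hq] at this
  exact_mod_cast this

theorem two_ne_zero_of_three (hq : Fintype.card F = 3) : (2 : F) ≠ 0 := by
  intro h2
  have h3 := three_eq_zero hq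
  have : (1 : F) = 0 := by linear_combination h3 - h2
  exact one_ne_zero this

theorem sq_of_three (hq : Fintype.card F = 3) (t : F) : t = 0 ∨ t * t = 1 := by
  by_cases ht : t = 0
  · exact Or.inl ht
  · right
    have := FiniteField.pow_card_sub_one_eq_one t ht
    rw [hq] at this
    have e : t ^ (3 - 1) = t * t := by norm_num [pow_two]
    rwa [e] at this

theorem elts_three (hq : Fintype.card F = 3) (t : F) : t = 0 ∨ t = 1 ∨ t = -1 := by
  rcases sq_of_three hq t with ht | ht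
  · exact Or.inl ht
  · right
    have e : (t - 1) * (t + 1) = 0 := by linear_combination ht
    rcases mul_eq_zero.1 e with e | e
    · exact Or.inl (sub_eq_zero.1 e)
    · exact Or.inr (eq_neg_of_add_eq_zero_left e)

theorem PF_three (hq : Fintype.card F = 3) : PF F := by
  intro s
  rcases elts_three hq s with rfl | rfl | rfl
  · exact ⟨0, by simp⟩
  · exact ⟨1, by simp⟩
  · exact ⟨2, by
      have h3 := three_eq_zero hq
      push_cast
      linear_combination h3⟩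

theorem not_sq_neg_one (hq : Fintype.card F = 3) : ¬ IsSquare (-1 : F) := by
  rintro ⟨t, ht⟩
  have h2 := two_ne_zero_of_three hq
  rcases sq_of_three hq t with rfl | h1
  · simp at ht
  · rw [h1] at ht
    apply h2
    linear_combination -ht

end Field

variable {ι : Type} [Fintype ι] [DecidableEq ι] {F : Type*} [Field F] [Fintype F]
variable {Q : QuadraticForm F (ι → F)} [OC Q]

set_option quotPrecheck false in
local notation "𝔣" => polar (⇑Q)

variable {c c' : ι → F}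

section Wrap

variable {Ω : Type*} [MulAction (GG Q) Ω] [Fintype Ω] {h : HP Q c c'} (ψ : AddChar F ℂ) (hψ : ψ ≠ 1)
variable {N₀ D Cm n₃ Pt : ℕ} (hnum : OT4.SNum Q c c' N₀ D Cm n₃ Pt) (hd : Fintype.card Ω < N₀)

include ψ hψ in
/-- No nonzero fixed vectors: the annihilator is everything. -/
theorem AN_top_of_K {ω : Ω} (hK : ∀ r ∈ Kv h ω, r = 0) : AN h ψ hψ ω = ⊤ := by
  rw [eq_top_iff]
  intro a _
  apply (mem_AN h ψ hψ).2
  intro r hr
  have h1 : r.1 = 0 := hK _ ((mem_Kv h).2 ⟨r.2, hr⟩)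
  rw [h1]
  simp [polar]

include ψ hψ in
theorem K_of_AN_top {ω : Ω} (hK : AN h ψ hψ ω = ⊤) : ∀ r ∈ Kv h ω, r = 0 := by
  intro r hr
  obtain ⟨hrW, hr'⟩ := (mem_Kv h).1 hr
  exact reg_stab h ψ hψ hK hrW hr'

include hnum hd in
/-- The statement about lines for vectors with nonzero value. -/
theorem hT_types (hP : PF F) (hF : ∀ t : F, t = 0 ∨ t * t = 1) (hq23 : Fintype.card F = 2 ∨ Fintype.card F = 3) :
    ∀ (ω : Ω) (u : WW Q c c'), u ∈ AN h ψ hψ ω → Q u.1 ≠ 0 →
      (∀ x ∈ AN h ψ hψ ω, ∃ t : F, x.1 = t • u.1) ∨ AN h ψ hψ ω = ⊤ := by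
  intro ω u hu hQu
  by_cases hK : ∀ r ∈ Kv h ω, r = 0
  · exact Or.inr (AN_top_of_K ψ hψ hK)
  · left
    push Not at hK
    obtain ⟨r, hr, hr0⟩ := hK
    intro x hx
    by_contra hcon
    push Not at hcon
    have hu0 : u.1 ≠ 0 := by
      intro h0
      apply hQu
      rw [h0]
      simp
    exact types ψ hψ hnum hd hP hF hq23 ω hr hr0 ((mem_ANv h ψ hψ).2 ⟨u.2, hu⟩) ((mem_ANv h ψ hψ).2 ⟨x.2, hx⟩) hu0 hcon

include hnum hd in
/-- The statement about lines for totally singular annihilators. -/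
theorem hS_types (hP : PF F) (hF : ∀ t : F, t = 0 ∨ t * t = 1) (hq23 : Fintype.card F = 2 ∨ Fintype.card F = 3) :
    ∀ ω : Ω, TS h ψ hψ ω → ∀ u ∈ ANv h ψ hψ ω, u ≠ 0 → ∀ x ∈ ANv h ψ hψ ω, ∃ t : F, x = t • u := by
  intro ω hT u hu hu0 x hx
  by_cases hK : ∀ r ∈ Kv h ω, r = 0
  · exfalso
    have hA := AN_top_of_K ψ hψ hK
    obtain ⟨b, hbW, hQb, -, -⟩ := exists_nonsing_W h (Submodule.zero_mem _) (Submodule.zero_mem _)
    apply hQb
    apply hT
    refine (mem_ANv h ψ hψ).2 ⟨hbW, ?_⟩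
    rw [hA]
    trivial
  · push Not at hK
    obtain ⟨r, hr, hr0⟩ := hK
    by_contra hcon
    push Not at hcon
    exact types ψ hψ hnum hd hP hF hq23 ω hr hr0 hu hx hu0 hcon

end Wrap

/-! ### Negatives on hyperbolic planes -/

section Neg

/-- The element acting as `-1` on a hyperbolic plane and trivially on its perpendicular. -/
theorem neg_plane (h2 : (2 : F) ≠ 0) (hm1 : ¬ IsSquare (-1 : F)) {a a' : ι → F} (ha : HP Q a a') :
    ∃ τ : ↥(Cfsg.isometryGroup F (⇑Q)), (∀ x, act τ x = x - (2 * 𝔣 a' x) • a - (2 * 𝔣 a x) • a') ∧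
      plusSign Q τ = -1 ∧ spinorSign Q h2 τ = -1 := by
  have hQ1 : Q (a + a') = 1 := by
    rw [Q_add, ha.hc, ha.hc', ha.hp]
    ring
  have hQ2 : Q (a - a') = -1 := by
    have e : Q (a - a') = Q a + Q a' - 𝔣 a a' := Q_sub _ _ _
    rw [e, ha.hc, ha.hc', ha.hp]
    ring
  have hne1 : Q (a + a') ≠ 0 := by rw [hQ1]; exact one_ne_zero
  have hne2 : Q (a - a') ≠ 0 := by rw [hQ2]; exact neg_ne_zero.2 one_ne_zero
  set r₁ := reflectionIso Q _ hne1 with hr₁
  set r₂ := reflectionIso Q _ hne2 with hr₂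
  have hS1 : IsSquare (Q (a + a')) := by rw [hQ1]; exact IsSquare.one
  have hS2 : ¬ IsSquare (Q (a - a')) := by rw [hQ2]; exact hm1
  have p1 : plusSign Q r₁ = -1 := by rw [hr₁, plusSign_reflection Q h2, if_pos hS1]
  have p2 : plusSign Q r₂ = 1 := by rw [hr₂, plusSign_reflection Q h2, if_neg hS2]
  have s1 : spinorSign Q h2 r₁ = 1 := by rw [hr₁, spinorSign_reflection Q h2, if_pos hS1]
  have s2 : spinorSign Q h2 r₂ = -1 := by rw [hr₂, spinorSign_reflection Q h2, if_neg hS2]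
  have r1x : ∀ x, act r₁ x = x - ((Q (a + a'))⁻¹ * 𝔣 (a + a') x) • (a + a') := fun x => reflectionIso_act _ _ x
  have r2x : ∀ x, act r₂ x = x - ((Q (a - a'))⁻¹ * 𝔣 (a - a') x) • (a - a') := fun x => reflectionIso_act _ _ x
  refine ⟨r₁ * r₂, fun x => ?_, ?_, ?_⟩
  · rw [act_mul, r2x, r1x, hQ1, hQ2]
    have e1 : (-1 : F)⁻¹ = -1 := by rw [inv_neg, inv_one]
    have e2 : (1 : F)⁻¹ = 1 := inv_one
    rw [e1, e2]
    have e3 : 𝔣 (a + a') (a - a') = 0 := by
      rw [polar_add_left, polar_sub_right, polar_sub_right, polar_self_eq, polar_self_eq, ha.hc, ha.hc', ha.hp, ha.hp']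
      ring
    have e4 : 𝔣 (a + a') (x - (-1 * 𝔣 (a - a') x) • (a - a')) = 𝔣 a x + 𝔣 a' x := by
      rw [polar_sub_right, polar_smul_right', e3, polar_add_left]
      ring
    rw [e4]
    have e5 : 𝔣 (a - a') x = 𝔣 a x - 𝔣 a' x := polar_sub_left Q a a' x
    rw [e5]
    module
  · rw [map_mul, p1, p2]
    rfl
  · rw [map_mul, s1, s2]
    rfl

/-- Eichler transformations of negatives. -/
theorem E_neg_neg {z b : ι → F} (hz : Q z = 0) (hb : 𝔣 z b = 0) (hz' : Q (-z) = 0) (hb' : 𝔣 (-z) (-b) = 0) :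
    E hz' hb' = E hz hb := by
  apply ext_GG
  intro x
  rw [act_E, act_E, polar_neg_left, polar_neg_left]
  have e : Q (-b) = Q b := by simp
  rw [e]
  module

end Neg

section Seven

variable {Ω : Type*} [MulAction (GG Q) Ω] [Fintype Ω] (h : HP Q c c') (ψ : AddChar F ℂ) (hψ : ψ ≠ 1)

/-- Not all points are regular in dimension seven over the field with three elements. -/
theorem not_all_reg_seven (hq : Fintype.card F = 3) (hn : Fintype.card ι = 7)
    (hd : Fintype.card Ω < 2 * Fintype.card (WW Q c c')) (hall : ∀ ω : Ω, AN h ψ hψ ω = ⊤) (ω₀ : Ω) : False := by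
  classical
  have h2 := two_ne_zero_of_three hq
  have hm1 := not_sq_neg_one hq
  obtain ⟨d, d', h', hd1, hd2⟩ := exists_HP_W h
  obtain ⟨a, a', ha, ha1, ha2⟩ := OS1.exists_HP_WW2 h h' hd1 hd2
  obtain ⟨hc1, hc2, hdd1, hdd2⟩ := mem_WW2.1 ha1
  obtain ⟨hc3, hc4, hdd3, hdd4⟩ := mem_WW2.1 ha2
  obtain ⟨τd, hτd, pd, sd⟩ := neg_plane h2 hm1 h'
  obtain ⟨τa, hτa, pa, sa⟩ := neg_plane h2 hm1 ha
  have hmem : τd * τa ∈ Cfsg.Omega F (⇑Q) := (mem_omega_iff Q OC.nd h2 _).2 ⟨by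
    rw [map_mul, pd, pa]
    rfl, by
    rw [map_mul, sd, sa]
    rfl⟩
  set t : GG Q := ⟨τd * τa, hmem⟩ with ht
  have hda : 𝔣 a d = 0 := by rw [polar_symm]; exact hdd1
  have hda' : 𝔣 a' d = 0 := by rw [polar_symm]; exact hdd3
  have hd'a : 𝔣 a d' = 0 := by rw [polar_symm]; exact hdd2
  have hd'a' : 𝔣 a' d' = 0 := by rw [polar_symm]; exact hdd4
  have hact : ∀ x, act t.1 x = x - (2 * 𝔣 d' x) • d - (2 * 𝔣 d x) • d' - (2 * 𝔣 a' x) • a - (2 * 𝔣 a x) • a' := by
    intro x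
    show act (τd * τa) x = _
    rw [act_mul, hτa, hτd]
    simp only [polar_sub_right, polar_smul_right', hdd1, hdd2, hdd3, hdd4, mul_zero, sub_zero]
    module
  -- the action on the vectors
  have hpd : ∀ x, 𝔣 d (act t.1 x) = -𝔣 d x := by
    intro x
    rw [hact]
    simp only [polar_sub_right, polar_smul_right', h'.cc, h'.hp, hdd1, hdd3]
    ring
  have hpd' : ∀ x, 𝔣 d' (act t.1 x) = -𝔣 d' x := by
    intro x
    rw [hact]
    simp only [polar_sub_right, polar_smul_right', h'.cc', h'.hp', hdd2, hdd4]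
    ring
  have hpa : ∀ x, 𝔣 a (act t.1 x) = -𝔣 a x := by
    intro x
    rw [hact]
    simp only [polar_sub_right, polar_smul_right', ha.cc, ha.hp, hda, hd'a]
    ring
  have hpa' : ∀ x, 𝔣 a' (act t.1 x) = -𝔣 a' x := by
    intro x
    rw [hact]
    simp only [polar_sub_right, polar_smul_right', ha.cc', ha.hp', hda', hd'a']
    ring
  have htt : t ^ 2 = 1 := by
    apply ext_GG
    intro x
    rw [pow_two, act_GG_mul, act_GG_one, hact (act t.1 x), hpd, hpd', hpa, hpa', hact x]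
    module
  have hfixc : ∀ x ∈ WW Q d d', x ∈ WW Q a a' → act t.1 x = x := by
    intro x hx hx'
    rw [hact, WW_left hx, WW_right hx, WW_left hx', WW_right hx']
    simp
  have hcW : c ∈ WW Q d d' := mem_WW.2 ⟨by rw [polar_symm]; exact WW_left hd1, by rw [polar_symm]; exact WW_left hd2⟩
  have hcW' : c ∈ WW Q a a' := mem_WW.2 ⟨by rw [polar_symm]; exact hc1, by rw [polar_symm]; exact hc3⟩
  have hc'W : c' ∈ WW Q d d' := mem_WW.2 ⟨by rw [polar_symm]; exact WW_right hd1, by rw [polar_symm]; exact WW_right hd2⟩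
  have hc'W' : c' ∈ WW Q a a' := mem_WW.2 ⟨by rw [polar_symm]; exact hc2, by rw [polar_symm]; exact hc4⟩
  have hN : Nrm t 1 c c' := Nrm.one_of_fix (hfixc c hcW hcW') (hfixc c' hc'W hc'W')
  -- regularity
  have hR : ∀ ω : Ω, Reg h ω := fun ω => K_of_AN_top ψ hψ (hall ω)
  have htr : ∀ ω ω' : Ω, ∃ r : ι → F, ∃ hr : r ∈ WW Q c c', E h.hc (WW_left hr) • ω = ω' := by
    intro ω ω'
    obtain ⟨w, hw⟩ := (wS h Ω).mem_orb.1 (OS1.reg_unique h ψ hψ hd (hall ω) (hall ω'))
    exact ⟨w.1, w.2, hw⟩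
  obtain ⟨ω₁, hω₁⟩ := exists_fix_coprime hR htr hN (o := 2) htt (by exact_mod_cast h2) ω₀
  -- the free action
  have hFree : OS1.FreeAt Q Ω d d' := OS1.FreeAt.transfer h (OS1.free_of_reg h ψ hψ hall) h'
  -- the translations
  set f : F × F → ι → F := fun p => p.1 • a + p.2 • a' with hf
  have hfW : ∀ p, f p ∈ WW Q d d' := fun p =>
    Submodule.add_mem _ (Submodule.smul_mem _ _ (mem_WW.2 ⟨hdd1, hdd2⟩)) (Submodule.smul_mem _ _ (mem_WW.2 ⟨hdd3, hdd4⟩))
  have hfinj : Function.Injective f := by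
    rintro ⟨s, s'⟩ ⟨u, u'⟩ e
    have e1 := congrArg (𝔣 a') e
    have e2 := congrArg (𝔣 a) e
    simp only [hf, polar_add_right, polar_smul_right', ha.hp', ha.cc', ha.hp, ha.cc, mul_one, mul_zero, add_zero, zero_add] at e1 e2
    rw [e1, e2]
  have hcomm : ∀ p, t • E h'.hc (WW_left (hfW p)) • ω₁ = E h'.hc (WW_left (hfW p)) • ω₁ := by
    intro p
    have h1 := conj_E t h'.hc (WW_left (hfW p))
    have hQd : Q (act t.1 d) = 0 := by rw [Q_act]; exact h'.hc
    have e1 : act t.1 d = -d := by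
      rw [hact, h'.hp', h'.cc, hda', hda]
      module
    have e2 : act t.1 (f p) = -f p := by
      have h3 := hact (f p)
      rw [WW_left (hfW p), WW_right (hfW p)] at h3
      rw [h3]
      simp only [hf, polar_add_right, polar_smul_right', ha.hp', ha.cc', ha.hp, ha.cc, mul_one, mul_zero, add_zero, zero_add]
      module
    have hQd' : Q (-d) = 0 := by rw [← e1]; exact hQd
    have hb' : 𝔣 (-d) (-f p) = 0 := by rw [← e1, ← e2, polar_act]; exact WW_left (hfW p)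
    have h3 : t * E h'.hc (WW_left (hfW p)) * t⁻¹ = E h'.hc (WW_left (hfW p)) := by
      rw [h1]
      rw [E_congr e1 e2 _ _ hQd' hb']
      exact E_neg_neg _ _ _ _
    have h4 : t * E h'.hc (WW_left (hfW p)) = E h'.hc (WW_left (hfW p)) * t := by
      conv_rhs => rw [← h3]
      group
    rw [← mul_smul, h4, mul_smul, hω₁]
  have hfx : ∀ p, ∃ r : ι → F, ∃ hr : r ∈ WW Q c c', act t.1 r = r ∧ E h.hc (WW_left hr) • ω₁ = E h'.hc (WW_left (hfW p)) • ω₁ :=
    fun p => fix_diff hR htr hN hω₁ (hcomm p)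
  set L := WW2 Q c c' d d' ⊓ WW Q a a' with hL
  have hmemL : ∀ r, r ∈ WW Q c c' → act t.1 r = r → r ∈ L := by
    intro r hr hr'
    have h1 := hact r
    rw [hr'] at h1
    have e1 := congrArg (𝔣 d') h1
    have e2 := congrArg (𝔣 d) h1
    have e3 := congrArg (𝔣 a') h1
    have e4 := congrArg (𝔣 a) h1
    simp only [polar_sub_right, polar_smul_right', h'.cc', h'.hp', h'.cc, h'.hp, ha.cc', ha.hp', ha.cc, ha.hp, hdd1, hdd2, hdd3, hdd4,
      hda, hda', hd'a, hd'a', mul_zero, mul_one, sub_zero] at e1 e2 e3 e4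
    have key : ∀ s : F, s = s - 2 * s → s = 0 := by
      intro s hs
      have : 2 * s = 0 := by linear_combination hs
      rcases mul_eq_zero.1 this with h0 | h0
      · exact absurd h0 h2
      · exact h0
    have hrW2 : r ∈ WW2 Q c c' d d' := mem_WW2.2 ⟨WW_left hr, WW_right hr, key _ e2, key _ e1⟩
    exact ⟨hrW2, mem_WW.2 ⟨key _ e4, key _ e3⟩⟩
  choose ρ hρW hρt hρE using hfx
  let ρ' : F × F → L := fun p => ⟨ρ p, hmemL _ (hρW p) (hρt p)⟩
  have hcardL : Fintype.card L = 3 := by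
    obtain ⟨hR1, hR2, -, -⟩ := rels h h' hd1 hd2
    have hR3 := card_splitU ha (U := WW2 Q c c' d d') ha1 ha2
    rw [hq, hn] at hR1
    rw [hq] at hR2 hR3
    rw [← Nat.card_eq_fintype_card]
    change Nat.card ↥(WW2 Q c c' d d' ⊓ WW Q a a') = 3
    omega
  have hlt : Fintype.card L < Fintype.card (F × F) := by
    rw [hcardL, Fintype.card_prod, hq]
    norm_num
  obtain ⟨p, p', hne, heq⟩ := Fintype.exists_ne_map_eq_of_card_lt ρ' hlt
  have e : ρ p = ρ p' := congrArg Subtype.val heq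
  have h5 : E h'.hc (WW_left (hfW p)) • ω₁ = E h'.hc (WW_left (hfW p')) • ω₁ := by
    rw [← hρE p, ← hρE p']
    congr 1
    exact E_congr rfl e _ _ _ _
  have hsub : f p - f p' ∈ WW Q d d' := Submodule.sub_mem _ (hfW p) (hfW p')
  have h6 : E h'.hc (WW_left (hfW p)) = E h'.hc (WW_left (hfW p')) * E h'.hc (WW_left hsub) := by
    rw [E_mul]
    exact E_congr rfl (by abel) _ _ _ _
  rw [h6, mul_smul] at h5
  have h7 := MulAction.injective (E h'.hc (WW_left (hfW p'))) h5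
  have h8 := hFree h'.hc _ hsub _ h7
  exact hne (hfinj (sub_eq_zero.1 h8))

end Seven

end Cfsg.Agent.Lib.MinIndex.OT8
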