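import Mathlib
import Cfsg.Agent.Lib.MinIndex.OT8
import Cfsg.Agent.Lib.MinIndex.OOdd

/-!
# Minimal degree of the orthogonal groups over the field with three elements: the bound
-/

set_option autoImplicit false
set_option linter.unusedSectionVars false
set_option linter.unusedSimpArgs false
set_option linter.unusedVariables false

namespace Cfsg.Agent.Lib.MinIndex.OT9

open Matrix QuadraticMap Module
open Cfsg.Agent.Lib.Classical.Orth.Basic
open Cfsg.Agent.Lib.Classical.Orth.Models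
open Cfsg.Agent.Lib.Classical.Witt.Hyp
open Cfsg.Agent.Lib.Classical.Witt.TS
open Cfsg.Agent.Lib.MinIndex.OBase Cfsg.Agent.Lib.MinIndex.OVec Cfsg.Agent.Lib.MinIndex.OGood
open Cfsg.Agent.Lib.MinIndex.OTypes Cfsg.Agent.Lib.MinIndex.OLine Cfsg.Agent.Lib.MinIndex.OStep
open Cfsg.Agent.Lib.MinIndex.OStep2 Cfsg.Agent.Lib.MinIndex.OStep3
open Cfsg.Agent.Lib.MinIndex.OFix Cfsg.Agent.Lib.MinIndex.OFix2 Cfsg.Agent.Lib.MinIndex.OT1
open Cfsg.Agent.Lib.MinIndex.OCount Cfsg.Agent.Lib.MinIndex.OFam Cfsg.Agent.Lib.MinIndex.OT2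
open Cfsg.Agent.Lib.MinIndex.OT3 Cfsg.Agent.Lib.MinIndex.OT4 Cfsg.Agent.Lib.MinIndex.OT5
open Cfsg.Agent.Lib.MinIndex.OT6 Cfsg.Agent.Lib.MinIndex.OT7 Cfsg.Agent.Lib.MinIndex.OT8
open Cfsg.Agent.Lib.MinIndex.OOdd

variable {ι : Type} [Fintype ι] [DecidableEq ι] {F : Type*} [Field F] [Fintype F]
variable {Q : QuadraticForm F (ι → F)} [OC Q]

set_option quotPrecheck false in
local notation "𝔣" => polar (⇑Q)

/-- **The bound for the degree** over the field with three elements. -/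
theorem three_min_degree {Ω : Type*} [MulAction (GG Q) Ω] [Fintype Ω] [MulAction.IsPretransitive (GG Q) Ω] [Nontrivial Ω]
    (hq : Fintype.card F = 3) (hn : 7 ≤ Fintype.card ι) {c c' d d' : ι → F} (h : HP Q c c') (h' : HP Q d d')
    (hd : d ∈ WW Q c c') (hd' : d' ∈ WW Q c c') {N Nsing D Cm n₃ Pt : ℕ} (hA : ANum Q c c' d d' Nsing) (hNN : N ≤ Nsing)
    (hs : OS3.SNum Q c c' N) (hS : OT4.SNum Q c c' N D Cm n₃ Pt) : N ≤ Fintype.card Ω := by
  classical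
  by_contra hcon
  push Not at hcon
  have hne : ∀ ω : Ω, ∃ g : GG Q, g • ω ≠ ω := by
    intro ω
    obtain ⟨ω', hω'⟩ := exists_ne ω
    obtain ⟨g, hg⟩ := MulAction.exists_smul_eq (GG Q) ω ω'
    exact ⟨g, by rw [hg]; exact hω'⟩
  have hno : ∀ (ω : Ω) (e : ι → F), e ≠ 0 → Q e = 0 → ¬ RFix Q ω e := by
    intro ω e he0 _ hfix
    have := case_A h h' hd hd' hA hne he0 hfix
    omega
  obtain ⟨ψ, hψ⟩ : ∃ ψ : AddChar F ℂ, ψ ≠ 1 := by
    obtain ⟨ψ, hψ⟩ := (AddChar.exists_apply_ne_zero (α := F)).mpr (one_ne_zero (α := F))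
    exact ⟨ψ, fun h => hψ (by rw [h]; rfl)⟩
  obtain ⟨ω⟩ : Nonempty Ω := inferInstance
  have hP := PF_three hq
  have hF := sq_of_three hq
  have hq23 : Fintype.card F = 2 ∨ Fintype.card F = 3 := Or.inr hq
  have hd2 : Fintype.card Ω < 2 * Fintype.card (WW Q c c') := lt_of_lt_of_le hcon hs.hNW
  refine OS3.small_core h ψ hψ hs hcon hno (hT_types ψ hψ hS hcon hP hF hq23) (hS_types ψ hψ hS hcon hP hF hq23) ?_ ω
  intro hall
  rcases Nat.lt_or_ge (Fintype.card ι) 8 with h7 | h8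
  · exact not_all_reg_seven h ψ hψ hq (by omega) hd2 hall ω
  · exact OS1.not_all_reg_odd h ψ hψ (two_ne_zero_of_three hq) h8 hd2 hall ω

/-- The lower bound for the index. -/
theorem three_lower {Q₀ : (ι → F) → F} (hQ : ⇑Q = Q₀) (hq : Fintype.card F = 3) (hn : 7 ≤ Fintype.card ι) {c c' d d' : ι → F}
    (h : HP Q c c') (h' : HP Q d d') (hd : d ∈ WW Q c c') (hd' : d' ∈ WW Q c c') {N Nsing D Cm n₃ Pt : ℕ}
    (hA : ANum Q c c' d d' Nsing) (hNN : N ≤ Nsing) (hs : OS3.SNum Q c c' N) (hS : OT4.SNum Q c c' N D Cm n₃ Pt) :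
    ∀ H : Subgroup (Cfsg.POmega F Q₀), H ≠ ⊤ → N ≤ H.index := by
  classical
  subst hQ
  intro H hH
  set f := QuotientGroup.mk' (Subgroup.center (GG Q)) with hf
  have hsurj : Function.Surjective f := QuotientGroup.mk'_surjective _
  set H' := H.comap f with hH'
  have hidx : H'.index = H.index := Subgroup.index_comap_of_surjective H hsurj
  rw [← hidx]
  have htop : H' ≠ ⊤ := by
    intro h0
    apply hH
    rw [eq_top_iff]
    intro x _
    obtain ⟨y, rfl⟩ := hsurj x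
    have : y ∈ H' := by rw [h0]; trivial
    exact this
  let _ : Fintype (GG Q ⧸ H') := Fintype.ofFinite _
  have hnt : Nontrivial (GG Q ⧸ H') := QuotientGroup.nontrivial_iff.mpr htop
  have hmain := three_min_degree (Ω := GG Q ⧸ H') hq hn h h' hd hd' hA hNN hs hS
  rwa [Subgroup.index_eq_card, Nat.card_eq_fintype_card]

/-! ### Counting -/

theorem card_Cl_zero (c c' : ι → F) : (Cl Q c c' 0).card = (singOf Q (WW Q c c')).card := by
  classical
  congr 1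
  ext x
  rw [mem_Cl, mem_singOf]
  tauto

theorem card_Cl_ne (c c' : ι → F) {α : F} (hα : α ≠ 0) : (Cl Q c c' α).card = cntU Q (WW Q c c') α := by
  classical
  unfold cntU
  congr 1
  ext x
  simp only [mem_Cl, Finset.mem_filter, Finset.mem_univ, true_and]
  constructor
  · rintro ⟨h1, -, h3⟩
    exact ⟨h1, h3⟩
  · rintro ⟨h1, h3⟩
    refine ⟨h1, ?_, h3⟩
    rintro rfl
    apply hα
    rw [← h3]
    simp

/-! ### The numbers for the odd-dimensional groups -/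

theorem odd3_a3 {x z z₂ : ℕ} (hx : 3 ≤ x) (hz : z + 1 = 9 * (x * x)) (hz₂ : z₂ + 1 = x * x) :
    (9 * x - 1) * (3 * x - 1) * (x - 1) ≤ 2 * z * z₂ := by
  obtain ⟨v, rfl⟩ : ∃ v, x = v + 3 := ⟨x - 3, by omega⟩
  have e1 : z = (3 * (v + 3) - 1) * (3 * (v + 3) + 1) := by
    obtain ⟨w, hw⟩ : ∃ w, 3 * (v + 3) - 1 = w := ⟨_, rfl⟩
    have h3 : 3 * (v + 3) = w + 1 := by omega
    rw [hw, h3]
    nlinarith
  have e2 : z₂ = (v + 3 - 1) * (v + 3 + 1) := by
    have e : v + 3 - 1 = v + 2 := by omega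
    rw [e]
    nlinarith
  rw [e1, e2]
  have e3 : v + 3 - 1 = v + 2 := by omega
  have e4 : 3 * (v + 3) - 1 = 3 * v + 8 := by omega
  have e5 : 9 * (v + 3) - 1 = 9 * v + 26 := by omega
  rw [e3, e4, e5]
  have e6 : 3 * (v + 3) + 1 = 3 * v + 10 := by omega
  rw [e6]
  nlinarith [Nat.zero_le v, Nat.zero_le (v * v), Nat.mul_le_mul_right ((3 * v + 8) * (v + 2)) (show 9 * v + 26 ≤ 2 * ((3 * v + 10) * (v + 3 + 1)) by nlinarith)]

/-- The bound for a totally singular subgroup. -/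
theorem odd3_nT {x y N z z₂ : ℕ} (hx : 3 ≤ x) (hy : 9 ≤ y) (hyx : y ≤ 3 * x) (hN : 2 * N + 9 * x = 81 * (x * x))
    (hz : z + 1 = 9 * (x * x)) (hz₂ : z₂ + 1 = x * x) :
    N * ((y - 1) * (y - 3)) ≤ z * (3 * z₂) * y := by
  obtain ⟨u, rfl⟩ : ∃ u, y = u + 3 := ⟨y - 3, by omega⟩
  have e1 : u + 3 - 1 = u + 2 := by omega
  have e2 : u + 3 - 3 = u := by omega
  rw [e1, e2]
  zify at *
  have hN' : (2 : ℤ) * N = 81 * (x * x) - 9 * x := by linarith
  have hz' : (z : ℤ) = 9 * (x * x) - 1 := by linarith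
  have hz₂' : (z₂ : ℤ) = x * x - 1 := by linarith
  have hu : (0 : ℤ) ≤ u := by positivity
  have hx0 : (3 : ℤ) ≤ x := hx
  have hB : (x : ℤ) * ((u + 2) * u) ≤ (3 * x - 1) * (x - 1) * (u + 3) := by
    nlinarith [mul_nonneg (sub_nonneg.2 hyx) (show (0 : ℤ) ≤ 3 * x * (u + 3) - 3 by nlinarith)]
  have hC : (0 : ℤ) ≤ (3 * x - 1) * (x - 1) * (u + 3) := by
    apply mul_nonneg (mul_nonneg (by linarith) (by linarith)) (by linarith)
  have hD : (0 : ℤ) ≤ 6 * (x : ℤ) ^ 2 - 19 * x + 5 := by nlinarith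
  have h1 : 2 * ((N : ℤ) * ((u + 2) * u)) = 9 * (9 * x - 1) * (x * ((u + 2) * u)) := by
    have : 2 * ((N : ℤ) * ((u + 2) * u)) = (2 * N) * ((u + 2) * u) := by ring
    rw [this, hN']
    ring
  have h2 : 2 * ((z : ℤ) * (3 * z₂) * (u + 3)) = 6 * (3 * x + 1) * (x + 1) * ((3 * x - 1) * (x - 1) * (u + 3)) := by
    rw [hz', hz₂']
    ring
  have h3 : (9 * (9 * (x : ℤ) - 1)) * (x * ((u + 2) * u)) ≤ (9 * (9 * x - 1)) * ((3 * x - 1) * (x - 1) * (u + 3)) :=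
    mul_le_mul_of_nonneg_left hB (by nlinarith)
  have h4 : (9 * (9 * (x : ℤ) - 1)) * ((3 * x - 1) * (x - 1) * (u + 3)) ≤ (6 * (3 * x + 1) * (x + 1)) * ((3 * x - 1) * (x - 1) * (u + 3)) :=
    mul_le_mul_of_nonneg_right (by nlinarith) hC
  have h5 : 2 * ((N : ℤ) * ((u + 2) * u)) ≤ 2 * ((z : ℤ) * (3 * z₂) * (u + 3)) := by
    rw [h1, h2]
    linarith
  linarith

/-- The bound for subgroups with different values. -/
theorem odd3_nM {x y N Cm : ℕ} (hx : 3 ≤ x) (hy : 9 ≤ y) (hyx : y ≤ 3 * x) (hN : 2 * N + 9 * x = 81 * (x * x))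
    (hCm : Cm + 3 * x = 9 * (x * x)) : N * (y - 1) ≤ 4 * (Cm * (2 * (x * x))) := by
  obtain ⟨u, rfl⟩ : ∃ u, y = u + 1 := ⟨y - 1, by omega⟩
  rw [Nat.add_sub_cancel]
  zify at *
  have hN' : (2 : ℤ) * N = 81 * (x * x) - 9 * x := by linarith
  have hCm' : (Cm : ℤ) = 9 * (x * x) - 3 * x := by linarith
  have hx0 : (3 : ℤ) ≤ x := hx
  have hu : (u : ℤ) ≤ 3 * x - 1 := by linarith
  have h1 : 2 * ((N : ℤ) * u) ≤ (81 * (x * x) - 9 * x) * (3 * x - 1) := by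
    have : 2 * ((N : ℤ) * u) = (2 * N) * u := by ring
    rw [this, hN']
    apply mul_le_mul_of_nonneg_left hu
    nlinarith
  have h2 : ((81 : ℤ) * (x * x) - 9 * x) * (3 * x - 1) ≤ 2 * (4 * ((9 * (x * x) - 3 * x) * (2 * (x * x)))) := by
    have e : 2 * (4 * ((9 * ((x : ℤ) * x) - 3 * x) * (2 * (x * x)))) - ((81 : ℤ) * (x * x) - 9 * x) * (3 * x - 1) =
        3 * x * (3 * x - 1) * (16 * (x * x) - 27 * x + 3) := by ring
    have h3 : (0 : ℤ) ≤ 3 * x * (3 * x - 1) * (16 * (x * x) - 27 * x + 3) := by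
      apply mul_nonneg (mul_nonneg (by linarith) (by linarith))
      nlinarith
    linarith
  rw [hCm']
  linarith

/-- The bound for lines of fixed vectors. -/
theorem odd3_nK {x N Cm : ℕ} (hx : 3 ≤ x) (hN : 2 * N + 9 * x = 81 * (x * x))
    (hCm : Cm + 3 * x = 9 * (x * x)) : N * (3 * 2) ≤ Cm * (27 * (x * x)) := by
  have h1 : 9 ≤ x * x := by nlinarith
  have h2 : 9 ≤ Cm := by nlinarith
  have h3 : N * (3 * 2) ≤ 243 * (x * x) := by omega
  calc N * (3 * 2) ≤ 243 * (x * x) := h3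
    _ = 9 * (27 * (x * x)) := by ring
    _ ≤ Cm * (27 * (x * x)) := Nat.mul_le_mul_right _ h2

end Cfsg.Agent.Lib.MinIndex.OT9
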