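import Mathlib
import Cfsg.Agent.Lib.MinIndex.OS9
import Cfsg.Agent.Lib.MinIndex.OT9

/-!
# The minimal index of a proper subgroup of the orthogonal groups of minus type over the field with three elements
-/

set_option autoImplicit false
set_option linter.unusedSectionVars false
set_option linter.unusedSimpArgs false
set_option linter.unusedVariables false

namespace Cfsg.Agent.Lib.MinIndex.OS10

open Matrix QuadraticMap Module
open Cfsg.Agent.Lib.Classical.Orth.Basic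
open Cfsg.Agent.Lib.Classical.Orth.Models
open Cfsg.Agent.Lib.Linalg.OrthModels
open Cfsg.Agent.Lib.Classical.Witt.Hyp
open Cfsg.Agent.Lib.Classical.Witt.TS
open Cfsg.Agent.Lib.MinIndex.OBase Cfsg.Agent.Lib.MinIndex.OVec Cfsg.Agent.Lib.MinIndex.OGood
open Cfsg.Agent.Lib.MinIndex.OStep2 Cfsg.Agent.Lib.MinIndex.OFix Cfsg.Agent.Lib.MinIndex.OFix2
open Cfsg.Agent.Lib.MinIndex.OCount Cfsg.Agent.Lib.MinIndex.OFinal Cfsg.Agent.Lib.MinIndex.OFam
open Cfsg.Agent.Lib.MinIndex.OPlus Cfsg.Agent.Lib.MinIndex.OS2 Cfsg.Agent.Lib.MinIndex.OS3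
open Cfsg.Agent.Lib.MinIndex.OS4 Cfsg.Agent.Lib.MinIndex.OS5 Cfsg.Agent.Lib.MinIndex.OS6 Cfsg.Agent.Lib.MinIndex.OS7
open Cfsg.Agent.Lib.MinIndex.OS8 Cfsg.Agent.Lib.MinIndex.OT2 Cfsg.Agent.Lib.MinIndex.OT8 Cfsg.Agent.Lib.MinIndex.OT9

variable {F : Type*} [Field F] [Fintype F]

/-- An anisotropic binary form over the field with three elements takes each nonzero value. -/
theorem binary_rep (hF : Fintype.card F = 3) {a b : F}
    (hab : ∀ z₁ z₂ : F, z₁ ^ 2 + a * z₁ * z₂ + b * z₂ ^ 2 = 0 → z₁ = 0 ∧ z₂ = 0) {κ : F} (hκ : κ ≠ 0) :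
    ∃ z₁ z₂ : F, z₁ ^ 2 + a * z₁ * z₂ + b * z₂ ^ 2 = κ := by
  have h3 := three_eq_zero hF
  rcases elts_three hF κ with rfl | rfl | rfl
  · exact absurd rfl hκ
  · exact ⟨1, 0, by ring⟩
  · rcases elts_three hF b with rfl | rfl | rfl
    · have := hab 0 1 (by ring)
      exact absurd this.2 one_ne_zero
    · rcases elts_three hF a with rfl | rfl | rfl
      · exact ⟨1, 1, by linear_combination h3⟩
      · have := hab 1 1 (by linear_combination h3)
        exact absurd this.1 one_ne_zero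
      · have := hab 1 (-1) (by linear_combination h3)
        exact absurd this.1 one_ne_zero
    · exact ⟨0, 1, by ring⟩

/-- The number of vectors of the minus form with a given nonzero value over the field with three elements. -/
theorem cntMinus_ge_three (hF : Fintype.card F = 3) (m : ℕ) {a b : F}
    (hab : ∀ z₁ z₂ : F, z₁ ^ 2 + a * z₁ * z₂ + b * z₂ ^ 2 = 0 → z₁ = 0 ∧ z₂ = 0) {κ : F} (hκ : κ ≠ 0) :
    3 ^ (2 * m + 1) ≤ cnt (Cfsg.quadFormMinus m F a b) κ + 2 * 3 ^ m := by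
  classical
  induction m with
  | zero =>
    obtain ⟨z₁, z₂, hz⟩ := binary_rep hF hab hκ
    have h1 : 1 ≤ cnt (Cfsg.quadFormMinus 0 F a b) κ := by
      rw [cnt, Nat.succ_le_iff, Finset.card_pos]
      refine ⟨Sum.elim (fun i => i.elim (fun j => j.elim0) (fun j => j.elim0)) ![z₁, z₂], ?_⟩
      rw [Finset.mem_filter]
      refine ⟨Finset.mem_univ _, ?_⟩
      simpa [Cfsg.quadFormMinus] using hz
    simpa using h1
  | succ n ih =>
    have h1 := cnt_cons (consMinusF F n).toEquiv (Cfsg.quadFormMinus (n + 1) F a b) (Cfsg.quadFormMinus n F a b)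
      (quadFormMinus_consMinusF n a b) κ
    have hc : Fintype.card ((Fin n ⊕ Fin n) ⊕ Fin 2 → F) = 3 ^ (2 * n + 2) := by
      simp [hF, two_mul]
    rw [hc, hF] at h1
    simp only [show (3 : ℕ) - 1 = 2 from rfl] at h1
    rw [h1]
    calc 3 ^ (2 * (n + 1) + 1) = 2 * 3 ^ (2 * n + 2) + 3 * 3 ^ (2 * n + 1) := by ring
      _ ≤ 2 * 3 ^ (2 * n + 2) + 3 * (cnt (Cfsg.quadFormMinus n F a b) κ + 2 * 3 ^ n) :=
        Nat.add_le_add_left (Nat.mul_le_mul_left _ ih) _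
      _ = _ := by ring

theorem poly_nT (v : ℕ) :
    (243 * ((v : ℤ) + 3) ^ 2 - 18 * (v + 3) - 1) * (3 * (v + 3) - 3) ≤
      2 * ((27 * (v + 3) ^ 2 - 6 * (v + 3) - 1) * (3 * (3 * (v + 3) ^ 2 - 2 * (v + 3) - 1))) := by
  rw [← sub_nonneg]
  ring_nf
  positivity

theorem poly_nM (v : ℕ) :
    (243 * ((v : ℤ) + 3) ^ 2 - 18 * (v + 3) - 1) * (9 * (v + 3) - 1) ≤
      2 * (4 * ((27 * (v + 3) ^ 2 - 6 * (v + 3) - 1) * (2 * (3 * (v + 3) ^ 2)))) := by
  rw [← sub_nonneg]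
  ring_nf
  positivity

/-- The numbers for totally singular subgroups. -/
theorem three_nT {u x y N z z₂ : ℕ} (hu : 3 ≤ u) (hx : x = 3 * u) (hy : 9 ≤ y) (hyx : y ≤ x)
    (hN : 2 * N + 1 + 6 * x = 27 * x ^ 2) (hz : z + 1 + 2 * x = 3 * x ^ 2) (hz₂ : z₂ + 1 + 2 * u = 3 * u ^ 2) :
    N * ((y - 1) * (y - 3)) ≤ z * (3 * z₂) * y := by
  obtain ⟨s, rfl⟩ : ∃ s, y = s + 3 := ⟨y - 3, by omega⟩
  obtain ⟨v, rfl⟩ : ∃ v, u = v + 3 := ⟨u - 3, by omega⟩
  subst hx
  have e1 : s + 3 - 1 = s + 2 := by omega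
  have e2 : s + 3 - 3 = s := by omega
  rw [e1, e2]
  have hs : s + 3 ≤ 3 * (v + 3) := hyx
  have hN' : 2 * (N : ℤ) = 243 * ((v : ℤ) + 3) ^ 2 - 18 * (v + 3) - 1 := by
    zify at hN
    linear_combination hN
  have hz' : (z : ℤ) = 27 * ((v : ℤ) + 3) ^ 2 - 6 * (v + 3) - 1 := by
    zify at hz
    linear_combination hz
  have hz₂' : (z₂ : ℤ) = 3 * ((v : ℤ) + 3) ^ 2 - 2 * (v + 3) - 1 := by
    zify at hz₂
    linear_combination hz₂
  zify
  have hs0 : (0 : ℤ) ≤ s := Int.natCast_nonneg s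
  have hsv : (s : ℤ) + 3 ≤ 3 * ((v : ℤ) + 3) := by omega
  have hNpos : (0 : ℤ) ≤ N := Int.natCast_nonneg N
  have h1 : (N : ℤ) * (((s : ℤ) + 2) * s) ≤ N * (((s : ℤ) + 3) * (3 * ((v : ℤ) + 3) - 3)) := by
    apply mul_le_mul_of_nonneg_left _ hNpos
    apply mul_le_mul (by linarith) (by linarith) hs0 (by linarith)
  have h2 : 2 * (N : ℤ) * (3 * ((v : ℤ) + 3) - 3) ≤ 2 * (z * (3 * z₂)) := by
    rw [hN', hz', hz₂']
    exact poly_nT v
  have h3 : (N : ℤ) * (3 * ((v : ℤ) + 3) - 3) ≤ z * (3 * z₂) := by linarith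
  calc (N : ℤ) * (((s : ℤ) + 2) * s) ≤ N * (((s : ℤ) + 3) * (3 * ((v : ℤ) + 3) - 3)) := h1
    _ = (N * (3 * ((v : ℤ) + 3) - 3)) * ((s : ℤ) + 3) := by ring
    _ ≤ (z * (3 * z₂)) * ((s : ℤ) + 3) := mul_le_mul_of_nonneg_right h3 (by linarith)

/-- The numbers for subgroups with different values. -/
theorem three_nM {u y N z : ℕ} (hu : 3 ≤ u) (hy : 1 ≤ y) (hyx : y ≤ 9 * u)
    (hN : 2 * N + 1 + 18 * u = 243 * u ^ 2) (hz : z + 1 + 6 * u = 27 * u ^ 2) :
    N * (y - 1) ≤ 4 * (z * (2 * (3 * u ^ 2))) := by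
  obtain ⟨s, rfl⟩ : ∃ s, y = s + 1 := ⟨y - 1, by omega⟩
  obtain ⟨v, rfl⟩ : ∃ v, u = v + 3 := ⟨u - 3, by omega⟩
  rw [Nat.add_sub_cancel]
  have hN' : 2 * (N : ℤ) = 243 * ((v : ℤ) + 3) ^ 2 - 18 * (v + 3) - 1 := by
    zify at hN
    linear_combination hN
  have hz' : (z : ℤ) = 27 * ((v : ℤ) + 3) ^ 2 - 6 * (v + 3) - 1 := by
    zify at hz
    linear_combination hz
  have hsv : (s : ℤ) + 1 ≤ 9 * ((v : ℤ) + 3) := by omega
  have hNpos : (0 : ℤ) ≤ N := Int.natCast_nonneg N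
  zify
  have h1 : (N : ℤ) * s ≤ N * (9 * ((v : ℤ) + 3) - 1) := mul_le_mul_of_nonneg_left (by linarith) hNpos
  have h2 : 2 * (N : ℤ) * (9 * ((v : ℤ) + 3) - 1) ≤ 2 * (4 * (z * (2 * (3 * ((v : ℤ) + 3) ^ 2)))) := by
    rw [hN', hz']
    exact poly_nM v
  linarith

set_option maxHeartbeats 2000000 in
/-- **The minimal index for the minus type over the field with three elements.** -/
theorem minus_three (hF : Fintype.card F = 3) (m : ℕ) (hm : 4 ≤ m) (a b : F)
    (hab : ∀ z₁ z₂ : F, z₁ ^ 2 + a * z₁ * z₂ + b * z₂ ^ 2 = 0 → z₁ = 0 ∧ z₂ = 0) :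
    (∀ H : Subgroup (Cfsg.POmega F (Cfsg.quadFormMinus (m - 1) F a b)), H ≠ ⊤ → (3 ^ m + 1) * (3 ^ (m - 1) - 1) / (3 - 1) ≤ H.index) ∧
      ∃ H : Subgroup (Cfsg.POmega F (Cfsg.quadFormMinus (m - 1) F a b)), H.index = (3 ^ m + 1) * (3 ^ (m - 1) - 1) / (3 - 1) := by
  classical
  obtain ⟨k, rfl⟩ : ∃ k, m = k + 3 := ⟨m - 3, by omega⟩
  rw [show k + 3 - 1 = k + 2 by omega]
  have hk : 1 ≤ k := by omega
  have := oc_minus (F := F) (k + 2) (by omega) hab
  have hF' : Fintype.card F = 2 + 1 := hF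
  obtain ⟨c, c', h⟩ := exists_HP (minusForm (k + 2) F a b)
  obtain ⟨d, d', h', hd, hd'⟩ := exists_HP_W h
  obtain ⟨a1, a2, a3, a4, a5⟩ := minus_data (y := 2) hF' hab h h' hd hd'
  have hN0 := minus_N (y := 2) (k := k) (by norm_num)
  simp only [show (2 : ℕ) + 1 = 3 from rfl, show k + 3 - 1 = k + 2 by omega] at hN0 a1 a2 a3 a4 a5
  set N := (3 ^ (k + 3) + 1) * (3 ^ (k + 2) - 1) / (3 - 1) with hN
  have hA' : ANum (minusForm (k + 2) F a b) c c' d d' N := by
    apply minus_anum (y := 2) hF' (by norm_num) hk hab h h' hd hd'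
    exact hN0
  set Q := minusForm (k + 2) F a b with hQ
  set x := 3 ^ (k + 1) with hx
  set u := 3 ^ k with hu
  have hxu : x = 3 * u := by
    rw [hx, hu]
    ring
  have hu3 : 3 ≤ u := by
    rw [hu]
    calc 3 = 3 ^ 1 := (pow_one _).symm
      _ ≤ 3 ^ k := Nat.pow_le_pow_right (by norm_num) hk
  have hx9 : 9 ≤ x := by omega
  have hcoe : (⇑Q) = Cfsg.quadFormMinus (k + 2) F a b := coe_minusForm (k + 2) F a b
  have hcardι : Fintype.card ((Fin (k + 2) ⊕ Fin (k + 2)) ⊕ Fin 2) = 2 * k + 6 := by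
    simp only [Fintype.card_sum, Fintype.card_fin]
    omega
  have hz1 := card_singOf (Q := Q) (WW Q c c')
  have hz2 := card_singOf (Q := Q) (WW2 Q c c' d d')
  have hz3 := card_singOf (Q := Q) (⊤ : Submodule F ((Fin (k + 2) ⊕ Fin (k + 2)) ⊕ Fin 2 → F))
  rw [cntU_top] at hz3
  have hzW := card_singW (Q := Q) c c'
  set z := (singOf Q (WW Q c c')).card with hz
  set z₂ := (singOf Q (WW2 Q c c' d d')).card with hz₂
  have hW : Fintype.card (WW Q c c') = 9 * x ^ 2 := by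
    rw [← Nat.card_eq_fintype_card, a1]
    norm_num
  have hN1 : 2 * N + 1 + 6 * x = 27 * x ^ 2 := by
    norm_num at hN0 ⊢
    linarith
  have hz1' : z + 1 + 2 * x = 3 * x ^ 2 := by
    omega
  have hz2' : z₂ + 1 + 2 * u = 3 * u ^ 2 := by
    have e : 3 * (z₂ + 1) + 2 * (3 * u) = 9 * u ^ 2 := by
      rw [hz2, ← hxu, a4, hxu]
      ring
    omega
  obtain ⟨hR1, hR2, hR3, hR4⟩ := rels h h' hd hd'
  have hsq : 9 * x ≤ x ^ 2 := by
    rw [pow_two]
    exact Nat.mul_le_mul_right _ hx9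
  have hC₀ : cntU Q (WW Q c c') 0 + 2 * x = 3 * x ^ 2 := a3
  have hLb : ∀ κ : F, κ ≠ 0 → 3 * x ^ 2 ≤ cntU Q (WW Q c c') κ + 2 * x := by
    intro κ hκ
    have h1 := cntMinus_ge_three hF (k + 2) hab hκ
    rw [← hcoe] at h1
    have h2 := hR3 κ
    rw [hF, a1] at h2
    simp only [show (3 : ℕ) - 1 = 2 from rfl] at h2
    have e1 : 3 ^ (2 * (k + 2) + 1) = 27 * x ^ 2 := by
      rw [hx]
      ring
    have e2 : 3 ^ (k + 2) = 3 * x := by
      rw [hx]
      ring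
    rw [e1, e2, h2] at h1
    have e3 : 3 ^ 2 * x ^ 2 = 9 * x ^ 2 := by norm_num
    rw [e3] at h1
    omega
  obtain ⟨LB, hLB⟩ : ∃ LB, LB + 2 * x = 3 * x ^ 2 := ⟨3 * x ^ 2 - 2 * x, by omega⟩
  have hLb' : ∀ κ : F, κ ≠ 0 → LB ≤ cntU Q (WW Q c c') κ := by
    intro κ hκ
    have := hLb κ hκ
    omega
  have hcls1 : ∀ u : WW Q c c', Q u.1 ≠ 0 → LB ≤ (clsW u).card := by
    intro u hu
    have := clsW_ge u hu hLb' {1} (by
      intro s hs
      rw [Finset.mem_singleton] at hs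
      exact ⟨1, one_ne_zero, by rw [hs, one_mul]⟩)
    simpa using this
  have hL : (singOf Q ⊤).card = (Fintype.card F - 1) * N := by
    rw [hF]
    simp only [show (3 : ℕ) - 1 = 2 from rfl]
    have e1 : 3 ^ 3 * x ^ 2 = 27 * x ^ 2 := by norm_num
    rw [e1] at a2
    have e2 : 2 * 3 * x = 6 * x := by ring
    rw [e2] at a2
    omega
  have hs : OS3.SNum Q c c' N := by
    refine ⟨?_, fun u hu => ?_, Or.inr ⟨?_, ?_, hL⟩⟩
    · rw [hW]
      omega
    · have := hcls1 u hu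
      rw [hF, hW]
      simp only [show (3 : ℕ) - 1 = 2 from rfl]
      omega
    · rw [hF, hW, hzW]
      simp only [show (3 : ℕ) - 1 = 2 from rfl]
      omega
    · rw [hF, hW]
      simp only [show (3 : ℕ) - 1 = 2 from rfl]
      intro hdvd
      obtain ⟨t, ht⟩ := hdvd
      have h1 : 2 * (N - 1) = 27 * x ^ 2 - 6 * x - 3 := by omega
      have h2 : t = 0 ∨ t = 1 ∨ 2 ≤ t := by omega
      have hxp : 0 < x ^ 2 := by omega
      rcases h2 with rfl | rfl | h2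
      · omega
      · omega
      · have h3 : (N - 1) * 2 ≤ (N - 1) * t := Nat.mul_le_mul_left _ h2
        omega
  have hpD : 3 ^ (2 * k + 4) = 9 * x ^ 2 := by
    rw [hx]
    ring
  have hv2 : 9 * x ^ 2 = 81 * u ^ 2 := by
    rw [hxu]
    ring
  have hS : OT4.SNum Q c c' N (2 * k + 4) z (3 * u ^ 2) (z * (3 * z₂)) := by
    refine ⟨by rw [hF]; norm_num, by rw [hF, hpD, a1]; norm_num, by rw [hF, hpD, hv2]; ring, fun α => ?_, ?_, ?_, ?_, ?_, ?_⟩
    · by_cases hα : α = 0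
      · subst hα
        rw [card_Cl_zero, ← hz]
      · rw [card_Cl_ne c c' hα]
        have := hLb' α hα
        omega
    · intro a a' ha ha1 ha2
      rw [card_Cl_zero, singOf_WW2_eq h ha ha1 ha2 h' hd hd', hF]
    · rw [hF, hpD]
      simp only [show (3 : ℕ) - 1 = 2 from rfl]
      have hz9 : 9 ≤ z := by omega
      calc N * (3 * 2) ≤ 9 * (9 * x ^ 2) := by omega
        _ ≤ z * (9 * x ^ 2) := Nat.mul_le_mul_right _ hz9
    · intro k' h1 h2 hp
      rw [hF] at hp ⊢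
      rcases Nat.lt_or_ge (k + 2) k' with h3 | h3
      · omega
      rcases Nat.lt_or_ge k' (k + 2) with h4 | h4
      · have hy1 : 9 ≤ 3 ^ k' := by
          calc 9 = 3 ^ 2 := by norm_num
            _ ≤ 3 ^ k' := Nat.pow_le_pow_right (by norm_num) h1
        have hy2 : 3 ^ k' ≤ x := by
          rw [hx]
          exact Nat.pow_le_pow_right (by norm_num) (by omega)
        exact three_nT hu3 hxu hy1 hy2 hN1 hz1' hz2'
      · exfalso
        have hk' : k' = k + 2 := by omega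
        subst hk'
        have e2 : 3 ^ (k + 2) = 3 * x := by
          rw [hx]
          ring
        have := hp (by omega)
        rw [e2, hpD] at this
        omega
    · intro k' h1 h2
      rw [hF]
      have hy1 : 1 ≤ 3 ^ k' := Nat.one_le_pow _ _ (by norm_num)
      have hy2 : 3 ^ k' ≤ 9 * u := by
        have e : 9 * u = 3 ^ (k + 2) := by
          rw [hu]
          ring
        rw [e]
        exact Nat.pow_le_pow_right (by norm_num) (by omega)
      refine three_nM hu3 hy1 hy2 ?_ ?_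
      · have e1 : x ^ 2 = 9 * u ^ 2 := by
          rw [hxu]
          ring
        rw [e1, hxu] at hN1
        omega
      · have e1 : x ^ 2 = 9 * u ^ 2 := by
          rw [hxu]
          ring
        rw [e1, hxu] at hz1'
        omega
    · intro h1
      rw [hF] at h1
      omega
  constructor
  · exact three_lower hcoe hF (by rw [hcardι]; omega) h h' hd hd' hA' (le_refl N) hs hS
  · exact exists_index_line hcoe h hL

end Cfsg.Agent.Lib.MinIndex.OS10
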