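import Mathlib
import Cfsg.Agent.Lib.MinIndex.OT9

/-!
# Minimal degree of the orthogonal groups over the field with three elements: the subgroups attaining the bound
-/

set_option autoImplicit false
set_option linter.unusedSectionVars false
set_option linter.unusedSimpArgs false
set_option linter.unusedVariables false

namespace Cfsg.Agent.Lib.MinIndex.OT10

open Matrix QuadraticMap Module
open Cfsg.Agent.Lib.Classical.Orth.Basic
open Cfsg.Agent.Lib.Classical.Orth.Models
open Cfsg.Agent.Lib.Classical.Witt.Hyp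
open Cfsg.Agent.Lib.Classical.Witt.TS
open Cfsg.Agent.Lib.MinIndex.OBase Cfsg.Agent.Lib.MinIndex.OVec Cfsg.Agent.Lib.MinIndex.OGood
open Cfsg.Agent.Lib.MinIndex.OFix Cfsg.Agent.Lib.MinIndex.OFix2 Cfsg.Agent.Lib.MinIndex.OT1
open Cfsg.Agent.Lib.MinIndex.OCount Cfsg.Agent.Lib.MinIndex.OFam Cfsg.Agent.Lib.MinIndex.OFinal
open Cfsg.Agent.Lib.MinIndex.OT8 Cfsg.Agent.Lib.MinIndex.OT9 Cfsg.Agent.Lib.MinIndex.OOdd

variable {ι : Type} [Fintype ι] [DecidableEq ι] {F : Type*} [Field F] [Fintype F]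
variable {Q : QuadraticForm F (ι → F)} [OC Q]

set_option quotPrecheck false in
local notation "𝔣" => polar (⇑Q)

/-- A hyperbolic pair perpendicular to a vector with a nonzero value. -/
theorem exists_HP_perp (h2 : (2 : F) ≠ 0) {w : ι → F} (hw : Q w ≠ 0) :
    ∃ a a', HP Q a a' ∧ 𝔣 a w = 0 ∧ 𝔣 a' w = 0 := by
  have hdim := OC.dim (Q := Q)
  obtain ⟨e, he0, hQe, he⟩ := exists_sing_orth_vec (Q := Q) ![w] (by omega)
  have he1 : 𝔣 w e = 0 := he 0
  have he2 : 𝔣 e w = 0 := by rw [polar_symm]; exact he1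
  obtain ⟨x, hx1, hx2⟩ := exists_partner (OC.nd' (Q := Q)) he0 hQe
  have hww : 𝔣 w w ≠ 0 := by
    rw [polar_self_eq]
    exact mul_ne_zero h2 hw
  set y := x - (𝔣 w x / 𝔣 w w) • w with hy
  have hy1 : 𝔣 w y = 0 := by
    rw [hy, polar_sub_right, polar_smul_right']
    field_simp
    ring
  have hy2 : 𝔣 e y = 1 := by
    rw [hy, polar_sub_right, polar_smul_right', he2, hx2]
    ring
  set z := y - Q y • e with hz
  have hz1 : Q z = 0 := by
    have e1 : Q z = Q y + Q (Q y • e) - 𝔣 y (Q y • e) := Q_sub _ _ _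
    rw [e1, Q_smul, hQe, polar_smul_right', polar_symm y e, hy2]
    ring
  have hz2 : 𝔣 e z = 1 := by
    rw [hz, polar_sub_right, polar_smul_right', polar_self_eq, hQe, hy2]
    ring
  have hz3 : 𝔣 z w = 0 := by
    rw [hz, polar_sub_left, polar_smul_left', he2, polar_symm y w, hy1]
    ring
  exact ⟨e, z, ⟨hQe, hz1, hz2⟩, he2, hz3⟩

/-- **Witt's theorem in `Ω` for vectors with a nonzero value.** -/
theorem exists_omega_nonsing (h2 : (2 : F) ≠ 0) {v w : ι → F} (hv : Q v ≠ 0) (hw : Q w = Q v) :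
    ∃ g : GG Q, act g.1 v = w := by
  have hv0 : v ≠ 0 := by
    rintro rfl
    simp at hv
  have hw' : Q w ≠ 0 := by rw [hw]; exact hv
  have hw0 : w ≠ 0 := by
    rintro rfl
    simp at hw'
  obtain ⟨g₀, hg₀⟩ := exists_iso_family (Q := Q) ![v] ![w]
    (linearIndependent_unique_iff.2 (by simpa using hv0))
    (linearIndependent_unique_iff.2 (by simpa using hw0)) (by
      intro t
      simp only [Fin.sum_univ_one, Matrix.cons_val_zero]
      rw [Q_smul, Q_smul, hw])
  have hg := hg₀ 0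
  simp only [Matrix.cons_val_zero] at hg
  obtain ⟨a, a', ha, h3, h4⟩ := exists_HP_perp h2 hw'
  obtain ⟨s, hs, hsg⟩ := exists_adjust ha g₀
  refine ⟨⟨s * g₀, hsg⟩, ?_⟩
  show act (s * g₀) v = w
  rw [act_mul, hg]
  exact hs w h3 h4

/-- The action on the vectors of a given value. -/
@[instance_reducible] noncomputable def actVal (κ : F) : MulAction (GG Q) {v : ι → F // Q v = κ} where
  smul g v := ⟨act g.1 v.1, by rw [Q_act]; exact v.2⟩
  one_smul v := by
    apply Subtype.ext
    exact act_GG_one _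
  mul_smul g g' v := by
    apply Subtype.ext
    exact act_GG_mul _ _ _

/-- The index of the stabilizer of a line with a nonzero value over the field with three elements. -/
theorem index_lineStab_nonsing (hq3 : Fintype.card F = 3) {v : ι → F} (hv : Q v ≠ 0) {N : ℕ}
    (hV : cnt (⇑Q) (Q v) = (Fintype.card F - 1) * N) : (lineStab Q v).index = N := by
  classical
  have h2F := two_ne_zero_of_three hq3
  have hq : 2 ≤ Fintype.card F := Fintype.one_lt_card
  have hQ : 0 < Fintype.card F - 1 := by omega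
  have hc0 : v ≠ 0 := by
    rintro rfl
    simp at hv
  let _ := actVal (Q := Q) (Q v)
  have htr : MulAction.IsPretransitive (GG Q) {x : ι → F // Q x = Q v} := by
    refine ⟨fun x y => ?_⟩
    have hx : Q x.1 ≠ 0 := by rw [x.2]; exact hv
    obtain ⟨g, hg⟩ := exists_omega_nonsing h2F hx (show Q y.1 = Q x.1 by rw [x.2, y.2])
    exact ⟨g, Subtype.ext hg⟩
  set c₀ : {x : ι → F // Q x = Q v} := ⟨v, rfl⟩ with hc₀
  set S₁ := MulAction.stabilizer (GG Q) c₀ with hS₁
  have hmem : ∀ g, g ∈ S₁ ↔ act g.1 v = v := by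
    intro g
    rw [hS₁, MulAction.mem_stabilizer_iff]
    exact Subtype.ext_iff
  have h1 : S₁.index = cnt (⇑Q) (Q v) := by
    rw [MulAction.index_stabilizer_of_transitive, Nat.card_eq_fintype_card, Fintype.card_subtype]
    unfold cnt
    congr 1
  have hle : S₁ ≤ lineStab Q v := by
    intro g hg
    exact ⟨1, one_ne_zero, by rw [(hmem g).mp hg, one_smul]⟩
  have h2 := Subgroup.relIndex_mul_index hle
  -- a partner
  set c' := (𝔣 v v)⁻¹ • v with hc'
  have hp : 𝔣 v c' = 1 := by
    have hvv : 𝔣 v v ≠ 0 := by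
      rw [polar_self_eq]
      exact mul_ne_zero h2F hv
    rw [hc', polar_smul_right', inv_mul_cancel₀ hvv]
  -- the character
  have hl : ∀ g : lineStab Q v, act g.1.1 v = 𝔣 (act g.1.1 v) c' • v := by
    rintro ⟨g, l, hl, h3⟩
    simp only
    rw [h3, polar_smul_left', hp, mul_one]
  have hl0 : ∀ g : lineStab Q v, 𝔣 (act g.1.1 v) c' ≠ 0 := by
    rintro ⟨g, l, hl, h3⟩
    simp only
    rw [h3, polar_smul_left', hp, mul_one]
    exact hl
  let φ : lineStab Q v →* Fˣ :=
    { toFun := fun g => Units.mk0 _ (hl0 g)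
      map_one' := by
        apply Units.ext
        simp only [Units.val_mk0, Units.val_one]
        change 𝔣 (act (1 : GG Q).1 v) c' = 1
        rw [act_GG_one, hp]
      map_mul' := by
        intro a b
        apply Units.ext
        simp only [Units.val_mk0, Units.val_mul]
        change 𝔣 (act (a.1 * b.1).1 v) c' = _
        rw [act_GG_mul]
        conv_lhs => rw [hl b]
        rw [act_smul, polar_smul_left', mul_comm] }
  have hker : S₁.subgroupOf (lineStab Q v) = φ.ker := by
    ext g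
    rw [Subgroup.mem_subgroupOf, hmem, MonoidHom.mem_ker, Units.ext_iff]
    simp only [Units.val_one, φ]
    change _ ↔ 𝔣 (act g.1.1 v) c' = 1
    constructor
    · intro h3
      rw [h3, hp]
    · intro h3
      rw [hl g, h3, one_smul]
  have hsurj : Function.Surjective φ := by
    intro u
    have hiso : Q ((u : F) • v) = Q v := by
      rw [Q_smul]
      rcases sq_of_three hq3 (u : F) with h0 | h0
      · exact absurd h0 u.ne_zero
      · rw [h0, one_mul]
    obtain ⟨g, hg⟩ := exists_omega_nonsing h2F hv hiso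
    refine ⟨⟨g, u, u.ne_zero, hg⟩, ?_⟩
    apply Units.ext
    simp only [φ]
    change 𝔣 (act g.1 v) c' = u
    rw [hg, polar_smul_left', hp, mul_one]
  have h3 : S₁.relIndex (lineStab Q v) = Fintype.card F - 1 := by
    rw [Subgroup.relIndex, hker, Subgroup.index_ker, MonoidHom.range_eq_top.mpr hsurj, Subgroup.card_top,
      Nat.card_units, Nat.card_eq_fintype_card]
  rw [h3, h1, hV] at h2
  exact Nat.eq_of_mul_eq_mul_left hQ h2

/-- A subgroup of the projective group with the given index. -/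
theorem exists_index_nonsing {Q₀ : (ι → F) → F} (hQ : ⇑Q = Q₀) (hq3 : Fintype.card F = 3) {v : ι → F} (hv : Q v ≠ 0) {N : ℕ}
    (hV : cnt (⇑Q) (Q v) = (Fintype.card F - 1) * N) : ∃ H : Subgroup (Cfsg.POmega F Q₀), H.index = N := by
  classical
  subst hQ
  have hc0 : v ≠ 0 := by
    rintro rfl
    simp at hv
  have hidx := index_lineStab_nonsing hq3 hv hV
  refine ⟨(lineStab Q v).map (QuotientGroup.mk' (Subgroup.center (GG Q))), ?_⟩
  rw [Subgroup.index_map_eq _ (QuotientGroup.mk'_surjective _) (by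
    rw [QuotientGroup.ker_mk']
    exact center_le_lineStab hc0), hidx]

section Count

open Cfsg Cfsg.Agent.Lib.Linalg.OrthModels

/-- The number of vectors of value `-1` of the odd form over the field with three elements. -/
theorem cntOdd_neg_one (hq3 : Fintype.card F = 3) (m : ℕ) : cnt (quadFormOdd m F) (-1) + 3 ^ m = 3 ^ (2 * m) := by
  classical
  induction m with
  | zero =>
    rw [cnt_eq_sum]
    have h2 : ∀ x : Unit ⊕ (Fin 0 ⊕ Fin 0) → F, quadFormOdd 0 F x ≠ -1 := by
      intro x hx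
      have h3 : x (Sum.inl ()) * x (Sum.inl ()) = -1 := by
        have : quadFormOdd 0 F x = x (Sum.inl ()) * x (Sum.inl ()) := by
          simp [quadFormOdd, pow_two]
        rw [← this, hx]
      exact not_sq_neg_one hq3 ⟨_, h3.symm⟩
    simp [h2]
  | succ n ih =>
    have h1 := cnt_cons (consOddF F n).toEquiv (quadFormOdd (n + 1) F) (quadFormOdd n F)
      (quadFormOdd_consOddF n) (-1)
    have hc : Fintype.card (Unit ⊕ (Fin n ⊕ Fin n) → F) = 3 ^ (2 * n + 1) := by
      simp [hq3, two_mul, add_comm]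
    rw [hc, hq3] at h1
    rw [h1]
    have e1 : (3 : ℕ) ^ (2 * (n + 1)) = 3 * 3 ^ (2 * n + 1) := by ring
    have e2 : (3 : ℕ) ^ (2 * n + 1) = 3 * 3 ^ (2 * n) := by ring
    have e3 : (3 : ℕ) ^ (n + 1) = 3 * 3 ^ n := by ring
    rw [e1, e3, e2]
    norm_num
    omega

end Count

/-- **Existence for the odd-dimensional groups.** -/
theorem odd3_exists (hF : Fintype.card F = 3) (m : ℕ) (hm : 3 ≤ m) :
    ∃ H : Subgroup (Cfsg.POmega F (Cfsg.quadFormOdd m F)), H.index = 3 ^ m * (3 ^ m - 1) / 2 := by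
  classical
  have h2F := two_ne_zero_of_three hF
  have := oc_odd h2F m hm
  have hcoe : (⇑(oddForm m F)) = Cfsg.quadFormOdd m F := coe_oddForm m F
  have hc := cntOdd_neg_one hF m
  have hpos : 0 < 3 ^ m := by positivity
  have hle : 3 ^ m * 3 ≤ 3 ^ (2 * m) := by
    have : 3 ^ (2 * m) = 3 ^ m * 3 ^ m := by ring
    rw [this]
    apply Nat.mul_le_mul_left
    calc 3 = 3 ^ 1 := (pow_one _).symm
      _ ≤ 3 ^ m := Nat.pow_le_pow_right (by norm_num) (by omega)
  have hcpos : 0 < cnt (Cfsg.quadFormOdd m F) (-1) := by omega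
  obtain ⟨v, hv⟩ : ∃ v, Cfsg.quadFormOdd m F v = -1 := by
    rw [cnt_eq_sum] at hcpos
    by_contra hcon
    push Not at hcon
    simp [hcon] at hcpos
  have hv' : oddForm m F v = -1 := by rw [hcoe]; exact hv
  refine exists_index_nonsing hcoe hF (v := v) (by rw [hv']; exact neg_ne_zero.2 one_ne_zero) ?_
  rw [hv', hcoe, hF]
  have heven : Even (3 ^ m * (3 ^ m - 1)) := Nat.even_mul_pred_self _
  obtain ⟨r, hr⟩ := heven
  have e : 3 ^ m * (3 ^ m - 1) / 2 = r := by omega
  rw [e]
  have e4 : 3 ^ (2 * m) = 3 ^ m * (3 ^ m - 1) + 3 ^ m := by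
    have : 3 ^ (2 * m) = 3 ^ m * 3 ^ m := by ring
    rw [this]
    obtain ⟨t, ht⟩ : ∃ t, 3 ^ m = t + 1 := ⟨3 ^ m - 1, by omega⟩
    rw [ht, Nat.add_sub_cancel]
    ring
  omega

end Cfsg.Agent.Lib.MinIndex.OT10
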