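import Mathlib
import Cfsg.Agent.Lib.MinIndex.OT10

/-!
# Minimal degree of the odd-dimensional orthogonal groups over the field with three elements
-/

set_option autoImplicit false
set_option linter.unusedSectionVars false
set_option linter.unusedSimpArgs false
set_option linter.unusedVariables false

namespace Cfsg.Agent.Lib.MinIndex.OT11

open Matrix QuadraticMap Module
open Cfsg.Agent.Lib.Classical.Orth.Basic
open Cfsg.Agent.Lib.Classical.Orth.Models
open Cfsg.Agent.Lib.Classical.Witt.Hyp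
open Cfsg.Agent.Lib.Classical.Witt.TS
open Cfsg.Agent.Lib.MinIndex.OBase Cfsg.Agent.Lib.MinIndex.OVec Cfsg.Agent.Lib.MinIndex.OGood
open Cfsg.Agent.Lib.MinIndex.OFix Cfsg.Agent.Lib.MinIndex.OFix2 Cfsg.Agent.Lib.MinIndex.OT1
open Cfsg.Agent.Lib.MinIndex.OT2
open Cfsg.Agent.Lib.MinIndex.OCount Cfsg.Agent.Lib.MinIndex.OFam Cfsg.Agent.Lib.MinIndex.OFinal
open Cfsg.Agent.Lib.MinIndex.OT8 Cfsg.Agent.Lib.MinIndex.OT9 Cfsg.Agent.Lib.MinIndex.OOdd
open Cfsg.Agent.Lib.MinIndex.OT10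

variable {F : Type*} [Field F] [Fintype F]

/-- **The lower bound for the odd-dimensional groups.** -/
theorem odd3_lower (hF : Fintype.card F = 3) (m : ℕ) (hm : 3 ≤ m) :
    ∀ H : Subgroup (Cfsg.POmega F (Cfsg.quadFormOdd m F)), H ≠ ⊤ → 3 ^ m * (3 ^ m - 1) / 2 ≤ H.index := by
  classical
  obtain ⟨k, rfl⟩ : ∃ k, m = k + 2 := ⟨m - 2, by omega⟩
  have h2F : (2 : F) ≠ 0 := two_ne_zero_of_three hF
  have := oc_odd h2F (k + 2) hm
  set Q := oddForm (k + 2) F with hQ
  obtain ⟨c, c', h⟩ := exists_HP Q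
  obtain ⟨d, d', h', hd, hd'⟩ := exists_HP_W h
  obtain ⟨hR1, hR2, hR3, hR4⟩ := rels h h' hd hd'
  have hcardι : Fintype.card (Unit ⊕ (Fin (k + 2) ⊕ Fin (k + 2))) = 2 * (k + 2) + 1 := by
    simp only [Fintype.card_sum, Fintype.card_fin, Fintype.card_unit]
    omega
  rw [hF] at hR1 hR2 hR3 hR4
  rw [hcardι] at hR1
  simp only [Nat.add_one_sub_one, show (3 : ℕ) - 1 = 2 from rfl] at hR3 hR4
  set x := 3 ^ k with hx
  have hk1 : 1 ≤ k := by omega
  have hx3 : 3 ≤ x := by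
    rw [hx]
    calc 3 = 3 ^ 1 := (pow_one _).symm
      _ ≤ 3 ^ k := Nat.pow_le_pow_right (by norm_num) hk1
  set X := x * x with hXd
  have hX9 : 9 ≤ X := by nlinarith
  have hcoe : (⇑Q) = Cfsg.quadFormOdd (k + 2) F := coe_oddForm (k + 2) F
  have hp2 : 3 ^ (2 * (k + 2)) = 81 * X := by
    rw [hXd, hx]
    ring
  have hp5 : 3 ^ (2 * (k + 2) + 1) = 243 * X := by
    rw [hXd, hx]
    ring
  have hp3 : 3 ^ (k + 2) = 9 * x := by
    rw [hx]
    ring
  have hT₀ := cntOdd_zero hF (k + 2)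
  rw [← hcoe, hp2] at hT₀
  rw [hp5] at hR1
  have a1 := hR3 0
  have a2 := hR4 0
  have hW₀ : Nat.card (WW Q c c') = 27 * X := by omega
  have hw₂ : Nat.card (WW2 Q c c' d d') = 3 * X := by omega
  have hC₀ : cntU Q (WW Q c c') 0 = 9 * X := by omega
  have hD₀ : cntU Q (WW2 Q c c' d d') 0 = X := by omega
  have hWf : Fintype.card (WW Q c c') = 27 * X := by rw [← Nat.card_eq_fintype_card]; exact hW₀
  -- values
  have hLb : ∀ κ : F, κ ≠ 0 → 9 * X ≤ cntU Q (WW Q c c') κ + 3 * x := by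
    intro κ hκ
    have h1 := cntOdd_ge hF (k + 2) κ
    rw [← hcoe, hp2, hp3] at h1
    have h2 := hR3 κ
    omega
  obtain ⟨Cm, hCmd⟩ : ∃ Cm, Cm + 3 * x = 9 * X := ⟨9 * X - 3 * x, by
    have : 3 * x ≤ 9 * X := by nlinarith
    omega⟩
  have hLb' : ∀ κ : F, κ ≠ 0 → Cm ≤ cntU Q (WW Q c c') κ := fun κ hκ => by
    have := hLb κ hκ
    omega
  have hz1 := card_singOf (Q := Q) (WW Q c c')
  rw [hC₀] at hz1
  have hz2 := card_singOf (Q := Q) (WW2 Q c c' d d')
  rw [hD₀] at hz2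
  have hz3 := card_singOf (Q := Q) (⊤ : Submodule F (Unit ⊕ (Fin (k + 2) ⊕ Fin (k + 2)) → F))
  rw [cntU_top, hT₀] at hz3
  set z := (singOf Q (WW Q c c')).card with hz
  set z₂ := (singOf Q (WW2 Q c c' d d')).card with hz₂
  -- the index
  set N := 3 ^ (k + 2) * (3 ^ (k + 2) - 1) / 2 with hNd
  have hN : 2 * N + 9 * x = 81 * X := by
    have heven : Even (3 ^ (k + 2) * (3 ^ (k + 2) - 1)) := Nat.even_mul_pred_self _
    obtain ⟨r, hr⟩ := heven
    have e : N = r := by
      rw [hNd]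
      omega
    rw [hp3] at hr
    have e2 : 9 * x * (9 * x - 1) + 9 * x = 81 * X := by
      obtain ⟨t, ht⟩ : ∃ t, 9 * x = t + 1 := ⟨9 * x - 1, by omega⟩
      rw [ht, Nat.add_sub_cancel]
      have e3 : 81 * X = (9 * x) * (9 * x) := by
        rw [hXd]
        ring
      rw [e3, ht]
      ring
    omega
  have hNW : N ≤ 2 * Fintype.card (WW Q c c') := by
    rw [hWf]
    omega
  have hs : OS3.SNum Q c c' N := by
    refine ⟨hNW, fun u hu => ?_, ?_⟩
    · have h1 := clsW_ge u hu hLb' {1} (by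
        intro s hs
        rw [Finset.mem_singleton] at hs
        exact ⟨1, one_ne_zero, by rw [hs, one_mul]⟩)
      rw [Finset.card_singleton, one_mul] at h1
      rw [hF, hWf]
      show 2 * N ≤ 2 * (27 * X) + 3 * _
      omega
    · left
      rw [hF, hWf, card_singW]
      show 2 * N ≤ 2 * (27 * X) + 3 * _
      omega
  have hpD : 3 ^ (2 * k + 3) = 27 * X := by
    rw [hXd, hx]
    ring
  have hyb : ∀ k', 2 ≤ k' → 2 * k' ≤ 2 * k + 3 → 9 ≤ 3 ^ k' ∧ 3 ^ k' ≤ 3 * x := by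
    intro k' h1 h2
    constructor
    · calc 9 = 3 ^ 2 := by norm_num
        _ ≤ 3 ^ k' := Nat.pow_le_pow_right (by norm_num) h1
    · have e : 3 * x = 3 ^ (k + 1) := by
        rw [hx]
        ring
      rw [e]
      exact Nat.pow_le_pow_right (by norm_num) (by omega)
  have hS : OT4.SNum Q c c' N (2 * k + 3) Cm X (z * (3 * z₂)) := by
    refine ⟨by rw [hF]; norm_num, by rw [hF, hpD]; exact hW₀, by rw [hF, hpD]; ring, fun α => ?_, ?_, ?_, ?_, ?_, ?_⟩
    · by_cases hα : α = 0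
      · subst hα
        rw [card_Cl_zero, ← hz]
        omega
      · rw [card_Cl_ne c c' hα]
        exact hLb' α hα
    · intro a a' ha ha1 ha2
      rw [card_Cl_zero, singOf_WW2_eq h ha ha1 ha2 h' hd hd', hF]
    · rw [hF, hpD]
      exact odd3_nK hx3 hN hCmd
    · intro k' h1 h2 _
      rw [hF]
      obtain ⟨h3, h4⟩ := hyb k' h1 h2
      exact odd3_nT hx3 h3 h4 hN hz1 hz2
    · intro k' h1 h2
      rw [hF]
      obtain ⟨h3, h4⟩ := hyb k' h1 h2
      exact odd3_nM hx3 h3 h4 hN hCmd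
    · intro h1
      rw [hF] at h1
      omega
  -- the singular vectors
  have hodd : Odd X := by
    have h1 : Odd x := by
      rw [hx]
      exact Odd.pow (by decide)
    exact h1.mul h1
  obtain ⟨r, hr⟩ : ∃ r, 81 * X = 2 * r + 1 := by
    obtain ⟨s, hs⟩ := hodd
    exact ⟨81 * s + 40, by omega⟩
  have hQnd : PolarNondeg Q := OC.nd'
  have hA : ANum Q c c' d d' r := by
    refine ⟨?_, ?_, ?_⟩
    · rw [hF]
      show _ = 2 * r
      omega
    · rw [hF]
      norm_num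
      omega
    · intro Y hY hY3
      set s := finrank F Y with hs'
      have hr1 : 2 * s ≤ 2 * (k + 2) + 1 := by
        have h1 := IsTS.two_mul_finrank_le hQnd (U := Y) hY
        rwa [Module.finrank_fintype_fun_eq_card, hcardι] at h1
      rw [hF]
      have h2 := three_le (q := 3) (r := s) (R := k + 2) (by norm_num) (by omega)
      refine h2.trans ?_
      have hk1' : k + 2 - 1 = k + 1 := by omega
      have hk2' : k + 2 - 2 = k := by omega
      rw [hk1', hk2', hp3]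
      have e2 : 3 ^ (k + 1) = 3 * x := by
        rw [hx]
        ring
      rw [e2, ← hx]
      exact odd3_a3 hx3 hz1 hz2
  exact three_lower hcoe hF (by rw [hcardι]; omega) h h' hd hd' hA (by omega) hs hS

end Cfsg.Agent.Lib.MinIndex.OT11
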