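import Mathlib
import Cfsg.Agent.Lib.MinIndex.OT11

/-!
# Minimal degree of the orthogonal groups: the minus forms
-/

set_option autoImplicit false
set_option linter.unusedSectionVars false
set_option linter.unusedSimpArgs false
set_option linter.unusedVariables false

namespace Cfsg.Agent.Lib.MinIndex.OT12

open Matrix QuadraticMap Module
open Cfsg.Agent.Lib.Classical.Orth.Basic
open Cfsg.Agent.Lib.Classical.Orth.Models
open Cfsg.Agent.Lib.Classical.Witt.Hyp
open Cfsg.Agent.Lib.Classical.Witt.TS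
open Cfsg.Agent.Lib.MinIndex.OBase Cfsg.Agent.Lib.MinIndex.OVec Cfsg.Agent.Lib.MinIndex.OGood
open Cfsg.Agent.Lib.MinIndex.OFix Cfsg.Agent.Lib.MinIndex.OFix2 Cfsg.Agent.Lib.MinIndex.OT1
open Cfsg.Agent.Lib.MinIndex.OT2
open Cfsg.Agent.Lib.MinIndex.OCount Cfsg.Agent.Lib.MinIndex.OFam Cfsg.Agent.Lib.MinIndex.OFinal
open Cfsg.Agent.Lib.MinIndex.OT8 Cfsg.Agent.Lib.MinIndex.OT9 Cfsg.Agent.Lib.MinIndex.OOdd
open Cfsg.Agent.Lib.MinIndex.OT10

section Gen

variable {ι : Type} [Fintype ι] [DecidableEq ι] {F : Type*} [Field F] [Fintype F]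
variable {Q : QuadraticForm F (ι → F)} [OC Q]

set_option quotPrecheck false in
local notation "𝔣" => polar (⇑Q)

open _root_.Classical in
/-- **The count of singular vectors** of a space with a totally singular subgroup equal to its perpendicular. -/
theorem lag_count_U (U : Submodule F (ι → F)) (S : AddSubgroup (ι → F)) (hsub : ∀ a ∈ S, a ∈ U) (hc : ∀ s : F, ∀ x ∈ S, s • x ∈ S)
    (hts : ∀ a ∈ S, Q a = 0) (hperp : ∀ y ∈ U, (∀ a ∈ S, 𝔣 y a = 0) → y ∈ S) :
    Fintype.card F * cntU Q (U) 0 = Fintype.card F * Nat.card S + (Nat.card (U) - Nat.card S) := by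
  have hq : 0 < Fintype.card F := Fintype.card_pos
  set WF := Sf U.toAddSubgroup with hWF
  have hmemW : ∀ {y}, y ∈ WF ↔ y ∈ U := fun {y} => mem_Sf
  have hWFc : WF.card = Nat.card (U) := card_Sf U.toAddSubgroup
  set R : (ι → F) → (ι → F) → Prop := fun y a => Q (y + a) = 0 with hR
  have hdc := Finset.sum_card_bipartiteAbove_eq_sum_card_bipartiteBelow (s := WF) (t := Sf S) R
  have hB : ∀ a ∈ Sf S, (Finset.bipartiteBelow R WF a).card = cntU Q (U) 0 := by
    intro a ha
    have haW := hsub a (mem_Sf.1 ha)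
    unfold cntU
    apply Finset.card_bij (fun y _ => y + a)
    · intro y hy
      obtain ⟨h1, h2⟩ := (Finset.mem_bipartiteBelow _).1 hy
      simp only [Finset.mem_filter, Finset.mem_univ, true_and]
      exact ⟨Submodule.add_mem _ (hmemW.1 h1) haW, h2⟩
    · intro y _ y' _ e
      exact add_right_cancel e
    · intro z hz
      simp only [Finset.mem_filter, Finset.mem_univ, true_and] at hz
      refine ⟨z - a, (Finset.mem_bipartiteBelow _).2 ⟨hmemW.2 (Submodule.sub_mem _ hz.1 haW), ?_⟩, sub_add_cancel z a⟩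
      show Q (z - a + a) = 0
      rw [sub_add_cancel]
      exact hz.2
  rw [Finset.sum_congr rfl hB, Finset.sum_const, smul_eq_mul, card_Sf] at hdc
  have hA : ∀ y ∈ WF, Fintype.card F * (Finset.bipartiteAbove R (Sf S) y).card =
      if y ∈ S then Fintype.card F * Nat.card S else Nat.card S := by
    intro y hy
    by_cases hyS : y ∈ S
    · rw [if_pos hyS]
      congr 1
      rw [← card_Sf]
      congr 1
      ext a
      simp only [Finset.mem_bipartiteAbove, and_iff_left_iff_imp]
      intro ha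
      exact hts _ (S.add_mem hyS (mem_Sf.1 ha))
    · rw [if_neg hyS]
      obtain ⟨a₁, ha₁, hne⟩ : ∃ a₁ ∈ S, 𝔣 y a₁ ≠ 0 := by
        by_contra hcon
        push Not at hcon
        exact hyS (hperp y (hmemW.1 hy) hcon)
      have h1 := fiber_card S hc ha₁ hne (-Q y)
      rw [← h1]
      congr 2
      ext a
      simp only [Finset.mem_bipartiteAbove, Finset.mem_filter]
      refine and_congr_right fun ha => ?_
      show Q (y + a) = 0 ↔ _
      rw [Q_add, hts a (mem_Sf.1 ha)]
      constructor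
      · intro e
        linear_combination e
      · intro e
        rw [e]
        ring
  have h2 : Fintype.card F * ∑ y ∈ WF, (Finset.bipartiteAbove R (Sf S) y).card =
      ∑ y ∈ WF, if y ∈ S then Fintype.card F * Nat.card S else Nat.card S := by
    rw [Finset.mul_sum]
    exact Finset.sum_congr rfl hA
  rw [Finset.sum_ite, Finset.sum_const, Finset.sum_const, smul_eq_mul, smul_eq_mul] at h2
  have h3 : (WF.filter fun y => y ∈ S).card = Nat.card S := by
    rw [← card_Sf]
    congr 1
    ext y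
    simp only [Finset.mem_filter, mem_Sf]
    exact ⟨fun h => h.2, fun h => ⟨hmemW.2 (hsub y h), h⟩⟩
  have h4 : (WF.filter fun y => y ∉ S).card = Nat.card (U) - Nat.card S := by
    have := Finset.card_filter_add_card_filter_not (s := WF) (fun y => y ∈ S)
    omega
  rw [h3, h4, hdc] at h2
  have hxpos : 0 < Nat.card S := Nat.card_pos
  apply Nat.eq_of_mul_eq_mul_left hxpos
  calc Nat.card S * (Fintype.card F * cntU Q (U) 0) = Fintype.card F * (Nat.card S * cntU Q (U) 0) := by ring
    _ = _ := h2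
    _ = _ := by ring


end Gen

variable {F : Type*} [Field F] [Fintype F]

/-- The minus form as an instance of the setting. -/
theorem oc_minus (p : ℕ) (hp : 3 ≤ p) (a b : F) (hab : ∀ z₁ z₂ : F, z₁ ^ 2 + a * z₁ * z₂ + b * z₂ ^ 2 = 0 → z₁ = 0 ∧ z₂ = 0) :
    OC (minusForm p F a b) :=
  ⟨minusForm_nondegenerate p a b hab, by
    simp only [Fintype.card_sum, Fintype.card_fin]
    omega⟩

/-- **Totally singular subspaces of the minus forms** have dimension at most the number of hyperbolic planes. -/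
theorem minus_ts_le {q : ℕ} (hF : Fintype.card F = q) (p : ℕ) (hp : 3 ≤ p) (a b : F)
    (hab : ∀ z₁ z₂ : F, z₁ ^ 2 + a * z₁ * z₂ + b * z₂ ^ 2 = 0 → z₁ = 0 ∧ z₂ = 0)
    (X : Submodule F ((Fin p ⊕ Fin p) ⊕ Fin 2 → F)) (hX : ∀ x ∈ X, minusForm p F a b x = 0) : finrank F X ≤ p := by
  classical
  have := oc_minus p hp a b hab
  set Q := minusForm p F a b with hQ
  have hcoe : (⇑Q) = Cfsg.quadFormMinus p F a b := coe_minusForm p F a b
  have hcardι : Fintype.card ((Fin p ⊕ Fin p) ⊕ Fin 2) = 2 * p + 2 := by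
    simp only [Fintype.card_sum, Fintype.card_fin]
    omega
  have hQnd : PolarNondeg Q := OC.nd'
  have h1 := IsTS.two_mul_finrank_le hQnd (U := X) hX
  rw [Module.finrank_fintype_fun_eq_card, hcardι] at h1
  by_contra hgt
  have hr : finrank F X = p + 1 := by omega
  have hperp : X ≤ perpS Q X := by
    intro x hx
    apply mem_orth.2
    intro u hu
    have h2 := hX _ (X.add_mem hu hx)
    rw [Q_add, hX u hu, hX x hx] at h2
    simpa using h2
  have hfr := finrank_orth (Q := Q) X
  rw [hcardι] at hfr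
  have heq : X = perpS Q X := Submodule.eq_of_le_of_finrank_eq hperp (by omega)
  have hq2 : 2 ≤ q := by
    rw [← hF]
    exact Fintype.one_lt_card
  have hS : Nat.card X.toAddSubgroup = q ^ (p + 1) := by
    show Nat.card X = _
    rw [Module.natCard_eq_pow_finrank (K := F), hr, Nat.card_eq_fintype_card, hF]
  have hT : Nat.card (⊤ : Submodule F ((Fin p ⊕ Fin p) ⊕ Fin 2 → F)) = q ^ (2 * p + 2) := by
    rw [Nat.card_congr Submodule.topEquiv.toEquiv, Nat.card_eq_fintype_card, Fintype.card_fun, hcardι, hF]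
  have h3 := lag_count_U (Q := Q) ⊤ X.toAddSubgroup (fun _ _ => Submodule.mem_top)
    (fun s x hx => X.smul_mem s hx) (fun x hx => hX x hx) (fun y _ hall => by
      have : y ∈ perpS Q X := mem_orth.2 fun u hu => by
        rw [polar_symm]
        exact hall u hu
      rw [← heq] at this
      exact this)
  rw [hS, hT, cntU_top, hF] at h3
  have h4 := cntMinus_zero hF p hab
  rw [← hcoe] at h4
  set A := q ^ (p + 1) with hA
  have hApos : 0 < A := by positivity
  have e : q ^ (2 * p + 2) = A * A := by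
    rw [hA]
    ring
  rw [e] at h3 h4
  have hle : A ≤ A * A := Nat.le_mul_of_pos_left _ hApos
  obtain ⟨B, hB⟩ : ∃ B, A * A = B + A := ⟨A * A - A, by omega⟩
  rw [hB, Nat.add_sub_cancel] at h3
  rw [hB, h3] at h4
  obtain ⟨y, rfl⟩ : ∃ y, q = y + 2 := ⟨q - 2, by omega⟩
  have e2 : y + 2 - 1 = y + 1 := by omega
  rw [e2] at h4
  nlinarith

/-- The number of vectors of a nonzero value of the minus form over the field with three elements. -/
theorem cntMinus_three (hq3 : Fintype.card F = 3) (p : ℕ) (a b : F)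
    (hab : ∀ z₁ z₂ : F, z₁ ^ 2 + a * z₁ * z₂ + b * z₂ ^ 2 = 0 → z₁ = 0 ∧ z₂ = 0) {κ : F} (hκ : κ ≠ 0) :
    3 ^ (2 * p + 1) ≤ cnt (Cfsg.quadFormMinus p F a b) κ + 3 ^ p := by
  classical
  have h2F := two_ne_zero_of_three hq3
  induction p with
  | zero =>
    -- two vectors
    obtain ⟨z₁, z₂, hz⟩ : ∃ z₁ z₂ : F, z₁ ^ 2 + a * z₁ * z₂ + b * z₂ ^ 2 = κ := by
      rcases elts_three hq3 κ with h | h | h
      · exact absurd h hκ
      · exact ⟨1, 0, by rw [h]; ring⟩
      · rw [h]
        by_contra hcon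
        push Not at hcon
        have hval : ∀ z₁ z₂ : F, (z₁ ≠ 0 ∨ z₂ ≠ 0) → z₁ ^ 2 + a * z₁ * z₂ + b * z₂ ^ 2 = 1 := by
          intro z₁ z₂ hz
          rcases elts_three hq3 (z₁ ^ 2 + a * z₁ * z₂ + b * z₂ ^ 2) with e | e | e
          · obtain ⟨e1, e2⟩ := hab _ _ e
            rcases hz with hz | hz
            · exact absurd e1 hz
            · exact absurd e2 hz
          · exact e
          · exact absurd e (hcon z₁ z₂)
        have e1 := hval 0 1 (Or.inr one_ne_zero)
        have e2 := hval 1 1 (Or.inr one_ne_zero)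
        have e3 := hval 1 (-1) (Or.inr (neg_ne_zero.2 one_ne_zero))
        apply h2F
        linear_combination (-2) * e1 + e2 + e3
    set v : (Fin 0 ⊕ Fin 0) ⊕ Fin 2 → F := fun i => Sum.elim (fun _ => 0) ![z₁, z₂] i with hv
    have hQv : Cfsg.quadFormMinus 0 F a b v = κ := by
      simp [Cfsg.quadFormMinus, hv, hz]
    have hQv' : Cfsg.quadFormMinus 0 F a b (-v) = κ := by
      simp [Cfsg.quadFormMinus, hv, hz]
    have hne : v ≠ -v := by
      intro e
      have e1 : v = 0 := by
        have : (2 : F) • v = 0 := by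
          rw [two_smul]
          nth_rw 1 [e]
          simp
        exact (smul_eq_zero.1 this).resolve_left h2F
      rw [e1] at hQv
      apply hκ
      rw [← hQv]
      simp [Cfsg.quadFormMinus]
    have hsub : ({v, -v} : Finset _) ⊆ Finset.univ.filter fun x => Cfsg.quadFormMinus 0 F a b x = κ := by
      intro x hx
      simp only [Finset.mem_insert, Finset.mem_singleton] at hx
      rcases hx with rfl | rfl
      · simp [hQv]
      · simp [hQv']
    have hc := Finset.card_le_card hsub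
    rw [Finset.card_pair hne] at hc
    have : 2 ≤ cnt (Cfsg.quadFormMinus 0 F a b) κ := hc
    simp only [Nat.mul_zero, Nat.zero_add, pow_one, pow_zero]
    omega
  | succ n ih =>
    have h1 := cnt_cons (Cfsg.Agent.Lib.Linalg.OrthModels.consMinusF F n).toEquiv (Cfsg.quadFormMinus (n + 1) F a b)
      (Cfsg.quadFormMinus n F a b) (Cfsg.Agent.Lib.Linalg.OrthModels.quadFormMinus_consMinusF n a b) κ
    have hc : Fintype.card ((Fin n ⊕ Fin n) ⊕ Fin 2 → F) = 3 ^ (2 * n + 2) := by
      simp [hq3, two_mul]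
    rw [hc, hq3] at h1
    rw [h1]
    have e1 : (3 : ℕ) ^ (2 * (n + 1) + 1) = 2 * 3 ^ (2 * n + 2) + 3 * 3 ^ (2 * n + 1) := by ring
    have e2 : (3 : ℕ) ^ (n + 1) = 3 * 3 ^ n := by ring
    rw [e1, e2]
    show 2 * 3 ^ (2 * n + 2) + 3 * 3 ^ (2 * n + 1) ≤ 2 * 3 ^ (2 * n + 2) + 3 * _ + _
    omega

end Cfsg.Agent.Lib.MinIndex.OT12
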