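import Mathlib
import Cfsg.Agent.Lib.MinIndex.OT12

/-!
# Minimal degree of the orthogonal groups of minus type over the field with three elements
-/

set_option autoImplicit false
set_option linter.unusedSectionVars false
set_option linter.unusedSimpArgs false
set_option linter.unusedVariables false

namespace Cfsg.Agent.Lib.MinIndex.OT13

open Matrix QuadraticMap Module
open Cfsg.Agent.Lib.Classical.Orth.Basic
open Cfsg.Agent.Lib.Classical.Orth.Models
open Cfsg.Agent.Lib.Classical.Witt.Hyp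
open Cfsg.Agent.Lib.Classical.Witt.TS
open Cfsg.Agent.Lib.MinIndex.OBase Cfsg.Agent.Lib.MinIndex.OVec Cfsg.Agent.Lib.MinIndex.OGood
open Cfsg.Agent.Lib.MinIndex.OFix Cfsg.Agent.Lib.MinIndex.OFix2 Cfsg.Agent.Lib.MinIndex.OT1
open Cfsg.Agent.Lib.MinIndex.OT2
open Cfsg.Agent.Lib.MinIndex.OCount Cfsg.Agent.Lib.MinIndex.OFam Cfsg.Agent.Lib.MinIndex.OFinal
open Cfsg.Agent.Lib.MinIndex.OT8 Cfsg.Agent.Lib.MinIndex.OT9 Cfsg.Agent.Lib.MinIndex.OOdd
open Cfsg.Agent.Lib.MinIndex.OT10 Cfsg.Agent.Lib.MinIndex.OT12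

theorem minus3_a3 {x z z₂ : ℕ} (hx : 3 ≤ x) (hz : z + 1 + 6 * x = 27 * (x * x)) (hz₂ : z₂ + 1 + 2 * x = 3 * (x * x)) :
    (9 * x - 1) * (3 * x - 1) * (x - 1) ≤ 2 * z * z₂ := by
  obtain ⟨v, rfl⟩ : ∃ v, x = v + 3 := ⟨x - 3, by omega⟩
  have e3 : v + 3 - 1 = v + 2 := by omega
  have e4 : 3 * (v + 3) - 1 = 3 * v + 8 := by omega
  have e5 : 9 * (v + 3) - 1 = 9 * v + 26 := by omega
  rw [e3, e4, e5]
  have e1 : z = (9 * v + 28) * (3 * v + 8) := by nlinarith
  have e2 : z₂ = (3 * v + 10) * (v + 2) := by nlinarith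
  rw [e1, e2]
  have h1 : 9 * v + 26 ≤ 2 * ((9 * v + 28) * (3 * v + 10)) := by nlinarith
  calc (9 * v + 26) * (3 * v + 8) * (v + 2) ≤ (2 * ((9 * v + 28) * (3 * v + 10))) * (3 * v + 8) * (v + 2) :=
        Nat.mul_le_mul_right _ (Nat.mul_le_mul_right _ h1)
    _ = _ := by ring

/-- The bound for a totally singular subgroup. -/
theorem minus3_nT {x y N z z₂ : ℕ} (hx : 3 ≤ x) (hy : 9 ≤ y) (hyx : y ≤ 3 * x) (hN : 2 * N + 18 * x + 1 = 243 * (x * x))
    (hz : z + 1 + 6 * x = 27 * (x * x)) (hz₂ : z₂ + 1 + 2 * x = 3 * (x * x)) :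
    N * ((y - 1) * (y - 3)) ≤ z * (3 * z₂) * y := by
  obtain ⟨u, rfl⟩ : ∃ u, y = u + 3 := ⟨y - 3, by omega⟩
  have e1 : u + 3 - 1 = u + 2 := by omega
  have e2 : u + 3 - 3 = u := by omega
  rw [e1, e2]
  zify at *
  have hN' : (2 : ℤ) * N = 243 * (x * x) - 18 * x - 1 := by linarith
  have hz' : (z : ℤ) = 27 * (x * x) - 6 * x - 1 := by linarith
  have hz₂' : (z₂ : ℤ) = 3 * (x * x) - 2 * x - 1 := by linarith
  have hu : (0 : ℤ) ≤ u := by positivity
  have hx0 : (3 : ℤ) ≤ x := hx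
  have hB : (x : ℤ) * ((u + 2) * u) ≤ (3 * x - 1) * (x - 1) * (u + 3) := by
    nlinarith [mul_nonneg (sub_nonneg.2 hyx) (show (0 : ℤ) ≤ 3 * x * (u + 3) - 3 by nlinarith)]
  have hC : (0 : ℤ) ≤ (3 * x - 1) * (x - 1) * (u + 3) := by
    apply mul_nonneg (mul_nonneg (by linarith) (by linarith)) (by linarith)
  have hN0 : (0 : ℤ) ≤ 2 * N := by positivity
  have h3 : (2 * (N : ℤ)) * (x * ((u + 2) * u)) ≤ (2 * N) * ((3 * x - 1) * (x - 1) * (u + 3)) :=
    mul_le_mul_of_nonneg_left hB hN0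
  have hD : (2 : ℤ) * N ≤ 6 * x * (9 * x + 1) * (3 * x + 1) := by
    rw [hN']
    nlinarith [mul_nonneg (show (0 : ℤ) ≤ (x : ℤ) by linarith) (show (0 : ℤ) ≤ (x : ℤ) * x by positivity)]
  have h4 : (2 * (N : ℤ)) * ((3 * x - 1) * (x - 1) * (u + 3)) ≤ (6 * x * (9 * x + 1) * (3 * x + 1)) * ((3 * x - 1) * (x - 1) * (u + 3)) :=
    mul_le_mul_of_nonneg_right hD hC
  have h5 : (6 * (x : ℤ) * (9 * x + 1) * (3 * x + 1)) * ((3 * x - 1) * (x - 1) * (u + 3)) = (2 * x) * ((z : ℤ) * (3 * z₂) * (u + 3)) := by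
    rw [hz', hz₂']
    ring
  have h6 : (2 * (x : ℤ)) * ((N : ℤ) * ((u + 2) * u)) ≤ (2 * x) * ((z : ℤ) * (3 * z₂) * (u + 3)) := by
    rw [← h5]
    calc (2 * (x : ℤ)) * ((N : ℤ) * ((u + 2) * u)) = (2 * (N : ℤ)) * (x * ((u + 2) * u)) := by ring
      _ ≤ _ := h3.trans h4
  exact le_of_mul_le_mul_left h6 (by linarith)

/-- A polynomial inequality. -/
theorem minus3_poly (x : ℤ) (hx : 3 ≤ x) : ((243 : ℤ) * (x * x) - 18 * x - 1) * (9 * x - 1) ≤
      2 * (4 * ((27 * (x * x) - 6 * x - 1) * (2 * (3 * (x * x))))) := by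
  obtain ⟨t, rfl⟩ : ∃ t : ℤ, x = t + 3 := ⟨x - 3, by ring⟩
  have ht : 0 ≤ t := by linarith
  nlinarith [pow_nonneg ht 2, pow_nonneg ht 3, pow_nonneg ht 4]

/-- The bound for subgroups with different values. -/
theorem minus3_nM {x y N z : ℕ} (hx : 3 ≤ x) (hy : 9 ≤ y) (hyx : y ≤ 9 * x) (hN : 2 * N + 18 * x + 1 = 243 * (x * x))
    (hz : z + 1 + 6 * x = 27 * (x * x)) : N * (y - 1) ≤ 4 * (z * (2 * (3 * (x * x)))) := by
  obtain ⟨u, rfl⟩ : ∃ u, y = u + 1 := ⟨y - 1, by omega⟩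
  rw [Nat.add_sub_cancel]
  zify at *
  have hN' : (2 : ℤ) * N = 243 * (x * x) - 18 * x - 1 := by linarith
  have hz' : (z : ℤ) = 27 * (x * x) - 6 * x - 1 := by linarith
  have hx0 : (3 : ℤ) ≤ x := hx
  have hu : (u : ℤ) ≤ 9 * x - 1 := by linarith
  have h1 : 2 * ((N : ℤ) * u) ≤ (243 * (x * x) - 18 * x - 1) * (9 * x - 1) := by
    have : 2 * ((N : ℤ) * u) = (2 * N) * u := by ring
    rw [this, hN']
    apply mul_le_mul_of_nonneg_left hu
    nlinarith
  have h2 := minus3_poly x hx0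
  rw [hz']
  linarith

/-- The bound for lines of fixed vectors. -/
theorem minus3_nK {x N z : ℕ} (hx : 3 ≤ x) (hN : 2 * N + 18 * x + 1 = 243 * (x * x))
    (hz : z + 1 + 6 * x = 27 * (x * x)) : N * (3 * 2) ≤ z * (81 * (x * x)) := by
  have h1 : 9 ≤ x * x := by nlinarith
  have h2 : 9 ≤ z := by nlinarith
  have h3 : N * (3 * 2) ≤ 729 * (x * x) := by omega
  calc N * (3 * 2) ≤ 729 * (x * x) := h3
    _ = 9 * (81 * (x * x)) := by ring
    _ ≤ z * (81 * (x * x)) := Nat.mul_le_mul_right _ h2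

variable {F : Type*} [Field F] [Fintype F]

set_option maxHeartbeats 2000000 in
/-- **The minimal index for the minus type over the field with three elements.** -/
theorem minus3_main (hF : Fintype.card F = 3) (m : ℕ) (hm : 4 ≤ m) (a b : F)
    (hab : ∀ z₁ z₂ : F, z₁ ^ 2 + a * z₁ * z₂ + b * z₂ ^ 2 = 0 → z₁ = 0 ∧ z₂ = 0) :
    (∀ H : Subgroup (Cfsg.POmega F (Cfsg.quadFormMinus (m - 1) F a b)), H ≠ ⊤ → (3 ^ m + 1) * (3 ^ (m - 1) - 1) / (3 - 1) ≤ H.index) ∧
      ∃ H : Subgroup (Cfsg.POmega F (Cfsg.quadFormMinus (m - 1) F a b)), H.index = (3 ^ m + 1) * (3 ^ (m - 1) - 1) / (3 - 1) := by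
  classical
  obtain ⟨k, rfl⟩ : ∃ k, m = k + 3 := ⟨m - 3, by omega⟩
  have e0 : k + 3 - 1 = k + 2 := rfl
  rw [e0]
  have hoc := oc_minus (k + 2) (by omega) a b hab
  set Q := minusForm (k + 2) F a b with hQ
  obtain ⟨c, c', h⟩ := exists_HP Q
  obtain ⟨d, d', h', hd, hd'⟩ := exists_HP_W h
  obtain ⟨hR1, hR2, hR3, hR4⟩ := rels h h' hd hd'
  have hcardι : Fintype.card ((Fin (k + 2) ⊕ Fin (k + 2)) ⊕ Fin 2) = 2 * (k + 2) + 2 := by
    simp only [Fintype.card_sum, Fintype.card_fin]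
    omega
  rw [hF] at hR1 hR2 hR3 hR4
  rw [hcardι] at hR1
  simp only [Nat.add_one_sub_one, show (3 : ℕ) - 1 = 2 from rfl] at hR3 hR4
  set x := 3 ^ k with hx
  have hk1 : 1 ≤ k := by omega
  have hx3 : 3 ≤ x := by
    rw [hx]
    calc 3 = 3 ^ 1 := (pow_one _).symm
      _ ≤ 3 ^ k := Nat.pow_le_pow_right (by norm_num) hk1
  set X := x * x with hXd
  have hX9 : 9 ≤ X := by nlinarith
  have hX3 : 3 * x ≤ X := by nlinarith
  have hcoe : (⇑Q) = Cfsg.quadFormMinus (k + 2) F a b := coe_minusForm (k + 2) F a b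
  have hp6 : 3 ^ (2 * (k + 2) + 2) = 729 * X := by
    rw [hXd, hx]
    ring
  have hp5 : 3 ^ (2 * (k + 2) + 1) = 243 * X := by
    rw [hXd, hx]
    ring
  have hp3 : 3 ^ (k + 3) = 27 * x := by
    rw [hx]
    ring
  have hp2 : 3 ^ (k + 2) = 9 * x := by
    rw [hx]
    ring
  have hT₀ := cntMinus_zero hF (k + 2) hab
  rw [← hcoe, hp6] at hT₀
  simp only [show (3 : ℕ) - 1 = 2 from rfl, show k + 2 + 1 = k + 3 from rfl, hp3] at hT₀
  rw [hp6] at hR1
  have a1 := hR3 0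
  have a2 := hR4 0
  have hW₀ : Nat.card (WW Q c c') = 81 * X := by omega
  have hw₂ : Nat.card (WW2 Q c c' d d') = 9 * X := by omega
  have hC₀ : cntU Q (WW Q c c') 0 + 6 * x = 27 * X := by omega
  have hD₀ : cntU Q (WW2 Q c c' d d') 0 + 2 * x = 3 * X := by omega
  have hWf : Fintype.card (WW Q c c') = 81 * X := by rw [← Nat.card_eq_fintype_card]; exact hW₀
  -- values
  have hLb : ∀ κ : F, κ ≠ 0 → 27 * X ≤ cntU Q (WW Q c c') κ + 3 * x := by
    intro κ hκ
    have h1 := cntMinus_three hF (k + 2) a b hab hκ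
    rw [← hcoe, hp5, hp2] at h1
    have h2 := hR3 κ
    omega
  obtain ⟨LB, hLBd⟩ : ∃ LB, LB + 3 * x = 27 * X := ⟨27 * X - 3 * x, by omega⟩
  have hLb' : ∀ κ : F, κ ≠ 0 → LB ≤ cntU Q (WW Q c c') κ := fun κ hκ => by
    have := hLb κ hκ
    omega
  have hz1 := card_singOf (Q := Q) (WW Q c c')
  have hz2 := card_singOf (Q := Q) (WW2 Q c c' d d')
  have hz3 := card_singOf (Q := Q) (⊤ : Submodule F ((Fin (k + 2) ⊕ Fin (k + 2)) ⊕ Fin 2 → F))
  rw [cntU_top] at hz3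
  set z := (singOf Q (WW Q c c')).card with hz
  set z₂ := (singOf Q (WW2 Q c c' d d')).card with hz₂
  have hz1' : z + 1 + 6 * x = 27 * X := by omega
  have hz2' : z₂ + 1 + 2 * x = 3 * X := by omega
  have hz1'' : z + 1 + 6 * x = 27 * (x * x) := hz1'
  have hz2'' : z₂ + 1 + 2 * x = 3 * (x * x) := hz2'
  -- the index
  set N := (3 ^ (k + 3) + 1) * (3 ^ (k + 2) - 1) / (3 - 1) with hNd
  have hN : 2 * N + 18 * x + 1 = 243 * X := by
    have hodd : Odd x := by
      rw [hx]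
      exact Odd.pow (by decide)
    obtain ⟨s, hs⟩ := hodd
    rw [hNd, hp3, hp2]
    obtain ⟨t, ht⟩ : ∃ t, 9 * x = t + 1 := ⟨9 * x - 1, by omega⟩
    rw [ht, Nat.add_sub_cancel]
    have e1 : (27 * x + 1) * t + 18 * x + 1 = 243 * X := by
      have e2 : 243 * X = 3 * (9 * x) * (9 * x) := by
        rw [hXd]
        ring
      have e3 : 18 * x = 2 * (9 * x) := by ring
      have e4 : 27 * x = 3 * (9 * x) := by ring
      rw [e2, e3, e4, ht]
      ring
    have e5 : 27 * x + 1 = 2 * (27 * s + 14) := by omega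
    have e6 : (27 * x + 1) * t = 2 * ((27 * s + 14) * t) := by
      rw [e5]
      ring
    have e7 : (27 * x + 1) * t / (3 - 1) = (27 * s + 14) * t := by
      rw [e6]
      show 2 * _ / 2 = _
      omega
    rw [e7]
    omega
  have hsingT : (singOf Q ⊤).card = 2 * N := by omega
  have hs : OS3.SNum Q c c' N := by
    refine ⟨?_, fun u hu => ?_, ?_⟩
    · rw [hWf]
      omega
    · have h1 := clsW_ge u hu hLb' {1} (by
        intro s hs
        rw [Finset.mem_singleton] at hs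
        exact ⟨1, one_ne_zero, by rw [hs, one_mul]⟩)
      rw [Finset.card_singleton, one_mul] at h1
      rw [hF, hWf]
      show 2 * N ≤ 2 * (81 * X) + 3 * _
      omega
    · right
      rw [hF, hWf, card_singW]
      refine ⟨?_, ?_, ?_⟩
      · show 2 * N ≤ 2 * (81 * X) + 3 * _ + 2
        omega
      · show ¬ (N - 1) ∣ 2 * (81 * X)
        apply Nat.not_dvd_of_lt_of_lt_mul_succ (k := 1)
        · omega
        · omega
      · rw [hsingT]
  have hpD : 3 ^ (2 * k + 4) = 81 * X := by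
    rw [hXd, hx]
    ring
  have hyb : ∀ k', 2 ≤ k' → 9 ≤ 3 ^ k' := by
    intro k' h1
    calc 9 = 3 ^ 2 := by norm_num
      _ ≤ 3 ^ k' := Nat.pow_le_pow_right (by norm_num) h1
  have hS : OT4.SNum Q c c' N (2 * k + 4) z (3 * X) (z * (3 * z₂)) := by
    refine ⟨by rw [hF]; norm_num, by rw [hF, hpD]; exact hW₀, by rw [hF, hpD]; ring, fun α => ?_, ?_, ?_, ?_, ?_, ?_⟩
    · by_cases hα : α = 0
      · subst hα
        rw [card_Cl_zero, ← hz]
      · rw [card_Cl_ne c c' hα]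
        have := hLb α hα
        omega
    · intro a a' ha ha1 ha2
      rw [card_Cl_zero, singOf_WW2_eq h ha ha1 ha2 h' hd hd', hF]
    · rw [hF, hpD]
      exact minus3_nK hx3 hN hz1''
    · intro k' h1 h2 hlag
      rw [hF]
      rw [hF] at hlag
      by_cases hk' : 2 * k' = 2 * k + 4
      · exfalso
        have hk'' : k' = k + 2 := by omega
        have h3 := hlag hk'
        rw [hk'', hp2, hpD] at h3
        omega
      · have h4 : 3 ^ k' ≤ 3 * x := by
          have e : 3 * x = 3 ^ (k + 1) := by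
            rw [hx]
            ring
          rw [e]
          exact Nat.pow_le_pow_right (by norm_num) (by omega)
        exact minus3_nT hx3 (hyb k' h1) h4 hN hz1'' hz2''
    · intro k' h1 h2
      rw [hF]
      have h4 : 3 ^ k' ≤ 9 * x := by
        rw [← hp2]
        exact Nat.pow_le_pow_right (by norm_num) (by omega)
      exact minus3_nM hx3 (hyb k' h1) h4 hN hz1''
    · intro h1
      rw [hF] at h1
      omega
  -- the singular vectors
  have hA : ANum Q c c' d d' N := by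
    refine ⟨?_, ?_, ?_⟩
    · rw [hF, hsingT]
    · rw [hF]
      norm_num
      omega
    · intro Y hY hY3
      set s := finrank F Y with hs'
      have hr1 : s ≤ k + 2 := minus_ts_le hF (k + 2) (by omega) a b hab Y hY
      rw [hF]
      have h2 := three_le (q := 3) (r := s) (R := k + 2) (by norm_num) hr1
      refine h2.trans ?_
      have hk1' : k + 2 - 1 = k + 1 := by omega
      have hk2' : k + 2 - 2 = k := by omega
      rw [hk1', hk2', hp2]
      have e2 : 3 ^ (k + 1) = 3 * x := by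
        rw [hx]
        ring
      rw [e2, ← hx]
      exact minus3_a3 hx3 hz1'' hz2''
  refine ⟨three_lower hcoe hF (by rw [hcardι]; omega) h h' hd hd' hA le_rfl hs hS, ?_⟩
  have hidx := index_lineStab (Q := Q) h hA.hL
  have hmap : ∃ H : Subgroup (Cfsg.POmega F (⇑Q)), H.index = N := by
    refine ⟨(lineStab Q c).map (QuotientGroup.mk' (Subgroup.center (GG Q))), ?_⟩
    rw [Subgroup.index_map_eq _ (QuotientGroup.mk'_surjective _) (by
      rw [QuotientGroup.ker_mk']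
      exact center_le_lineStab h.ne_zero), hidx]
  rwa [hcoe] at hmap

end Cfsg.Agent.Lib.MinIndex.OT13
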