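import Cfsg.Agent.Lib.MinIndex.SLTv

/-!
# A subgroup of `SL_n`, `n ≥ 3`, cannot meet every "center group" in a hyperplane
-/

set_option autoImplicit false
set_option linter.unusedSectionVars false

namespace Cfsg.Agent.Lib.MinIndex.SLGeom

open Matrix Cfsg.Agent.Lib.MinIndex.SLTv Cfsg.Agent.Lib.MinIndex.Dual

variable {F : Type*} [Field F] {ι : Type*} [Fintype ι] [DecidableEq ι]

/-- A functional vanishing on two vectors and not on a third. -/
theorem exists_functional_two {a b z : ι → F} (hz : z ∉ Submodule.span F {a, b}) :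
    ∃ θ : ι → F, θ ⬝ᵥ a = 0 ∧ θ ⬝ᵥ b = 0 ∧ θ ⬝ᵥ z = 1 := by
  obtain ⟨y, hy1, hy2⟩ := exists_dot hz
  refine ⟨y, ?_, ?_, ?_⟩
  · rw [dotProduct_comm]
    exact hy1 a (Submodule.subset_span (by simp))
  · rw [dotProduct_comm]
    exact hy1 b (Submodule.subset_span (by simp))
  · rw [dotProduct_comm]
    exact hy2

theorem exists_not_mem_span_two (hn : 3 ≤ Fintype.card ι) (a b : ι → F) :
    ∃ z : ι → F, z ∉ Submodule.span F {a, b} := by
  classical
  by_contra h
  push Not at h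
  have htop : Submodule.span F {a, b} = ⊤ := Submodule.eq_top_iff'.mpr h
  have h1 : Module.finrank F (Submodule.span F ({a, b} : Set (ι → F))) ≤ 2 := by
    have := finrank_span_finset_le_card (R := F) ({a, b} : Finset (ι → F))
    have h2 : ({a, b} : Finset (ι → F)).card ≤ 2 := Finset.card_le_two
    have h3 : ((({a, b} : Finset (ι → F))) : Set (ι → F)) = {a, b} := by simp
    rw [h3] at this
    exact this.trans h2
  rw [htop, finrank_top, Module.finrank_fintype_fun_eq_card] at h1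
  omega

/-- The geometric contradiction. -/
theorem geom_contra (hn : 3 ≤ Fintype.card ι) (H : Subgroup (SpecialLinearGroup ι F))
    (hx : ∀ c : ι → F, c ≠ 0 → ∃ x : ι → F, x ∉ Submodule.span F {c} ∧
      ∀ (φ : ι → F) (h : φ ⬝ᵥ c = 0), tv c φ h ∈ H ↔ φ ⬝ᵥ x = 0) : False := by
  classical
  choose! x hx1 hx2 using hx
  -- the key step
  have star : ∀ (c d φ : ι → F), c ≠ 0 → d ≠ 0 → φ ⬝ᵥ c = 0 → φ ⬝ᵥ d = 0 → φ ⬝ᵥ x c = 0 → φ ⬝ᵥ x d = 0 := by
    intro c d φ hc hd hφc hφd hφx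
    have hτ : tv c φ hφc ∈ H := (hx2 c hc φ hφc).mpr hφx
    by_cases hdc : d ∈ Submodule.span F {c}
    · obtain ⟨a, rfl⟩ := Submodule.mem_span_singleton.mp hdc
      have h1 : (a • φ) ⬝ᵥ c = 0 := by rw [smul_dotProduct, hφc, smul_zero]
      have h2 : tv c (a • φ) h1 ∈ H := (hx2 c hc _ h1).mpr (by rw [smul_dotProduct, hφx, smul_zero])
      have h3 : tv (a • c) φ hφd = tv c (a • φ) h1 := by
        apply tv_congr
        rw [smul_vecMulVec, vecMulVec_smul]
      rw [← h3] at h2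
      exact (hx2 _ hd φ hφd).mp h2
    by_cases hcd : c ∈ Submodule.span F {d, x d}
    · obtain ⟨α, β, hαβ⟩ := Submodule.mem_span_pair.mp hcd
      have hβ : β ≠ 0 := by
        rintro rfl
        rw [zero_smul, add_zero] at hαβ
        apply hdc
        have hα : α ≠ 0 := by
          rintro rfl
          rw [zero_smul] at hαβ
          exact hc hαβ.symm
        apply Submodule.mem_span_singleton.mpr
        exact ⟨α⁻¹, by rw [← hαβ, smul_smul, inv_mul_cancel₀ hα, one_smul]⟩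
      have h1 : φ ⬝ᵥ c = α * (φ ⬝ᵥ d) + β * (φ ⬝ᵥ x d) := by
        rw [← hαβ, dotProduct_add, dotProduct_smul, dotProduct_smul, smul_eq_mul, smul_eq_mul]
      rw [hφc, hφd, mul_zero, zero_add] at h1
      exact (mul_eq_zero.mp h1.symm).resolve_left hβ
    · obtain ⟨θ, hθ1, hθ2, hθ3⟩ := exists_functional_two hcd
      have h1 : tv d θ hθ1 ∈ H := (hx2 d hd θ hθ1).mpr hθ2
      have h2 := H.mul_mem (H.mul_mem hτ h1) (H.inv_mem hτ)
      rw [tv_conj_tv] at h2
      have h3 : (θ - φ) ⬝ᵥ d = 0 := by rw [sub_dotProduct, hθ1, hφd, sub_zero]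
      have h4 : tv (d + (φ ⬝ᵥ d) • c) (θ - (θ ⬝ᵥ c) • φ) (by
          simp only [sub_dotProduct, dotProduct_add, dotProduct_smul, smul_dotProduct, hφc, hθ1, hφd, smul_eq_mul]
          ring) = tv d (θ - φ) h3 := by
        apply tv_congr
        rw [hφd, zero_smul, add_zero, hθ3, one_smul]
      rw [h4] at h2
      have h5 := (hx2 d hd _ h3).mp h2
      rw [sub_dotProduct, hθ2, zero_sub, neg_eq_zero] at h5
      exact h5
  -- the contradiction
  obtain ⟨i₀⟩ : Nonempty ι := by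
    by_contra h
    rw [not_nonempty_iff] at h
    have : Fintype.card ι = 0 := Fintype.card_eq_zero
    omega
  have he : (Pi.single i₀ 1 : ι → F) ≠ 0 := by
    intro h
    have := congrFun h i₀
    simp at this
  set c₀ : ι → F := Pi.single i₀ 1 with hc₀
  obtain ⟨z, hz⟩ := exists_not_mem_span_two hn c₀ (x c₀)
  obtain ⟨φ, hφ1, hφ2, hφ3⟩ := exists_functional_two hz
  have hz0 : z ≠ 0 := by
    rintro rfl
    exact hz (Submodule.zero_mem _)
  set y : ι → F := x z - (φ ⬝ᵥ x z) • z with hy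
  have hφy : φ ⬝ᵥ y = 0 := by
    rw [hy, dotProduct_sub, dotProduct_smul, hφ3, smul_eq_mul, mul_one, sub_self]
  have hy0 : y ≠ 0 := by
    intro h
    apply hx1 z hz0
    apply Submodule.mem_span_singleton.mpr
    exact ⟨φ ⬝ᵥ x z, (sub_eq_zero.mp h).symm⟩
  have h1 : φ ⬝ᵥ x y = 0 := star c₀ y φ he hy0 hφ1 hφy hφ2
  have h2 : x y ∈ Submodule.span F {z, x z} := by
    by_contra hcon
    obtain ⟨ψ, hψ1, hψ2, hψ3⟩ := exists_functional_two hcon
    have hψy : ψ ⬝ᵥ y = 0 := by
      rw [hy, dotProduct_sub, dotProduct_smul, hψ1, hψ2, smul_zero, sub_zero]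
    have := star z y ψ hz0 hy0 hψ1 hψy hψ2
    rw [this] at hψ3
    exact zero_ne_one hψ3
  obtain ⟨a, b, hab⟩ := Submodule.mem_span_pair.mp h2
  apply hx1 y hy0
  apply Submodule.mem_span_singleton.mpr
  refine ⟨b, ?_⟩
  have h3 : a + b * (φ ⬝ᵥ x z) = 0 := by
    have := h1
    rw [← hab, dotProduct_add, dotProduct_smul, dotProduct_smul, hφ3, smul_eq_mul, smul_eq_mul, mul_one] at this
    exact this
  rw [← hab, hy, smul_sub, smul_smul]
  have h4 : a = - (b * (φ ⬝ᵥ x z)) := by linear_combination h3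
  rw [h4, neg_smul, sub_eq_add_neg, add_comm]

end Cfsg.Agent.Lib.MinIndex.SLGeom
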