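import Cfsg.Agent.Lib.MinIndex.SLTv

/-!
# The standard abelian subgroup `F^k` of `SL_{k+1}(F)`, and complements to it
-/

set_option autoImplicit false
set_option linter.unusedSectionVars false

namespace Cfsg.Agent.Lib.MinIndex.SLLift

open Matrix Cfsg.Agent.Lib.MinIndex.SLTv

variable {F : Type*} [Field F] {k : ℕ}

/-- Extending by a zero coordinate. -/
def lift (v : Fin k → F) : Fin (k + 1) → F := Fin.cons 0 v

/-- The first basis vector. -/
def e0 : Fin (k + 1) → F := Pi.single 0 1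

@[simp] theorem lift_zero' (v : Fin k → F) : lift v 0 = 0 := rfl
@[simp] theorem lift_succ (v : Fin k → F) (i : Fin k) : lift v i.succ = v i := rfl

theorem lift_dot_lift (v y : Fin k → F) : lift v ⬝ᵥ lift y = v ⬝ᵥ y := by
  simp [dotProduct, Fin.sum_univ_succ]

theorem lift_dot_e0 (v : Fin k → F) : lift v ⬝ᵥ (e0 : Fin (k + 1) → F) = 0 := by
  simp [e0]

theorem e0_dot_lift (v : Fin k → F) : (e0 : Fin (k + 1) → F) ⬝ᵥ lift v = 0 := by
  simp [e0]

theorem e0_ne : (e0 : Fin (k + 1) → F) ≠ 0 := by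
  intro h
  have := congrFun h 0
  simp [e0] at this

theorem lift_add (v w : Fin k → F) : lift (v + w) = lift v + lift w := by
  ext i
  refine Fin.cases ?_ (fun j => ?_) i <;> simp

theorem lift_sub (v w : Fin k → F) : lift (v - w) = lift v - lift w := by
  ext i
  refine Fin.cases ?_ (fun j => ?_) i <;> simp

theorem lift_neg (v : Fin k → F) : lift (-v) = - lift v := by
  ext i
  refine Fin.cases ?_ (fun j => ?_) i <;> simp

theorem lift_smul (a : F) (v : Fin k → F) : lift (a • v) = a • lift v := by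
  ext i
  refine Fin.cases ?_ (fun j => ?_) i <;> simp

theorem lift_zero : lift (0 : Fin k → F) = 0 := by
  ext i
  refine Fin.cases ?_ (fun j => ?_) i <;> simp

theorem lift_injective : Function.Injective (lift : (Fin k → F) → Fin (k + 1) → F) := by
  intro a b h
  ext i
  exact congrFun h i.succ

theorem lift_ne {v : Fin k → F} (hv : v ≠ 0) : lift v ≠ 0 := by
  intro h
  apply hv
  apply lift_injective
  rw [h, lift_zero]

theorem eq_lift_of_dot {φ : Fin (k + 1) → F} (h : φ ⬝ᵥ (e0 : Fin (k + 1) → F) = 0) :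
    φ = lift (fun i => φ i.succ) := by
  have h0 : φ 0 = 0 := by simpa [e0] using h
  ext i
  refine Fin.cases ?_ (fun j => ?_) i
  · simpa using h0
  · simp

/-- The standard group of transvections with center `e₀`. -/
def iota (v : Fin k → F) : SpecialLinearGroup (Fin (k + 1)) F := tv e0 (lift v) (lift_dot_e0 v)

theorem iota_add (v w : Fin k → F) : iota (v + w) = iota v * iota w := by
  rw [iota, iota, iota, tv_mul_right]
  apply tv_congr
  rw [lift_add]

theorem iota_zero : iota (0 : Fin k → F) = 1 := by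
  rw [iota]
  simp only [lift_zero]
  exact tv_zero_right _ _

theorem iota_neg (v : Fin k → F) : iota (-v) = (iota v)⁻¹ := by
  rw [eq_inv_iff_mul_eq_one, ← iota_add, neg_add_cancel, iota_zero]

theorem iota_sub (v w : Fin k → F) : iota (v - w) = iota v * (iota w)⁻¹ := by
  rw [sub_eq_add_neg, iota_add, iota_neg]

/-- A transvection in the complement of `e₀`. -/
def X (y w : Fin k → F) (h : w ⬝ᵥ y = 0) : SpecialLinearGroup (Fin (k + 1)) F :=
  tv (lift y) (lift w) (by rw [lift_dot_lift, h])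

theorem X_conj (y w : Fin k → F) (h : w ⬝ᵥ y = 0) (b : Fin k → F) :
    X y w h * iota b * (X y w h)⁻¹ = iota (b - (b ⬝ᵥ y) • w) := by
  rw [X, iota, tv_conj_tv]
  apply tv_congr
  rw [lift_dot_e0, zero_smul, add_zero, lift_dot_lift, lift_sub, lift_smul]

section Complement

variable {H : Subgroup (SpecialLinearGroup (Fin (k + 1)) F)}

/-- Uniqueness of the lift of an element. -/
theorem lift_unique (h1 : ∀ v : Fin k → F, v ≠ 0 → iota v ∉ H) {a b : Fin k → F}
    {x : SpecialLinearGroup (Fin (k + 1)) F} (ha : iota a * x ∈ H) (hb : iota b * x ∈ H) : a = b := by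
  by_contra hab
  apply h1 (a - b) (sub_ne_zero.mpr hab)
  have := H.mul_mem ha (H.inv_mem hb)
  rw [iota_sub]
  convert this using 1
  group

/-- Product of lifts. -/
theorem lift_mul {a b s : Fin k → F} {x z : SpecialLinearGroup (Fin (k + 1)) F} (ha : iota a * x ∈ H)
    (hb : iota b * z ∈ H) (hs : x * iota b * x⁻¹ = iota s) : iota (a + s) * (x * z) ∈ H := by
  have := H.mul_mem ha hb
  rw [iota_add, ← hs]
  convert this using 1
  group

/-- Commuting root elements. -/
theorem rule_comm (h1 : ∀ v : Fin k → F, v ≠ 0 → iota v ∉ H) {y w y' w' a a' : Fin k → F}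
    (h : w ⬝ᵥ y = 0) (h' : w' ⬝ᵥ y' = 0) (hwy : w ⬝ᵥ y' = 0) (hwy' : w' ⬝ᵥ y = 0)
    (ha : iota a * X y w h ∈ H) (ha' : iota a' * X y' w' h' ∈ H) : (a' ⬝ᵥ y) • w = (a ⬝ᵥ y') • w' := by
  have hcomm : X y w h * X y' w' h' = X y' w' h' * X y w h := by
    have : X y w h * X y' w' h' * (X y w h)⁻¹ = X y' w' h' := by
      rw [X, X, tv_conj_tv]
      apply tv_congr
      rw [lift_dot_lift, lift_dot_lift, hwy, hwy', zero_smul, zero_smul, add_zero, sub_zero]
    calc X y w h * X y' w' h' = (X y w h * X y' w' h' * (X y w h)⁻¹) * X y w h := by group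
      _ = X y' w' h' * X y w h := by rw [this]
  have h2 := lift_mul ha ha' (X_conj y w h a')
  have h3 := lift_mul ha' ha (X_conj y' w' h' a)
  rw [← hcomm] at h3
  have h4 := lift_unique h1 h2 h3
  have h5 : a' - (a' ⬝ᵥ y) • w = a' + a - (a' + a - (a' - (a' ⬝ᵥ y) • w)) := by abel
  have h6 : (a' ⬝ᵥ y) • w = a' - (a' - (a' ⬝ᵥ y) • w) := by abel
  have h7 : (a ⬝ᵥ y') • w' = a - (a - (a ⬝ᵥ y') • w') := by abel
  have h8 : a - (a ⬝ᵥ y') • w' = a + (a' - (a' ⬝ᵥ y) • w) - a' := by
    rw [h4]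
    abel
  rw [h6, h7, h8]
  abel

/-- A lift in the line of `w` is a transvection. -/
theorem line_contra (h1 : ∀ (c φ : Fin (k + 1) → F) (h : φ ⬝ᵥ c = 0), c ≠ 0 → φ ≠ 0 → tv c φ h ∉ H)
    {y w : Fin k → F} (h : w ⬝ᵥ y = 0) (hy : y ≠ 0) (hw : w ≠ 0) (α : F)
    (ha : iota (α • w) * X y w h ∈ H) : False := by
  have hd : lift w ⬝ᵥ (α • e0 + lift y) = 0 := by
    rw [dotProduct_add, dotProduct_smul, lift_dot_e0, lift_dot_lift, h, smul_zero, add_zero]
  have h2 : iota (α • w) * X y w h = tv (α • e0 + lift y) (lift w) hd := by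
    have h3 : iota (α • w) = tv (α • e0) (lift w) (by rw [dotProduct_smul, lift_dot_e0, smul_zero]) := by
      rw [iota]
      apply tv_congr
      rw [lift_smul, smul_vecMulVec, vecMulVec_smul]
    rw [h3, X, tv_mul_left]
  rw [h2] at ha
  refine h1 _ _ hd ?_ (lift_ne hw) ha
  intro h0
  apply hy
  funext i
  have := congrFun h0 i.succ
  simpa [e0] using this

end Complement

section Diag

/-- A diagonal matrix in `SL`. -/
def zd (d : Fin (k + 1) → F) (h : ∏ i, d i = 1) : SpecialLinearGroup (Fin (k + 1)) F :=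
  ⟨diagonal d, by rw [det_diagonal, h]⟩

theorem zd_inv (d : Fin (k + 1) → F) (h : ∏ i, d i = 1) :
    ((zd d h)⁻¹ : SpecialLinearGroup (Fin (k + 1)) F) =
      zd (fun i => (d i)⁻¹) (by rw [Finset.prod_inv_distrib, h, inv_one]) := by
  have h0 : ∀ i, d i ≠ 0 := by
    intro i hi
    have := Finset.prod_eq_zero (Finset.mem_univ i) hi
    rw [h] at this
    exact one_ne_zero this
  rw [inv_eq_iff_mul_eq_one]
  apply sl_eq
  rw [coe_mul']
  show diagonal d * diagonal _ = (1 : Matrix _ _ F)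
  rw [diagonal_mul_diagonal, ← diagonal_one]
  congr 1
  funext i
  exact mul_inv_cancel₀ (h0 i)

theorem zd_conj_iota (d : Fin (k + 1) → F) (h : ∏ i, d i = 1) (v : Fin k → F) :
    zd d h * iota v * (zd d h)⁻¹ = iota (fun j => d 0 * v j / d j.succ) := by
  have h0 : ∀ i, d i ≠ 0 := by
    intro i hi
    have := Finset.prod_eq_zero (Finset.mem_univ i) hi
    rw [h] at this
    exact one_ne_zero this
  rw [iota, tv_conj]
  apply tv_congr
  rw [zd_inv]
  ext a b
  show (diagonal d *ᵥ e0) a * (lift v ᵥ* diagonal _) b = _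
  rw [mulVec_diagonal, vecMul_diagonal]
  refine Fin.cases ?_ (fun i => ?_) a
  · refine Fin.cases ?_ (fun j => ?_) b
    · simp [e0, vecMulVec_apply]
    · simp [e0, vecMulVec_apply, div_eq_mul_inv, mul_assoc]
  · simp [e0, vecMulVec_apply, Fin.succ_ne_zero]

theorem zd_conj_X (d : Fin (k + 1) → F) (hd : ∏ i, d i = 1) {y w : Fin k → F} (h : w ⬝ᵥ y = 0) {t : F} (ht : t ≠ 0)
    (hy : ∀ i, y i ≠ 0 → d i.succ = t) (hw : ∀ j, w j ≠ 0 → d j.succ = t) :
    zd d hd * X y w h * (zd d hd)⁻¹ = X y w h := by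
  rw [X, tv_conj]
  apply tv_congr
  rw [zd_inv]
  ext a b
  show (diagonal d *ᵥ lift y) a * (lift w ᵥ* diagonal _) b = _
  rw [mulVec_diagonal, vecMul_diagonal]
  simp only [vecMulVec_apply]
  refine Fin.cases ?_ (fun i => ?_) a
  · simp
  · refine Fin.cases ?_ (fun j => ?_) b
    · simp
    · simp only [lift_succ]
      by_cases h1 : y i = 0
      · simp [h1]
      by_cases h2 : w j = 0
      · simp [h2]
      rw [hy i h1, hw j h2]
      field_simp

end Diag

end Cfsg.Agent.Lib.MinIndex.SLLift
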