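import Cfsg.Agent.Lib.MinIndex.SLLift

/-!
# `SL_{k+1}(F)` has no subgroup without transvections complementing the standard `F^k`
(except for `SL_4(2)`)
-/

set_option autoImplicit false
set_option linter.unusedSectionVars false

namespace Cfsg.Agent.Lib.MinIndex.SLReg

open Matrix Cfsg.Agent.Lib.MinIndex.SLTv Cfsg.Agent.Lib.MinIndex.SLLift

variable {F : Type*} [Field F] {k : ℕ} {H : Subgroup (SpecialLinearGroup (Fin (k + 1)) F)}

/-- The standard basis vector. -/
abbrev ee (i : Fin k) : Fin k → F := Pi.single i 1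

theorem ee_dot_ee {i j : Fin k} (h : i ≠ j) : (ee i : Fin k → F) ⬝ᵥ ee j = 0 := by
  rw [ee, ee, single_one_dotProduct, Pi.single_eq_of_ne h]

theorem dot_ee (a : Fin k → F) (i : Fin k) : a ⬝ᵥ (ee i : Fin k → F) = a i := by
  rw [ee, dotProduct_single, mul_one]

theorem ee_ne (i : Fin k) : (ee i : Fin k → F) ≠ 0 := by
  intro h
  have := congrFun h i
  simp [ee] at this

/-- The contradiction from the fact that all coordinates vanish, except one. -/
theorem contra_of_coords (h1 : ∀ (c φ : Fin (k + 1) → F) (h : φ ⬝ᵥ c = 0), c ≠ 0 → φ ≠ 0 → tv c φ h ∉ H)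
    {i₀ i₁ : Fin k} (h01 : i₀ ≠ i₁) {a : Fin k → F} (ha : iota a * X (ee i₀) (ee i₁) (ee_dot_ee h01.symm) ∈ H)
    (hj : ∀ j, j ≠ i₁ → a j = 0) : False := by
  have h3 : a = a i₁ • ee i₁ := by
    funext j
    by_cases h : j = i₁
    · subst h
      simp [ee]
    · rw [hj j h]
      simp [ee, Pi.single_eq_of_ne h]
  rw [h3] at ha
  exact line_contra h1 _ (ee_ne _) (ee_ne _) _ ha

/-- The vanishing of a coordinate from a commuting root element. -/
theorem coord_zero (h1 : ∀ v : Fin k → F, v ≠ 0 → iota v ∉ H)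
    (h2 : ∀ x : SpecialLinearGroup (Fin (k + 1)) F, ∃ v : Fin k → F, iota v * x ∈ H)
    {i₀ i₁ j l : Fin k} (h01 : i₀ ≠ i₁) (hj : j ≠ i₁) (hl0 : l ≠ i₀) (hl1 : l ≠ i₁) (hlj : l ≠ j)
    {a : Fin k → F} (ha : iota a * X (ee i₀) (ee i₁) (ee_dot_ee h01.symm) ∈ H) : a j = 0 := by
  obtain ⟨a', ha'⟩ := h2 (X (ee j) (ee l) (ee_dot_ee hlj))
  have h3 := rule_comm h1 (ee_dot_ee h01.symm) (ee_dot_ee hlj) (ee_dot_ee hj.symm) (ee_dot_ee hl0) ha ha'
  have h4 := congrFun h3 l
  simp only [Pi.smul_apply, smul_eq_mul, ee, Pi.single_eq_same, mul_one] at h4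
  rw [Pi.single_eq_of_ne hl1, mul_zero, dotProduct_single, mul_one] at h4
  exact h4.symm

/-- The case `k ≥ 4`. -/
theorem no_regular_ge4 (hk : 4 ≤ k)
    (h1 : ∀ (c φ : Fin (k + 1) → F) (h : φ ⬝ᵥ c = 0), c ≠ 0 → φ ≠ 0 → tv c φ h ∉ H)
    (h2 : ∀ x : SpecialLinearGroup (Fin (k + 1)) F, ∃ v : Fin k → F, iota v * x ∈ H) : False := by
  classical
  have h1' : ∀ v : Fin k → F, v ≠ 0 → iota v ∉ H := fun v hv =>
    h1 e0 (lift v) _ e0_ne (lift_ne hv)
  let i₀ : Fin k := ⟨0, by omega⟩
  let i₁ : Fin k := ⟨1, by omega⟩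
  have h01 : i₀ ≠ i₁ := by simp [i₀, i₁, Fin.ext_iff]
  obtain ⟨a, ha⟩ := h2 (X (ee i₀) (ee i₁) (ee_dot_ee h01.symm))
  refine contra_of_coords h1 h01 ha (fun j hj => ?_)
  obtain ⟨l, -, hl⟩ := Finset.exists_mem_notMem_of_card_lt_card (s := ({i₀, i₁, j} : Finset (Fin k)))
    (t := Finset.univ) (by
      refine lt_of_le_of_lt Finset.card_le_three ?_
      rw [Finset.card_univ, Fintype.card_fin]
      omega)
  simp only [Finset.mem_insert, Finset.mem_singleton, not_or] at hl
  exact coord_zero h1' h2 h01 hj hl.1 hl.2.1 hl.2.2 ha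

/-- The case `k = 2`. -/
theorem no_regular_two {H : Subgroup (SpecialLinearGroup (Fin (2 + 1)) F)}
    (h1 : ∀ (c φ : Fin (2 + 1) → F) (h : φ ⬝ᵥ c = 0), c ≠ 0 → φ ≠ 0 → tv c φ h ∉ H)
    (h2 : ∀ x : SpecialLinearGroup (Fin (2 + 1)) F, ∃ v : Fin 2 → F, iota v * x ∈ H) : False := by
  have h1' : ∀ v : Fin 2 → F, v ≠ 0 → iota v ∉ H := fun v hv =>
    h1 e0 (lift v) _ e0_ne (lift_ne hv)
  have h01 : (0 : Fin 2) ≠ 1 := by decide
  obtain ⟨a, ha⟩ := h2 (X (ee 0) (ee 1) (ee_dot_ee h01.symm))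
  have hkey : a 0 = 0 := by
    by_cases h20 : (2 : F) = 0
    · -- characteristic two: the square of the lift
      have h3 := lift_mul ha ha (X_conj (ee 0) (ee 1) (ee_dot_ee h01.symm) a)
      have h4 : X (ee 0) (ee 1) (ee_dot_ee h01.symm) * X (ee (0 : Fin 2)) (ee 1) (ee_dot_ee h01.symm) = (1 : SpecialLinearGroup (Fin (2 + 1)) F) := by
        rw [X, tv_mul_right]
        have h5 : lift (ee (1 : Fin 2)) + lift (ee (1 : Fin 2)) = (0 : Fin (2 + 1) → F) := by
          funext i
          simp only [Pi.add_apply, Pi.zero_apply]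
          rw [← two_mul, h20, zero_mul]
        simp only [h5]
        exact tv_zero_right _ _
      rw [h4] at h3
      have h6 : iota (0 : Fin 2 → F) * (1 : SpecialLinearGroup (Fin (2 + 1)) F) ∈ H := by
        rw [iota_zero, one_mul]
        exact H.one_mem
      have h7 := lift_unique h1' h3 h6
      have h8 := congrFun h7 1
      simp only [Pi.add_apply, Pi.sub_apply, Pi.smul_apply, smul_eq_mul, Pi.zero_apply] at h8
      rw [dot_ee] at h8
      simp only [ee, Pi.single_eq_same, mul_one] at h8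
      linear_combination (-1 : F) * h8 + a 1 * h20
    · -- otherwise: the central involution of the Levi
      let d : Fin (2 + 1) → F := ![1, -1, -1]
      have hd : ∏ i, d i = 1 := by
        rw [Fin.prod_univ_three]
        simp [d]
      obtain ⟨b, hb⟩ := h2 (zd d hd)
      have hconj := zd_conj_X d hd (ee_dot_ee h01.symm : (ee (1 : Fin 2) : Fin 2 → F) ⬝ᵥ ee 0 = 0) (t := -1) (by simp)
        (by
          intro i hi
          have : i = 0 := by
            by_contra h
            exact hi (Pi.single_eq_of_ne h _)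
          subst this
          rfl)
        (by
          intro i hi
          have : i = 1 := by
            by_contra h
            exact hi (Pi.single_eq_of_ne h _)
          subst this
          rfl)
      have hcomm : X (ee 0) (ee 1) (ee_dot_ee h01.symm) * zd d hd = zd d hd * X (ee (0 : Fin 2)) (ee 1) (ee_dot_ee h01.symm) := by
        calc _ = (zd d hd * X (ee (0 : Fin 2)) (ee 1) (ee_dot_ee h01.symm) * (zd d hd)⁻¹) * zd d hd := by rw [hconj]
          _ = _ := by group
      have h3 := lift_mul ha hb (X_conj (ee 0) (ee 1) (ee_dot_ee h01.symm) b)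
      have h4 := lift_mul hb ha (zd_conj_iota d hd a)
      rw [hcomm] at h3
      have h5 := lift_unique h1' h3 h4
      have h6 := congrFun h5 0
      simp only [Pi.add_apply, Pi.sub_apply, Pi.smul_apply, smul_eq_mul] at h6
      have h7 : (ee (1 : Fin 2) : Fin 2 → F) 0 = 0 := Pi.single_eq_of_ne (by decide) _
      rw [h7, mul_zero, sub_zero] at h6
      have h8 : d 0 = 1 := rfl
      have h9 : d (Fin.succ 0) = -1 := rfl
      rw [h8, h9] at h6
      have h10 : (2 : F) * a 0 = 0 := by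
        have : a 0 + b 0 = b 0 + 1 * a 0 / -1 := h6
        rw [one_mul, div_neg, div_one] at this
        linear_combination this
      exact (mul_eq_zero.mp h10).resolve_left h20
  refine contra_of_coords h1 h01 ha (fun j hj => ?_)
  have : j = 0 := by
    fin_cases j
    · rfl
    · exact absurd rfl hj
  rw [this]
  exact hkey

/-- The case `k = 3`. -/
theorem no_regular_three [Fintype F] (hq : Fintype.card F ≠ 2) {H : Subgroup (SpecialLinearGroup (Fin (3 + 1)) F)}
    (h1 : ∀ (c φ : Fin (3 + 1) → F) (h : φ ⬝ᵥ c = 0), c ≠ 0 → φ ≠ 0 → tv c φ h ∉ H)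
    (h2 : ∀ x : SpecialLinearGroup (Fin (3 + 1)) F, ∃ v : Fin 3 → F, iota v * x ∈ H) : False := by
  classical
  have h1' : ∀ v : Fin 3 → F, v ≠ 0 → iota v ∉ H := fun v hv =>
    h1 e0 (lift v) _ e0_ne (lift_ne hv)
  have h01 : (0 : Fin 3) ≠ 1 := by decide
  have h02 : (0 : Fin 3) ≠ 2 := by decide
  have h12 : (1 : Fin 3) ≠ 2 := by decide
  obtain ⟨a, ha⟩ := h2 (X (ee 0) (ee 1) (ee_dot_ee h01.symm))
  have hkey : a 2 = 0 := by
    by_cases h20 : (2 : F) = 0
    · -- characteristic two, `q ≥ 4`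
      have hq3 : 2 < Fintype.card F := by
        have : 2 ≤ Fintype.card F := Fintype.one_lt_card
        omega
      obtain ⟨u, -, hu⟩ := Finset.exists_mem_notMem_of_card_lt_card (s := ({0, 1} : Finset F)) (t := Finset.univ) (by
        refine lt_of_le_of_lt Finset.card_le_two ?_
        rw [Finset.card_univ]
        exact hq3)
      simp only [Finset.mem_insert, Finset.mem_singleton, not_or] at hu
      obtain ⟨hu0, hu1⟩ := hu
      have hu2 : u * u ≠ 1 := by
        intro h
        apply hu1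
        have : (u - 1) * (u - 1) = 0 := by linear_combination h - u * h20 + h20
        exact sub_eq_zero.mp (mul_self_eq_zero.mp this)
      let d : Fin (3 + 1) → F := ![u⁻¹, 1, 1, u]
      have hd : ∏ i, d i = 1 := by
        rw [Fin.prod_univ_four]
        simp [d, hu0]
      obtain ⟨b, hb⟩ := h2 (zd d hd)
      have hconj := zd_conj_X d hd (ee_dot_ee h01.symm : (ee (1 : Fin 3) : Fin 3 → F) ⬝ᵥ ee 0 = 0) (t := 1) one_ne_zero
        (by
          intro i hi
          have : i = 0 := by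
            by_contra h
            exact hi (Pi.single_eq_of_ne h _)
          subst this
          rfl)
        (by
          intro i hi
          have : i = 1 := by
            by_contra h
            exact hi (Pi.single_eq_of_ne h _)
          subst this
          rfl)
      have hcomm : X (ee 0) (ee 1) (ee_dot_ee h01.symm) * zd d hd = zd d hd * X (ee (0 : Fin 3)) (ee 1) (ee_dot_ee h01.symm) := by
        calc _ = (zd d hd * X (ee (0 : Fin 3)) (ee 1) (ee_dot_ee h01.symm) * (zd d hd)⁻¹) * zd d hd := by rw [hconj]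
          _ = _ := by group
      have h3 := lift_mul ha hb (X_conj (ee 0) (ee 1) (ee_dot_ee h01.symm) b)
      have h4 := lift_mul hb ha (zd_conj_iota d hd a)
      rw [hcomm] at h3
      have h5 := lift_unique h1' h3 h4
      have h6 := congrFun h5 2
      simp only [Pi.add_apply, Pi.sub_apply, Pi.smul_apply, smul_eq_mul] at h6
      have h7 : (ee (1 : Fin 3) : Fin 3 → F) 2 = 0 := Pi.single_eq_of_ne (by decide) _
      rw [h7, mul_zero, sub_zero] at h6
      have h8 : d 0 = u⁻¹ := rfl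
      have h9 : d (Fin.succ 2) = u := rfl
      rw [h8, h9] at h6
      have h10 : a 2 * (u * u - 1) = 0 := by
        have h11 : a 2 = u⁻¹ * a 2 / u := by linear_combination h6
        field_simp at h11
        linear_combination h11
      exact (mul_eq_zero.mp h10).resolve_right (sub_ne_zero.mpr hu2)
    · -- odd characteristic: a Steinberg relation
      obtain ⟨β, hβ⟩ := h2 (X (ee 2) (ee 1) (ee_dot_ee h12))
      obtain ⟨γ, hγ⟩ := h2 (X (ee 0) (ee 2) (ee_dot_ee h02.symm))
      have h3 := rule_comm h1' (y := (ee 0 : Fin 3 → F)) (w := (ee 1 : Fin 3 → F)) (y' := (ee 2 : Fin 3 → F)) (w' := (ee 1 : Fin 3 → F))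
        (ee_dot_ee h01.symm) (ee_dot_ee h12) (ee_dot_ee h12) (ee_dot_ee h01.symm) ha hβ
      have h4 := congrFun h3 1
      simp only [Pi.smul_apply, smul_eq_mul, ee, Pi.single_eq_same, mul_one] at h4
      rw [dotProduct_single, dotProduct_single, mul_one, mul_one] at h4
      have hrel : X (ee 0 : Fin 3 → F) (ee 2) (ee_dot_ee h02.symm) * X (ee 2 : Fin 3 → F) (ee 1) (ee_dot_ee h12) =
          X (ee 0 : Fin 3 → F) (ee 1) (ee_dot_ee h01.symm) * (X (ee 2 : Fin 3 → F) (ee 1) (ee_dot_ee h12) * X (ee 0 : Fin 3 → F) (ee 2) (ee_dot_ee h02.symm)) := by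
        have h5 : X (ee 0 : Fin 3 → F) (ee 2) (ee_dot_ee h02.symm) * X (ee 2 : Fin 3 → F) (ee 1) (ee_dot_ee h12) * (X (ee 0 : Fin 3 → F) (ee 2) (ee_dot_ee h02.symm))⁻¹ =
            X (ee 0 : Fin 3 → F) (ee 1) (ee_dot_ee h01.symm) * X (ee 2 : Fin 3 → F) (ee 1) (ee_dot_ee h12) := by
          rw [X, X, X, tv_conj_tv, tv_mul_left]
          apply tv_congr
          rw [lift_dot_lift, lift_dot_lift, ee_dot_ee h01.symm, zero_smul, sub_zero, dot_ee]
          simp only [ee, Pi.single_eq_same, one_smul]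
          congr 1
          exact add_comm _ _
        calc _ = (X (ee 0 : Fin 3 → F) (ee 2) (ee_dot_ee h02.symm) * X (ee 2 : Fin 3 → F) (ee 1) (ee_dot_ee h12) * (X (ee 0 : Fin 3 → F) (ee 2) (ee_dot_ee h02.symm))⁻¹) * X (ee 0 : Fin 3 → F) (ee 2) (ee_dot_ee h02.symm) := by group
          _ = _ := by rw [h5, mul_assoc]
      have L1 := lift_mul hγ hβ (X_conj (ee 0) (ee 2) (ee_dot_ee h02.symm) β)
      have L2 := lift_mul hβ hγ (X_conj (ee 2) (ee 1) (ee_dot_ee h12) γ)
      have L3 := lift_mul ha L2 (X_conj (ee 0) (ee 1) (ee_dot_ee h01.symm) _)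
      rw [hrel] at L1
      have h5 := lift_unique h1' L1 L3
      have h6 := congrFun h5 2
      simp only [Pi.add_apply, Pi.sub_apply, Pi.smul_apply, smul_eq_mul, ee, Pi.single_eq_same, mul_one] at h6
      have h7 : (Pi.single (1 : Fin 3) (1 : F) : Fin 3 → F) 2 = 0 := Pi.single_eq_of_ne (by decide) _
      rw [h7, mul_zero, mul_zero, sub_zero, sub_zero] at h6
      rw [dotProduct_single, mul_one] at h6
      have h10 : (2 : F) * a 2 = 0 := by linear_combination -h4 - h6
      exact (mul_eq_zero.mp h10).resolve_left h20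
  refine contra_of_coords h1 h01 ha (fun j hj => ?_)
  have : j = 0 ∨ j = 2 := by
    fin_cases j
    · exact Or.inl rfl
    · exact absurd rfl hj
    · exact Or.inr rfl
  rcases this with rfl | rfl
  · exact coord_zero (l := 2) h1' h2 h01 h01 (by decide) (by decide) (by decide) ha
  · exact hkey

/-- The general statement. -/
theorem no_regular [Fintype F] (hk : 2 ≤ k) (hexc : ¬ (k = 3 ∧ Fintype.card F = 2))
    (h1 : ∀ (c φ : Fin (k + 1) → F) (h : φ ⬝ᵥ c = 0), c ≠ 0 → φ ≠ 0 → tv c φ h ∉ H)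
    (h2 : ∀ x : SpecialLinearGroup (Fin (k + 1)) F, ∃ v : Fin k → F, iota v * x ∈ H) : False := by
  by_cases h4 : 4 ≤ k
  · exact no_regular_ge4 h4 h1 h2
  · have : k = 2 ∨ k = 3 := by omega
    rcases this with rfl | rfl
    · exact no_regular_two h1 h2
    · exact no_regular_three (fun h => hexc ⟨rfl, h⟩) h1 h2

end Cfsg.Agent.Lib.MinIndex.SLReg
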