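import Cfsg.Agent.Lib.MinIndex.Dichotomy
import Cfsg.Agent.Lib.MinIndex.SLGeom
import Cfsg.Agent.Lib.MinIndex.SLReg

/-!
# The minimal degree of a nontrivial transitive action of `SL_{k+1}(F)`
-/

set_option autoImplicit false
set_option linter.unusedSectionVars false

namespace Cfsg.Agent.Lib.MinIndex.SLMain

open Matrix Cfsg.Agent.Lib.MinIndex.SLTv Cfsg.Agent.Lib.MinIndex.SLLift Cfsg.Agent.Lib.MinIndex.Burnside
  Cfsg.Agent.Lib.MinIndex.Dichotomy Cfsg.Agent.Lib.MinIndex.SLGeom Cfsg.Agent.Lib.MinIndex.SLReg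

variable {F : Type*} [Field F] {k : ℕ} {Ω : Type*}

local notation "𝔾" => SpecialLinearGroup (Fin (k + 1)) F
local notation "𝕄" => Matrix (Fin (k + 1)) (Fin (k + 1)) F

/-- The action of `F^k` through the standard subgroup. -/
@[reducible] def actE (ρ : 𝔾 →* Equiv.Perm Ω) : AddAction (Fin k → F) Ω where
  vadd v ω := ρ (iota v) ω
  zero_vadd ω := by
    show ρ (iota 0) ω = ω
    rw [iota_zero, map_one]
    rfl
  add_vadd v w ω := by
    show ρ (iota (v + w)) ω = ρ (iota v) (ρ (iota w) ω)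
    rw [iota_add, map_mul]
    rfl

theorem compat (ρ : 𝔾 →* Equiv.Perm Ω) : @Compat F _ k Ω (actE ρ) := by
  let _ := actE ρ
  intro w y hwy
  have h' : (-w) ⬝ᵥ y = 0 := by rw [neg_dotProduct, hwy, neg_zero]
  refine ⟨ρ (X y (-w) h'), fun v ω => ?_⟩
  show ρ (X y (-w) h') (ρ (iota v) ω) = ρ (iota (v + (v ⬝ᵥ y) • w)) (ρ (X y (-w) h') ω)
  have h1 := X_conj y (-w) h' v
  have h2 : iota (v + (v ⬝ᵥ y) • w) = X y (-w) h' * iota v * (X y (-w) h')⁻¹ := by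
    rw [h1]
    congr 1
    rw [smul_neg, sub_neg_eq_add]
  rw [h2, ← Equiv.Perm.mul_apply, ← map_mul, ← Equiv.Perm.mul_apply, ← map_mul]
  congr 2
  group

theorem fix_conj (ρ : 𝔾 →* Equiv.Perm Ω) (g x : 𝔾) (ω : Ω) :
    ρ (g * x * g⁻¹) ω = ω ↔ ρ x (ρ g⁻¹ ω) = ρ g⁻¹ ω := by
  rw [map_mul, map_mul, Equiv.Perm.mul_apply, Equiv.Perm.mul_apply]
  constructor
  · intro h
    have h1 := congrArg (ρ g⁻¹) h
    rw [← Equiv.Perm.mul_apply, ← map_mul] at h1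
    simpa using h1
  · intro h
    rw [h, ← Equiv.Perm.mul_apply, ← map_mul]
    simp

/-- Any transvection with center `c = g e₀` is a conjugate of an element of the standard subgroup. -/
theorem conj_iota {g : 𝔾} {c : Fin (k + 1) → F} (hg : (g : 𝕄) *ᵥ e0 = c) {φ : Fin (k + 1) → F}
    (h : φ ⬝ᵥ c = 0) : ∃ v : Fin k → F, lift v = φ ᵥ* (g : 𝕄) ∧ tv c φ h = g * iota v * g⁻¹ := by
  have h1 : (φ ᵥ* (g : 𝕄)) ⬝ᵥ (e0 : Fin (k + 1) → F) = 0 := by
    rw [← dotProduct_mulVec, hg, h]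
  have h2 := eq_lift_of_dot h1
  refine ⟨_, h2.symm, ?_⟩
  rw [iota, tv_conj]
  apply tv_congr
  rw [← h2, hg, vecMul_vecMul, coe_mul_inv, vecMul_one]

theorem conj_iota_ne {g : 𝔾} {φ : Fin (k + 1) → F} (hφ : φ ≠ 0) {v : Fin k → F}
    (hv : lift v = φ ᵥ* (g : 𝕄)) : v ≠ 0 := by
  rintro rfl
  apply hφ
  have h1 := congrArg (· ᵥ* ((g⁻¹ : 𝔾) : 𝕄)) hv
  simp only [lift_zero, zero_vecMul, vecMul_vecMul, coe_mul_inv, vecMul_one] at h1
  exact h1.symm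

/-- Injectivity. -/
theorem mulVec_inj (g : 𝔾) {a b : Fin (k + 1) → F} (h : (g : 𝕄) *ᵥ a = (g : 𝕄) *ᵥ b) : a = b := by
  have h1 := congrArg (((g⁻¹ : 𝔾) : 𝕄) *ᵥ ·) h
  simpa only [mulVec_mulVec, coe_inv_mul, one_mulVec] using h1

/-- The stabilizer of a point. -/
def stabH (ρ : 𝔾 →* Equiv.Perm Ω) (ω : Ω) : Subgroup 𝔾 :=
  (MulAction.stabilizer (Equiv.Perm Ω) ω).comap ρ

theorem mem_stabH {ρ : 𝔾 →* Equiv.Perm Ω} {ω : Ω} {g : 𝔾} : g ∈ stabH ρ ω ↔ ρ g ω = ω := by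
  rw [stabH, Subgroup.mem_comap, MulAction.mem_stabilizer_iff]
  rfl

/-- All stabilizers in the standard subgroup being hyperplanes is impossible. -/
theorem not_hyperplanes (hk : 2 ≤ k) (ρ : 𝔾 →* Equiv.Perm Ω)
    (hII : ∀ ω : Ω, ∃ y : Fin k → F, y ≠ 0 ∧ ∀ v : Fin k → F, ρ (iota v) ω = ω ↔ v ⬝ᵥ y = 0) (ω₀ : Ω) : False := by
  refine geom_contra (by rw [Fintype.card_fin]; omega) (stabH ρ ω₀) (fun c hc => ?_)
  obtain ⟨g, hg⟩ := exists_sl_mulVec (by rw [Fintype.card_fin]; omega) (e0_ne (F := F) (k := k)) hc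
  obtain ⟨y, hy, hyv⟩ := hII (ρ g⁻¹ ω₀)
  refine ⟨(g : 𝕄) *ᵥ lift y, ?_, fun φ h => ?_⟩
  · intro hmem
    obtain ⟨a, ha⟩ := Submodule.mem_span_singleton.mp hmem
    rw [← hg, ← mulVec_smul] at ha
    have h1 := mulVec_inj g ha
    have h2 := congrFun h1 0
    have h3 : a = 0 := by simpa [e0] using h2
    rw [h3, zero_smul] at h1
    apply hy
    apply lift_injective
    rw [← h1, lift_zero]
  · obtain ⟨v, hv, hτ⟩ := conj_iota hg h
    rw [mem_stabH, hτ, fix_conj, hyv, ← lift_dot_lift, hv, ← dotProduct_mulVec]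

variable [Fintype F] [Fintype Ω]

/-- If the degree is small: a regular orbit of the standard subgroup and fixed points. -/
theorem small_action (hk : 2 ≤ k) (ρ : 𝔾 →* Equiv.Perm Ω) (hρ : ρ ≠ 1) {N' : ℕ}
    (hN' : (Fintype.card F - 1) * N' + 1 = Fintype.card F ^ k)
    (hlt : Fintype.card Ω < Fintype.card F ^ k + N') :
    ∃ (f : ℕ) (ω₁ : Ω), Fintype.card Ω = f + Fintype.card F ^ k ∧ (∀ v : Fin k → F, ρ (iota v) ω₁ = ω₁ → v = 0) ∧
      ∀ v : Fin k → F, v ≠ 0 → ∀ ω' : Ω, ρ (iota v) ω' = ω' ↔ ∀ u : Fin k → F, ρ (iota u) ω₁ ≠ ω' := by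
  classical
  let _ := actE ρ
  have hnt : ∃ (v : Fin k → F) (ω : Ω), v +ᵥ ω ≠ ω := by
    by_contra hcon
    push Not at hcon
    apply hρ
    have hall : ∀ (c φ : Fin (k + 1) → F) (hc : φ ⬝ᵥ c = 0), c ≠ 0 → φ ≠ 0 → tv c φ hc ∈ ρ.ker := by
      intro c φ h hc _
      obtain ⟨g, hg⟩ := exists_sl_mulVec (by rw [Fintype.card_fin]; omega) (e0_ne (F := F) (k := k)) hc
      obtain ⟨v, -, hτ⟩ := conj_iota hg h
      rw [MonoidHom.mem_ker, hτ]
      ext ω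
      rw [Equiv.Perm.one_apply, fix_conj]
      exact hcon v _
    have htop := eq_top_of_tv_mem ρ.ker hall
    ext g ω
    have : g ∈ ρ.ker := by rw [htop]; trivial
    rw [MonoidHom.mem_ker] at this
    rw [this]
    rfl
  obtain ⟨f, hf, hd, hcase⟩ := dichotomy hk (compat ρ) hN' hnt hlt
  rcases hcase with ⟨ω₁, hω₁⟩ | hII
  · refine ⟨f, ω₁, hd, ?_, ?_⟩
    · intro v hv
      have h1 : v ∈ st (Fin k → F) ω₁ := mem_st.mpr hv
      rw [hω₁] at h1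
      exact (AddSubgroup.mem_bot).mp h1
    · intro v hv ω'
      have h1 := fix_iff_of_free hf (by rw [hd, Fintype.card_fun, Fintype.card_fin]) hω₁ hv ω'
      refine h1.trans ?_
      constructor
      · intro h u hu
        exact h ⟨u, hu⟩
      · rintro h ⟨u, hu⟩
        exact h u hu
  · exfalso
    obtain ⟨ω₀⟩ : Nonempty Ω := by
      obtain ⟨_, ω, _⟩ := hnt
      exact ⟨ω⟩
    refine not_hyperplanes hk ρ (fun ω => ?_) ω₀
    obtain ⟨y, hy, hyv⟩ := hII ω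
    exact ⟨y, hy, fun v => (mem_st (E := Fin k → F)).symm.trans (hyv v)⟩

/-- Two transvections with the same center have the same fixed points. -/
theorem fix_same_center (hk : 2 ≤ k) (ρ : 𝔾 →* Equiv.Perm Ω) (hρ : ρ ≠ 1) {N' : ℕ}
    (hN' : (Fintype.card F - 1) * N' + 1 = Fintype.card F ^ k)
    (hlt : Fintype.card Ω < Fintype.card F ^ k + N') {c φ φ' : Fin (k + 1) → F}
    (hc : c ≠ 0) (hφ : φ ≠ 0) (hφ' : φ' ≠ 0) (h : φ ⬝ᵥ c = 0) (h' : φ' ⬝ᵥ c = 0) (ω : Ω) :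
    ρ (tv c φ h) ω = ω ↔ ρ (tv c φ' h') ω = ω := by
  obtain ⟨f, ω₁, -, -, hfix⟩ := small_action hk ρ hρ hN' hlt
  obtain ⟨g, hg⟩ := exists_sl_mulVec (by rw [Fintype.card_fin]; omega) (e0_ne (F := F) (k := k)) hc
  obtain ⟨v, hv, hτ⟩ := conj_iota hg h
  obtain ⟨v', hv', hτ'⟩ := conj_iota hg h'
  rw [hτ, hτ', fix_conj, fix_conj, hfix v (conj_iota_ne hφ hv), hfix v' (conj_iota_ne hφ' hv')]

/-- The inverse transpose automorphism. -/
def theta : 𝔾 →* 𝔾 where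
  toFun g := ⟨((g⁻¹ : 𝔾) : 𝕄)ᵀ, by rw [det_transpose]; exact (g⁻¹).2⟩
  map_one' := by
    apply sl_eq
    show (((1 : 𝔾)⁻¹ : 𝔾) : 𝕄)ᵀ = 1
    rw [inv_one, coe_one', transpose_one]
  map_mul' a b := by
    apply sl_eq
    show (((a * b)⁻¹ : 𝔾) : 𝕄)ᵀ = (((a⁻¹ : 𝔾) : 𝕄)ᵀ) * (((b⁻¹ : 𝔾) : 𝕄)ᵀ)
    rw [_root_.mul_inv_rev, coe_mul', transpose_mul]

theorem theta_tv (c φ : Fin (k + 1) → F) (h : φ ⬝ᵥ c = 0) :
    theta (tv c φ h) = tv (-φ) c (by rw [dotProduct_neg, dotProduct_comm, h, neg_zero]) := by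
  apply sl_eq
  show (((tv c φ h)⁻¹ : 𝔾) : 𝕄)ᵀ = _
  rw [tv_inv, coe_tv, coe_tv, transpose_add, transpose_one, transpose_vecMulVec]

theorem theta_theta (g : 𝔾) : theta (theta g) = g := by
  apply sl_eq
  have h1 : ((theta g)⁻¹ : 𝔾) = theta g⁻¹ := (map_inv theta g).symm
  show (((theta g)⁻¹ : 𝔾) : 𝕄)ᵀ = g
  rw [h1]
  show (((g⁻¹)⁻¹ : 𝔾) : 𝕄)ᵀᵀ = g
  rw [inv_inv, transpose_transpose]

/-- Two transvections with the same functional have the same fixed points. -/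
theorem fix_same_functional (hk : 2 ≤ k) (ρ : 𝔾 →* Equiv.Perm Ω) (hρ : ρ ≠ 1) {N' : ℕ}
    (hN' : (Fintype.card F - 1) * N' + 1 = Fintype.card F ^ k)
    (hlt : Fintype.card Ω < Fintype.card F ^ k + N') {c c' φ : Fin (k + 1) → F}
    (hφ : φ ≠ 0) (hc : c ≠ 0) (hc' : c' ≠ 0) (h : φ ⬝ᵥ c = 0) (h' : φ ⬝ᵥ c' = 0) (ω : Ω) :
    ρ (tv c φ h) ω = ω ↔ ρ (tv c' φ h') ω = ω := by
  have hρ' : ρ.comp theta ≠ 1 := by
    intro h1
    apply hρ
    ext g ω
    have := congrArg (fun f => f (theta g) ω) h1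
    simpa [theta_theta] using this
  have h1 : (-c) ⬝ᵥ φ = 0 := by rw [neg_dotProduct, dotProduct_comm, h, neg_zero]
  have h2 : (-c') ⬝ᵥ φ = 0 := by rw [neg_dotProduct, dotProduct_comm, h', neg_zero]
  have h3 := fix_same_center hk (ρ.comp theta) hρ' hN' hlt hφ (neg_ne_zero.mpr hc) (neg_ne_zero.mpr hc') h1 h2 ω
  have e1 : theta (tv φ (-c) h1) = tv c φ h := by
    rw [theta_tv]
    apply tv_congr
    rw [neg_neg]
  have e2 : theta (tv φ (-c') h2) = tv c' φ h' := by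
    rw [theta_tv]
    apply tv_congr
    rw [neg_neg]
  simp only [MonoidHom.comp_apply] at h3
  rwa [e1, e2] at h3

/-- All the transvections have the same fixed points. -/
theorem fix_all (hk : 2 ≤ k) (ρ : 𝔾 →* Equiv.Perm Ω) (hρ : ρ ≠ 1) {N' : ℕ}
    (hN' : (Fintype.card F - 1) * N' + 1 = Fintype.card F ^ k)
    (hlt : Fintype.card Ω < Fintype.card F ^ k + N') {c c' φ φ' : Fin (k + 1) → F}
    (hφ : φ ≠ 0) (hφ' : φ' ≠ 0) (hc : c ≠ 0) (hc' : c' ≠ 0) (h : φ ⬝ᵥ c = 0) (h' : φ' ⬝ᵥ c' = 0) (ω : Ω)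
    (hω : ρ (tv c φ h) ω = ω) : ρ (tv c' φ' h') ω = ω := by
  obtain ⟨z, hz⟩ := exists_not_mem_span_two (F := F) (by rw [Fintype.card_fin]; omega) c c'
  obtain ⟨ψ, h1, h2, h3⟩ := exists_functional_two hz
  have hψ : ψ ≠ 0 := by
    rintro rfl
    rw [zero_dotProduct] at h3
    exact zero_ne_one h3
  rw [← fix_same_center hk ρ hρ hN' hlt hc' hψ hφ' h2 h',
    ← fix_same_functional hk ρ hρ hN' hlt hψ hc hc' h1 h2,
    fix_same_center hk ρ hρ hN' hlt hc hψ hφ h1 h]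
  exact hω

/-- A small transitive action is regular on the standard subgroup and has fixed-point-free transvections;
this is impossible. -/
theorem small_contra (hk : 2 ≤ k) (hexc : ¬ (k = 3 ∧ Fintype.card F = 2)) (ρ : 𝔾 →* Equiv.Perm Ω) (hρ : ρ ≠ 1)
    (htr : ∀ a b : Ω, ∃ g : 𝔾, ρ g a = b) {N' : ℕ}
    (hN' : (Fintype.card F - 1) * N' + 1 = Fintype.card F ^ k)
    (hlt : Fintype.card Ω < Fintype.card F ^ k + N') : False := by
  classical
  -- no transvection has a fixed point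
  have hfree : ∀ (c φ : Fin (k + 1) → F) (h : φ ⬝ᵥ c = 0), c ≠ 0 → φ ≠ 0 → ∀ ω : Ω, ρ (tv c φ h) ω ≠ ω := by
    intro c φ h hc hφ ω hω
    have htop : stabH ρ ω = ⊤ := by
      apply eq_top_of_tv_mem
      intro c' φ' h' hc' hφ'
      rw [mem_stabH]
      exact fix_all hk ρ hρ hN' hlt hφ hφ' hc hc' h h' ω hω
    apply hρ
    ext g a
    obtain ⟨g₁, hg₁⟩ := htr ω a
    have hfix : ∀ x : 𝔾, ρ x ω = ω := fun x => mem_stabH.mp (by rw [htop]; trivial)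
    have h1 : a = ω := by
      rw [← hg₁, hfix]
    rw [h1, hfix]
    rfl
  obtain ⟨f, ω₁, hd, hω₁, hfix⟩ := small_action hk ρ hρ hN' hlt
  -- `f = 0`
  have hk0 : 0 < k := by omega
  have hne : (Pi.single (⟨0, hk0⟩ : Fin k) 1 : Fin k → F) ≠ 0 := by
    intro h
    have := congrFun h ⟨0, hk0⟩
    simp at this
  -- regularity
  have hinj : Function.Injective (fun v : Fin k → F => ρ (iota v) ω₁) := by
    intro a b hab
    simp only at hab
    have h1 : ρ (iota (a - b)) ω₁ = ω₁ := by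
      rw [iota_sub, map_mul, Equiv.Perm.mul_apply]
      have h2 : ρ (iota b)⁻¹ (ρ (iota a) ω₁) = ω₁ := by
        rw [hab, ← Equiv.Perm.mul_apply, ← map_mul]
        simp
      have h3 : ρ (iota a) (ρ (iota b)⁻¹ ω₁) = ρ (iota b)⁻¹ (ρ (iota a) ω₁) := by
        rw [← Equiv.Perm.mul_apply, ← Equiv.Perm.mul_apply, ← map_mul, ← map_mul, ← iota_neg, ← iota_add, ← iota_add, add_comm a]
      rw [h3, h2]
    exact sub_eq_zero.mp (hω₁ _ h1)
  have hf0 : f = 0 := by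
    by_contra hf
    have h1 : 0 < Fintype.card Ω - Fintype.card F ^ k := by omega
    -- a point outside the orbit is a fixed point of a transvection
    have hnotsurj : ¬ Function.Surjective (fun v : Fin k → F => ρ (iota v) ω₁) := by
      intro hs
      have := Fintype.card_of_bijective (⟨hinj, hs⟩ : Function.Bijective (fun v : Fin k → F => ρ (iota v) ω₁))
      rw [Fintype.card_fun, Fintype.card_fin] at this
      omega
    unfold Function.Surjective at hnotsurj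
    push Not at hnotsurj
    obtain ⟨ω', hω'⟩ := hnotsurj
    have h2 := (hfix _ hne ω').mpr hω'
    exact hfree e0 (lift _) _ e0_ne (lift_ne hne) ω' h2
  rw [hf0, zero_add] at hd
  have hbij : Function.Bijective (fun v : Fin k → F => ρ (iota v) ω₁) := by
    rw [Fintype.bijective_iff_injective_and_card]
    refine ⟨hinj, ?_⟩
    rw [Fintype.card_fun, Fintype.card_fin, hd]
  -- apply the matrix computation
  refine no_regular (H := stabH ρ ω₁) hk hexc (fun c φ h hc hφ hmem => hfree c φ h hc hφ ω₁ (mem_stabH.mp hmem)) ?_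
  intro x
  obtain ⟨v, hv⟩ := hbij.2 (ρ x ω₁)
  refine ⟨-v, mem_stabH.mpr ?_⟩
  simp only at hv
  rw [map_mul, Equiv.Perm.mul_apply, ← hv, ← Equiv.Perm.mul_apply, ← map_mul, ← iota_add, neg_add_cancel, iota_zero, map_one]
  rfl

end Cfsg.Agent.Lib.MinIndex.SLMain
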