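import Mathlib
import Cfsg.Agent.Lib.MinIndex.SpGlob

/-!
# Points fixed by a root group

Under the assumption that the degree of the action is small, no root group has a fixed point.
-/

set_option autoImplicit false
set_option linter.unusedSectionVars false
set_option linter.unusedSimpArgs false
set_option linter.unusedVariables false

namespace Cfsg.Agent.Lib.MinIndex.SpFix

open Cfsg.Agent.Lib.Classical.Symp.AltForm Cfsg.Agent.Lib.Classical.Symp.Hyperbolic
open Cfsg.Agent.Lib.MinIndex.SpLocal Cfsg.Agent.Lib.MinIndex.SpCount Cfsg.Agent.Lib.MinIndex.SpOrbit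
open Cfsg.Agent.Lib.MinIndex.SpGlob

variable {F V : Type*} [Field F] [AddCommGroup V] [Module F V] {B : LinearMap.BilinForm F V} (hA : B.IsAlt)
variable {Ω : Type*} [MulAction (IsomGroup B) Ω]

include hA

/-- A partial fixing of a point by a root group forces the point's root vectors to lie in the perp. -/
theorem partial_perp {ω : Ω} {c v : V} {a : F} (ha : a ≠ 0) (hc : tvG hA c a • ω = ω) (hnc : ¬ Fx hA ω c)
    (hv : Fx hA ω v) : B v c = 0 := by
  by_contra h
  apply hnc
  have h1 := Fx_closure hA hc hv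
  have hne : a * B v c ≠ 0 := mul_ne_zero ha h
  have h2 : B ((tvG hA c a).1 v) v ≠ 0 := by
    rw [tvG_apply]
    simp only [map_add, map_smul, LinearMap.add_apply, LinearMap.smul_apply, smul_eq_mul, hA v, zero_add]
    rw [swap hA c v]
    exact mul_ne_zero hne (neg_ne_zero.mpr h)
  have h3 := Fx_span hA hv h1 h2 (-(a * B v c)⁻¹) ((a * B v c)⁻¹)
  have e : (-(a * B v c)⁻¹) • v + (a * B v c)⁻¹ • (tvG hA c a).1 v = c := by
    rw [tvG_apply, smul_add, smul_smul, inv_mul_cancel₀ hne, neg_smul]
    simp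
  rwa [e] at h3

/-- If `v`, `c` are nonzero with `B v c = 0`... counting the perp of a vector. -/
theorem card_perp_vec [Fintype F] [Fintype V] {c c' : V} (huv : B c c' = 1) [DecidablePred fun v : V => B v c = 0] :
    (Finset.univ.filter (fun v : V => B v c = 0)).card = Fintype.card F * Nat.card (perpPair B c c') := by
  classical
  have : Fintype (perpPair B c c') := Fintype.ofFinite _
  rw [Nat.card_eq_fintype_card, ← Fintype.card_prod, ← Finset.card_univ]
  have hvu : B c' c = -1 := hyp_vu hA huv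
  symm
  apply Finset.card_bij (fun (x : F × perpPair B c c') _ => x.1 • c + (x.2 : V))
  · intro x _
    simp only [Finset.mem_filter, Finset.mem_univ, true_and]
    simp [hA c, (mem_perpPair.mp x.2.2).1]
  · intro x _ y _ h
    have h1 := congrArg (fun z => B z c') h
    simp only [map_add, map_smul, LinearMap.add_apply, LinearMap.smul_apply, smul_eq_mul, huv, mul_one,
      (mem_perpPair.mp x.2.2).2, (mem_perpPair.mp y.2.2).2, add_zero] at h1
    have h2 : x.1 = y.1 := h1
    rw [h2] at h
    exact Prod.ext h2 (Subtype.ext (add_left_cancel h))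
  · intro v hv
    simp only [Finset.mem_filter, Finset.mem_univ, true_and] at hv
    refine ⟨(B v c', proj hA huv v), Finset.mem_univ _, ?_⟩
    simp only
    have := decomp hA huv v
    rw [hv, zero_smul, sub_zero] at this
    exact this.symm

/-! ### Stabilizers in the root group -/

/-- The stabilizer of a point in the root group, as a subgroup of the field. -/
def Ast (c : V) (ω : Ω) : AddSubgroup F where
  carrier := {a | tvG hA c a • ω = ω}
  zero_mem' := by
    change tvG hA c 0 • ω = ω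
    rw [tvG_zero, one_smul]
  add_mem' := by
    intro a b ha hb
    change tvG hA c (a + b) • ω = ω
    change tvG hA c a • ω = ω at ha
    change tvG hA c b • ω = ω at hb
    rw [← tvG_add, mul_smul, hb, ha]
  neg_mem' := by
    intro a ha
    change tvG hA c (-a) • ω = ω
    change tvG hA c a • ω = ω at ha
    rw [← tvG_inv, inv_smul_eq_iff, ha]

theorem mem_Ast {c : V} {ω : Ω} {a : F} : a ∈ Ast hA c ω ↔ tvG hA c a • ω = ω := Iff.rfl

/-- Root elements stabilize the same scalars along their orbit. -/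
theorem Ast_tv (c : V) (ω : Ω) (s : F) : Ast hA c (tvG hA c s • ω) = Ast hA c ω := by
  ext a
  rw [mem_Ast, mem_Ast, smul_smul, tvG_add, add_comm, ← tvG_add, mul_smul]
  exact smul_left_cancel_iff (tvG hA c s)

/-- The stabilizer of a point on an orbit depends only on the orbit. -/
theorem Ast_of_mk {c : V} {ω ω' : Ω} (h : mkY hA c ω = mkY hA c ω') : Ast hA c ω = Ast hA c ω' := by
  obtain ⟨a, rfl⟩ := (mkY_eq hA).mp h
  exact (Ast_tv hA c ω a).symm

/-- An isometry fixing `c` does not change the stabilizer. -/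
theorem Ast_comm {c : V} (g : IsomGroup B) (hg : g.1 c = c) (ω : Ω) : Ast hA c (g • ω) = Ast hA c ω := by
  ext a
  rw [mem_Ast, mem_Ast]
  have h1 := tvG_conj hA g c a
  rw [hg] at h1
  have h2 : tvG hA c a * g = g * tvG hA c a := by
    conv_lhs => rw [← h1]
    group
  rw [smul_smul, h2, mul_smul]
  exact smul_left_cancel_iff g

section Orb

variable [Fintype F] [Fintype Ω]

open _root_.Classical in
/-- The size of an orbit. -/
noncomputable def tcard (c : V) (τ : Yc hA Ω c) : ℕ := (Finset.univ.filter (fun ω => mkY hA c ω = τ)).card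

/-- Orbit-stabilizer for the root group. -/
theorem tcard_mul (c : V) (ω : Ω) : tcard hA c (mkY hA c ω) * Nat.card (Ast hA c ω) = Fintype.card F := by
  classical
  have h := Finset.card_eq_sum_card_fiberwise (f := fun a : F => tvG hA c a • ω)
    (s := Finset.univ) (t := Finset.univ.filter (fun ω' => mkY hA c ω' = mkY hA c ω)) (by
      intro a _
      simp only [Finset.coe_filter, Finset.mem_univ, true_and, Set.mem_ofPred_eq]
      exact ((mkY_eq hA).mpr ⟨a, rfl⟩).symm)
  rw [Finset.card_univ] at h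
  rw [h, tcard, Finset.card_eq_sum_ones, Finset.sum_mul]
  apply Finset.sum_congr rfl
  intro ω' hω'
  simp only [Finset.mem_filter, Finset.mem_univ, true_and] at hω'
  obtain ⟨a₀, ha₀⟩ := (mkY_eq hA).mp hω'.symm
  rw [one_mul, Nat.subtype_card (Finset.univ.filter (fun a => a ∈ Ast hA c ω)) (by simp)]
  apply Finset.card_bij (fun a _ => a₀ + a)
  · intro a ha
    simp only [Finset.mem_filter, Finset.mem_univ, true_and] at ha ⊢
    rw [← tvG_add, mul_smul, (mem_Ast hA).mp ha, ha₀]
  · intro a _ b _ h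
    exact add_left_cancel h
  · intro a ha
    simp only [Finset.mem_filter, Finset.mem_univ, true_and] at ha ⊢
    refine ⟨a - a₀, ?_, by ring⟩
    rw [mem_Ast hA]
    apply smul_left_cancel (tvG hA c a₀)
    rw [smul_smul, tvG_add, add_sub_cancel, ha, ha₀]

open _root_.Classical in
/-- The orbits of the points satisfying a predicate. -/
noncomputable def Ypred (c : V) (P : Ω → Prop) : Finset (Yc hA Ω c) :=
  (Finset.univ.filter P).image (mkY hA c)

theorem mem_Ypred {c : V} {P : Ω → Prop} {y : Yc hA Ω c} : y ∈ Ypred hA c P ↔ ∃ ω, P ω ∧ mkY hA c ω = y := by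
  classical
  simp [Ypred]

theorem mk_mem_Ypred {c : V} {P : Ω → Prop} {ω : Ω} (h : P ω) : mkY hA c ω ∈ Ypred hA c P :=
  (mem_Ypred hA).mpr ⟨ω, h, rfl⟩

theorem card_filter_eq_sum (c : V) (P : Ω → Prop) [DecidablePred P] (hT : ∀ a ω, P ω → P (tvG hA c a • ω)) :
    (Finset.univ.filter P).card = ∑ τ ∈ Ypred hA c P, tcard hA c τ := by
  classical
  have e : Ypred hA c P = (Finset.univ.filter P).image (mkY hA c) := by
    ext y
    simp [mem_Ypred]
  rw [e, Finset.card_eq_sum_card_image (mkY hA c)]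
  apply Finset.sum_congr rfl
  intro τ hτ
  rw [tcard]
  congr 1
  ext ω'
  simp only [Finset.mem_filter, Finset.mem_univ, true_and, and_iff_right_iff_imp]
  intro h
  obtain ⟨ω, hω, rfl⟩ := Finset.mem_image.mp hτ
  obtain ⟨a, rfl⟩ := (mkY_eq hA).mp h.symm
  exact hT a ω (by simpa using hω)

/-- Points on which the root group acts freely. -/
theorem tcard_of_free {c : V} {ω : Ω} (h : ∀ a, tvG hA c a • ω = ω → a = 0) :
    tcard hA c (mkY hA c ω) = Fintype.card F := by
  have h1 := tcard_mul hA c ω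
  have h2 : Ast hA c ω = ⊥ := (AddSubgroup.eq_bot_iff_forall _).mpr (fun a ha => h a ha)
  rw [h2] at h1
  simpa using h1

end Orb

/-! ### Invariance -/

/-- Being fixed by the root group only depends on the line. -/
theorem Fx_iff_of_scale {p : V} (g : IsomGroup B) {t : F} (ht : t ≠ 0) (h : g.1 p = t • p) (ω : Ω) :
    Fx hA (g • ω) p ↔ Fx hA ω p := by
  constructor
  · intro h1
    have h2 := Fx_map hA g⁻¹ h1
    rw [inv_smul_smul] at h2
    have h3 := Fx_smul hA t h2
    have e : t • (g⁻¹).1 p = p := by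
      rw [← map_smul, ← h, inv_coe_apply']
    rwa [e] at h3
  · intro h1
    have h2 := Fx_map hA g h1
    rw [h] at h2
    have h3 := Fx_smul hA t⁻¹ h2
    rwa [smul_smul, inv_mul_cancel₀ ht, one_smul] at h3

section Invariance

variable {c c' : V} (huv : B c c' = 1)

include huv

theorem rho_left (w : perpPair B c c') (a : F) : (rho hA c (w : V) a).1 c = (1 : F) • c := by
  rw [rho_apply hA (hcW hA huv w), swap hA c (w : V), (mem_perpPair.mp w.2).1]
  simp [hA c]

variable [Fintype F] [Fintype Ω]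

theorem Ypred_act {P : Ω → Prop} (hP : ∀ (w : perpPair B c c') ω, P ω → P (rho hA c (w : V) 0 • ω)) :
    ∀ y ∈ Ypred hA c P, ∀ w, (wSet hA huv).act w y ∈ Ypred hA c P := by
  intro y hy w
  obtain ⟨ω, h, rfl⟩ := (mem_Ypred hA).mp hy
  rw [wSet_act_mk]
  exact mk_mem_Ypred hA (hP w ω h)

omit huv in
theorem Ypred_kap {P : Ω → Prop} (hP : ∀ (ℓ : stabPair B c c') ω, P ω → P (ℓ.1 • ω)) :
    ∀ y ∈ Ypred hA c P, ∀ ℓ : stabPair B c c', kap hA ℓ y ∈ Ypred hA c P := by
  intro y hy ℓ
  obtain ⟨ω, h, rfl⟩ := (mem_Ypred hA).mp hy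
  rw [kap_mk]
  exact mk_mem_Ypred hA (hP ℓ ω h)

theorem Ypred_z {P : Ω → Prop} (t : F) (ht : t ≠ 0) (hP : ∀ ω, P ω → P (hh hA huv t ht • ω)) :
    ∀ y ∈ Ypred hA c P, zAct hA huv t ht y ∈ Ypred hA c P := by
  intro y hy
  obtain ⟨ω, h, rfl⟩ := (mem_Ypred hA).mp hy
  rw [zAct_mk]
  exact mk_mem_Ypred hA (hP ω h)

end Invariance

theorem scale_tv (c : V) (a : F) : (tvG hA c a).1 c = (1 : F) • c := by
  rw [tvG_apply, hA c]
  simp

section Bound

variable [Fintype F] [Fintype V] (hB : B.Nondegenerate) [Fintype Ω]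

/-- A bound on the root vectors of a point which is partially fixed by a root group. -/
theorem card_PS_le_of_partial {ω : Ω} {c c' : V} (huv : B c c' = 1) {a : F} (ha : a ≠ 0) (hc : tvG hA c a • ω = ω)
    (hnc : ¬ Fx hA ω c) :
    (PS hA ω).card + Fintype.card F ≤ Fintype.card F * Nat.card (perpPair B c c') := by
  classical
  rw [← card_perp_vec hA huv]
  have hc0 : c ≠ 0 := by
    rintro rfl
    exact hnc (Fx_zero hA ω)
  have himg : (Finset.univ.image (fun t : F => t • c)).card = Fintype.card F := by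
    rw [Finset.card_image_of_injective _ (smul_left_injective F hc0), Finset.card_univ]
  rw [← himg, ← Finset.card_union_of_disjoint]
  · apply Finset.card_le_card
    intro v hv
    rw [Finset.mem_union, Finset.mem_image] at hv
    simp only [Finset.mem_filter, Finset.mem_univ, true_and]
    rcases hv with hv | ⟨t, -, rfl⟩
    · exact partial_perp hA ha hc hnc ((mem_PS hA).mp hv).2
    · simp [hA c]
  · rw [Finset.disjoint_left]
    intro v hv hv'
    obtain ⟨t, -, rfl⟩ := Finset.mem_image.mp hv'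
    obtain ⟨h1, h2⟩ := (mem_PS hA).mp hv
    have ht : t ≠ 0 := by
      rintro rfl
      simp at h1
    apply hnc
    have := Fx_smul hA t⁻¹ h2
    rwa [smul_smul, inv_mul_cancel₀ ht, one_smul] at this

end Bound

/-! ### Numerics -/

section Numerics

variable [Fintype F] [Fintype V] (hB : B.Nondegenerate) [Fintype Ω]
  [MulAction.IsPretransitive (IsomGroup B) Ω]

include hB

/-- The lower bound for the root vectors at a point, from the degree being small. -/
theorem card_PS_gt {N : ℕ} (hN : (Fintype.card F - 1) * N + 1 = Fintype.card V) (hd : Fintype.card Ω < N)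
    (ω : Ω) {v : V} (hv : v ≠ 0) (hf : 0 < (FS (Ω := Ω) hA v).card) :
    (Fintype.card F - 1) * (FS (Ω := Ω) hA v).card < (PS hA ω).card := by
  have h1 := double_count hA hB ω hv
  have hq : 2 ≤ Fintype.card F := Fintype.one_lt_card
  have h2 : Fintype.card V - 1 = (Fintype.card F - 1) * N := by omega
  rw [h2] at h1
  by_contra hno
  push Not at hno
  set X := (Fintype.card F - 1) * (FS (Ω := Ω) hA v).card with hX
  have hXpos : 0 < X := Nat.mul_pos (by omega) hf
  have h3 : (PS hA ω).card * Fintype.card Ω = X * N := by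
    rw [h1, hX]
    ring
  have h4 : (PS hA ω).card * Fintype.card Ω ≤ X * Fintype.card Ω := Nat.mul_le_mul_right _ hno
  have h5 : X * Fintype.card Ω < X * N := Nat.mul_lt_mul_of_pos_left hd hXpos
  omega

end Numerics

omit hA in
theorem exists_psi [Fintype F] : ∃ ψ : AddChar F ℂ, ψ ≠ 1 := by
  obtain ⟨ψ, hψ⟩ := (AddChar.exists_apply_ne_zero (α := F)).mpr (one_ne_zero (α := F))
  exact ⟨ψ, fun h => hψ (by rw [h]; rfl)⟩

omit hA in
theorem exists_ne_zero_one [Fintype F] (hq : 3 ≤ Fintype.card F) : ∃ t : F, t ≠ 0 ∧ t ≠ 1 := by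
  classical
  by_contra hno
  push Not at hno
  have : (Finset.univ : Finset F) ⊆ {0, 1} := by
    intro t _
    by_cases h : t = 0
    · simp [h]
    · simp [hno t h]
  have h2 := Finset.card_le_card this
  rw [Finset.card_univ] at h2
  have h3 : ({0, 1} : Finset F).card ≤ 2 := Finset.card_le_two
  omega

/-! ### The fixed orbit -/

section FixedPoint

variable {c c' : V} (huv : B c c' = 1) [Finite Ω] [Finite V]

include huv

/-- A scalar action on the orbit set gives a canonical orbit. -/
theorem fixed_point [Fintype F] {t : F} (ht : t ≠ 0) (ht1 : t ≠ 1) (Y1 : Finset (Yc hA Ω c))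
    (hinv1 : ∀ y ∈ Y1, ∀ w, (wSet hA huv).act w y ∈ Y1)
    (hinv2 : ∀ y ∈ Y1, ∀ ℓ : stabPair B c c', kap hA ℓ y ∈ Y1) {y : Yc hA Ω c} (hy : y ∈ Y1)
    (huniq : ∀ y' ∈ Y1, (wSet hA huv).stab y' = (wSet hA huv).stab y → ∃ w, (wSet hA huv).act w y = y')
    (hz1 : ∀ y ∈ Y1, zAct hA huv t ht y ∈ Y1)
    (hRs : ∀ s : F, s ≠ 0 → ∀ r : perpPair B c c', s • r ∈ (wSet hA huv).stab y ↔ r ∈ (wSet hA huv).stab y) :
    ∃ w, zAct hA huv t ht ((wSet hA huv).act w y) = (wSet hA huv).act w y ∧
      ∀ ℓ : stabPair B c c', mp phi ℓ ((wSet hA huv).stab y) = (wSet hA huv).stab y →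
        kap hA ℓ ((wSet hA huv).act w y) = (wSet hA huv).act w y := by
  classical
  have : Fintype (perpPair B c c') := Fintype.ofFinite _
  have : Fintype (Yc hA Ω c) := Fintype.ofFinite _
  have h1t : (1 - t) ≠ 0 := sub_ne_zero.mpr (Ne.symm ht1)
  obtain ⟨τ, hτ, h1, h2⟩ := exists_fixed (A := wSet (Ω := Ω) hA huv) (φ := phi) (κ := kap hA)
    (kap_compat hA huv) Y1 hinv1 hinv2 hy
    (fun y' hy' h => (WSet.mem_orb _).mpr (huniq y' hy' h))
    (zAct hA huv t ht) (LinearEquiv.smulOfNeZero F (perpPair B c c') t ht).toAddEquiv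
    hz1 (zAct_inj hA huv t ht) (fun w y => zAct_act hA huv t ht w y) (fun ℓ y => zAct_kap hA huv t ht ℓ y)
    (fun r => hRs t ht r)
    (fun w => ⟨(1 - t)⁻¹ • w, by
      change (1 - t)⁻¹ • w - t • (1 - t)⁻¹ • w = w
      have e : (1 - t)⁻¹ - t * (1 - t)⁻¹ = 1 := by field_simp
      rw [smul_smul, ← sub_smul, e, one_smul]⟩)
    (fun u hu => by
      have e : u - (LinearEquiv.smulOfNeZero F (perpPair B c c') t ht).toAddEquiv u = (1 - t) • u := by
        change u - t • u = (1 - t) • u
        rw [sub_smul, one_smul]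
      rw [e] at hu
      exact (hRs _ h1t u).mp hu)
  obtain ⟨w, rfl⟩ := (WSet.mem_orb _).mp hτ
  exact ⟨w, h1, h2⟩

end FixedPoint

/-! ### The bridging statement and large fixed sets -/

section Large

variable [Fintype F] [Fintype V] (hB : B.Nondegenerate) [Fintype Ω]
  [MulAction.IsPretransitive (IsomGroup B) Ω] [Nontrivial Ω]

omit hA hB [Fintype F] [Fintype V] [Fintype Ω] [MulAction.IsPretransitive (IsomGroup B) Ω] [Nontrivial Ω] in
/-- For every hyperbolic pair, some point not fixed by the root group has a proper radical stabilizer. -/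
def Bridge (hA : B.IsAlt) (Ω : Type*) [MulAction (IsomGroup B) Ω] : Prop :=
  ∀ (c c' : V) (huv : B c c' = 1), ∃ ω : Ω, ¬ Fx hA ω c ∧ (wSet (Ω := Ω) hA huv).stab (mkY hA c ω) ≠ ⊤

include hB

/-- Large fixed sets of a root group cannot occur. -/
theorem large_kill {w N : ℕ} (hwc : ∀ c c' : V, B c c' = 1 → Nat.card (perpPair B c c') = w)
    (hV : Fintype.card V = Fintype.card F ^ 2 * w) (hN : (Fintype.card F - 1) * N + 1 = Fintype.card V)
    (hd : Fintype.card Ω < N) (hBr : Bridge hA Ω) {p : V} (hp : p ≠ 0) (hf : 0 < (FS (Ω := Ω) hA p).card)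
    (hbig : (w - 1) * Fintype.card F ≤ (Fintype.card F - 1) * (FS (Ω := Ω) hA p).card) : False := by
  classical
  have hq2 : 2 ≤ Fintype.card F := Fintype.one_lt_card
  obtain ⟨ψ, hψ⟩ := exists_psi (F := F)
  -- no partial fixing
  have hnp : ∀ (ω : Ω) (c : V) (a : F), a ≠ 0 → tvG hA c a • ω = ω → Fx hA ω c := by
    intro ω c a ha hω
    by_contra hnc
    have hc0 : c ≠ 0 := by
      rintro rfl
      exact hnc (Fx_zero hA ω)
    obtain ⟨c', hc'⟩ := exists_partner hB hc0
    have h1 := card_PS_le_of_partial hA hc' ha hω hnc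
    have h2 := card_PS_gt hA hB hN hd ω hp hf
    rw [hwc c c' hc'] at h1
    have h3 : Fintype.card F * w = (w - 1) * Fintype.card F + Fintype.card F := by
      have hw0 : 1 ≤ w := by
        rw [← hwc c c' hc']
        exact Nat.card_pos
      obtain ⟨w', rfl⟩ : ∃ w', w = w' + 1 := ⟨w - 1, by omega⟩
      simp only [Nat.add_sub_cancel]
      ring
    omega
  obtain ⟨p', hp'⟩ := exists_partner hB hp
  obtain ⟨ω₀, h01, h02⟩ := hBr p p' hp'
  let P : Ω → Prop := fun ω => ¬ Fx hA ω p
  have hT : ∀ a ω, P ω → P (tvG hA p a • ω) := by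
    intro a ω h h1
    exact h ((Fx_iff_of_scale hA (tvG hA p a) one_ne_zero (scale_tv hA p a) ω).mp h1)
  have hY := (local_types hA hp' hB ψ hψ (Ypred hA p P)
    (Ypred_act hA hp' (fun w ω h h1 => h ((Fx_iff_of_scale hA _ one_ne_zero (rho_left hA hp' w 0) ω).mp h1)))
    (Ypred_kap hA (fun ℓ ω h h1 => h ((Fx_iff_of_scale hA _ one_ne_zero (stab_left hA ℓ) ω).mp h1)))
    (mk_mem_Ypred hA h01) h02).1
  rw [hwc p p' hp'] at hY
  have hM : (Finset.univ.filter P).card = Fintype.card F * (Ypred hA p P).card := by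
    rw [card_filter_eq_sum hA p P hT, mul_comm, ← smul_eq_mul, ← Finset.sum_const]
    apply Finset.sum_congr rfl
    intro τ hτ
    obtain ⟨ω, hω, rfl⟩ := (mem_Ypred hA).mp hτ
    apply tcard_of_free
    intro a ha
    by_contra ha0
    exact hω (hnp ω p a ha0 ha)
  have hsum : (FS (Ω := Ω) hA p).card + (Finset.univ.filter P).card = Fintype.card Ω := by
    have := Finset.card_filter_add_card_filter_not (s := (Finset.univ : Finset Ω)) (fun ω => Fx hA ω p)
    rw [Finset.card_univ] at this
    rw [← this]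
    rfl
  set f := (FS (Ω := Ω) hA p).card with hfdef
  set d := Fintype.card Ω with hddef
  set q := Fintype.card F with hqdef
  have hdc := double_count hA hB ω₀ hp
  obtain ⟨a', ha'⟩ := dvd_card_PS hA (ω := ω₀)
  rw [← hfdef, ← hddef, ha'] at hdc
  obtain ⟨q1, hq1⟩ : ∃ q1, q = q1 + 2 := ⟨q - 2, by omega⟩
  have hq1' : q - 1 = q1 + 1 := by omega
  rw [hV] at hN
  have hVN : Fintype.card V - 1 = (q - 1) * N := by
    rw [hV]
    omega
  rw [hVN, hq1', mul_assoc, mul_assoc] at hdc
  have hdc' : a' * d = N * f := Nat.eq_of_mul_eq_mul_left (by omega) hdc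
  rw [hq1'] at hN hbig
  -- the numerics
  have hwpos : 1 ≤ w := by
    rw [← hwc p p' hp']
    exact Nat.card_pos
  have hdge : N ≤ d + 1 := by
    by_contra hlt
    push Not at hlt
    have h1 : f + q * w ≤ d := by
      have := Nat.mul_le_mul_left q hY
      omega
    obtain ⟨w', rfl⟩ : ∃ w', w = w' + 1 := ⟨w - 1, by omega⟩
    simp only [Nat.add_sub_cancel] at hbig
    rw [hq1] at h1 hbig hN
    have h2 : (q1 + 1) * (f + (q1 + 2) * (w' + 1)) ≤ (q1 + 1) * d := Nat.mul_le_mul_left _ h1
    have h3 : (q1 + 1) * (d + 2) ≤ (q1 + 1) * N := Nat.mul_le_mul_left _ hlt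
    nlinarith
  have hNd : N = d + 1 := by omega
  have hdvd : d ∣ f := by
    have h1 : d ∣ N * f := ⟨a', by rw [← hdc']; ring⟩
    have hcop : Nat.Coprime d N := by
      rw [hNd]
      simp
    exact hcop.dvd_of_dvd_mul_left h1
  have hfd : f = d := by
    have h1 := Nat.le_of_dvd hf hdvd
    omega
  have hall : ∀ ω : Ω, Fx hA ω p := by
    intro ω
    have h1 : (Finset.univ.filter P).card = 0 := by omega
    rw [Finset.card_eq_zero] at h1
    by_contra hω
    have : ω ∈ Finset.univ.filter P := by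
      simp [P, hω]
    rw [h1] at this
    simp at this
  obtain ⟨ω, hω⟩ := exists_not_fx' hA hB (Ω := Ω) hp
  exact hω (hall ω)

end Large

/-! ### Fixed sets are small -/

section KB

variable [Fintype F] [Fintype V] (hB : B.Nondegenerate) [Fintype Ω]
  [MulAction.IsPretransitive (IsomGroup B) Ω] [Nontrivial Ω]

include hB

/-- The bound for the root vectors at a point fixed by a Levi factor. -/
theorem kb_bound (hq : 3 ≤ Fintype.card F) {p p' : V} (huv : B p p' = 1) {ω : Ω} (hFx : Fx hA ω p)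
    (hL : ∀ ℓ : stabPair B p p', ℓ.1 • ω = ω)
    (hR : ∀ (w : perpPair B p p') (a : F), rho hA p (w : V) a • ω = ω → w = 0) :
    (PS hA ω).card + 2 ≤ Fintype.card F ^ 2 + Nat.card (perpPair B p p') := by
  classical
  have : Fintype (perpPair B p p') := Fintype.ofFinite _
  have hvu : B p' p = -1 := hyp_vu hA huv
  have hsubA : ∀ (α : F) (w : perpPair B p p'), α ≠ 0 → w ≠ 0 → Fx hA ω (α • p + (w : V)) → False := by
    intro α w hα hw h
    have e := tv_add_eq hA (hcW hA huv w) α 1
    have h1 : rho hA p ((1 * α) • (w : V)) (1 * α ^ 2) • ω = ω := by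
      rw [← e, mul_smul]
      have h2 : tvG hA (w : V) (-1) • ω = ω := hL (tvL hA huv w (-1))
      rw [h2]
      exact h 1
    have h2 := hR (α • w) _ (by simpa using h1)
    exact hw ((smul_eq_zero.mp h2).resolve_left hα)
  have hsubB : ∀ (α β : F) (w : perpPair B p p'), β ≠ 0 → w ≠ 0 → Fx hA ω (α • p + β • p' + (w : V)) → False := by
    intro α β w hβ hw h
    obtain ⟨t, ht0, ht1⟩ := exists_ne_zero_one (F := F) hq
    obtain ⟨ℓ, hℓ⟩ := levi_trans hA huv hB w (t • w) hw (smul_ne_zero ht0 hw)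
    have hw1 := mem_perpPair.mp w.2
    set v := α • p + β • p' + (w : V) with hv
    have h1 := Fx_closure hA (hFx 1) h
    have h3 := Fx_closure hA (hL ℓ) h1
    have hℓw : ℓ.1.1 (w : V) = t • (w : V) := by
      rw [← phi_coe, hℓ]
      rfl
    have hvp : B v p = -β := by
      simp [hv, hA p, hvu, hw1.1]
    have e3 : ℓ.1.1 ((tvG hA p 1).1 v) = (α - β) • p + β • p' + t • (w : V) := by
      rw [tvG_apply, hvp, hv]
      simp only [map_add, map_smul]
      rw [ℓ.2.1, ℓ.2.2, hℓw]
      module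
    rw [e3] at h3
    have hne : B ((α - β) • p + β • p' + t • (w : V)) v ≠ 0 := by
      have hw2 : B p (w : V) = 0 := hcW hA huv w
      have hw3 : B p' (w : V) = 0 := by rw [swap hA, hw1.2, neg_zero]
      have e : B ((α - β) • p + β • p' + t • (w : V)) v = -(β * β) := by
        simp only [hv, map_add, map_smul, LinearMap.add_apply, LinearMap.smul_apply, smul_eq_mul, hA p, hA p', huv, hvu,
          hw2, hw3, hw1.1, hw1.2, hA (w : V)]
        ring
      rw [e]
      exact neg_ne_zero.mpr (mul_ne_zero hβ hβ)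
    have h4 := Fx_span hA h h3 hne 1 (-1)
    have e4 : (1 : F) • v + (-1 : F) • ((α - β) • p + β • p' + t • (w : V)) = β • p + (((1 - t) • w : perpPair B p p') : V) := by
      rw [Submodule.coe_smul, hv]
      module
    rw [e4] at h4
    exact hsubA β _ hβ (smul_ne_zero (sub_ne_zero.mpr (Ne.symm ht1)) hw) h4
  have hS1 : ((Finset.univ : Finset (F × F)).image (fun x => x.1 • p + x.2 • p')).card ≤ Fintype.card F ^ 2 := by
    refine Finset.card_image_le.trans ?_
    rw [Finset.card_univ, Fintype.card_prod, sq]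
  have hS2 : (Finset.image (fun x : perpPair B p p' => (x : V)) Finset.univ).card ≤ Nat.card (perpPair B p p') := by
    refine Finset.card_image_le.trans ?_
    rw [Finset.card_univ, Nat.card_eq_fintype_card]
  have h01 : (0 : V) ∈ (Finset.univ : Finset (F × F)).image (fun x => x.1 • p + x.2 • p') :=
    Finset.mem_image.mpr ⟨(0, 0), Finset.mem_univ _, by simp⟩
  have h02 : (0 : V) ∈ Finset.image (fun x : perpPair B p p' => (x : V)) Finset.univ :=
    Finset.mem_image.mpr ⟨0, Finset.mem_univ _, rfl⟩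
  have hsub : PS hA ω ⊆ (((Finset.univ : Finset (F × F)).image (fun x => x.1 • p + x.2 • p')).erase 0) ∪
      ((Finset.image (fun x : perpPair B p p' => (x : V)) Finset.univ).erase 0) := by
    intro v hv
    obtain ⟨hv0, hv1⟩ := (mem_PS hA).mp hv
    have hdec := decomp hA huv v
    rw [Finset.mem_union, Finset.mem_erase, Finset.mem_erase]
    by_cases hw : proj hA huv v = 0
    · left
      refine ⟨hv0, Finset.mem_image.mpr ⟨(B v p', - B v p), Finset.mem_univ _, ?_⟩⟩
      conv_rhs => rw [hdec, hw]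
      simp only [neg_smul, Submodule.coe_zero]
      abel
    · right
      refine ⟨hv0, ?_⟩
      have hβ : B v p = 0 := by
        by_contra hβ
        apply hsubB (B v p') (-B v p) (proj hA huv v) (neg_ne_zero.mpr hβ) hw
        have e : B v p' • p + (-B v p) • p' + (proj hA huv v : V) = v := by
          conv_rhs => rw [hdec]
          simp only [neg_smul]
          abel
        rwa [e]
      have hα : B v p' = 0 := by
        by_contra hα
        apply hsubA (B v p') (proj hA huv v) hα hw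
        have e : B v p' • p + (proj hA huv v : V) = v := by
          conv_rhs => rw [hdec, hβ]
          simp
        rwa [e]
      refine Finset.mem_image.mpr ⟨proj hA huv v, Finset.mem_univ _, ?_⟩
      conv_rhs => rw [hdec, hβ, hα]
      simp
  have h1 := Finset.card_le_card hsub
  have h2 := Finset.card_union_le (((Finset.univ : Finset (F × F)).image (fun x => x.1 • p + x.2 • p')).erase 0)
      ((Finset.image (fun x : perpPair B p p' => (x : V)) Finset.univ).erase 0)
  rw [Finset.card_erase_of_mem h01, Finset.card_erase_of_mem h02] at h2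
  have h3 := Finset.card_pos.mpr ⟨_, h01⟩
  have h4 := Finset.card_pos.mpr ⟨_, h02⟩
  omega

/-- Points fixed by a root group have a large radical stabilizer. -/
theorem claim1 (hq : 3 ≤ Fintype.card F) {w N : ℕ} (hwc : ∀ c c' : V, B c c' = 1 → Nat.card (perpPair B c c') = w)
    (hw2 : Fintype.card F ^ 2 ≤ w)
    (hV : Fintype.card V = Fintype.card F ^ 2 * w) (hN : (Fintype.card F - 1) * N + 1 = Fintype.card V)
    (hd : Fintype.card Ω < N) (hBr : Bridge hA Ω) {p p' : V} (huv : B p p' = 1) {ω : Ω} (hFx : Fx hA ω p) :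
    (wSet hA huv).stab (mkY hA p ω) = ⊤ := by
  classical
  by_contra hR
  obtain ⟨ψ, hψ⟩ := exists_psi (F := F)
  have hp : p ≠ 0 := by
    rintro rfl
    simp at huv
  let P : Ω → Prop := fun ω => Fx hA ω p
  have hinvw : ∀ (w : perpPair B p p') ω, P ω → P (rho hA p (w : V) 0 • ω) :=
    fun w ω h => (Fx_iff_of_scale hA _ one_ne_zero (rho_left hA huv w 0) ω).mpr h
  have hinvk : ∀ (ℓ : stabPair B p p') ω, P ω → P (ℓ.1 • ω) :=
    fun ℓ ω h => (Fx_iff_of_scale hA _ one_ne_zero (stab_left hA ℓ) ω).mpr h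
  have hY := local_types hA huv hB ψ hψ (Ypred hA p P) (Ypred_act hA huv hinvw) (Ypred_kap hA hinvk)
    (mk_mem_Ypred hA hFx) hR
  rw [hwc p p' huv] at hY
  have hcard : (Ypred hA p P).card = (FS (Ω := Ω) hA p).card := by
    rw [Ypred]
    apply Finset.card_image_of_injOn
    intro x hx y _ hxy
    obtain ⟨a, rfl⟩ := (mkY_eq hA).mp hxy
    have hx' : Fx hA x p := by simpa using hx
    exact (hx' a).symm
  rw [hcard] at hY
  set f := (FS (Ω := Ω) hA p).card with hfdef
  have hq2 : 2 ≤ Fintype.card F := by omega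
  have hwpos : 1 ≤ w := by
    rw [← hwc p p' huv]
    exact Nat.card_pos
  have hfpos : 0 < f := by omega
  have hkill : (w - 1) * Fintype.card F ≤ (Fintype.card F - 1) * f → False := large_kill hA hB hwc hV hN hd hBr hp hfpos
  obtain ⟨hY1, hY2⟩ := hY
  obtain ⟨q1, hq1⟩ : ∃ q1, Fintype.card F = q1 + 3 := ⟨Fintype.card F - 3, by omega⟩
  obtain ⟨w1, rfl⟩ : ∃ w1, w = w1 + 1 := ⟨w - 1, by omega⟩
  rcases hY2 with h2 | ⟨huniq, h3 | ⟨v, hv, hR1, hR2⟩⟩ | ⟨v, hv, s, hs2, hsd, hsq, hs1, hR1, hR2⟩
  · apply hkill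
    rw [hq1]
    simp only [Nat.add_sub_cancel]
    have : q1 + 3 - 1 = q1 + 2 := by omega
    rw [this]
    nlinarith
  · -- the stabilizer is trivial
    obtain ⟨t, ht0, ht1⟩ := exists_ne_zero_one (F := F) hq
    obtain ⟨u, hz, hk⟩ := fixed_point hA huv ht0 ht1 (Ypred hA p P) (Ypred_act hA huv hinvw) (Ypred_kap hA hinvk)
      (mk_mem_Ypred hA hFx) huniq (Ypred_z hA huv t ht0 (fun ω h =>
        (Fx_iff_of_scale hA _ ht0 (hh_left hA huv t ht0) ω).mpr h)) (by
        intro s hs r
        rw [h3, AddSubgroup.mem_bot, AddSubgroup.mem_bot]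
        exact smul_eq_zero_iff_right hs)
    rw [wSet_act_mk] at hk
    set ω₁ := rho hA p (u : V) 0 • ω with hω₁
    have hF1 : Fx hA ω₁ p := hinvw u ω hFx
    have hL : ∀ ℓ : stabPair B p p', ℓ.1 • ω₁ = ω₁ := by
      intro ℓ
      have h1 := hk ℓ (by
        rw [h3]
        ext x
        rw [mem_mp]
        simp only [AddSubgroup.mem_bot]
        constructor
        · rintro ⟨r, hr, rfl⟩
          rw [hr, map_zero]
        · rintro rfl
          exact ⟨0, rfl, map_zero _⟩)
      rw [kap_mk] at h1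
      obtain ⟨a, ha⟩ := (mkY_eq hA).mp h1.symm
      rw [← ha]
      exact hF1 a
    have hR0 : ∀ (x : perpPair B p p') (a : F), rho hA p (x : V) a • ω₁ = ω₁ → x = 0 := by
      intro x a hx
      have h1 : x ∈ (wSet hA huv).stab (mkY hA p ω₁) := (mem_stab_mk hA huv).mpr ⟨a, hx⟩
      rw [hω₁, ← wSet_act_mk hA huv, WSet.stab_act, h3] at h1
      exact (AddSubgroup.mem_bot).mp h1
    have h4 := kb_bound hA hB hq huv hF1 hL hR0
    rw [hwc p p' huv] at h4
    have h5 := card_PS_gt hA hB hN hd ω₁ hp hfpos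
    rw [hq1] at h4 h5 hw2
    have : q1 + 3 - 1 = q1 + 2 := by omega
    rw [this] at h5
    nlinarith
  · apply hkill
    exact hR2
  · apply hkill
    rw [hq1] at hsq ⊢
    obtain ⟨s1, rfl⟩ : ∃ s1, s = s1 + 2 := ⟨s - 2, by omega⟩
    have e1 : s1 + 2 - 1 = s1 + 1 := by omega
    have e2 : q1 + 3 - 1 = q1 + 2 := by omega
    rw [e1] at hs1
    rw [e2]
    simp only [Nat.add_sub_cancel] at hs1 ⊢
    have h7 : w1 * (q1 + 3) * (s1 + 1) ≤ (q1 + 2) * f * (s1 + 1) := by
      have h8 : w1 * (s1 + 2) * (q1 + 2) ≤ (s1 + 1) * f * (q1 + 2) := Nat.mul_le_mul_right _ hs1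
      nlinarith
    have h9 : 0 < s1 + 1 := by omega
    exact Nat.le_of_mul_le_mul_right h7 h9

end KB


end Cfsg.Agent.Lib.MinIndex.SpFix
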