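import Mathlib
import Cfsg.Agent.Lib.MinIndex.SpFix

/-!
# No root group has fixed points
-/

set_option autoImplicit false
set_option linter.unusedSectionVars false
set_option linter.unusedSimpArgs false
set_option linter.unusedVariables false

namespace Cfsg.Agent.Lib.MinIndex.SpFix2

open Cfsg.Agent.Lib.Classical.Symp.AltForm Cfsg.Agent.Lib.Classical.Symp.Hyperbolic
open Cfsg.Agent.Lib.MinIndex.SpLocal Cfsg.Agent.Lib.MinIndex.SpCount Cfsg.Agent.Lib.MinIndex.SpOrbit
open Cfsg.Agent.Lib.MinIndex.SpGlob Cfsg.Agent.Lib.MinIndex.SpFix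

variable {F V : Type*} [Field F] [AddCommGroup V] [Module F V] {B : LinearMap.BilinForm F V} (hA : B.IsAlt)
variable {Ω : Type*} [MulAction (IsomGroup B) Ω]

section Ctx

variable [Fintype F] [Fintype V] [Fintype Ω]

/-- The numerical context. -/
structure Ctx (hA : B.IsAlt) (hB : B.Nondegenerate) (Ω : Type*) [MulAction (IsomGroup B) Ω] [Fintype Ω]
    (w N : ℕ) : Prop where
  hq : 3 ≤ Fintype.card F
  hwc : ∀ c c' : V, B c c' = 1 → Nat.card (perpPair B c c') = w
  hw2 : Fintype.card F ^ 2 ≤ w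
  hV : Fintype.card V = Fintype.card F ^ 2 * w
  hN : (Fintype.card F - 1) * N + 1 = Fintype.card V
  hd : Fintype.card Ω < N
  hBr : Bridge hA Ω

end Ctx

include hA

/-- Reduction of radical elements to the complement. -/
theorem rho_add_self {p w₁ : V} (hw : B p w₁ = 0) (α a : F) :
    rho hA p (α • p + w₁) a = rho hA p w₁ (a + 2 * α) := by
  apply gext
  intro x
  rw [rho_apply hA (by simp [hA p, hw]), rho_apply hA hw]
  simp only [map_add, map_smul, smul_eq_mul]
  module

section Main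

variable [Fintype F] [Fintype V] {hB : B.Nondegenerate} [Fintype Ω]
  [MulAction.IsPretransitive (IsomGroup B) Ω] [Nontrivial Ω] {w N : ℕ} (C : Ctx hA hB Ω w N)

include C

/-- Consequence of the classification of local types. -/
theorem rho_all {p x : V} (hp : p ≠ 0) {ω : Ω} (hFx : Fx hA ω p) (hx : B p x = 0) (a : F) :
    rho hA p x a • ω = ω := by
  obtain ⟨p', huv⟩ := exists_partner hB hp
  have h1 := claim1 hA hB C.hq C.hwc C.hw2 C.hV C.hN C.hd C.hBr huv hFx
  have h2 : proj hA huv x ∈ (wSet hA huv).stab (mkY hA p ω) := by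
    rw [h1]
    trivial
  obtain ⟨a₀, ha₀⟩ := (mem_stab_mk hA huv).mp h2
  have hxp : B x p = 0 := by rw [swap hA, hx, neg_zero]
  have hdec := decomp hA huv x
  rw [hxp, zero_smul, sub_zero] at hdec
  have hc := hcW hA huv (proj hA huv x)
  rw [hdec, rho_add_self hA hc]
  have e : a + 2 * B x p' = a₀ + (a + 2 * B x p' - a₀) := by ring
  rw [e, ← rho_tv hA hc, mul_smul, ha₀]
  exact hFx _

/-- The root vectors at a point are pairwise orthogonal. -/
theorem Fx_perp {u v : V} {ω : Ω} (hu : Fx hA ω u) (hv : Fx hA ω v) : B v u = 0 := by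
  by_contra hvu
  have hu0 : u ≠ 0 := by
    rintro rfl
    simp at hvu
  have huv : B u v ≠ 0 := by
    rw [swap hA]
    exact neg_ne_zero.mpr hvu
  -- a coset
  have h1 : ∀ x : V, B u x = 0 → Fx hA ω (v + B v u • x) := by
    intro x hx
    have h2 := rho_all hA C hu0 hu hx 0
    have h3 := Fx_closure hA h2 hv
    rw [rho_apply hA hx] at h3
    have hne : B (v + B v x • u + B v u • x + (0 * B v u) • u) u ≠ 0 := by
      have hxu : B x u = 0 := by rw [swap hA, hx, neg_zero]
      simpa [hA u, hxu] using hvu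
    have h4 := Fx_span hA hu h3 hne (- B v x) 1
    have e : (- B v x) • u + (1 : F) • (v + B v x • u + B v u • x + (0 * B v u) • u) = v + B v u • x := by
      module
    rwa [e] at h4
  have h2 : ∀ x : V, B x u ≠ 0 → Fx hA ω x := by
    intro x hx
    set t := B x u / B v u with ht
    have ht0 : t ≠ 0 := div_ne_zero hx hvu
    have hperp : B u ((B v u)⁻¹ • (t⁻¹ • x - v)) = 0 := by
      simp only [map_smul, map_sub, smul_eq_mul]
      rw [swap hA u x, swap hA u v, ht]
      field_simp
      ring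
    have h3 := Fx_smul hA t (h1 _ hperp)
    have e : t • (v + B v u • (B v u)⁻¹ • (t⁻¹ • x - v)) = x := by
      rw [smul_smul, mul_inv_cancel₀ hvu, one_smul]
      simp [smul_smul, ht0]
    rwa [e] at h3
  obtain ⟨x, hx⟩ := exists_not_fx hA hB ω
  apply hx
  by_cases hxu : B x u = 0
  · have hx0 : x ≠ 0 := by
      rintro rfl
      exact hx (Fx_zero hA ω)
    have hW : ∀ x ∈ (⊤ : Submodule F V), x ≠ 0 → ∃ y ∈ (⊤ : Submodule F V), B x y ≠ 0 := by
      intro x _ h0
      by_contra hno
      push Not at hno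
      exact h0 (hB.1 x (fun y => hno y trivial))
    obtain ⟨y, -, hy1, hy2⟩ := exists_common_nonorth hA hW Submodule.mem_top Submodule.mem_top hx0 hu0
    have hyu : B y u ≠ 0 := by
      rw [swap hA]
      exact neg_ne_zero.mpr hy2
    have h3 := h2 y hyu
    have h4 := h2 (x + y) (by simpa [hxu] using hyu)
    have h5 := Fx_span hA h3 h4 (by simpa [hA y] using hy1) (-1) 1
    have e : (-1 : F) • y + (1 : F) • (x + y) = x := by module
    rwa [e] at h5
  · exact h2 x hxu

/-- The root vectors at a point form a subspace. -/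
theorem Fx_add {u v : V} {ω : Ω} (hu : Fx hA ω u) (hv : Fx hA ω v) : Fx hA ω (u + v) := by
  by_cases hu0 : u = 0
  · subst hu0
    simpa using hv
  intro s
  have huv : B u v = 0 := Fx_perp hA C hv hu
  have e := tv_add_eq hA huv 1 s
  rw [one_smul] at e
  have h1 := rho_all hA C hu0 hu (x := (s * 1) • v) (by simp [huv]) (s * 1 ^ 2)
  rw [← e, mul_smul, hv (-s)] at h1
  exact h1

/-- The subspace of root vectors at a point. -/
def Xs (ω : Ω) : Submodule F V where
  carrier := {v | Fx hA ω v}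
  add_mem' := fun hu hv => Fx_add hA C hu hv
  zero_mem' := Fx_zero hA ω
  smul_mem' := fun t _ hv => Fx_smul hA t hv

theorem mem_Xs {ω : Ω} {v : V} : v ∈ Xs hA C ω ↔ Fx hA ω v := Iff.rfl

theorem Xs_iso {ω : Ω} {u v : V} (hu : u ∈ Xs hA C ω) (hv : v ∈ Xs hA C ω) : B v u = 0 := Fx_perp hA C hu hv

open _root_.Classical in
/-- The nonzero vectors of the subspace. -/
theorem card_PS_add_one (ω : Ω) : (PS hA ω).card + 1 = Fintype.card F ^ Module.finrank F (Xs hA C ω) := by
  have : Fintype (Xs hA C ω) := Fintype.ofFinite _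
  rw [← Module.card_eq_pow_finrank (K := F) (V := Xs hA C ω), ← Nat.card_eq_fintype_card,
    Nat.subtype_card (Finset.univ.filter (fun v : V => v ∈ Xs hA C ω)) (by simp)]
  have e : PS hA ω = (Finset.univ.filter (fun v : V => v ∈ Xs hA C ω)).erase 0 := by
    ext v
    simp [mem_PS, mem_Xs, and_comm]
  rw [e, Finset.card_erase_add_one]
  simp only [Finset.mem_filter, Finset.mem_univ, true_and]
  exact Submodule.zero_mem _

/-- The dimension of the subspace is at most half the dimension of the space. -/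
theorem finrank_Xs_le (ω : Ω) : 2 * Module.finrank F (Xs hA C ω) ≤ Module.finrank F V := by
  have h1 : Xs hA C ω ≤ B.orthogonal (Xs hA C ω) := by
    intro v hv
    rw [LinearMap.BilinForm.mem_orthogonal_iff]
    intro u hu
    exact Xs_iso hA C hv hu
  have h2 := Submodule.finrank_mono h1
  rw [LinearMap.BilinForm.finrank_orthogonal hB] at h2
  have h3 := Submodule.finrank_le (Xs hA C ω)
  omega

end Main

section Witt

variable [Fintype F] [Fintype V] (hB : B.Nondegenerate)

include hB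

/-- Transitivity of the stabilizer of `p` on the vectors of `p^⊥` outside the line of `p`. -/
theorem trans_Z {p y y' : V} (hp : p ≠ 0) (hy : B y p = 0) (hy' : B y' p = 0) (hy0 : ∀ t : F, y ≠ t • p)
    (hy0' : ∀ t : F, y' ≠ t • p) : ∃ g : IsomGroup B, g.1 p = p ∧ g.1 y = y' := by
  obtain ⟨p', huv⟩ := exists_partner hB hp
  have hd1 := decomp hA huv y
  have hd2 := decomp hA huv y'
  rw [hy, zero_smul, sub_zero] at hd1
  rw [hy', zero_smul, sub_zero] at hd2
  have hw : proj hA huv y ≠ 0 := by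
    intro h
    apply hy0 (B y p')
    rw [h] at hd1
    simpa using hd1
  have hw' : proj hA huv y' ≠ 0 := by
    intro h
    apply hy0' (B y' p')
    rw [h] at hd2
    simpa using hd2
  obtain ⟨ℓ, hℓ⟩ := levi_trans hA huv hB _ _ hw hw'
  have hnd := restrict_nondegenerate hA huv hB
  obtain ⟨u, hu⟩ : ∃ u : perpPair B p p', B (proj hA huv y' : V) (u : V) ≠ 0 := by
    by_contra hno
    push Not at hno
    exact hw' (hnd.1 _ hno)
  set r := (B y' p' - B y p') / B (proj hA huv y' : V) (u : V) with hr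
  have hrc : B p ((r • u : perpPair B p p') : V) = 0 := hcW hA huv _
  refine ⟨rho hA p ((r • u : perpPair B p p') : V) 0 * ℓ.1, ?_, ?_⟩
  · rw [mul_coe, ℓ.2.1, rho_left hA huv, one_smul]
  · have e1 : ℓ.1.1 y = B y p' • p + (proj hA huv y' : V) := by
      conv_lhs => rw [hd1]
      rw [map_add, map_smul, ℓ.2.1, ← phi_coe, hℓ]
    have hw'p : B (proj hA huv y' : V) p = 0 := (mem_perpPair.mp (proj hA huv y').2).1
    rw [mul_coe, e1, rho_apply hA hrc]
    have e2 : B (B y p' • p + (proj hA huv y' : V)) p = 0 := by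
      simp only [map_add, map_smul, LinearMap.add_apply, LinearMap.smul_apply, hA p, hw'p, smul_zero, add_zero]
    have e3 : B (B y p' • p + (proj hA huv y' : V)) ((r • u : perpPair B p p') : V) = B y' p' - B y p' := by
      simp only [map_add, map_smul, LinearMap.add_apply, LinearMap.smul_apply, smul_eq_mul, Submodule.coe_smul]
      have h4 : B p (u : V) = 0 := hcW hA huv u
      rw [h4, hr]
      field_simp
      simp [hy']
    rw [e2, e3]
    conv_rhs => rw [hd2]
    module

end Witt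

section Flags

variable [Fintype F] [Fintype V] {hB : B.Nondegenerate} [Fintype Ω]
  [MulAction.IsPretransitive (IsomGroup B) Ω] [Nontrivial Ω] {w N : ℕ} (C : Ctx hA hB Ω w N)

include C

open _root_.Classical in
/-- The double count of flags. -/
theorem flags_count {p : V} (hp : p ≠ 0) {ω₀ : Ω} {y₀ : V} (hp0 : Fx hA ω₀ p) (hy1 : Fx hA ω₀ y₀) (hy2 : ∀ t : F, y₀ ≠ t • p) :
    ((Fintype.card F * w - Fintype.card F) * ((FS (Ω := Ω) hA p).filter (fun ω => Fx hA ω y₀)).card) ≤
      (FS (Ω := Ω) hA p).card * ((PS hA ω₀).card - (Fintype.card F - 1)) := by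
  obtain ⟨p', huv⟩ := exists_partner hB hp
  have hq2 : 2 ≤ Fintype.card F := Fintype.one_lt_card
  -- the set of vectors
  let Z : Finset V := (Finset.univ.filter (fun v : V => B v p = 0)) \ Finset.univ.image (fun t : F => t • p)
  have hZcard : Z.card = Fintype.card F * w - Fintype.card F := by
    rw [Finset.card_sdiff_of_subset, card_perp_vec hA huv, C.hwc p p' huv, Finset.card_image_of_injective _ (smul_left_injective F hp),
      Finset.card_univ]
    intro v hv
    obtain ⟨t, -, rfl⟩ := Finset.mem_image.mp hv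
    simp [hA p]
  have hbip := Finset.sum_card_bipartiteAbove_eq_sum_card_bipartiteBelow
    (s := FS (Ω := Ω) hA p) (t := Z) (fun ω v => Fx hA ω v)
  -- the upper bound
  have hup : ∀ ω ∈ FS (Ω := Ω) hA p, (Finset.bipartiteAbove (fun ω v => Fx hA ω v) Z ω).card ≤
      (PS hA ω₀).card - (Fintype.card F - 1) := by
    intro ω hω
    have hF := (mem_FS hA).mp hω
    rw [card_PS_eq hA ω₀ ω]
    have hsub : (Finset.bipartiteAbove (fun ω v => Fx hA ω v) Z ω) ∪ ((Finset.univ : Finset F).erase 0).image (fun t : F => t • p) ⊆ PS hA ω := by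
      intro v hv
      rw [Finset.mem_union] at hv
      rcases hv with hv | hv
      · rw [Finset.mem_bipartiteAbove] at hv
        obtain ⟨hv1, hv2⟩ := hv
        refine (mem_PS hA).mpr ⟨?_, hv2⟩
        rintro rfl
        rw [Finset.mem_sdiff] at hv1
        apply hv1.2
        exact Finset.mem_image.mpr ⟨0, Finset.mem_univ _, by simp⟩
      · obtain ⟨t, ht, rfl⟩ := Finset.mem_image.mp hv
        exact (mem_PS hA).mpr ⟨smul_ne_zero (Finset.mem_erase.mp ht).1 hp, Fx_smul hA t hF⟩
    have hdisj : Disjoint (Finset.bipartiteAbove (fun ω v => Fx hA ω v) Z ω) (((Finset.univ : Finset F).erase 0).image (fun t : F => t • p)) := by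
      rw [Finset.disjoint_left]
      intro v hv hv'
      rw [Finset.mem_bipartiteAbove] at hv
      obtain ⟨t, ht, rfl⟩ := Finset.mem_image.mp hv'
      have := (Finset.mem_sdiff.mp hv.1).2
      apply this
      exact Finset.mem_image.mpr ⟨t, Finset.mem_univ _, rfl⟩
    have h1 := Finset.card_le_card hsub
    rw [Finset.card_union_of_disjoint hdisj, Finset.card_image_of_injective _ (smul_left_injective F hp),
      Finset.card_erase_of_mem (Finset.mem_univ _), Finset.card_univ] at h1
    omega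
  -- the lower bound
  have hlow : ∀ y ∈ Z, ((FS (Ω := Ω) hA p).filter (fun ω => Fx hA ω y₀)).card ≤
      (Finset.bipartiteBelow (fun ω v => Fx hA ω v) (FS (Ω := Ω) hA p) y).card := by
    intro y hy
    rw [Finset.mem_sdiff, Finset.mem_filter] at hy
    have hy' : ∀ t : F, y ≠ t • p := by
      intro t ht
      apply hy.2
      exact Finset.mem_image.mpr ⟨t, Finset.mem_univ _, ht.symm⟩
    have hy01 : B y₀ p = 0 := Fx_perp hA C hp0 hy1
    obtain ⟨g, hg1, hg2⟩ := trans_Z hA hB hp hy01 hy.1.2 hy2 hy'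
    apply Finset.card_le_card_of_injOn (fun ω => g • ω)
    · intro ω hω
      have hω' := Finset.mem_filter.mp (Finset.mem_coe.mp hω)
      have h1 := Fx_map hA g ((mem_FS hA).mp hω'.1)
      rw [hg1] at h1
      have h2 := Fx_map hA g hω'.2
      rw [hg2] at h2
      exact Finset.mem_coe.mpr ((Finset.mem_bipartiteBelow _).mpr ⟨(mem_FS hA).mpr h1, h2⟩)
    · intro a _ b _ hab
      exact smul_left_cancel g hab
  have h1 : ∑ ω ∈ FS (Ω := Ω) hA p, (Finset.bipartiteAbove (fun ω v => Fx hA ω v) Z ω).card ≤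
      (FS (Ω := Ω) hA p).card * ((PS hA ω₀).card - (Fintype.card F - 1)) := by
    rw [← smul_eq_mul, ← Finset.sum_const]
    exact Finset.sum_le_sum hup
  have h2 : Z.card * ((FS (Ω := Ω) hA p).filter (fun ω => Fx hA ω y₀)).card ≤
      ∑ y ∈ Z, (Finset.bipartiteBelow (fun ω v => Fx hA ω v) (FS (Ω := Ω) hA p) y).card := by
    rw [← smul_eq_mul, ← Finset.sum_const]
    exact Finset.sum_le_sum hlow
  rw [← hZcard]
  omega

open _root_.Classical in
/-- If the subspace at a point has dimension at least three, a second point shares two of its vectors. -/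
theorem card_S_two {p y₀ : V} {ω₀ : Ω} (hp : p ≠ 0) (hF : Fx hA ω₀ p) (hy₀ : Fx hA ω₀ y₀) (hy00 : y₀ ≠ 0)
    (h3 : 2 < Module.finrank F (Xs hA C ω₀)) :
    1 < ((FS (Ω := Ω) hA p).filter (fun ω => Fx hA ω y₀)).card := by
  have hlt2 : Submodule.span F {p} ⊔ Submodule.span F {y₀} < Xs hA C ω₀ := by
    refine lt_of_le_of_ne (sup_le ((Submodule.span_singleton_le_iff_mem p _).mpr hF)
      ((Submodule.span_singleton_le_iff_mem y₀ _).mpr hy₀)) ?_
    intro h
    have h3' := Submodule.finrank_add_le_finrank_add_finrank (Submodule.span F {p}) (Submodule.span F {y₀})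
    have h4 := finrank_span_singleton (K := F) hp
    have h5 := finrank_span_singleton (K := F) hy00
    rw [h] at h3'
    omega
  obtain ⟨x, hx, hx'⟩ := SetLike.exists_of_lt hlt2
  obtain ⟨φ, hφ1, hφ2⟩ := Submodule.exists_le_ker_of_notMem hx'
  set u := (B.toDual hB).symm φ with hu
  have huz : ∀ z, B u z = φ z := by
    intro z
    have : B.toDual hB u z = φ z := by rw [hu]; simp
    rwa [LinearMap.BilinForm.toDual_def] at this
  have hu1 : B p u = 0 := by
    rw [swap hA, huz, LinearMap.mem_ker.mp (hφ2 (Submodule.mem_sup_left (Submodule.mem_span_singleton_self p))), neg_zero]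
  have hu2 : B y₀ u = 0 := by
    rw [swap hA, huz, LinearMap.mem_ker.mp (hφ2 (Submodule.mem_sup_right (Submodule.mem_span_singleton_self y₀))), neg_zero]
  have hu3 : B x u ≠ 0 := by
    rw [swap hA, huz]
    exact neg_ne_zero.mpr hφ1
  refine Finset.one_lt_card.mpr ⟨ω₀, Finset.mem_filter.mpr ⟨(mem_FS hA).mpr hF, hy₀⟩, tvG hA u 1 • ω₀, ?_, ?_⟩
  · have h1 := Fx_map hA (tvG hA u 1) hF
    have h2 := Fx_map hA (tvG hA u 1) hy₀
    rw [tvG_apply, hu1] at h1
    rw [tvG_apply, hu2] at h2
    simp only [mul_zero, zero_smul, add_zero] at h1 h2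
    exact Finset.mem_filter.mpr ⟨(mem_FS hA).mpr h1, h2⟩
  · intro hne
    have h1 := Fx_closure hA hne.symm ((mem_Xs hA C).mp hx)
    rw [tvG_apply, one_mul] at h1
    have h2 : (B x u) • u ∈ Xs hA C ω₀ := by
      have h3 := (Xs hA C ω₀).sub_mem ((mem_Xs hA C).mpr h1) hx
      simpa using h3
    have h4 : u ∈ Xs hA C ω₀ := by
      have h5 := (Xs hA C ω₀).smul_mem (B x u)⁻¹ h2
      rwa [smul_smul, inv_mul_cancel₀ hu3, one_smul] at h5
    exact hu3 (Xs_iso hA C h4 hx)

omit hA C in
/-- The numerics of the last step. -/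
theorem num_final {q1 Q1 w1 f a s : ℕ} (hPS2 : a + 1 = (q1 + 3) * (Q1 + 1)) (hQw : (Q1 + 1) ^ 2 ≤ w1 + 1)
    (hc : w1 * s ≤ f * Q1) (hgt : (q1 + 2) * f < a) (h : (Q1 = q1 + 2 ∧ 1 ≤ s) ∨ (0 < Q1 ∧ 2 ≤ s)) : False := by
  rcases h with ⟨h1, h2⟩ | ⟨h1, h2⟩
  · subst h1
    have h3 : w1 * 1 ≤ w1 * s := Nat.mul_le_mul_left _ h2
    nlinarith
  · have h3 : w1 * 2 ≤ w1 * s := Nat.mul_le_mul_left _ h2
    have h4 : Q1 * (2 * (Q1 + 2)) ≤ Q1 * f := by nlinarith
    have h5 : 2 * (Q1 + 2) ≤ f := Nat.le_of_mul_le_mul_left h4 h1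
    have h6 : (q1 + 2) * (2 * (Q1 + 2)) ≤ (q1 + 2) * f := Nat.mul_le_mul_left _ h5
    nlinarith

/-- A point fixed by a root group does not exist. -/
theorem fix_empty (ω₀ : Ω) {p : V} (hp : p ≠ 0) : ¬ Fx hA ω₀ p := by
  classical
  intro hF
  have hq3 := C.hq
  have hw2 := C.hw2
  have hV := C.hV
  have hN := C.hN
  have hd := C.hd
  have hV' : Fintype.card V = Fintype.card F ^ Module.finrank F V := Module.card_eq_pow_finrank
  have hfpos : 0 < (FS (Ω := Ω) hA p).card := Finset.card_pos.mpr ⟨ω₀, (mem_FS hA).mpr hF⟩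
  have hgt := card_PS_gt hA hB hN hd ω₀ hp hfpos
  have hPS := card_PS_add_one hA C ω₀
  have h2j := finrank_Xs_le hA C ω₀
  have hdc := double_count hA hB ω₀ hp
  generalize hj : Module.finrank F (Xs hA C ω₀) = j at hPS h2j
  generalize hfdef : (FS (Ω := Ω) hA p).card = f at hfpos hgt hdc
  generalize hadef : (PS hA ω₀).card = a at hgt hPS hdc
  generalize hq : Fintype.card F = q at hq3 hw2 hV hV' hN hgt hPS
  generalize hddef : Fintype.card Ω = d at hd hdc
  obtain ⟨q1, rfl⟩ : ∃ q1, q = q1 + 3 := ⟨q - 3, by omega⟩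
  have hq1' : q1 + 3 - 1 = q1 + 2 := by omega
  rw [hq1'] at hgt hN
  have hV2 : Fintype.card V - 1 = (q1 + 2) * N := by omega
  rw [hV2] at hdc
  rcases j with _ | _ | j
  · -- no vector
    simp only [pow_zero] at hPS
    omega
  · -- one line
    simp only [zero_add, pow_one] at hPS
    have ha : a = q1 + 2 := by omega
    rw [ha, mul_assoc] at hdc
    have h1 : d = N * f := Nat.eq_of_mul_eq_mul_left (by omega) hdc
    have h2 : N * 1 ≤ N * f := Nat.mul_le_mul_left _ hfpos
    omega
  · -- at least a plane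
    have hX2 : 1 < Module.finrank F (Xs hA C ω₀) := by omega
    have hlt : Submodule.span F {p} < Xs hA C ω₀ := by
      refine lt_of_le_of_ne ((Submodule.span_singleton_le_iff_mem p _).mpr hF) ?_
      intro h
      rw [← h, finrank_span_singleton hp] at hX2
      omega
    obtain ⟨y₀, hy₀, hy₀'⟩ := SetLike.exists_of_lt hlt
    have hy₀'' : ∀ t : F, y₀ ≠ t • p := by
      intro t ht
      apply hy₀'
      rw [ht]
      exact Submodule.smul_mem _ _ (Submodule.mem_span_singleton_self p)
    have hy00 : y₀ ≠ 0 := by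
      have := hy₀'' 0
      simpa using this
    have hcount := flags_count hA C hp hF ((mem_Xs hA C).mp hy₀) hy₀''
    have hS2 := card_S_two hA C hp hF ((mem_Xs hA C).mp hy₀) hy00
    have hS1 : 1 ≤ ((FS (Ω := Ω) hA p).filter (fun ω => Fx hA ω y₀)).card :=
      Finset.card_pos.mpr ⟨ω₀, Finset.mem_filter.mpr ⟨(mem_FS hA).mpr hF, hy₀⟩⟩
    rw [hj] at hS2
    generalize ((FS (Ω := Ω) hA p).filter (fun ω => Fx hA ω y₀)).card = s at hcount hS1 hS2
    rw [hq, hfdef, hadef] at hcount
    -- numerics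
    obtain ⟨Q1, hQ1'⟩ : ∃ Q1, (q1 + 3) ^ (j + 1) = Q1 + 1 := ⟨(q1 + 3) ^ (j + 1) - 1, by
      have : 1 ≤ (q1 + 3) ^ (j + 1) := Nat.one_le_pow _ _ (by omega)
      omega⟩
    have hPS2 : a + 1 = (q1 + 3) * (Q1 + 1) := by
      rw [hPS, ← hQ1', pow_succ' (q1 + 3) (j + 1)]
    have hQw : (Q1 + 1) ^ 2 ≤ w := by
      have h1 : (q1 + 3) ^ (2 * (j + 1 + 1)) ≤ (q1 + 3) ^ Module.finrank F V := Nat.pow_le_pow_right (by omega) (by omega)
      rw [← hV', hV] at h1
      have e : (q1 + 3) ^ (2 * (j + 1 + 1)) = (q1 + 3) ^ 2 * (Q1 + 1) ^ 2 := by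
        rw [← hQ1']
        ring
      rw [e] at h1
      exact Nat.le_of_mul_le_mul_left h1 (by positivity)
    obtain ⟨w1, rfl⟩ : ∃ w1, w = w1 + 1 := ⟨w - 1, by
      have h1w : 1 ≤ w := by nlinarith
      omega⟩
    have e1 : (q1 + 3) * (w1 + 1) - (q1 + 3) = (q1 + 3) * w1 := by
      rw [Nat.mul_succ, Nat.add_sub_cancel]
    have e2 : a - (q1 + 3 - 1) = (q1 + 3) * Q1 := by
      have : (q1 + 3) * (Q1 + 1) = (q1 + 3) * Q1 + (q1 + 3) := by ring
      omega
    rw [e1, e2] at hcount
    have hcount2 : w1 * s ≤ f * Q1 := by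
      have h1 : (q1 + 3) * (w1 * s) ≤ (q1 + 3) * (f * Q1) := by
        calc (q1 + 3) * (w1 * s) = (q1 + 3) * w1 * s := by ring
          _ ≤ f * ((q1 + 3) * Q1) := hcount
          _ = (q1 + 3) * (f * Q1) := by ring
      exact Nat.le_of_mul_le_mul_left h1 (by omega)
    apply num_final hPS2 hQw hcount2 hgt
    rcases j with _ | j
    · left
      refine ⟨?_, hS1⟩
      have : (q1 + 3) ^ (0 + 1) = Q1 + 1 := hQ1'
      simp only [zero_add, pow_one] at this
      omega
    · right
      refine ⟨?_, hS2 (by omega)⟩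
      have h1 : (q1 + 3) ^ 1 ≤ (q1 + 3) ^ (j + 1 + 1) := Nat.pow_le_pow_right (by omega) (by omega)
      rw [hQ1', pow_one] at h1
      omega

end Flags

end Cfsg.Agent.Lib.MinIndex.SpFix2
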