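import Mathlib
import Cfsg.Agent.Lib.MinIndex.SpFix2

/-!
# Some point has a proper stabilizer in the radical

In odd characteristic this follows from a commutator computation; in even characteristic (and
`q ≥ 4`) it needs a study of the short root elements.
-/

set_option autoImplicit false
set_option linter.unusedSectionVars false
set_option linter.unusedSimpArgs false
set_option linter.unusedVariables false

namespace Cfsg.Agent.Lib.MinIndex.SpEven

open Cfsg.Agent.Lib.Classical.Symp.AltForm Cfsg.Agent.Lib.Classical.Symp.Hyperbolic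
open Cfsg.Agent.Lib.MinIndex.SpLocal Cfsg.Agent.Lib.MinIndex.SpCount Cfsg.Agent.Lib.MinIndex.SpOrbit
open Cfsg.Agent.Lib.MinIndex.SpGlob Cfsg.Agent.Lib.MinIndex.SpFix Cfsg.Agent.Lib.MinIndex.SpFix2

variable {F V : Type*} [Field F] [AddCommGroup V] [Module F V] {B : LinearMap.BilinForm F V} (hA : B.IsAlt)
variable {Ω : Type*} [MulAction (IsomGroup B) Ω]

include hA

/-! ### Characteristic two -/

section CharTwo

variable [CharP F 2] {ω : Ω} {c d d' : V}

/-- Elements of one radical produce elements of another. -/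
theorem E1 (hH : ∀ w, B c w = 0 → ∃ a, rho hA c w a • ω = ω) (hcd : B c d = 0) (hdd' : B d d' = 1) (hcd' : B c d' = 0)
    {t b : F} (hb : b ≠ 0) (hY : rho hA d (t • c) b • ω = ω) (u : F) : rho hA c (u • d) (u ^ 2 / b) • ω = ω := by
  set s := u / b with hs
  obtain ⟨a, ha⟩ := hH (s • d') (by simp [hcd'])
  have hdc : B d c = 0 := by rw [swap hA, hcd, neg_zero]
  have hcs : B c (s • d') = 0 := by simp [hcd']
  have hgd : (rho hA c (s • d') a).1 d = d + s • c := by
    rw [rho_apply hA hcs]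
    simp [hdd', hdc]
  have hgc : (rho hA c (s • d') a).1 (t • c) = t • c := by
    rw [rho_apply hA hcs]
    simp [hcd', hA c]
  have h1 := rho_conj hA (rho hA c (s • d') a) d (t • c) b
  rw [hgd, hgc, rho_two hA hcd] at h1
  have h2 : rho hA c ((b * s) • d) (b * s ^ 2) • ω = ω := by
    have h3 : (rho hA c ((b * s) • d) (b * s ^ 2) * rho hA d (t • c) b) • ω = ω := by
      rw [← h1, mul_smul, mul_smul, inv_smul_eq_iff.mpr ha.symm, hY, ha]
    rwa [mul_smul, hY] at h3
  have e1 : b * s = u := by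
    rw [hs]
    field_simp
  have e2 : b * s ^ 2 = u ^ 2 / b := by
    rw [hs]
    field_simp
  rwa [e1, e2] at h2

omit hA [CharP F 2] in
theorem sq_surj [CharP F 2] [Finite F] (s : F) : ∃ u : F, u ^ 2 = s := by
  have hinj : Function.Injective (fun u : F => u ^ 2) := by
    intro x y h
    have h1 : (x + y) ^ 2 = 0 := by
      have h2 : (2 : F) = 0 := CharP.cast_eq_zero F 2
      have h3 : x ^ 2 = y ^ 2 := h
      linear_combination h3 + (y ^ 2 + x * y) * h2
    have h2 : x + y = 0 := by simpa using h1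
    have h3 : (2 : F) = 0 := CharP.cast_eq_zero F 2
    linear_combination h2 - y * h3
  exact Finite.injective_iff_surjective.mp hinj s

/-- Two distinct parameters force the root group to fix the point. -/
theorem E2 [Finite F] {b b' : F} (hb : b ≠ 0) (hb' : b' ≠ 0) (hbb : b ≠ b')
    (h1 : ∀ u, rho hA c (u • d) (u ^ 2 / b) • ω = ω) (h2 : ∀ u, rho hA c (u • d) (u ^ 2 / b') • ω = ω)
    (hcd : B c d = 0) : Fx hA ω c := by
  intro s
  have hne : b'⁻¹ - b⁻¹ ≠ 0 := by
    rw [sub_ne_zero]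
    intro h
    exact hbb (inv_injective h).symm
  obtain ⟨u, hu⟩ := sq_surj (F := F) (s / (b'⁻¹ - b⁻¹))
  have hw : B c (u • d) = 0 := by simp [hcd]
  have h3 := rho_tv hA hw (u ^ 2 / b) s
  have h4 : u ^ 2 / b + s = u ^ 2 / b' := by
    rw [hu]
    field_simp
    ring
  rw [h4] at h3
  have h5 := h2 u
  rw [← h3, mul_smul, h1 u] at h5
  exact h5

end CharTwo

section Star

variable [Fintype F] [Fintype V] (hB : B.Nondegenerate)

include hB

omit hA in
/-- Two independent vectors can be separated. -/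
theorem exists_sep {c d : V} (hind : ∀ t : F, d ≠ t • c) : ∃ d', B d d' = 1 ∧ B c d' = 0 := by
  have hnot : d ∉ Submodule.span F {c} := by
    intro h
    obtain ⟨t, ht⟩ := Submodule.mem_span_singleton.mp h
    exact hind t ht.symm
  obtain ⟨φ, hφ1, hφ2⟩ := Submodule.exists_le_ker_of_notMem hnot
  set u := (B.flip.toDual (LinearMap.BilinForm.Nondegenerate.flip hB)).symm φ with hu
  have huz : ∀ z, B z u = φ z := by
    intro z
    have : B.flip.toDual (LinearMap.BilinForm.Nondegenerate.flip hB) u z = φ z := by rw [hu]; simp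
    rwa [LinearMap.BilinForm.toDual_def] at this
  have h1 : B c u = 0 := by
    rw [huz]
    exact LinearMap.mem_ker.mp (hφ2 (Submodule.mem_span_singleton_self c))
  have h2 : B d u ≠ 0 := by
    rw [huz]
    exact hφ1
  exact ⟨(B d u)⁻¹ • u, by simp [h2], by simp [h1]⟩

/-- The main result in characteristic two. -/
theorem even_star [CharP F 2] (hq : 3 ≤ Fintype.card F) (hdim : 4 ≤ Module.finrank F V) (ω : Ω)
    (H : ∀ c : V, c ≠ 0 → Fx hA ω c ∨ ∀ w, B c w = 0 → ∃ a, rho hA c w a • ω = ω) : ∀ v, Fx hA ω v := by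
  obtain ⟨t₀, ht0, ht1⟩ := exists_ne_zero_one (F := F) hq
  have hswap : ∀ {x y : V}, B x y = 0 → B y x = 0 := fun h => by rw [swap hA, h, neg_zero]
  -- fixed vectors propagate to the perp
  have E3 : ∀ {c d : V}, c ≠ 0 → d ≠ 0 → Fx hA ω d → B c d = 0 → Fx hA ω c := by
    intro c d hc hd hFd hcd
    by_contra hnc
    have hind : ∀ t : F, d ≠ t • c := by
      intro t ht
      have ht0' : t ≠ 0 := by
        rintro rfl
        exact hd (by simpa using ht)
      apply hnc
      have := Fx_smul hA t⁻¹ hFd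
      rwa [ht, smul_smul, inv_mul_cancel₀ ht0', one_smul] at this
    obtain ⟨d', hdd', hcd'⟩ := exists_sep hB hind
    have hH := (H c hc).resolve_left hnc
    have hY : ∀ b : F, rho hA d ((0 : F) • c) b • ω = ω := by
      intro b
      rw [zero_smul, rho_zero]
      exact hFd b
    exact hnc (E2 hA one_ne_zero ht0 (Ne.symm ht1)
      (E1 hA hH hcd hdd' hcd' one_ne_zero (hY 1)) (E1 hA hH hcd hdd' hcd' ht0 (hY t₀)) hcd)
  -- common perp
  have hperp : ∀ x y : V, ∃ c : V, c ≠ 0 ∧ B c x = 0 ∧ B c y = 0 := by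
    intro x y
    let f : V →ₗ[F] F × F := (B.flip x).prod (B.flip y)
    have hlt : Module.finrank F (F × F) < Module.finrank F V := by
      rw [Module.finrank_prod, Module.finrank_self]
      omega
    have h := LinearMap.ker_ne_bot_of_finrank_lt hlt (f := f)
    obtain ⟨c, hc, hc0⟩ := (Submodule.ne_bot_iff _).mp h
    have h1 : f c = 0 := LinearMap.mem_ker.mp hc
    have h2 : (f c).1 = 0 := by rw [h1]; rfl
    have h3 : (f c).2 = 0 := by rw [h1]; rfl
    exact ⟨c, hc0, h2, h3⟩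
  have hall : ∀ d : V, d ≠ 0 → Fx hA ω d → ∀ v, Fx hA ω v := by
    intro d hd hFd v
    by_cases hv : v = 0
    · subst hv
      exact Fx_zero hA ω
    obtain ⟨c, hc0, h1, h2⟩ := hperp d v
    have h3 := E3 hc0 hd hFd h1
    exact E3 hv hc0 h3 (hswap h2)
  by_cases hex : ∃ d : V, d ≠ 0 ∧ Fx hA ω d
  · obtain ⟨d, hd, hFd⟩ := hex
    exact hall d hd hFd
  exfalso
  push Not at hex
  have hH : ∀ c : V, c ≠ 0 → ∀ w, B c w = 0 → ∃ a, rho hA c w a • ω = ω :=
    fun c hc => (H c hc).resolve_left (hex c hc)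
  -- a pair and its perp
  have hV0 : Nontrivial V := by
    apply Module.nontrivial_of_finrank_pos (R := F)
    omega
  obtain ⟨d, hd⟩ := exists_ne (0 : V)
  obtain ⟨d', hdd'⟩ := exists_partner hB hd
  have hW := finrank_perpPair hA hdd'
  have hWpos : 0 < Module.finrank F (perpPair B d d') := by omega
  have hWnt : Nontrivial (perpPair B d d') := Module.nontrivial_of_finrank_pos (R := F) hWpos
  obtain ⟨w₁, hw₁⟩ := exists_ne (0 : perpPair B d d')
  have hnd := restrict_nondegenerate hA hdd' hB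
  obtain ⟨w₂, hw₂⟩ : ∃ w₂ : perpPair B d d', B (w₁ : V) (w₂ : V) = 1 := by
    have : ∃ u : perpPair B d d', B (w₁ : V) (u : V) ≠ 0 := by
      by_contra hno
      push Not at hno
      exact hw₁ (hnd.1 _ hno)
    obtain ⟨u, hu⟩ := this
    refine ⟨(B (w₁ : V) (u : V))⁻¹ • u, ?_⟩
    rw [Submodule.coe_smul, map_smul, smul_eq_mul, inv_mul_cancel₀ hu]
  have h2F : (2 : F) = 0 := CharP.cast_eq_zero F 2
  -- the key claim
  have hkey : ∀ (c : perpPair B d d'), c ≠ 0 → ∀ a : F, rho hA d (c : V) a • ω = ω → a = 0 := by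
    intro c hc a ha
    by_contra ha0
    have hc' : (c : V) ≠ 0 := fun h => hc (Subtype.ext h)
    have hc1 := mem_perpPair.mp c.2
    have hdc : B d (c : V) = 0 := hcW hA hdd' c
    have h1 := E1 hA (hH (c : V) hc') hc1.1 hdd' hc1.2 (t := 1) ha0 (by rwa [one_smul])
    -- a partner for `c`
    obtain ⟨e, he⟩ : ∃ e : V, B (c : V) e = 1 ∧ B d e = 0 := by
      apply exists_sep hB
      intro t ht
      have : B (c : V) d' = t * B d d' := by
        rw [ht]
        simp
      rw [hc1.2, hdd', mul_one] at this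
      rw [← this] at ht
      exact hc' (by simpa using ht)
    obtain ⟨u₁, hu₁⟩ := sq_surj (F := F) a
    obtain ⟨u₂, hu₂⟩ := sq_surj (F := F) (a * t₀)
    have hY1 : rho hA (c : V) (u₁ • d) 1 • ω = ω := by
      have := h1 u₁
      rwa [hu₁, div_self ha0] at this
    have hY2 : rho hA (c : V) (u₂ • d) t₀ • ω = ω := by
      have := h1 u₂
      rw [hu₂, mul_div_cancel_left₀ _ ha0] at this
      exact this
    exact hex d hd (E2 hA one_ne_zero ht0 (Ne.symm ht1)
      (E1 hA (hH d hd) hdc he.1 he.2 one_ne_zero hY1) (E1 hA (hH d hd) hdc he.1 he.2 ht0 hY2) hdc)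
  have hcw1 : B d (w₁ : V) = 0 := hcW hA hdd' w₁
  have hcw2 : B d (w₂ : V) = 0 := hcW hA hdd' w₂
  have hw₂0 : w₂ ≠ 0 := by
    rintro rfl
    simp at hw₂
  obtain ⟨a₁, ha₁⟩ := hH d hd w₁ hcw1
  obtain ⟨a₂, ha₂⟩ := hH d hd w₂ hcw2
  have ha₁0 := hkey w₁ hw₁ a₁ ha₁
  have ha₂0 := hkey w₂ hw₂0 a₂ ha₂
  have h3 := rho_mul hA hcw1 hcw2 a₁ a₂
  have h4 : rho hA d ((w₁ + w₂ : perpPair B d d') : V) (a₁ + a₂ + B (w₂ : V) (w₁ : V)) • ω = ω := by
    rw [Submodule.coe_add, ← h3, mul_smul, ha₂, ha₁]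
  have hw₃ : w₁ + w₂ ≠ 0 := by
    intro h
    have e : w₁ = -w₂ := eq_neg_of_add_eq_zero_left h
    rw [e] at hw₂
    simp [hA (w₂ : V)] at hw₂
  have h5 := hkey _ hw₃ _ h4
  rw [ha₁0, ha₂0, swap hA, hw₂] at h5
  simp at h5

end Star

section Bridge

variable [Fintype F] [Fintype V] (hB : B.Nondegenerate) [Fintype Ω]
  [MulAction.IsPretransitive (IsomGroup B) Ω] [Nontrivial Ω]

include hB

/-- A pair in the perp of a hyperbolic pair. -/
theorem exists_W_pair (hdim : 4 ≤ Module.finrank F V) {c c' : V} (huv : B c c' = 1) :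
    ∃ w₁ w₂ : perpPair B c c', B (w₁ : V) (w₂ : V) = 1 := by
  have hW := finrank_perpPair hA huv
  have hWpos : 0 < Module.finrank F (perpPair B c c') := by omega
  have hWnt : Nontrivial (perpPair B c c') := Module.nontrivial_of_finrank_pos (R := F) hWpos
  obtain ⟨w₁, hw₁⟩ := exists_ne (0 : perpPair B c c')
  have hnd := restrict_nondegenerate hA huv hB
  refine ⟨w₁, ?_⟩
  have : ∃ u : perpPair B c c', B (w₁ : V) (u : V) ≠ 0 := by
    by_contra hno
    push Not at hno
    exact hw₁ (hnd.1 _ hno)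
  obtain ⟨u, hu⟩ := this
  refine ⟨(B (w₁ : V) (u : V))⁻¹ • u, ?_⟩
  rw [Submodule.coe_smul, map_smul, smul_eq_mul, inv_mul_cancel₀ hu]

/-- The case of odd characteristic. -/
theorem bridge_odd (h2 : (2 : F) ≠ 0) (hdim : 4 ≤ Module.finrank F V) : Bridge hA Ω := by
  intro c c' huv
  have hc : c ≠ 0 := by
    rintro rfl
    simp at huv
  obtain ⟨ω, hω⟩ := exists_not_fx' (Ω := Ω) hA hB hc
  refine ⟨ω, hω, ?_⟩
  intro htop
  apply hω
  obtain ⟨w₁, w₂, hw⟩ := exists_W_pair hA hB hdim huv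
  intro s
  set r := - s / 2 with hr
  have h1 : r • w₁ ∈ (wSet (Ω := Ω) hA huv).stab (mkY hA c ω) := by
    rw [htop]
    trivial
  have h2' : w₂ ∈ (wSet (Ω := Ω) hA huv).stab (mkY hA c ω) := by
    rw [htop]
    trivial
  obtain ⟨a₁, ha₁⟩ := (mem_stab_mk hA huv).mp h1
  obtain ⟨a₂, ha₂⟩ := (mem_stab_mk hA huv).mp h2'
  have hcomm := rho_comm hA (hcW hA huv (r • w₁)) (hcW hA huv w₂) a₁ a₂
  have e : B (w₂ : V) ((r • w₁ : perpPair B c c') : V) - B ((r • w₁ : perpPair B c c') : V) (w₂ : V) = s := by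
    rw [Submodule.coe_smul, map_smul, map_smul, LinearMap.smul_apply, swap hA (w₂ : V) (w₁ : V), hw, hr]
    simp only [smul_eq_mul]
    field_simp
    ring
  rw [e] at hcomm
  have h3 := congrArg (fun g : IsomGroup B => g • ω) hcomm
  simp only [mul_smul] at h3
  rw [ha₂, ha₁, ha₂] at h3
  exact h3.symm

/-- The case of even characteristic. -/
theorem bridge_even [CharP F 2] (hq : 3 ≤ Fintype.card F) (hdim : 4 ≤ Module.finrank F V) : Bridge hA Ω := by
  intro c c' huv
  have hc : c ≠ 0 := by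
    rintro rfl
    simp at huv
  by_contra hno
  push Not at hno
  obtain ⟨ω₀⟩ : Nonempty Ω := inferInstance
  obtain ⟨v, hv⟩ := exists_not_fx hA hB ω₀
  apply hv
  refine even_star hA hB hq hdim ω₀ ?_ v
  intro c₁ hc₁
  by_cases hF : Fx hA ω₀ c₁
  · exact Or.inl hF
  right
  intro w₁ hw₁
  obtain ⟨g, hg⟩ := trans_vec hA hB hc hc₁
  have hn1 : ¬ Fx hA (g⁻¹ • ω₀) c := by
    intro h
    apply hF
    have := Fx_map hA g h
    rwa [smul_inv_smul, hg] at this
  have htop := hno (g⁻¹ • ω₀) hn1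
  set w' := (g⁻¹).1 w₁ with hw'
  have hgw' : g.1 w' = w₁ := inv_coe_apply g w₁
  have hcw' : B c w' = 0 := by
    rw [← form_g g c w', hg, hgw', hw₁]
  have hw'c : B w' c = 0 := by rw [swap hA, hcw', neg_zero]
  have h1 : proj hA huv w' ∈ (wSet (Ω := Ω) hA huv).stab (mkY hA c (g⁻¹ • ω₀)) := by
    rw [htop]
    trivial
  obtain ⟨a₀, ha₀⟩ := (mem_stab_mk hA huv).mp h1
  have hdec := decomp hA huv w'
  rw [hw'c, zero_smul, sub_zero] at hdec
  refine ⟨a₀ - 2 * B w' c', ?_⟩
  have h2 : rho hA c w' (a₀ - 2 * B w' c') = rho hA c (proj hA huv w' : V) a₀ := by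
    have h4 : rho hA c w' (a₀ - 2 * B w' c') = rho hA c (B w' c' • c + (proj hA huv w' : V)) (a₀ - 2 * B w' c') := by
      rw [← hdec]
    rw [h4, rho_add_self hA (hcW hA huv (proj hA huv w'))]
    congr 1
    ring
  have h3 := rho_conj hA g c w' (a₀ - 2 * B w' c')
  rw [hg, hgw', h2] at h3
  rw [← h3, mul_smul, mul_smul, ha₀, smul_inv_smul]

end Bridge

end Cfsg.Agent.Lib.MinIndex.SpEven
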