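import Mathlib
import Cfsg.Agent.Lib.MinIndex.SpEven

/-!
# Canonical orbits of the root group do not exist
-/

set_option autoImplicit false
set_option linter.unusedSectionVars false
set_option linter.unusedSimpArgs false
set_option linter.unusedVariables false

namespace Cfsg.Agent.Lib.MinIndex.SpKill

open Cfsg.Agent.Lib.Classical.Symp.AltForm Cfsg.Agent.Lib.Classical.Symp.Hyperbolic
open Cfsg.Agent.Lib.MinIndex.SpLocal Cfsg.Agent.Lib.MinIndex.SpCount Cfsg.Agent.Lib.MinIndex.SpOrbit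
open Cfsg.Agent.Lib.MinIndex.SpGlob Cfsg.Agent.Lib.MinIndex.SpFix Cfsg.Agent.Lib.MinIndex.SpFix2
open Cfsg.Agent.Lib.MinIndex.SpEven

section Abstract

variable {G Ω' : Type*} [Group G] [MulAction G Ω']

/-- A conjugate of an element sending a point within a commuting orbit. -/
theorem orbit_conj {g x x' t₁ t₂ : G} (ω : Ω') (h1 : g * t₁ = t₁ * g) (h2 : g * t₂ = t₂ * g) (h3 : x * t₂ = t₂ * x)
    (h4 : t₁ * t₂ = t₂ * t₁) (hx : x • ω = t₁ • ω) (hg : g • ω = t₂ • ω) (hc : g * x * g⁻¹ = x') :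
    x' • ω = x • ω := by
  have c1 : Commute g t₁ := h1
  have c2 : Commute g t₂ := h2
  have c3 : Commute x t₂ := h3
  have c4 : Commute t₁ t₂ := h4
  have h5 : g⁻¹ • ω = t₂⁻¹ • ω := by
    rw [inv_smul_eq_iff, ← mul_smul, c2.inv_right.eq, mul_smul, hg, inv_smul_smul]
  calc x' • ω = g • x • g⁻¹ • ω := by rw [← hc]; simp only [mul_smul]
    _ = g • (x * t₂⁻¹) • ω := by rw [h5, mul_smul]
    _ = g • t₂⁻¹ • x • ω := by rw [c3.inv_right.eq, mul_smul]
    _ = (g * (t₂⁻¹ * t₁)) • ω := by rw [hx]; simp only [mul_smul]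
    _ = ((t₂⁻¹ * t₁) * g) • ω := by rw [(c2.inv_right.mul_right c1).eq]
    _ = t₂⁻¹ • t₁ • t₂ • ω := by rw [mul_smul, hg]; simp only [mul_smul]
    _ = t₁ • ω := by rw [← mul_smul t₁, c4.eq, mul_smul, inv_smul_smul]
    _ = x • ω := hx.symm

/-- A commutator of elements sending a point within a commuting orbit fixes it. -/
theorem comm_fix {g₁ g₂ e t₁ t₂ : G} (ω : Ω') (h1 : g₁ * t₂ = t₂ * g₁) (h2 : g₂ * t₁ = t₁ * g₂)
    (h3 : t₁ * t₂ = t₂ * t₁) (h4 : e * t₁ = t₁ * e) (h5 : e * t₂ = t₂ * e)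
    (hg₁ : g₁ • ω = t₁ • ω) (hg₂ : g₂ • ω = t₂ • ω) (hc : g₁ * g₂ = e * (g₂ * g₁)) : e • ω = ω := by
  have a1 : (g₁ * g₂) • ω = (t₂ * t₁) • ω := by
    rw [mul_smul, hg₂, ← mul_smul, h1, mul_smul, hg₁, mul_smul]
  have a2 : (g₂ * g₁) • ω = (t₂ * t₁) • ω := by
    rw [mul_smul, hg₁, ← mul_smul, h2, mul_smul, hg₂, ← mul_smul, h3]
  rw [hc, mul_smul, a2, ← mul_smul, ← mul_assoc, h5, mul_assoc, h4, ← mul_assoc, mul_smul] at a1
  exact smul_left_cancel _ a1

end Abstract

variable {F V : Type*} [Field F] [AddCommGroup V] [Module F V] {B : LinearMap.BilinForm F V} (hA : B.IsAlt)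
variable {Ω : Type*} [MulAction (IsomGroup B) Ω]

include hA

/-- Elements fixing `c` commute with its root group. -/
theorem comm_tv {c : V} (g : IsomGroup B) (hg : g.1 c = c) (a : F) : g * tvG hA c a = tvG hA c a * g := by
  have h1 := tvG_conj hA g c a
  rw [hg] at h1
  conv_rhs => rw [← h1]
  group

section Kill

variable {c c' : V} (huv : B c c' = 1)

include huv

/-- A torus element of a pair in the perp, as an element of the Levi factor. -/
noncomputable def torL {v v' : perpPair B c c'} (hvv : B (v : V) (v' : V) = 1) (μ : F) (hμ : μ ≠ 0) :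
    stabPair B c c' :=
  ⟨hh hA hvv μ hμ, by
    have h1 : B c (v : V) = 0 := hcW hA huv v
    have h2 : B c (v' : V) = 0 := hcW hA huv v'
    have h3 : B c' (v : V) = 0 := by rw [swap hA, (mem_perpPair.mp v.2).2, neg_zero]
    have h4 : B c' (v' : V) = 0 := by rw [swap hA, (mem_perpPair.mp v'.2).2, neg_zero]
    exact ⟨hh_of_perp hA hvv μ hμ h1 h2, hh_of_perp hA hvv μ hμ h3 h4⟩⟩

theorem torL_coe {v v' : perpPair B c c'} (hvv : B (v : V) (v' : V) = 1) (μ : F) (hμ : μ ≠ 0) :
    (torL hA huv hvv μ hμ).1 = hh hA hvv μ hμ := rfl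

/-- A point whose orbit is stable under root elements and a torus element is fixed by a root group. -/
theorem kill_tv {v v' : perpPair B c c'} (hvv : B (v : V) (v' : V) = 1) {ω : Ω} {μ : F} (hμ : μ ≠ 0) (hμ2 : μ ^ 2 ≠ 1)
    (h1 : ∀ s, mkY hA c (tvG hA (v : V) s • ω) = mkY hA c ω) (h2 : mkY hA c (hh hA hvv μ hμ • ω) = mkY hA c ω) :
    Fx hA ω (v : V) := by
  obtain ⟨β, hβ⟩ := (mkY_eq hA).mp h2.symm
  have hfix : (hh hA hvv μ hμ).1 c = c := (torL hA huv hvv μ hμ).2.1
  have hcomm : ∀ s, tvG hA (v : V) (μ ^ 2 * s) • ω = tvG hA (v : V) s • ω := by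
    intro s
    obtain ⟨α, hα⟩ := (mkY_eq hA).mp (h1 s).symm
    have hc1 : (tvG hA (v : V) s).1 c = c := by
      rw [tvG_apply, hcW hA huv v]
      simp
    refine orbit_conj ω (comm_tv hA _ hfix α) (comm_tv hA _ hfix β) (comm_tv hA _ hc1 β) ?_ hα.symm hβ.symm ?_
    · rw [tvG_add, tvG_add, add_comm]
    · rw [tvG_conj, hh_left, tvG_smul]
  have h2' : μ ^ 2 - 1 ≠ 0 := sub_ne_zero.mpr hμ2
  intro r
  have h3 := hcomm (r / (μ ^ 2 - 1))
  have e : r = -(r / (μ ^ 2 - 1)) + μ ^ 2 * (r / (μ ^ 2 - 1)) := by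
    field_simp
    ring
  rw [e, ← tvG_add, mul_smul, h3, ← mul_smul, tvG_add, neg_add_cancel, tvG_zero, one_smul]

/-- Existence of a partner in the perp. -/
theorem exists_partner_W [Finite V] (hB : B.Nondegenerate) {v : perpPair B c c'} (hv : v ≠ 0) :
    ∃ v' : perpPair B c c', B (v : V) (v' : V) = 1 := by
  have hnd := restrict_nondegenerate hA huv hB
  have : ∃ u : perpPair B c c', B (v : V) (u : V) ≠ 0 := by
    by_contra hno
    push Not at hno
    exact hv (hnd.1 _ hno)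
  obtain ⟨u, hu⟩ := this
  refine ⟨(B (v : V) (u : V))⁻¹ • u, ?_⟩
  rw [Submodule.coe_smul, map_smul, smul_eq_mul, inv_mul_cancel₀ hu]

/-- The existence of a scalar with square different from one. -/
theorem exists_sq_ne_one [Fintype F] (hq : 4 ≤ Fintype.card F) : ∃ μ : F, μ ≠ 0 ∧ μ ^ 2 ≠ 1 := by
  classical
  by_contra hno
  push Not at hno
  have hsub : (Finset.univ : Finset F) ⊆ {0, 1, -1} := by
    intro t _
    by_cases h0 : t = 0
    · simp [h0]
    · have h1 := hno t h0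
      have h2 : (t - 1) * (t + 1) = 0 := by linear_combination h1
      rcases mul_eq_zero.mp h2 with h3 | h3
      · have : t = 1 := by linear_combination h3
        simp [this]
      · have : t = -1 := by linear_combination h3
        simp [this]
  have h1 := Finset.card_le_card hsub
  have h2 : ({0, 1, -1} : Finset F).card ≤ 3 := Finset.card_le_three
  rw [Finset.card_univ] at h1
  omega

section Fixed

variable [Fintype F] [Fintype V] {hB : B.Nondegenerate} [Fintype Ω]
  [MulAction.IsPretransitive (IsomGroup B) Ω] [Nontrivial Ω] {w N : ℕ} (C : Ctx hA hB Ω w N)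

include C

/-- Canonical orbit: the case `q ≥ 4`. -/
theorem kill_fixed (hq : 4 ≤ Fintype.card F) {ω : Ω} {v : perpPair B c c'} (hv : v ≠ 0)
    (hfix : ∀ (ℓ : stabPair B c c') (μ : F), μ ≠ 0 → ℓ.1.1 (v : V) = μ • (v : V) → kap hA ℓ (mkY hA c ω) = mkY hA c ω) :
    False := by
  obtain ⟨v', hvv⟩ := exists_partner_W hA huv hB hv
  obtain ⟨μ, hμ0, hμ2⟩ := exists_sq_ne_one hA huv hq
  have hv0 : (v : V) ≠ 0 := fun h => hv (Subtype.ext h)
  refine fix_empty hA C ω hv0 (kill_tv hA huv hvv hμ0 hμ2 ?_ ?_)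
  · intro s
    have h1 := hfix (tvL hA huv v s) 1 one_ne_zero (by
      rw [tvL_coe, tvG_apply, hA (v : V)]
      simp)
    rwa [kap_mk, tvL_coe] at h1
  · have h1 := hfix (torL hA huv hvv μ hμ0) μ hμ0 (hh_left hA hvv μ hμ0)
    rwa [kap_mk, torL_coe] at h1

/-- Canonical orbit: the case of odd characteristic, using the commutator in the Levi factor. -/
theorem kill_fixed3 (h2 : (2 : F) ≠ 0) (hdim : 6 ≤ Module.finrank F V) {ω : Ω} {v : perpPair B c c'} (hv : v ≠ 0)
    (hfix : ∀ ℓ : stabPair B c c', kap hA ℓ (mkY hA c ω) = mkY hA c ω) : False := by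
  classical
  obtain ⟨v', hvv⟩ := exists_partner_W hA huv hB hv
  have hv0 : (v : V) ≠ 0 := fun h => hv (Subtype.ext h)
  refine fix_empty hA C ω hv0 ?_
  -- a pair orthogonal to everything
  have hAW := restrict_isAlt hA (perpPair B c c')
  have hBW := restrict_nondegenerate hA huv hB
  have hW := finrank_perpPair hA huv
  have : Fintype (perpPair B c c') := Fintype.ofFinite _
  obtain ⟨u₁, u₂, hu⟩ := exists_W_pair hAW hBW (by omega) (c := v) (c' := v') hvv
  set a : perpPair B c c' := u₁.1 with ha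
  set b : perpPair B c c' := u₂.1 with hb
  have hab : B (a : V) (b : V) = 1 := hu
  have ha1 : B (v : V) (a : V) = 0 := by
    have h3 : B (a : V) (v : V) = 0 := (mem_perpPair.mp u₁.2).1
    rw [swap hA, h3, neg_zero]
  have hb1 : B (v : V) (b : V) = 0 := by
    have h3 : B (b : V) (v : V) = 0 := (mem_perpPair.mp u₂.2).1
    rw [swap hA, h3, neg_zero]
  have hcv : B c (v : V) = 0 := hcW hA huv v
  have hc'v : B c' (v : V) = 0 := by rw [swap hA, (mem_perpPair.mp v.2).2, neg_zero]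
  -- elements of the Levi factor
  have hrho : ∀ x : perpPair B c c', B (v : V) (x : V) = 0 → rho hA (v : V) (x : V) 0 ∈ stabPair B c c' := by
    intro x hx
    have h3 : B c (x : V) = 0 := hcW hA huv x
    have h4 : B c' (x : V) = 0 := by rw [swap hA, (mem_perpPair.mp x.2).2, neg_zero]
    refine ⟨?_, ?_⟩
    · change (rho hA (v : V) (x : V) 0).1 c = c
      rw [rho_apply hA hx, h3, hcv]
      simp
    · change (rho hA (v : V) (x : V) 0).1 c' = c'
      rw [rho_apply hA hx, h4, hc'v]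
      simp
  intro r
  set s := - r / 2 with hs
  have hsa : B (v : V) ((s • a : perpPair B c c') : V) = 0 := by
    rw [Submodule.coe_smul, map_smul, ha1, smul_zero]
  have h3 := hfix ⟨_, hrho (s • a) hsa⟩
  have h4 := hfix ⟨_, hrho b hb1⟩
  rw [kap_mk] at h3 h4
  obtain ⟨α, hα⟩ := (mkY_eq hA).mp h3.symm
  obtain ⟨β, hβ⟩ := (mkY_eq hA).mp h4.symm
  have hg1 := (hrho (s • a) hsa).1
  have hg2 := (hrho b hb1).1
  have hcomm := rho_comm hA hsa hb1 0 0
  have e : B (b : V) ((s • a : perpPair B c c') : V) - B ((s • a : perpPair B c c') : V) (b : V) = r := by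
    rw [Submodule.coe_smul, map_smul, map_smul, LinearMap.smul_apply, swap hA (b : V) (a : V), hab, hs]
    simp only [smul_eq_mul]
    field_simp
    ring
  rw [e] at hcomm
  have hec : (tvG hA (v : V) r).1 c = c := by
    rw [tvG_apply, hcv]
    simp
  exact comm_fix ω (comm_tv hA _ hg1 β) (comm_tv hA _ hg2 α) (by rw [tvG_add, tvG_add, add_comm])
    (comm_tv hA _ hec α) (comm_tv hA _ hec β) hα.symm hβ.symm hcomm

end Fixed

end Kill

end Cfsg.Agent.Lib.MinIndex.SpKill
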