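import Mathlib
import Cfsg.Agent.Lib.MinIndex.SpKill

/-!
# The minimal degree of the symplectic groups over the field with two elements

If a transitive set is small, the transvections fixing a point form the nonsingular vectors of a
quadratic form.
-/

set_option autoImplicit false
set_option linter.unusedSectionVars false
set_option linter.unusedSimpArgs false
set_option linter.unusedVariables false

namespace Cfsg.Agent.Lib.MinIndex.Sp2Core

open Cfsg.Agent.Lib.Classical.Symp.AltForm Cfsg.Agent.Lib.Classical.Symp.Hyperbolic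
open Cfsg.Agent.Lib.MinIndex.SpLocal Cfsg.Agent.Lib.MinIndex.SpCount Cfsg.Agent.Lib.MinIndex.SpOrbit
open Cfsg.Agent.Lib.MinIndex.SpGlob Cfsg.Agent.Lib.MinIndex.SpFix Cfsg.Agent.Lib.MinIndex.SpEven
open Cfsg.Agent.Lib.MinIndex.SpKill

variable {F V : Type*} [Field F] [AddCommGroup V] [Module F V] {B : LinearMap.BilinForm F V}

/-! ### The quadratic form lemma -/

section Forms

omit [Module F V] in
theorem vv_zero [Module F V] [CharP F 2] (v : V) : v + v = 0 := by
  rw [← two_smul F v, CharTwo.two_eq_zero, zero_smul]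

variable (hel : ∀ x : F, x = 0 ∨ x = 1) [CharP F 2]

include hel

/-- A function with the quadratic identity at the vectors where it vanishes is a quadratic form. -/
theorem lemma_Q (hB : B.Nondegenerate) (q : V → F) (h0 : q 0 = 0) (hz : ∃ z, z ≠ 0 ∧ q z = 0)
    (hZ : ∀ z, z ≠ 0 → q z = 0 → ∀ y, q (y + z) = q y + q z + B y z) :
    ∀ u v, q (u + v) = q u + q v + B u v := by
  by_contra hno
  push Not at hno
  obtain ⟨u, y₀, hy₀⟩ := hno
  let Good : V → Prop := fun s => ∀ y, q (y + s) = q y + q s + B y s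
  have hG0 : Good 0 := by
    intro y
    simp [h0]
  have hadd : ∀ s s', Good s → Good s' → Good (s + s') := by
    intro s s' hs hs' y
    have h1 := hs y
    have h2 := hs' (y + s)
    have h3 := hs' s
    rw [← add_assoc, h2, h1, h3]
    simp only [map_add, LinearMap.add_apply]
    ring
  have hbad : ∀ y, ¬ Good y → q y = 1 := by
    intro y hy
    rcases hel (q y) with h | h
    · exfalso
      by_cases hy0 : y = 0
      · subst hy0
        exact hy hG0
      · exact hy (hZ y hy0 h)
    · exact h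
  have hnot : ¬ Good y₀ := by
    intro h
    exact hy₀ (h u)
  obtain ⟨z, hz0, hqz⟩ := hz
  have hGz : Good z := hZ z hz0 hqz
  have hzz : z + z = 0 := vv_zero (F := F) z
  have hperp : ∀ y, ¬ Good y → B y z = 0 := by
    intro y hy
    have h1 : ¬ Good (y + z) := by
      intro h
      apply hy
      have := hadd _ _ h hGz
      rwa [add_assoc, hzz, add_zero] at this
    have h2 := hGz y
    rw [hbad _ h1, hbad _ hy, hqz, add_zero] at h2
    have h3 : (1 : F) + B y z = 1 := h2.symm
    have h4 : B y z = 0 := by linear_combination h3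
    exact h4
  apply hz0
  apply hB.2
  intro x
  by_cases hx : Good x
  · have h1 : ¬ Good (y₀ + x) := by
      intro h
      apply hnot
      have := hadd _ _ h hx
      rwa [add_assoc, vv_zero (F := F), add_zero] at this
    have h2 := hperp _ h1
    rw [map_add, LinearMap.add_apply, hperp _ hnot, zero_add] at h2
    exact h2
  · exact hperp x hx

open _root_.Classical in
/-- The sign function. -/
noncomputable def sg (x : F) : ℤ := if x = 0 then 1 else -1

omit hel [CharP F 2] in
theorem sg_zero : sg (0 : F) = 1 := by simp [sg]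

theorem sg_one : sg (1 : F) = -1 := by simp [sg]

theorem sg_add (x y : F) : sg (x + y) = sg x * sg y := by
  rcases hel x with rfl | rfl
  · simp [sg_zero]
  · rcases hel y with rfl | rfl
    · simp [sg_zero]
    · rw [CharTwo.add_self_eq_zero, sg_zero, sg_one hel]
      norm_num

theorem sg_sq (x : F) : sg x * sg x = 1 := by
  rw [← sg_add hel, CharTwo.add_self_eq_zero, sg_zero]

variable [Fintype V]

/-- The Gauss sum of a quadratic form. -/
theorem gauss (hB : B.Nondegenerate) (q : V → F) (hq : ∀ u v, q (u + v) = q u + q v + B u v) :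
    (∑ v, sg (q v)) * (∑ v, sg (q v)) = Fintype.card V := by
  classical
  have h0 : q 0 = 0 := by
    have := hq 0 0
    simp only [add_zero, map_zero, LinearMap.zero_apply, CharTwo.add_self_eq_zero] at this
    exact this
  rw [Finset.sum_mul_sum]
  have h1 : ∀ x : V, ∑ y, sg (q x) * sg (q y) = ∑ z, sg (q z) * sg (B x z) := by
    intro x
    rw [← Equiv.sum_comp (Equiv.addLeft x)]
    apply Finset.sum_congr rfl
    intro z _
    simp only [Equiv.coe_addLeft]
    rw [hq, sg_add hel, sg_add hel]
    calc sg (q x) * (sg (q x) * sg (q z) * sg (B x z)) = (sg (q x) * sg (q x)) * (sg (q z) * sg (B x z)) := by ring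
      _ = sg (q z) * sg (B x z) := by rw [sg_sq hel, one_mul]
  simp_rw [h1]
  rw [Finset.sum_comm]
  have h2 : ∀ z : V, ∑ x, sg (q z) * sg (B x z) = if z = 0 then (Fintype.card V : ℤ) else 0 := by
    intro z
    rw [← Finset.mul_sum]
    by_cases hz : z = 0
    · subst hz
      simp [h0, sg_zero]
    · rw [if_neg hz]
      obtain ⟨d, hd⟩ : ∃ d, B d z ≠ 0 := by
        by_contra hno
        push Not at hno
        exact hz (hB.2 z hno)
      have hd1 : B d z = 1 := (hel _).resolve_left hd
      have h3 : ∑ x, sg (B x z) = - ∑ x, sg (B x z) := by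
        conv_lhs => rw [← Equiv.sum_comp (Equiv.addRight d)]
        rw [← Finset.sum_neg_distrib]
        apply Finset.sum_congr rfl
        intro x _
        simp only [Equiv.coe_addRight, map_add, LinearMap.add_apply, hd1]
        rw [sg_add hel, sg_one hel]
        ring
      have h4 : ∑ x, sg (B x z) = 0 := by linarith
      rw [h4, mul_zero]
  simp_rw [h2]
  simp

open _root_.Classical in
/-- The size of the zero set of a quadratic form. -/
theorem card_zero_ge (hB : B.Nondegenerate) (q : V → F) (hq : ∀ u v, q (u + v) = q u + q v + B u v) {r : ℕ}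
    (hr : Fintype.card V = r * r) :
    r * r ≤ 2 * (Finset.univ.filter (fun v => q v = 0)).card + r := by
  have h1 := gauss hel hB q hq
  have h2 : (∑ v, sg (q v)) = 2 * ((Finset.univ.filter (fun v => q v = 0)).card : ℤ) - Fintype.card V := by
    have h3 := Finset.card_filter_add_card_filter_not (s := (Finset.univ : Finset V)) (fun v : V => q v = 0)
    rw [Finset.card_univ] at h3
    have h4 : ∑ v, sg (q v) = ((Finset.univ.filter (fun v => q v = 0)).card : ℤ) - ((Finset.univ.filter (fun v => ¬ q v = 0)).card : ℤ) := by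
      unfold sg
      rw [Finset.sum_ite]
      simp
      ring
    rw [h4, ← h3]
    push_cast
    ring
  set S := ∑ v, sg (q v) with hS
  rw [hr] at h1 h2
  have h3 : -(r : ℤ) ≤ S := by
    by_contra hlt
    push Not at hlt
    have : (r : ℤ) < -S := by linarith
    push_cast at h1
    nlinarith [Int.natCast_nonneg r]
  push_cast at h2
  have h4 : ((r * r : ℕ) : ℤ) ≤ ((2 * (Finset.univ.filter (fun v => q v = 0)).card + r : ℕ) : ℤ) := by
    push_cast
    linarith
  exact_mod_cast h4

end Forms

/-! ### Points and root groups -/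

variable (hA : B.IsAlt) {Ω : Type*} [MulAction (IsomGroup B) Ω]

section Local

variable (hel : ∀ x : F, x = 0 ∨ x = 1) [CharP F 2]

include hA hel

theorem fx_of_one {ω : Ω} {c : V} (h : tvG hA c 1 • ω = ω) : Fx hA ω c := by
  intro s
  rcases hel s with rfl | rfl
  · rw [tvG_zero, one_smul]
  · exact h

omit hel [CharP F 2] in
theorem fx_smul_iff (g : IsomGroup B) (ω : Ω) (v : V) : Fx hA (g • ω) v ↔ Fx hA ω ((g⁻¹).1 v) := by
  constructor
  · intro h
    have := Fx_map hA g⁻¹ h
    rwa [inv_smul_smul] at this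
  · intro h
    have := Fx_map hA g h
    rwa [inv_coe_apply] at this

variable [Fintype F] [Fintype V] (hB : B.Nondegenerate)

include hB

variable {ω : Ω} (H : ∀ z : V, z ≠ 0 → ¬ Fx hA ω z → ∀ w, B z w = 0 → ∃ a, rho hA z w a • ω = ω)

include H

/-- If no root group fixes the point, the radical stabilizers cannot all be large. -/
theorem no_empty (hdim : 6 ≤ Module.finrank F V) (hemp : ∀ v : V, v ≠ 0 → ¬ Fx hA ω v) : False := by
  have hV0 : Nontrivial V := by
    apply Module.nontrivial_of_finrank_pos (R := F)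
    omega
  obtain ⟨c', hc'⟩ := exists_ne (0 : V)
  obtain ⟨d', hd'⟩ := exists_partner hB hc'
  have hn1 := hemp c' hc'
  have tvfree : ∀ a : F, tvG hA c' a • ω = ω → a = 0 := by
    intro a ha
    rcases hel a with rfl | rfl
    · rfl
    · exact (hn1 (fx_of_one hA hel ha)).elim
  have key : ∀ c : perpPair B c' d', c ≠ 0 → rho hA c' (c : V) 0 • ω = ω := by
    intro c hc
    have hc0 : (c : V) ≠ 0 := fun h => hc (Subtype.ext h)
    obtain ⟨d, hd⟩ := exists_partner_W hA hd' hB hc
    have hAW := restrict_isAlt hA (perpPair B c' d')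
    have hBW := restrict_nondegenerate hA hd' hB
    have hW := finrank_perpPair hA hd'
    have : Fintype (perpPair B c' d') := Fintype.ofFinite _
    obtain ⟨u₁, u₂, hu⟩ := exists_W_pair hAW hBW (by omega) (c := c) (c' := d) hd
    set x : perpPair B c' d' := u₁.1 with hx
    set w : perpPair B c' d' := u₂.1 with hw
    have hxw : B (x : V) (w : V) = 1 := hu
    have hxc : B (x : V) (c : V) = 0 := (mem_perpPair.mp u₁.2).1
    have hwc : B (w : V) (c : V) = 0 := (mem_perpPair.mp u₂.2).1
    have hcw : B (c : V) (w : V) = 0 := by rw [swap hA, hwc, neg_zero]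
    have hcx : B (c : V) (x : V) = 0 := by rw [swap hA, hxc, neg_zero]
    have h1 : B c' (x : V) = 0 := hcW hA hd' x
    have h2 : B c' (w : V) = 0 := hcW hA hd' w
    have h3 : B c' (c : V) = 0 := hcW hA hd' c
    obtain ⟨a₁, ha₁⟩ := H c hc0 (hemp c hc0) w hcw
    have hρc' : (rho hA (c : V) (w : V) a₁).1 c' = c' := by
      rw [rho_apply hA hcw, h2, h3]
      simp
    have hρx : (rho hA (c : V) (w : V) a₁).1 x = x + c := by
      rw [rho_apply hA hcw, hxw, hxc]
      simp
    obtain ⟨a₂, ha₂⟩ := H c' hc' hn1 x h1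
    obtain ⟨a₃, ha₃⟩ := H c' hc' hn1 c h3
    have h4 := rho_conj hA (rho hA (c : V) (w : V) a₁) c' x a₂
    rw [hρc', hρx] at h4
    have h5 : rho hA c' ((x : V) + c) a₂ • ω = ω := by
      rw [← h4, mul_smul, mul_smul, inv_smul_eq_iff.mpr ha₁.symm, ha₂, ha₁]
    have h6 := rho_mul hA h1 h3 a₂ a₃
    rw [hcx, add_zero] at h6
    have h7 : rho hA c' ((x : V) + c) (a₂ + a₃) • ω = ω := by
      rw [← h6, mul_smul, ha₃, ha₂]
    have hsum : B c' ((x : V) + c) = 0 := by simp [h1, h3]
    have h8 := rho_tv hA hsum a₂ a₃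
    rw [← h8, mul_smul, h5] at h7
    have h9 := tvfree a₃ h7
    rw [h9] at ha₃
    exact ha₃
  obtain ⟨w₁, w₂, hw⟩ := exists_W_pair hA hB (by omega) hd'
  have hw₁ : w₁ ≠ 0 := by
    rintro rfl
    simp at hw
  have hw₂ : w₂ ≠ 0 := by
    rintro rfl
    simp at hw
  have hw₃ : w₁ + w₂ ≠ 0 := by
    intro h
    have e : w₁ = w₂ := by
      have h1 : (w₁ : V) + w₂ = 0 := congrArg Subtype.val h
      have h2 := vv_zero (F := F) (w₂ : V)
      apply Subtype.ext
      exact add_right_cancel (h1.trans h2.symm)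
    rw [e, hA (w₂ : V)] at hw
    exact zero_ne_one hw
  have h1 := key w₁ hw₁
  have h2 := key w₂ hw₂
  have h3 := key _ hw₃
  have h4 := rho_mul hA (hcW hA hd' w₁) (hcW hA hd' w₂) 0 0
  have h5 : rho hA c' ((w₁ + w₂ : perpPair B c' d') : V) (0 + 0 + B (w₂ : V) (w₁ : V)) • ω = ω := by
    rw [Submodule.coe_add, ← h4, mul_smul, h2, h1]
  have hsum : B c' ((w₁ + w₂ : perpPair B c' d') : V) = 0 := hcW hA hd' _
  simp only [add_zero, zero_add] at h5
  have h6 := rho_tv hA hsum 0 (B (w₂ : V) (w₁ : V))
  rw [zero_add] at h6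
  rw [← h6, mul_smul, h3] at h5
  have h7 := tvfree _ h5
  rw [swap hA, hw] at h7
  simp at h7

/-- The translation by a vector outside the root vectors, on its perp. -/
theorem D1 {z y : V} (hz : z ≠ 0) (hnz : ¬ Fx hA ω z) (hyz : B y z = 0) (hind : ∀ t : F, y ≠ t • z) :
    Fx hA ω (y + z) ↔ Fx hA ω y := by
  obtain ⟨d, hd1, hd2⟩ := exists_sep hB hind
  have hzy : B z y = 0 := by rw [swap hA, hyz, neg_zero]
  obtain ⟨a, ha⟩ := H z hz hnz d hd2
  constructor
  · intro h
    have h1 := Fx_closure hA ha h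
    rw [rho_apply hA hd2] at h1
    have e : y + z + B (y + z) d • z + B (y + z) z • d + (a * B (y + z) z) • z = y := by
      simp only [map_add, LinearMap.add_apply, hd1, hd2, hyz, hA z, add_zero, mul_zero, zero_smul, one_smul]
      rw [add_assoc, vv_zero (F := F), add_zero]
    rwa [e] at h1
  · intro h
    have h1 := Fx_closure hA ha h
    rw [rho_apply hA hd2] at h1
    have e : y + B y d • z + B y z • d + (a * B y z) • z = y + z := by
      simp [hd1, hyz]
    rwa [e] at h1

/-- Outside the perp, at least one of a pair of vectors is a root vector. -/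
theorem D3 {z x₀ y : V} (hz : z ≠ 0) (hnz : ¬ Fx hA ω z) (hx₀ : Fx hA ω x₀) (hx₀z : B x₀ z ≠ 0) (hyz : B y z ≠ 0) :
    Fx hA ω y ∨ Fx hA ω (y + z) := by
  have h1 : B x₀ z = 1 := (hel _).resolve_left hx₀z
  have h2 : B y z = 1 := (hel _).resolve_left hyz
  have hzw : B z (y + x₀) = 0 := by
    rw [map_add, swap hA z y, swap hA z x₀, h1, h2, CharTwo.neg_eq, one_add_one_eq_two]
    exact CharTwo.two_eq_zero
  obtain ⟨a, ha⟩ := H z hz hnz _ hzw
  have h3 := Fx_closure hA ha hx₀
  rw [rho_apply hA hzw, h1] at h3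
  have e : x₀ + B x₀ (y + x₀) • z + (1 : F) • (y + x₀) + (a * 1) • z = y + (B x₀ (y + x₀) + a * 1) • z := by
    have := vv_zero (F := F) x₀
    linear_combination (norm := module) this
  rw [e] at h3
  rcases hel (B x₀ (y + x₀) + a * 1) with h4 | h4
  · left
    rwa [h4, zero_smul, add_zero] at h3
  · right
    rwa [h4, one_smul] at h3

omit H hB [Fintype F] [Fintype V] hel in
/-- Outside the perp, at most one of a pair of vectors is a root vector. -/
theorem D2 {z y : V} (hnz : ¬ Fx hA ω z) (hyz : B y z ≠ 0) (h1 : Fx hA ω y) (h2 : Fx hA ω (y + z)) : False := by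
  apply hnz
  have hne : B (y + z) y ≠ 0 := by
    simp only [map_add, LinearMap.add_apply, hA y, zero_add]
    rw [swap hA]
    exact neg_ne_zero.mpr hyz
  have h3 := Fx_span hA h1 h2 hne (-1) 1
  have e : (-1 : F) • y + (1 : F) • (y + z) = z := by module
  rwa [e] at h3

/-- A vector outside the root vectors is not orthogonal to all of them. -/
theorem D4 {z x : V} (hz : z ≠ 0) (hnz : ¬ Fx hA ω z) (hx0 : x ≠ 0) (hx : Fx hA ω x) :
    ∃ x₀, Fx hA ω x₀ ∧ B x₀ z ≠ 0 := by
  by_contra hno
  push Not at hno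
  obtain ⟨y, hy⟩ : ∃ y, B y z ≠ 0 := by
    by_contra h
    push Not at h
    exact hz (hB.2 z h)
  have hy1 : B y z = 1 := (hel _).resolve_left hy
  have hny : ¬ Fx hA ω y := fun h => hy (hno y h)
  have hy0 : y ≠ 0 := by
    rintro rfl
    simp at hy
  -- a root vector not orthogonal to `y`
  have hex : ∃ x₁, Fx hA ω x₁ ∧ B x₁ y ≠ 0 := by
    by_contra h2
    push Not at h2
    have hind : ∀ t : F, x ≠ t • z := by
      intro t ht
      rcases hel t with rfl | rfl
      · exact hx0 (by simpa using ht)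
      · rw [one_smul] at ht
        exact hnz (ht ▸ hx)
    obtain ⟨w, hw1, hw2⟩ := exists_sep hB hind
    obtain ⟨a, ha⟩ := H z hz hnz w hw2
    have hinv : (rho hA z w a)⁻¹ • ω = ω := inv_smul_eq_iff.mpr ha.symm
    have h3 := Fx_closure hA hinv hx
    have h4 := h2 _ h3
    rw [← form_g (rho hA z w a), inv_coe_apply, rho_apply hA hw2, hy1] at h4
    have hxz : B x z = 0 := hno x hx
    have hxy : B x y = 0 := h2 x hx
    simp only [map_add, map_smul, smul_eq_mul, hxz, hxy, hw1, mul_zero, zero_add, one_mul, add_zero] at h4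
    exact one_ne_zero h4
  obtain ⟨x₁, hx₁, hx₁y⟩ := hex
  have hzy : B z y ≠ 0 := by
    rw [swap hA]
    exact neg_ne_zero.mpr hy
  rcases D3 hA hel hB H hy0 hny hx₁ hx₁y hzy with h | h
  · exact hnz h
  · have := hno _ h
    simp only [map_add, LinearMap.add_apply, hA z, zero_add] at this
    exact hy this

open _root_.Classical in
/-- The indicator of the root vectors. -/
noncomputable def qf (hA : B.IsAlt) (ω : Ω) (v : V) : F := if v ≠ 0 ∧ Fx hA ω v then 1 else 0

omit H hB [Fintype F] [Fintype V] hel [CharP F 2] hA in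
theorem qf_zero (hA : B.IsAlt) (ω : Ω) : qf hA ω (0 : V) = (0 : F) := by
  simp [qf]

omit H hB [Fintype F] [Fintype V] hel [CharP F 2] hA in
theorem qf_eq_zero_iff (hA : B.IsAlt) {ω : Ω} {v : V} (hv : v ≠ 0) : qf (F := F) hA ω v = 0 ↔ ¬ Fx hA ω v := by
  simp [qf, hv]

omit H hB [Fintype F] [Fintype V] hel [CharP F 2] hA in
theorem qf_of_fx (hA : B.IsAlt) {ω : Ω} {v : V} (hv : v ≠ 0) (h : Fx hA ω v) : qf (F := F) hA ω v = 1 := by
  simp [qf, hv, h]

omit H hB [Fintype F] [Fintype V] hel [CharP F 2] hA in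
theorem qf_of_not (hA : B.IsAlt) {ω : Ω} {v : V} (h : ¬ Fx hA ω v) : qf (F := F) hA ω v = 0 := by
  simp [qf, h]

/-- The indicator of the root vectors is a quadratic form. -/
theorem qf_quad {x : V} (hx0 : x ≠ 0) (hx : Fx hA ω x) {z₀ : V} (hz₀ : z₀ ≠ 0) (hz₁ : ¬ Fx hA ω z₀) :
    ∀ u v : V, qf (F := F) hA ω (u + v) = qf hA ω u + qf hA ω v + B u v := by
  refine lemma_Q hel hB _ (qf_zero hA ω) ⟨z₀, hz₀, qf_of_not hA hz₁⟩ ?_
  intro z hz hqz y
  have hnz : ¬ Fx hA ω z := (qf_eq_zero_iff hA hz).mp hqz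
  by_cases hy0 : y = 0
  · subst hy0
    simp [qf_zero]
  by_cases hyz : y = z
  · subst hyz
    rw [vv_zero (F := F), qf_zero, hA y, add_zero, CharTwo.add_self_eq_zero]
  have hsum : y + z ≠ 0 := by
    intro h
    apply hyz
    have h1 := vv_zero (F := F) z
    exact add_right_cancel (h.trans h1.symm)
  rcases hel (B y z) with h | h
  · have hind : ∀ t : F, y ≠ t • z := by
      intro t ht
      rcases hel t with rfl | rfl
      · exact hy0 (by simpa using ht)
      · rw [one_smul] at ht
        exact hyz ht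
    have hiff := D1 hA hel hB H hz hnz h hind
    rw [hqz, h, add_zero, add_zero]
    by_cases hFy : Fx hA ω y
    · rw [qf_of_fx hA hsum (hiff.mpr hFy), qf_of_fx hA hy0 hFy]
    · rw [qf_of_not hA (fun h' => hFy (hiff.mp h')), qf_of_not hA hFy]
  · obtain ⟨x₀, hx₀, hx₀z⟩ := D4 hA hel hB H hz hnz hx0 hx
    have hne : B y z ≠ 0 := by
      rw [h]
      exact one_ne_zero
    rw [hqz, h, add_zero]
    by_cases hFy : Fx hA ω y
    · have h2 : ¬ Fx hA ω (y + z) := fun h' => D2 hA hnz hne hFy h'
      rw [qf_of_not hA h2, qf_of_fx hA hy0 hFy, CharTwo.add_self_eq_zero]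
    · have h2 := (D3 hA hel hB H hz hnz hx₀ hx₀z hne).resolve_left hFy
      rw [qf_of_fx hA hsum h2, qf_of_not hA hFy, zero_add]

end Local

section Final

variable (hel : ∀ x : F, x = 0 ∨ x = 1) [CharP F 2]

include hA hel

omit hel in
theorem tv_one_inv (c : V) : (tvG hA c 1)⁻¹ = tvG hA c 1 := by
  rw [tvG_inv, CharTwo.neg_eq]

omit hel [CharP F 2] in
theorem qf_smul (g : IsomGroup B) (ω : Ω) (v : V) : qf (F := F) hA (g • ω) v = qf hA ω ((g⁻¹).1 v) := by
  classical
  have h1 : v ≠ 0 ↔ (g⁻¹).1 v ≠ 0 := by simp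
  unfold qf
  simp only [h1.symm, fx_smul_iff hA g ω v]

omit hA in
theorem qf_tv (hA : B.IsAlt) {q : V → F} (hq : ∀ u v, q (u + v) = q u + q v + B u v) {c : V} (hc : q c = 0) (v : V) :
    q ((tvG hA c 1).1 v) = q v + B v c := by
  rw [tvG_apply, one_mul]
  rcases hel (B v c) with h | h
  · rw [h]
    simp
  · rw [h, one_smul, hq, hc, h, add_zero]

variable [Fintype F] [Fintype V] (hB : B.Nondegenerate) [Fintype Ω]

include hB

open _root_.Classical in
/-- Distinct vectors outside the root vectors move the point to distinct points. -/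
theorem card_zero_le (ω : Ω) (hq : ∀ u v : V, qf (F := F) hA ω (u + v) = qf hA ω u + qf hA ω v + B u v) :
    (Finset.univ.filter (fun v : V => qf (F := F) hA ω v = 0)).card ≤ Fintype.card Ω := by
  rw [← Finset.card_univ]
  apply Finset.card_le_card_of_injOn (fun c => tvG hA c 1 • ω) (fun _ _ => Finset.mem_coe.mpr (Finset.mem_univ _))
  intro c hc c' hc' h
  have hc1 : qf (F := F) hA ω c = 0 := by simpa using hc
  have hc2 : qf (F := F) hA ω c' = 0 := by simpa using hc'
  have h1 : ∀ v, B v (c - c') = 0 := by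
    intro v
    have h2 := congrArg (fun ω' => qf (F := F) hA ω' v) h
    simp only [qf_smul, tv_one_inv] at h2
    rw [qf_tv hel hA hq hc1, qf_tv hel hA hq hc2] at h2
    have h3 : B v c = B v c' := add_left_cancel h2
    rw [map_sub, h3, sub_self]
  exact sub_eq_zero.mp (hB.2 _ h1)

variable [MulAction.IsPretransitive (IsomGroup B) Ω] [Nontrivial Ω]

/-- The minimal degree of the symplectic group over the field with two elements. -/
theorem min_degree_two (hF : Fintype.card F = 2) (hdim : 6 ≤ Module.finrank F V) {r : ℕ}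
    (hr : Fintype.card V = r * r) : r * r ≤ 2 * Fintype.card Ω + r := by
  classical
  by_contra hlt
  push Not at hlt
  have hV : Fintype.card V = 2 ^ Module.finrank F V := by
    rw [Module.card_eq_pow_finrank (K := F) (V := V), hF]
  obtain ⟨ψ, hψ⟩ := exists_psi (F := F)
  have H : ∀ (ω : Ω) (z : V), z ≠ 0 → ¬ Fx hA ω z → ∀ w, B z w = 0 → ∃ a, rho hA z w a • ω = ω := by
    intro ω z hz hnz w hw
    obtain ⟨z', huv⟩ := exists_partner hB hz
    have hcard := card_perp hA huv
    rw [hF] at hcard
    have h4w : Fintype.card V = 4 * Nat.card (perpPair B z z') := by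
      rw [hV, hcard, show (4 : ℕ) = 2 ^ 2 by norm_num, ← pow_add]
      congr 1
      omega
    have htop : (wSet hA huv).stab (mkY hA z ω) = ⊤ := by
      by_contra hR
      let P : Ω → Prop := fun ω => ¬ Fx hA ω z
      have hT : ∀ a ω, P ω → P (tvG hA z a • ω) := by
        intro a ω h h1
        exact h ((Fx_iff_of_scale hA (tvG hA z a) one_ne_zero (scale_tv hA z a) ω).mp h1)
      have hY := (local_types hA huv hB ψ hψ (Ypred hA z P)
        (Ypred_act hA huv (fun w ω h h1 => h ((Fx_iff_of_scale hA _ one_ne_zero (rho_left hA huv w 0) ω).mp h1)))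
        (Ypred_kap hA (fun ℓ ω h h1 => h ((Fx_iff_of_scale hA _ one_ne_zero (stab_left hA ℓ) ω).mp h1)))
        (mk_mem_Ypred hA hnz) hR).1
      have hM : (Finset.univ.filter P).card = Fintype.card F * (Ypred hA z P).card := by
        rw [card_filter_eq_sum hA z P hT, mul_comm, ← smul_eq_mul, ← Finset.sum_const]
        apply Finset.sum_congr rfl
        intro τ hτ
        obtain ⟨ω', hω', rfl⟩ := (mem_Ypred hA).mp hτ
        apply tcard_of_free
        intro a ha
        rcases hel a with h | h
        · exact h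
        · subst h
          exact (hω' (fx_of_one hA hel ha)).elim
      have h1 : (Finset.univ.filter P).card ≤ Fintype.card Ω := Finset.card_le_univ _
      rw [hM, hF] at h1
      have h2 : r * r = 4 * Nat.card (perpPair B z z') := by rw [← hr, h4w]
      omega
    have h2 : proj hA huv w ∈ (wSet hA huv).stab (mkY hA z ω) := by
      rw [htop]
      trivial
    obtain ⟨a₀, ha₀⟩ := (mem_stab_mk hA huv).mp h2
    have hwz : B w z = 0 := by rw [swap hA, hw, neg_zero]
    have hdec := decomp hA huv w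
    rw [hwz, zero_smul, sub_zero] at hdec
    refine ⟨a₀, ?_⟩
    have h3 : rho hA z w a₀ = rho hA z (B w z' • z + (proj hA huv w : V)) a₀ := by
      rw [← hdec]
    rw [h3, Cfsg.Agent.Lib.MinIndex.SpFix2.rho_add_self hA (hcW hA huv (proj hA huv w)), CharTwo.two_eq_zero, zero_mul,
      add_zero]
    exact ha₀
  obtain ⟨ω₀⟩ : Nonempty Ω := inferInstance
  obtain ⟨z₀, hz₀⟩ := exists_not_fx hA hB ω₀
  have hz₀0 : z₀ ≠ 0 := by
    rintro rfl
    exact hz₀ (Fx_zero hA ω₀)
  by_cases hex : ∃ x : V, x ≠ 0 ∧ Fx hA ω₀ x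
  · obtain ⟨x, hx0, hx⟩ := hex
    have hq := qf_quad hA hel hB (H ω₀) hx0 hx hz₀0 hz₀
    have h1 := card_zero_ge hel hB (qf (F := F) hA ω₀) hq hr
    have h2 := card_zero_le hA hel hB ω₀ hq
    omega
  · push Not at hex
    exact no_empty hA hel hB (H ω₀) hdim hex

end Final

end Cfsg.Agent.Lib.MinIndex.Sp2Core
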