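import Mathlib
import Cfsg.Agent.Lib.MinIndex.Sp2Core

/-!
# The stabilizer of a quadratic form of minus type in the symplectic group over the field with two elements
-/

set_option autoImplicit false
set_option linter.unusedSectionVars false
set_option linter.unusedSimpArgs false
set_option linter.unusedVariables false

namespace Cfsg.Agent.Lib.MinIndex.Sp2Exist

open Cfsg.Agent.Lib.Classical.Symp.AltForm Cfsg.Agent.Lib.Classical.Symp.Hyperbolic
open Cfsg.Agent.Lib.MinIndex.SpLocal Cfsg.Agent.Lib.MinIndex.Sp2Core

variable {F V : Type*} [Field F] [AddCommGroup V] [Module F V] {B : LinearMap.BilinForm F V}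

set_option warn.classDefReducibility false in
/-- The action on functions. -/
noncomputable def formAct : MulAction (IsomGroup B) (V → F) where
  smul g f := fun v => f ((g⁻¹).1 v)
  one_smul f := by
    funext v
    change f ((1 : IsomGroup B)⁻¹.1 v) = f v
    rw [inv_one]
    rfl
  mul_smul a b f := by
    funext v
    change f ((a * b)⁻¹.1 v) = f ((b⁻¹).1 ((a⁻¹).1 v))
    rw [mul_inv_rev]
    rfl

variable (hA : B.IsAlt) (hel : ∀ x : F, x = 0 ∨ x = 1) [CharP F 2]

include hel

theorem sum_shift [Fintype V] (q : V → F) (hq : ∀ u v, q (u + v) = q u + q v + B u v) (c : V) :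
    ∑ x, sg (q x + B x c) = sg (q c) * ∑ x, sg (q x) := by
  rw [Finset.mul_sum]
  conv_rhs => rw [← Equiv.sum_comp (Equiv.addRight c)]
  apply Finset.sum_congr rfl
  intro x _
  simp only [Equiv.coe_addRight]
  rw [mul_comm, ← sg_add hel, hq]
  congr 1
  have h2 : q c + q c = 0 := CharTwo.add_self_eq_zero _
  linear_combination -h2

include hA

theorem exists_index [Fintype F] [Fintype V] (hB : B.Nondegenerate) (q₀ : V → F)
    (hq₀ : ∀ u v, q₀ (u + v) = q₀ u + q₀ v + B u v) {c₀ : V} (hc₀ : q₀ c₀ ≠ 0) {r : ℕ}
    (hr : Fintype.card V = r * r) (hrpos : 0 < r) :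
    ∃ H : Subgroup (IsomGroup B), 2 * H.index + r = r * r := by
  classical
  -- a form of minus type
  obtain ⟨q, hq, hS⟩ : ∃ q : V → F, (∀ u v, q (u + v) = q u + q v + B u v) ∧ ∑ x, sg (q x) = -(r : ℤ) := by
    have h1 := gauss hel hB q₀ hq₀
    rw [hr] at h1
    have h2 : (∑ x, sg (q₀ x)) = r ∨ (∑ x, sg (q₀ x)) = -(r : ℤ) := by
      have h3 : ((∑ x, sg (q₀ x)) - r) * ((∑ x, sg (q₀ x)) + r) = 0 := by
        push_cast at h1
        linear_combination h1
      rcases mul_eq_zero.mp h3 with h4 | h4
      · left
        linarith
      · right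
        linarith
    rcases h2 with h2 | h2
    · refine ⟨fun x => q₀ x + B x c₀, ?_, ?_⟩
      · intro u v
        simp only [hq₀, map_add, LinearMap.add_apply]
        ring
      · rw [sum_shift hel q₀ hq₀ c₀, h2]
        have : q₀ c₀ = 1 := (hel _).resolve_left hc₀
        rw [this, sg_one hel]
        ring
    · exact ⟨q₀, hq₀, h2⟩
  have hS0 : ∑ x, sg (q x) ≠ 0 := by
    rw [hS]
    have : (r : ℤ) ≠ 0 := by exact_mod_cast hrpos.ne'
    simpa using this
  -- the count
  have hcount : 2 * (Finset.univ.filter (fun v => q v = 0)).card + r = r * r := by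
    have h3 := Finset.card_filter_add_card_filter_not (s := (Finset.univ : Finset V)) (fun v : V => q v = 0)
    rw [Finset.card_univ, hr] at h3
    have h4 : ∑ v, sg (q v) = ((Finset.univ.filter (fun v => q v = 0)).card : ℤ) - ((Finset.univ.filter (fun v => ¬ q v = 0)).card : ℤ) := by
      unfold sg
      rw [Finset.sum_ite]
      simp
      ring
    rw [hS] at h4
    omega
  let act : MulAction (IsomGroup B) (V → F) := formAct
  have hsmul : ∀ (g : IsomGroup B) (f : V → F) (v : V), (g • f) v = f ((g⁻¹).1 v) := fun _ _ _ => rfl
  refine ⟨MulAction.stabilizer (IsomGroup B) q, ?_⟩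
  rw [MulAction.index_stabilizer]
  -- the orbit
  have horb : MulAction.orbit (IsomGroup B) q = (fun c v => q v + B v c) '' {c | q c = 0} := by
    ext f
    constructor
    · rintro ⟨g, rfl⟩
      -- the difference is linear
      let Φ : V →ₗ[F] F :=
        { toFun := fun v => q ((g⁻¹).1 v) + q v
          map_add' := by
            intro u v
            have h1 := hq u v
            have h2 := hq ((g⁻¹).1 u) ((g⁻¹).1 v)
            rw [form_g] at h2
            rw [map_add, h1, h2]
            have h3 : B u v + B u v = 0 := CharTwo.add_self_eq_zero _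
            linear_combination h3
          map_smul' := by
            intro t v
            rcases hel t with rfl | rfl
            · simp only [zero_smul, map_zero, RingHom.id_apply]
              have h1 : q 0 = 0 := by
                have := hq 0 0
                simp only [add_zero, map_zero, LinearMap.zero_apply, CharTwo.add_self_eq_zero] at this
                exact this
              rw [h1, add_zero]
            · simp }
      set c := (B.toDual hB).symm Φ with hc
      have hcv : ∀ v, B c v = Φ v := by
        intro v
        have : B.toDual hB c v = Φ v := by rw [hc]; simp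
        rwa [LinearMap.BilinForm.toDual_def] at this
      have hf : ∀ v, q ((g⁻¹).1 v) = q v + B v c := by
        intro v
        have h1 := hcv v
        have h2 : B v c = B c v := by
          rw [swap hA, CharTwo.neg_eq]
        rw [h2, h1]
        change q ((g⁻¹).1 v) = q v + (q ((g⁻¹).1 v) + q v)
        have h3 : q v + q v = 0 := CharTwo.add_self_eq_zero _
        linear_combination -h3
      have hqc : q c = 0 := by
        have h1 := sum_shift hel q hq c
        have h2 : ∑ x, sg (q ((g⁻¹).1 x)) = ∑ x, sg (q x) :=
          Equiv.sum_comp ((g⁻¹).1.toEquiv) (fun x => sg (q x))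
        have h3 : ∑ x, sg (q x + B x c) = ∑ x, sg (q ((g⁻¹).1 x)) := by
          apply Finset.sum_congr rfl
          intro x _
          rw [hf]
        rw [h3, h2] at h1
        have h4 : sg (q c) = 1 := by
          have h5 : (1 - sg (q c)) * ∑ x, sg (q x) = 0 := by linear_combination h1
          rcases mul_eq_zero.mp h5 with h6 | h6
          · linarith
          · exact (hS0 h6).elim
        rcases hel (q c) with h | h
        · exact h
        · rw [h, sg_one hel] at h4
          norm_num at h4
      refine ⟨c, hqc, ?_⟩
      funext v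
      change q v + B v c = (g • q) v
      rw [hsmul, hf]
    · rintro ⟨c, hc, rfl⟩
      refine ⟨tvG hA c 1, ?_⟩
      funext v
      change (tvG hA c 1 • q) v = q v + B v c
      rw [hsmul]
      simp only [Set.mem_ofPred_eq] at hc
      rw [tv_one_inv hA, qf_tv hel hA hq hc]
  have hinj : Function.Injective (fun (c : V) (v : V) => q v + B v c) := by
    intro c c' h
    have h1 : ∀ v, B v (c - c') = 0 := by
      intro v
      have h2 := congrFun h v
      have h3 : B v c = B v c' := add_left_cancel h2
      rw [map_sub, h3, sub_self]
    exact sub_eq_zero.mp (hB.2 _ h1)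
  rw [horb, Set.ncard_image_of_injective _ hinj]
  have e : ({c | q c = 0} : Set V).ncard = (Finset.univ.filter (fun v => q v = 0)).card := by
    rw [← Set.ncard_coe_finset]
    congr 1
    ext v
    simp
  rw [e]
  exact hcount

end Cfsg.Agent.Lib.MinIndex.Sp2Exist
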