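import Mathlib
import Cfsg.Agent.Lib.MinIndex.SpKill

/-!
# The final count for the minimal degree of the symplectic group
-/

set_option autoImplicit false
set_option linter.unusedSectionVars false
set_option linter.unusedSimpArgs false
set_option linter.unusedVariables false

namespace Cfsg.Agent.Lib.MinIndex.SpFree

open Cfsg.Agent.Lib.Classical.Symp.AltForm Cfsg.Agent.Lib.Classical.Symp.Hyperbolic
open Cfsg.Agent.Lib.MinIndex.SpLocal Cfsg.Agent.Lib.MinIndex.SpCount Cfsg.Agent.Lib.MinIndex.SpOrbit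
open Cfsg.Agent.Lib.MinIndex.SpGlob Cfsg.Agent.Lib.MinIndex.SpFix Cfsg.Agent.Lib.MinIndex.SpFix2
open Cfsg.Agent.Lib.MinIndex.SpEven Cfsg.Agent.Lib.MinIndex.SpKill

/-! ### Numerics -/

theorem num_2w {q w y d N : ℕ} (hq : 2 ≤ q) (hw : 0 < w) (h1 : 2 * w ≤ y) (h2 : q * y ≤ d) (hd : d < N)
    (hN : (q - 1) * N + 1 = q ^ 2 * w) : False := by
  obtain ⟨q1, rfl⟩ : ∃ q1, q = q1 + 2 := ⟨q - 2, by omega⟩
  have e : q1 + 2 - 1 = q1 + 1 := by omega
  rw [e] at hN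
  have h3 : (q1 + 2) * (2 * w) ≤ (q1 + 2) * y := Nat.mul_le_mul_left _ h1
  have h4 : (q1 + 1) * (d + 1) ≤ (q1 + 1) * N := Nat.mul_le_mul_left _ hd
  have h5 : (q1 + 1) * ((q1 + 2) * (2 * w)) ≤ (q1 + 1) * d := Nat.mul_le_mul_left _ (by omega)
  nlinarith [Nat.mul_pos (Nat.succ_pos q1) hw]

theorem num_s {q w s y d N : ℕ} (hq : 2 ≤ q) (hw : q ≤ w) (hs2 : 2 ≤ s) (hs : 2 * s ≤ q)
    (h1 : (w - 1) * s ≤ (s - 1) * y) (h2 : q * y ≤ d) (hd : d < N) (hN : (q - 1) * N + 1 = q ^ 2 * w) : False := by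
  obtain ⟨s1, rfl⟩ : ∃ s1, s = s1 + 1 := ⟨s - 1, by omega⟩
  obtain ⟨e, rfl⟩ : ∃ e, q = 2 * (s1 + 1) + e := ⟨q - 2 * (s1 + 1), by omega⟩
  obtain ⟨w1, rfl⟩ : ∃ w1, w = w1 + 1 := ⟨w - 1, by omega⟩
  set q := 2 * (s1 + 1) + e with hq'
  obtain ⟨q1, hq1⟩ : ∃ q1, q = q1 + 1 := ⟨q - 1, by omega⟩
  have e1 : q - 1 = q1 := by omega
  simp only [Nat.add_sub_cancel] at h1
  rw [e1] at hN
  -- `(q - 1) d ≤ q^2 w - q`
  have h3 : q1 * (d + 1) ≤ q1 * N := Nat.mul_le_mul_left _ hd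
  have h4 : q1 * d + q1 + 1 ≤ q ^ 2 * (w1 + 1) := by nlinarith
  have h5 : s1 * (q1 * (q * y)) ≤ s1 * (q1 * d) := Nat.mul_le_mul_left _ (Nat.mul_le_mul_left _ h2)
  have h6 : q1 * q * (w1 * (s1 + 1)) ≤ q1 * q * (s1 * y) := Nat.mul_le_mul_left _ h1
  -- combine
  have h7 : q1 * q * (w1 * (s1 + 1)) + s1 * (q1 + 1) ≤ s1 * (q ^ 2 * (w1 + 1)) := by
    have h8 : s1 * (q1 * d + q1 + 1) ≤ s1 * (q ^ 2 * (w1 + 1)) := Nat.mul_le_mul_left _ h4
    nlinarith
  -- dividing by `q`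
  have h9 : q1 * (w1 * (s1 + 1)) + s1 ≤ s1 * (q * (w1 + 1)) := by
    have h10 : q * (q1 * (w1 * (s1 + 1)) + s1) ≤ q * (s1 * (q * (w1 + 1))) := by
      rw [hq1] at h7 ⊢
      nlinarith
    exact Nat.le_of_mul_le_mul_left h10 (by omega)
  -- a contradiction with `q ≥ 2 s`, `w ≥ q`
  rw [hq1] at h9 hw hs hq'
  have hq2 : s1 + 1 ≤ q1 + 1 - (s1 + 1) := by omega
  obtain ⟨k, hk⟩ : ∃ k, q1 + 1 = 2 * (s1 + 1) + k := ⟨q1 + 1 - 2 * (s1 + 1), by omega⟩
  have hq1k : q1 = 2 * s1 + 1 + k := by omega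
  subst hq1k
  have hw1 : 2 * s1 + 1 + k ≤ w1 := by omega
  nlinarith [Nat.mul_le_mul_left (s1 + 1) hw1, Nat.zero_le (k * w1), Nat.zero_le (k * s1), Nat.zero_le (s1 * w1)]

theorem num_count {q w X d N : ℕ} (hq : 3 ≤ q) (hw : 0 < w) (h1 : q * X ≤ (q - 2) * d) (h2 : (q - 1) * w ≤ X)
    (hd : d < N) (hN : (q - 1) * N + 1 = q ^ 2 * w) : False := by
  obtain ⟨q1, rfl⟩ : ∃ q1, q = q1 + 3 := ⟨q - 3, by omega⟩
  have e1 : q1 + 3 - 1 = q1 + 2 := by omega
  have e2 : q1 + 3 - 2 = q1 + 1 := by omega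
  rw [e1] at hN h2
  rw [e2] at h1
  have h3 : (q1 + 3) * ((q1 + 2) * w) ≤ (q1 + 1) * d := le_trans (Nat.mul_le_mul_left _ h2) h1
  have h4 : (q1 + 2) * (d + 1) ≤ (q1 + 2) * N := Nat.mul_le_mul_left _ hd
  have h5 : (q1 + 2) * d + 1 ≤ (q1 + 3) ^ 2 * w := by nlinarith
  have h6 : (q1 + 2) * ((q1 + 3) * ((q1 + 2) * w)) ≤ (q1 + 2) * ((q1 + 1) * d) := Nat.mul_le_mul_left _ h3
  have h7 : (q1 + 1) * ((q1 + 2) * d + 1) ≤ (q1 + 1) * ((q1 + 3) ^ 2 * w) := Nat.mul_le_mul_left _ h5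
  have h8 : 0 < (q1 + 3) * w := Nat.mul_pos (by omega) hw
  nlinarith

variable {F V : Type*} [Field F] [AddCommGroup V] [Module F V] {B : LinearMap.BilinForm F V} (hA : B.IsAlt)
variable {Ω : Type*} [MulAction (IsomGroup B) Ω]

include hA

section Basic

variable {c c' : V} (huv : B c c' = 1)

include huv

/-- Two elements of the stabilizer in the radical give a root element. -/
theorem stab_comm {ω : Ω} {r r' : perpPair B c c'} (hr : r ∈ (wSet hA huv).stab (mkY hA c ω))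
    (hr' : r' ∈ (wSet hA huv).stab (mkY hA c ω)) :
    tvG hA c (B (r' : V) (r : V) - B (r : V) (r' : V)) • ω = ω := by
  obtain ⟨a, ha⟩ := (mem_stab_mk hA huv).mp hr
  obtain ⟨a', ha'⟩ := (mem_stab_mk hA huv).mp hr'
  have h := rho_comm hA (hcW hA huv r) (hcW hA huv r') a a'
  have h3 := congrArg (fun g : IsomGroup B => g • ω) h
  simp only [mul_smul] at h3
  rw [ha', ha, ha'] at h3
  exact h3.symm

omit huv in
theorem mp_bot (ℓ : stabPair B c c') : mp phi ℓ (⊥ : AddSubgroup (perpPair B c c')) = ⊥ := by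
  ext x
  rw [mem_mp]
  simp only [AddSubgroup.mem_bot]
  constructor
  · rintro ⟨r, hr, rfl⟩
    rw [hr, map_zero]
  · rintro rfl
    exact ⟨0, rfl, map_zero _⟩

omit huv in
theorem mp_perp {R : AddSubgroup (perpPair B c c')} {v : perpPair B c c'} (hR : ∀ r, r ∈ R ↔ B (r : V) (v : V) = 0)
    (ℓ : stabPair B c c') {μ : F} (hμ : μ ≠ 0) (hℓ : ℓ.1.1 (v : V) = μ • (v : V)) : mp phi ℓ R = R := by
  have key : ∀ x : perpPair B c c', B (phi ℓ x : V) (v : V) = 0 ↔ B (x : V) (v : V) = 0 := by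
    intro x
    have h1 := form_g ℓ.1 (x : V) (v : V)
    rw [hℓ, map_smul, smul_eq_mul] at h1
    rw [phi_coe, ← h1]
    simp [hμ]
  ext x
  rw [mem_mp]
  constructor
  · rintro ⟨r, hr, rfl⟩
    rw [hR, key, ← hR]
    exact hr
  · intro hx
    refine ⟨(phi ℓ).symm x, ?_, (phi ℓ).apply_symm_apply x⟩
    rw [hR, ← key, AddEquiv.apply_symm_apply, ← hR]
    exact hx

/-- The stabilizer of a point in the root group under a torus element. -/
theorem Ast_hh (t : F) (ht : t ≠ 0) (ω : Ω) (a : F) :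
    a ∈ Ast hA c (hh hA huv t ht • ω) ↔ (t⁻¹) ^ 2 * a ∈ Ast hA c ω := by
  rw [mem_Ast, mem_Ast]
  have h1 := hh_tv hA huv t ht ((t⁻¹) ^ 2 * a)
  have e : t ^ 2 * ((t⁻¹) ^ 2 * a) = a := by field_simp
  rw [e] at h1
  have h2 : tvG hA c a * hh hA huv t ht = hh hA huv t ht * tvG hA c ((t⁻¹) ^ 2 * a) := by
    rw [← h1]
    group
  rw [← mul_smul, h2, mul_smul]
  exact smul_left_cancel_iff _

theorem Ast_bot_hh (t : F) (ht : t ≠ 0) {ω : Ω} (h : Ast hA c ω = ⊥) : Ast hA c (hh hA huv t ht • ω) = ⊥ := by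
  rw [AddSubgroup.eq_bot_iff_forall]
  intro a ha
  have h1 := (Ast_hh hA huv t ht ω a).mp ha
  rw [h, AddSubgroup.mem_bot] at h1
  have h2 : (t⁻¹) ^ 2 ≠ 0 := pow_ne_zero _ (inv_ne_zero ht)
  exact (mul_eq_zero.mp h1).resolve_left h2

omit huv in
theorem rho_fix (w : perpPair B c c') (huv : B c c' = 1) (a : F) : (rho hA c (w : V) a).1 c = c := by
  have := rho_left hA huv w a
  rwa [one_smul] at this

end Basic

section Odd

variable {c c' : V} (huv : B c c' = 1)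

variable [Fintype F] [Fintype V] {hB : B.Nondegenerate} [Fintype Ω]
  [MulAction.IsPretransitive (IsomGroup B) Ω] [Nontrivial Ω] {w N : ℕ} (C : Ctx hA hB Ω w N)

include huv C

theorem c_ne_zero : c ≠ 0 := by
  rintro rfl
  simp at huv

/-- In odd characteristic, the stabilizer in the radical is proper. -/
theorem stab_ne_top (h2 : (2 : F) ≠ 0) (hdim : 4 ≤ Module.finrank F V) (ω : Ω) :
    (wSet hA huv).stab (mkY hA c ω) ≠ ⊤ := by
  intro htop
  apply fix_empty hA C ω (c_ne_zero hA huv C)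
  obtain ⟨w₁, w₂, hw⟩ := exists_W_pair hA hB hdim huv
  intro s
  set r := - s / 2 with hr
  have h3 := stab_comm hA huv (ω := ω) (r := r • w₁) (r' := w₂) (by rw [htop]; trivial) (by rw [htop]; trivial)
  have e : B (w₂ : V) ((r • w₁ : perpPair B c c') : V) - B ((r • w₁ : perpPair B c c') : V) (w₂ : V) = s := by
    rw [Submodule.coe_smul, map_smul, map_smul, LinearMap.smul_apply, swap hA (w₂ : V) (w₁ : V), hw, hr]
    simp only [smul_eq_mul]
    field_simp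
    ring
  rwa [e] at h3

/-- In odd characteristic, a stabilizer cannot properly contain a perp of a vector in its ... -/
theorem no_s_type (h2 : (2 : F) ≠ 0) {ω : Ω} {v r₀ : perpPair B c c'}
    (hperp : ∀ r : perpPair B c c', B (r : V) (v : V) = 0 → r ∈ (wSet hA huv).stab (mkY hA c ω))
    (hr₀ : r₀ ∈ (wSet hA huv).stab (mkY hA c ω)) (hne : B (r₀ : V) (v : V) ≠ 0) : False := by
  apply fix_empty hA C ω (c_ne_zero hA huv C)
  intro s
  set t := s / (2 * B (r₀ : V) (v : V)) with ht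
  have h3 : t • v ∈ (wSet hA huv).stab (mkY hA c ω) := by
    apply hperp
    rw [Submodule.coe_smul, map_smul, LinearMap.smul_apply, hA (v : V), smul_zero]
  have h4 := stab_comm hA huv h3 hr₀
  have e : B (r₀ : V) ((t • v : perpPair B c c') : V) - B ((t • v : perpPair B c c') : V) (r₀ : V) = s := by
    rw [Submodule.coe_smul, map_smul, map_smul, LinearMap.smul_apply, swap hA (v : V) (r₀ : V), ht]
    simp only [smul_eq_mul]
    field_simp
    ring
  rwa [e] at h4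

/-- In odd characteristic and large dimension, the stabilizer is not a perp of a vector. -/
theorem no_perp_type (h2 : (2 : F) ≠ 0) (hdim : 6 ≤ Module.finrank F V) {ω : Ω} {v : perpPair B c c'} (hv : v ≠ 0)
    (hR : ∀ r : perpPair B c c', r ∈ (wSet hA huv).stab (mkY hA c ω) ↔ B (r : V) (v : V) = 0) : False := by
  classical
  obtain ⟨v', hvv⟩ := exists_partner_W hA huv hB hv
  have hAW := restrict_isAlt hA (perpPair B c c')
  have hBW := restrict_nondegenerate hA huv hB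
  have hW := finrank_perpPair hA huv
  have : Fintype (perpPair B c c') := Fintype.ofFinite _
  obtain ⟨u₁, u₂, hu⟩ := exists_W_pair hAW hBW (by omega) (c := v) (c' := v') hvv
  set a : perpPair B c c' := u₁.1 with ha
  set b : perpPair B c c' := u₂.1 with hb
  have hab : B (a : V) (b : V) = 1 := hu
  have ha1 : B (a : V) (v : V) = 0 := (mem_perpPair.mp u₁.2).1
  have hb1 : B (b : V) (v : V) = 0 := (mem_perpPair.mp u₂.2).1
  apply fix_empty hA C ω (c_ne_zero hA huv C)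
  intro s
  set r := - s / 2 with hr
  have h3 := stab_comm hA huv (ω := ω) (r := r • a) (r' := b)
    ((hR _).mpr (by rw [Submodule.coe_smul, map_smul, LinearMap.smul_apply, ha1, smul_zero])) ((hR _).mpr hb1)
  have e : B (b : V) ((r • a : perpPair B c c') : V) - B ((r • a : perpPair B c c') : V) (b : V) = s := by
    rw [Submodule.coe_smul, map_smul, map_smul, LinearMap.smul_apply, swap hA (b : V) (a : V), hab, hr]
    simp only [smul_eq_mul]
    field_simp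
    ring
  rwa [e] at h3

end Odd

/-! ### Uniqueness of the orbit is impossible -/

section Uniq

variable {c c' : V} (huv : B c c' = 1)

variable [Fintype F] [Fintype V] {hB : B.Nondegenerate} [Fintype Ω]
  [MulAction.IsPretransitive (IsomGroup B) Ω] [Nontrivial Ω] {w N : ℕ} (C : Ctx hA hB Ω w N)

include huv C

theorem exists_W_ne (hdim : 4 ≤ Module.finrank F V) : ∃ v : perpPair B c c', v ≠ 0 := by
  obtain ⟨w₁, w₂, hw⟩ := exists_W_pair hA hB hdim huv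
  refine ⟨w₁, ?_⟩
  rintro rfl
  simp at hw

/-- With a scalar action, a stabilizer which is trivial or a perp cannot be unique, if `q ≥ 4`. -/
theorem uniq_false (P : Ω → Prop) (hw : ∀ (w : perpPair B c c') ω, P ω → P (rho hA c (w : V) 0 • ω))
    (hℓ : ∀ (ℓ : stabPair B c c') ω, P ω → P (ℓ.1 • ω)) (t : F) (ht0 : t ≠ 0) (ht1 : t ≠ 1)
    (hz : ∀ ω, P ω → P (hh hA huv t ht0 • ω)) {ω₀ : Ω} (h0 : P ω₀)
    (huniq : ∀ y' ∈ Ypred hA c P, (wSet hA huv).stab y' = (wSet hA huv).stab (mkY hA c ω₀) →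
      ∃ w, (wSet hA huv).act w (mkY hA c ω₀) = y')
    (hq : 4 ≤ Fintype.card F) (hdim : 4 ≤ Module.finrank F V)
    (hR : (wSet hA huv).stab (mkY hA c ω₀) = ⊥ ∨ ∃ v : perpPair B c c', v ≠ 0 ∧
      ∀ r : perpPair B c c', r ∈ (wSet hA huv).stab (mkY hA c ω₀) ↔ B (r : V) (v : V) = 0) : False := by
  have hRs : ∀ s : F, s ≠ 0 → ∀ r : perpPair B c c',
      s • r ∈ (wSet hA huv).stab (mkY hA c ω₀) ↔ r ∈ (wSet hA huv).stab (mkY hA c ω₀) := by
    intro s hs r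
    rcases hR with h | ⟨v, hv, h⟩
    · rw [h, AddSubgroup.mem_bot, AddSubgroup.mem_bot]
      exact smul_eq_zero_iff_right hs
    · rw [h, h, Submodule.coe_smul, map_smul, LinearMap.smul_apply, smul_eq_mul]
      simp [hs]
  obtain ⟨u, -, hk⟩ := fixed_point hA huv ht0 ht1 (Ypred hA c P) (Ypred_act hA huv hw) (Ypred_kap hA hℓ)
    (mk_mem_Ypred hA h0) huniq (Ypred_z hA huv t ht0 hz) hRs
  rw [wSet_act_mk] at hk
  rcases hR with h | ⟨v, hv, h⟩
  · obtain ⟨v, hv⟩ := exists_W_ne hA huv C hdim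
    exact kill_fixed hA huv C hq hv (fun ℓ μ _ _ => hk ℓ (by rw [h]; exact mp_bot hA ℓ))
  · exact kill_fixed hA huv C hq hv (fun ℓ μ hμ hℓ' => hk ℓ (mp_perp hA h ℓ hμ hℓ'))

/-- With a scalar action, a trivial stabilizer cannot be unique, in odd characteristic and large dimension. -/
theorem uniq_false3 (P : Ω → Prop) (hw : ∀ (w : perpPair B c c') ω, P ω → P (rho hA c (w : V) 0 • ω))
    (hℓ : ∀ (ℓ : stabPair B c c') ω, P ω → P (ℓ.1 • ω)) (t : F) (ht0 : t ≠ 0) (ht1 : t ≠ 1)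
    (hz : ∀ ω, P ω → P (hh hA huv t ht0 • ω)) {ω₀ : Ω} (h0 : P ω₀)
    (huniq : ∀ y' ∈ Ypred hA c P, (wSet hA huv).stab y' = (wSet hA huv).stab (mkY hA c ω₀) →
      ∃ w, (wSet hA huv).act w (mkY hA c ω₀) = y')
    (h2 : (2 : F) ≠ 0) (hdim : 6 ≤ Module.finrank F V)
    (hR : (wSet hA huv).stab (mkY hA c ω₀) = ⊥) : False := by
  have hRs : ∀ s : F, s ≠ 0 → ∀ r : perpPair B c c',
      s • r ∈ (wSet hA huv).stab (mkY hA c ω₀) ↔ r ∈ (wSet hA huv).stab (mkY hA c ω₀) := by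
    intro s hs r
    rw [hR, AddSubgroup.mem_bot, AddSubgroup.mem_bot]
    exact smul_eq_zero_iff_right hs
  obtain ⟨u, -, hk⟩ := fixed_point hA huv ht0 ht1 (Ypred hA c P) (Ypred_act hA huv hw) (Ypred_kap hA hℓ)
    (mk_mem_Ypred hA h0) huniq (Ypred_z hA huv t ht0 hz) hRs
  rw [wSet_act_mk] at hk
  obtain ⟨v, hv⟩ := exists_W_ne hA huv C (by omega)
  exact kill_fixed3 hA huv C h2 hdim hv (fun ℓ => hk ℓ (by rw [hR]; exact mp_bot hA ℓ))

/-- In odd characteristic, invariant sets of orbits are large. -/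
theorem odd_two (h2 : (2 : F) ≠ 0) (hdim : 4 ≤ Module.finrank F V) (h3 : Fintype.card F = 3 → 6 ≤ Module.finrank F V)
    (P : Ω → Prop) (hw : ∀ (w : perpPair B c c') ω, P ω → P (rho hA c (w : V) 0 • ω))
    (hℓ : ∀ (ℓ : stabPair B c c') ω, P ω → P (ℓ.1 • ω)) (hm1 : (-1 : F) ≠ 0)
    (hz : ∀ ω, P ω → P (hh hA huv (-1) hm1 • ω)) {ω₀ : Ω} (h0 : P ω₀) :
    2 * w ≤ (Ypred hA c P).card := by
  classical
  obtain ⟨ψ, hψ⟩ := exists_psi (F := F)
  have hq3 := C.hq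
  have hY := local_types hA huv hB ψ hψ (Ypred hA c P) (Ypred_act hA huv hw) (Ypred_kap hA hℓ)
    (mk_mem_Ypred hA h0) (stab_ne_top hA huv C h2 hdim ω₀)
  rw [C.hwc c c' huv] at hY
  have ht1 : (-1 : F) ≠ 1 := by
    intro h
    apply h2
    linear_combination -h
  rcases hY.2 with h | ⟨huniq, hR | ⟨v, hv, hR1, -⟩⟩ | ⟨v, hv, s, -, -, -, -, hR1, r₀, hr₀, hne⟩
  · exact h
  · exfalso
    by_cases hq : Fintype.card F = 3
    · exact uniq_false3 hA huv C P hw hℓ (-1) hm1 ht1 hz h0 huniq h2 (h3 hq) hR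
    · exact uniq_false hA huv C P hw hℓ (-1) hm1 ht1 hz h0 huniq (by omega) hdim (Or.inl hR)
  · exfalso
    by_cases hq : Fintype.card F = 3
    · exact no_perp_type hA huv C h2 (h3 hq) hv hR1
    · exact uniq_false hA huv C P hw hℓ (-1) hm1 ht1 hz h0 huniq (by omega) hdim (Or.inr ⟨v, hv, hR1⟩)
  · exact (no_s_type hA huv C h2 hR1 hr₀ hne).elim

end Uniq

end Cfsg.Agent.Lib.MinIndex.SpFree
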