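import Mathlib
import Cfsg.Agent.Lib.MinIndex.SpFree

/-!
# The final count for the minimal degree of the symplectic group, continued
-/

set_option autoImplicit false
set_option linter.unusedSectionVars false
set_option linter.unusedSimpArgs false
set_option linter.unusedVariables false

namespace Cfsg.Agent.Lib.MinIndex.SpFree2

open Cfsg.Agent.Lib.Classical.Symp.AltForm Cfsg.Agent.Lib.Classical.Symp.Hyperbolic
open Cfsg.Agent.Lib.MinIndex.SpLocal Cfsg.Agent.Lib.MinIndex.SpCount Cfsg.Agent.Lib.MinIndex.SpOrbit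
open Cfsg.Agent.Lib.MinIndex.SpGlob Cfsg.Agent.Lib.MinIndex.SpFix Cfsg.Agent.Lib.MinIndex.SpFix2
open Cfsg.Agent.Lib.MinIndex.SpEven Cfsg.Agent.Lib.MinIndex.SpKill Cfsg.Agent.Lib.MinIndex.SpFree

variable {F V : Type*} [Field F] [AddCommGroup V] [Module F V] {B : LinearMap.BilinForm F V} (hA : B.IsAlt)
variable {Ω : Type*} [MulAction (IsomGroup B) Ω]

/-- The pairing on the field. -/
def pairF (ψ : AddChar F ℂ) (hψ : ψ ≠ 1) : Pairing F where
  P x r := ψ (x * r)
  add_left x x' r := by rw [add_mul, AddChar.map_add_eq_mul]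
  add_right x r r' := by rw [mul_add, AddChar.map_add_eq_mul]
  zero_left r := by simp
  zero_right x := by simp
  nondeg r hr := by
    obtain ⟨t, ht⟩ := AddChar.ne_one_iff.mp hψ
    exact ⟨t / r, by rwa [div_mul_cancel₀ _ hr]⟩
  symm x r h := by rwa [mul_comm]

theorem mem_pairF_ann {ψ : AddChar F ℂ} {hψ : ψ ≠ 1} {A : AddSubgroup F} {b : F} :
    b ∈ (pairF ψ hψ).ann A ↔ ∀ a ∈ A, ψ (b * a) = 1 := Iff.rfl

/-- The points whose stabilizer in the root group is nontrivial and annihilated by `b`. -/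
def Pb (ψ : AddChar F ℂ) (c : V) (b : F) (ω : Ω) : Prop :=
  Ast hA c ω ≠ ⊥ ∧ ∀ a ∈ Ast hA c ω, ψ (b * a) = 1

section Invariance

variable {ψ : AddChar F ℂ} {c c' : V} {b : F}

include hA

theorem Pb_tv {ω : Ω} (s : F) (h : Pb hA ψ c b ω) : Pb hA ψ c b (tvG hA c s • ω) := by
  rw [Pb, Ast_tv]
  exact h

theorem Pb_comm {ω : Ω} (g : IsomGroup B) (hg : g.1 c = c) (h : Pb hA ψ c b ω) : Pb hA ψ c b (g • ω) := by
  rw [Pb, Ast_comm hA g hg]
  exact h

theorem Pb_hh (huv : B c c' = 1) {ω : Ω} (t : F) (ht : t ≠ 0) (h : Pb hA ψ c b ω) :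
    Pb hA ψ c (b * (t⁻¹) ^ 2) (hh hA huv t ht • ω) := by
  obtain ⟨h1, h2⟩ := h
  refine ⟨?_, ?_⟩
  · intro hbot
    apply h1
    rw [AddSubgroup.eq_bot_iff_forall]
    intro a ha
    have h3 : t ^ 2 * a ∈ Ast hA c (hh hA huv t ht • ω) := by
      rw [Ast_hh hA huv]
      have e : (t⁻¹) ^ 2 * (t ^ 2 * a) = a := by field_simp
      rwa [e]
    rw [hbot, AddSubgroup.mem_bot] at h3
    exact (mul_eq_zero.mp h3).resolve_left (pow_ne_zero _ ht)
  · intro a ha
    have h3 := (Ast_hh hA huv t ht ω a).mp ha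
    have h4 := h2 _ h3
    rwa [← mul_assoc] at h4

end Invariance

section Count

variable [Fintype F] [Fintype Ω]

open _root_.Classical in
/-- The sum over all nontrivial `b` of the number of orbits annihilated. -/
theorem sum_Yb_le (ψ : AddChar F ℂ) (hψ : ψ ≠ 1) (c : V) :
    Fintype.card F * ∑ b ∈ (Finset.univ : Finset F).erase 0, (Ypred hA c (Pb (Ω := Ω) hA ψ c b)).card ≤
      (Fintype.card F - 2) * Fintype.card Ω := by
  set Yp := Ypred hA c (fun ω : Ω => Ast hA c ω ≠ ⊥) with hYp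
  have hsub : ∀ b, Ypred hA c (Pb (Ω := Ω) hA ψ c b) ⊆ Yp := by
    intro b τ hτ
    obtain ⟨ω, hω, rfl⟩ := (mem_Ypred hA).mp hτ
    exact mk_mem_Ypred hA hω.1
  have hbip := Finset.sum_card_bipartiteAbove_eq_sum_card_bipartiteBelow
    (s := (Finset.univ : Finset F).erase 0) (t := Yp) (fun b τ => τ ∈ Ypred hA c (Pb (Ω := Ω) hA ψ c b))
  have h1 : ∀ b, (Finset.bipartiteAbove (fun b τ => τ ∈ Ypred hA c (Pb (Ω := Ω) hA ψ c b)) Yp b) = Ypred hA c (Pb (Ω := Ω) hA ψ c b) := by
    intro b
    ext τ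
    rw [Finset.mem_bipartiteAbove]
    exact ⟨fun h => h.2, fun h => ⟨hsub b h, h⟩⟩
  simp only [h1] at hbip
  rw [hbip, Finset.mul_sum]
  have h2 : ∀ τ ∈ Yp, Fintype.card F * (Finset.bipartiteBelow (fun b τ => τ ∈ Ypred hA c (Pb (Ω := Ω) hA ψ c b)) ((Finset.univ : Finset F).erase 0) τ).card ≤
      (Fintype.card F - 2) * tcard hA c τ := by
    intro τ hτ
    obtain ⟨ω, hω, rfl⟩ := (mem_Ypred hA).mp hτ
    set A := Ast hA c ω with hA'
    -- the annihilator
    have hann := (pairF ψ hψ).card_ann A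
    have htc := tcard_mul hA c ω
    rw [← hA'] at htc
    have hApos : 0 < Nat.card A := Nat.card_pos
    have hcard : Nat.card ((pairF ψ hψ).ann A) = tcard hA c (mkY hA c ω) := by
      have : Nat.card A * Nat.card ((pairF ψ hψ).ann A) = Nat.card A * tcard hA c (mkY hA c ω) := by
        rw [hann, ← htc, mul_comm]
      exact Nat.eq_of_mul_eq_mul_left hApos this
    have hbelow : (Finset.bipartiteBelow (fun b τ => τ ∈ Ypred hA c (Pb (Ω := Ω) hA ψ c b)) ((Finset.univ : Finset F).erase 0) (mkY hA c ω)).card + 1 =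
        tcard hA c (mkY hA c ω) := by
      rw [← hcard, Nat.subtype_card (Finset.univ.filter (fun b => b ∈ (pairF ψ hψ).ann A)) (by simp)]
      have e : Finset.bipartiteBelow (fun b τ => τ ∈ Ypred hA c (Pb (Ω := Ω) hA ψ c b)) ((Finset.univ : Finset F).erase 0) (mkY hA c ω) =
          (Finset.univ.filter (fun b => b ∈ (pairF ψ hψ).ann A)).erase 0 := by
        ext b
        rw [Finset.mem_bipartiteBelow, Finset.mem_erase, Finset.mem_erase, Finset.mem_filter]
        simp only [Finset.mem_univ, true_and, and_true]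
        refine and_congr_right fun _ => ?_
        rw [mem_pairF_ann, mem_Ypred]
        constructor
        · rintro ⟨ω', h1, h2⟩
          rw [hA', ← Ast_of_mk hA h2]
          exact h1.2
        · intro h
          exact ⟨ω, ⟨hω, h⟩, rfl⟩
      rw [e, Finset.card_erase_add_one]
      simp only [Finset.mem_filter, Finset.mem_univ, true_and]
      exact AddSubgroup.zero_mem _
    -- a nontrivial subgroup has at least two elements
    have hA2 : 2 ≤ Nat.card A := by
      by_contra hlt
      have h1A : Nat.card A = 1 := by omega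
      exact hω (AddSubgroup.eq_bot_of_card_eq _ h1A)
    set T := tcard hA c (mkY hA c ω) with hT
    have h2T : 2 * T ≤ Fintype.card F := by
      rw [← htc, mul_comm]
      exact Nat.mul_le_mul_left _ hA2
    have hq2 : 2 ≤ Fintype.card F := Fintype.one_lt_card
    obtain ⟨T', hT'⟩ : ∃ T', T = T' + 1 := ⟨T - 1, by omega⟩
    have hbelow' : (Finset.bipartiteBelow (fun b τ => τ ∈ Ypred hA c (Pb (Ω := Ω) hA ψ c b)) ((Finset.univ : Finset F).erase 0) (mkY hA c ω)).card = T' := by
      omega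
    rw [hbelow', hT']
    obtain ⟨q2, hq2'⟩ : ∃ q2, Fintype.card F = q2 + 2 := ⟨Fintype.card F - 2, by omega⟩
    rw [hq2']
    simp only [Nat.add_sub_cancel]
    rw [hT', hq2'] at h2T
    nlinarith
  calc ∑ τ ∈ Yp, Fintype.card F * (Finset.bipartiteBelow (fun b τ => τ ∈ Ypred hA c (Pb (Ω := Ω) hA ψ c b)) ((Finset.univ : Finset F).erase 0) τ).card
      ≤ ∑ τ ∈ Yp, (Fintype.card F - 2) * tcard hA c τ := Finset.sum_le_sum h2
    _ = (Fintype.card F - 2) * ∑ τ ∈ Yp, tcard hA c τ := by rw [Finset.mul_sum]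
    _ = (Fintype.card F - 2) * (Finset.univ.filter (fun ω : Ω => Ast hA c ω ≠ ⊥)).card := by
        rw [card_filter_eq_sum hA c (fun ω : Ω => Ast hA c ω ≠ ⊥)]
        intro a ω hω
        simp only [ne_eq]
        rwa [Ast_tv]
    _ ≤ (Fintype.card F - 2) * Fintype.card Ω := by
        apply Nat.mul_le_mul_left
        exact Finset.card_le_univ _

/-- The existence of an annihilating scalar. -/
theorem exists_b (ψ : AddChar F ℂ) (hψ : ψ ≠ 1) {A : AddSubgroup F} (hA' : A ≠ ⊤) :
    ∃ b : F, b ≠ 0 ∧ ∀ a ∈ A, ψ (b * a) = 1 := by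
  have h1 := (pairF ψ hψ).card_ann A
  have hne : Nat.card ((pairF ψ hψ).ann A) ≠ 1 := by
    intro h
    rw [h, mul_one, ← Nat.card_eq_fintype_card] at h1
    exact hA' (AddSubgroup.eq_top_of_card_eq _ h1)
  by_contra hno
  push Not at hno
  apply hne
  have : (pairF ψ hψ).ann A = ⊥ := by
    rw [AddSubgroup.eq_bot_iff_forall]
    intro x hx
    by_contra hx0
    obtain ⟨a, ha, ha'⟩ := hno x hx0
    exact ha' (hx a ha)
  rw [this]
  simp

end Count

section Final

variable {c c' : V} (huv : B c c' = 1)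

variable [Fintype F] [Fintype V] {hB : B.Nondegenerate} [Fintype Ω]
  [MulAction.IsPretransitive (IsomGroup B) Ω] [Nontrivial Ω] {w N : ℕ} (C : Ctx hA hB Ω w N)

include huv C

theorem w_pos : 0 < w := by
  rw [← C.hwc c c' huv]
  exact Nat.card_pos

/-- Free orbits in characteristic two. -/
theorem case_a_even [CharP F 2] (hq4 : 4 ≤ Fintype.card F) (hdim : 4 ≤ Module.finrank F V) {ω₀ : Ω}
    (h0 : Ast hA c ω₀ = ⊥) (hR : (wSet hA huv).stab (mkY hA c ω₀) ≠ ⊤) : False := by
  classical
  obtain ⟨ψ, hψ⟩ := exists_psi (F := F)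
  obtain ⟨t, ht0, ht1⟩ := exists_ne_zero_one (F := F) (by omega)
  let P : Ω → Prop := fun ω => Ast hA c ω = ⊥
  have hw : ∀ (w : perpPair B c c') ω, P ω → P (rho hA c (w : V) 0 • ω) := fun w ω h => by
    change Ast hA c _ = ⊥
    rw [Ast_comm hA _ (rho_fix hA w huv 0)]
    exact h
  have hℓ : ∀ (ℓ : stabPair B c c') ω, P ω → P (ℓ.1 • ω) := fun ℓ ω h => by
    change Ast hA c _ = ⊥
    rw [Ast_comm hA ℓ.1 ℓ.2.1]
    exact h
  have hz : ∀ ω, P ω → P (hh hA huv t ht0 • ω) := fun ω h => Ast_bot_hh hA huv t ht0 h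
  have hT : ∀ a ω, P ω → P (tvG hA c a • ω) := fun a ω h => by
    change Ast hA c _ = ⊥
    rw [Ast_tv]
    exact h
  have hY := local_types hA huv hB ψ hψ (Ypred hA c P) (Ypred_act hA huv hw) (Ypred_kap hA hℓ)
    (mk_mem_Ypred hA h0) hR
  rw [C.hwc c c' huv] at hY
  have hcard : Fintype.card F * (Ypred hA c P).card ≤ Fintype.card Ω := by
    have h1 : (Finset.univ.filter P).card = Fintype.card F * (Ypred hA c P).card := by
      rw [card_filter_eq_sum hA c P hT, mul_comm, ← smul_eq_mul, ← Finset.sum_const]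
      apply Finset.sum_congr rfl
      intro τ hτ
      obtain ⟨ω, hω, rfl⟩ := (mem_Ypred hA).mp hτ
      apply tcard_of_free
      intro a ha
      have h2 : a ∈ Ast hA c ω := ha
      rw [show Ast hA c ω = ⊥ from hω] at h2
      exact (AddSubgroup.mem_bot).mp h2
    rw [← h1]
    exact Finset.card_le_univ _
  have hN' := C.hN.trans C.hV
  have hq2 : 2 ≤ Fintype.card F := by omega
  have hw2 := C.hw2
  rcases hY.2 with h | ⟨huniq, hb | ⟨v, hv, hR1, -⟩⟩ | ⟨v, hv, s, hs2, hsd, hsq, hs1, -, -⟩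
  · exact num_2w hq2 (w_pos hA huv C) h hcard C.hd hN'
  · exact uniq_false hA huv C P hw hℓ t ht0 ht1 hz h0 huniq hq4 hdim (Or.inl hb)
  · exact uniq_false hA huv C P hw hℓ t ht0 ht1 hz h0 huniq hq4 hdim (Or.inr ⟨v, hv, hR1⟩)
  · obtain ⟨k, hk⟩ := hsd
    have hk2 : 2 ≤ k := by
      by_contra hlt
      have hk1 : k ≤ 1 := by omega
      have : s * k ≤ s * 1 := Nat.mul_le_mul_left _ hk1
      omega
    have h2s : 2 * s ≤ Fintype.card F := by
      rw [hk, mul_comm]
      exact Nat.mul_le_mul_left _ hk2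
    refine num_s hq2 ?_ hs2 h2s hs1 hcard C.hd hN'
    nlinarith

/-- The case of odd characteristic. -/
theorem no_small_odd (h2 : (2 : F) ≠ 0) (hdim : 4 ≤ Module.finrank F V)
    (h3 : Fintype.card F = 3 → 6 ≤ Module.finrank F V) : False := by
  classical
  obtain ⟨ψ, hψ⟩ := exists_psi (F := F)
  have hq3 := C.hq
  have hq2 : 2 ≤ Fintype.card F := by omega
  have hN' := C.hN.trans C.hV
  have hm1 : (-1 : F) ≠ 0 := neg_ne_zero.mpr one_ne_zero
  have hc0 := c_ne_zero hA huv C
  by_cases hex : ∃ ω : Ω, Ast hA c ω = ⊥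
  · obtain ⟨ω₀, h0⟩ := hex
    let P : Ω → Prop := fun ω => Ast hA c ω = ⊥
    have hw : ∀ (w : perpPair B c c') ω, P ω → P (rho hA c (w : V) 0 • ω) := fun w ω h => by
      change Ast hA c _ = ⊥
      rw [Ast_comm hA _ (rho_fix hA w huv 0)]
      exact h
    have hℓ : ∀ (ℓ : stabPair B c c') ω, P ω → P (ℓ.1 • ω) := fun ℓ ω h => by
      change Ast hA c _ = ⊥
      rw [Ast_comm hA ℓ.1 ℓ.2.1]
      exact h
    have hz : ∀ ω, P ω → P (hh hA huv (-1) hm1 • ω) := fun ω h => Ast_bot_hh hA huv (-1) hm1 h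
    have hT : ∀ a ω, P ω → P (tvG hA c a • ω) := fun a ω h => by
      change Ast hA c _ = ⊥
      rw [Ast_tv]
      exact h
    have h2w := odd_two hA huv C h2 hdim h3 P hw hℓ hm1 hz h0
    have hcard : Fintype.card F * (Ypred hA c P).card ≤ Fintype.card Ω := by
      have h1 : (Finset.univ.filter P).card = Fintype.card F * (Ypred hA c P).card := by
        rw [card_filter_eq_sum hA c P hT, mul_comm, ← smul_eq_mul, ← Finset.sum_const]
        apply Finset.sum_congr rfl
        intro τ hτ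
        obtain ⟨ω, hω, rfl⟩ := (mem_Ypred hA).mp hτ
        apply tcard_of_free
        intro a ha
        have h2 : a ∈ Ast hA c ω := ha
        rw [show Ast hA c ω = ⊥ from hω] at h2
        exact (AddSubgroup.mem_bot).mp h2
      rw [← h1]
      exact Finset.card_le_univ _
    exact num_2w hq2 (w_pos hA huv C) h2w hcard C.hd hN'
  · push Not at hex
    obtain ⟨ω₀⟩ : Nonempty Ω := inferInstance
    have htop : Ast hA c ω₀ ≠ ⊤ := by
      intro h
      apply fix_empty hA C ω₀ hc0
      intro s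
      have : s ∈ Ast hA c ω₀ := by rw [h]; trivial
      exact this
    obtain ⟨b₀, hb₀, hb₀'⟩ := exists_b ψ hψ htop
    have hP : Pb hA ψ c b₀ ω₀ := ⟨hex ω₀, hb₀'⟩
    have hone : ∀ t : F, t ≠ 0 → 2 * w ≤ (Ypred hA c (Pb (Ω := Ω) hA ψ c (b₀ * (t⁻¹) ^ 2))).card := by
      intro t ht
      have h1 : ∀ b : F, ∀ ω : Ω, Pb hA ψ c b ω → Pb hA ψ c b (hh hA huv (-1) hm1 • ω) := by
        intro b ω hω
        have := Pb_hh hA huv (-1) hm1 hω
        have e : b * ((-1 : F)⁻¹) ^ 2 = b := by
          simp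
        rwa [e] at this
      exact odd_two hA huv C h2 hdim h3 _
        (fun w ω h => Pb_comm hA _ (rho_fix hA w huv 0) h)
        (fun ℓ ω h => Pb_comm hA _ ℓ.2.1 h) hm1 (h1 _) (Pb_hh hA huv t ht hP)
    -- the sum
    let β : F → F := fun t => b₀ * (t⁻¹) ^ 2
    have hcardS : (Fintype.card F - 1) ≤ 2 * (((Finset.univ : Finset F).erase 0).image β).card := by
      have h1 := Finset.card_le_mul_card_image (f := β) ((Finset.univ : Finset F).erase 0) 2 (by
        intro b hb
        obtain ⟨t, ht, rfl⟩ := Finset.mem_image.mp hb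
        have ht0 := (Finset.mem_erase.mp ht).1
        have hsub : (((Finset.univ : Finset F).erase 0).filter (fun x => β x = β t)) ⊆ {t, -t} := by
          intro x hx
          obtain ⟨hx1, hx2⟩ := Finset.mem_filter.mp hx
          have hx0 := (Finset.mem_erase.mp hx1).1
          have h3 : (t⁻¹) ^ 2 = (x⁻¹) ^ 2 := (mul_left_cancel₀ hb₀ hx2).symm
          have h4 : x ^ 2 = t ^ 2 := by
            field_simp at h3
            linear_combination h3
          have h5 : (x - t) * (x + t) = 0 := by linear_combination h4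
          rcases mul_eq_zero.mp h5 with h6 | h6
          · have : x = t := by linear_combination h6
            simp [this]
          · have : x = -t := by linear_combination h6
            simp [this]
        exact (Finset.card_le_card hsub).trans Finset.card_le_two)
      rwa [Finset.card_erase_of_mem (Finset.mem_univ _), Finset.card_univ] at h1
    have hsum : (Fintype.card F - 1) * w ≤ ∑ b ∈ (Finset.univ : Finset F).erase 0, (Ypred hA c (Pb (Ω := Ω) hA ψ c b)).card := by
      have hsubS : ((Finset.univ : Finset F).erase 0).image β ⊆ (Finset.univ : Finset F).erase 0 := by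
        intro b hb
        obtain ⟨t, ht, rfl⟩ := Finset.mem_image.mp hb
        have ht0 := (Finset.mem_erase.mp ht).1
        refine Finset.mem_erase.mpr ⟨?_, Finset.mem_univ _⟩
        exact mul_ne_zero hb₀ (pow_ne_zero _ (inv_ne_zero ht0))
      have h4 : (((Finset.univ : Finset F).erase 0).image β).card • (2 * w) ≤
          ∑ b ∈ ((Finset.univ : Finset F).erase 0).image β, (Ypred hA c (Pb (Ω := Ω) hA ψ c b)).card := by
        apply Finset.card_nsmul_le_sum
        intro b hb
        obtain ⟨t, ht, rfl⟩ := Finset.mem_image.mp hb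
        exact hone t (Finset.mem_erase.mp ht).1
      have h5 := Finset.sum_le_sum_of_subset (f := fun b => (Ypred hA c (Pb (Ω := Ω) hA ψ c b)).card) hsubS
      rw [smul_eq_mul] at h4
      have h6 : (Fintype.card F - 1) * w ≤ (2 * (((Finset.univ : Finset F).erase 0).image β).card) * w :=
        Nat.mul_le_mul_right _ hcardS
      have h7 : (2 * (((Finset.univ : Finset F).erase 0).image β).card) * w = (((Finset.univ : Finset F).erase 0).image β).card * (2 * w) := by ring
      omega
    exact num_count hq3 (w_pos hA huv C) (sum_Yb_le hA ψ hψ c) hsum C.hd hN'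

/-- The case of even characteristic. -/
theorem no_small_even [CharP F 2] (hq4 : 4 ≤ Fintype.card F) (hdim : 4 ≤ Module.finrank F V) : False := by
  classical
  obtain ⟨ψ, hψ⟩ := exists_psi (F := F)
  have hq3 := C.hq
  have hN' := C.hN.trans C.hV
  have hc0 := c_ne_zero hA huv C
  obtain ⟨ω₀, h01, h02⟩ := C.hBr c c' huv
  by_cases hex : ∃ ω : Ω, Ast hA c ω = ⊥ ∧ (wSet hA huv).stab (mkY hA c ω) ≠ ⊤
  · obtain ⟨ω, h1, h2⟩ := hex
    exact case_a_even hA huv C hq4 hdim h1 h2
  · push Not at hex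
    have hA0 : Ast hA c ω₀ ≠ ⊥ := fun h => h02 (hex ω₀ h)
    have htop : Ast hA c ω₀ ≠ ⊤ := by
      intro h
      apply h01
      intro s
      have : s ∈ Ast hA c ω₀ := by rw [h]; trivial
      exact this
    obtain ⟨b₀, hb₀, hb₀'⟩ := exists_b ψ hψ htop
    have hP : Pb hA ψ c b₀ ω₀ := ⟨hA0, hb₀'⟩
    have hY := (local_types hA huv hB ψ hψ (Ypred hA c (Pb (Ω := Ω) hA ψ c b₀))
      (Ypred_act hA huv (fun w ω h => Pb_comm hA _ (rho_fix hA w huv 0) h))
      (Ypred_kap hA (fun ℓ ω h => Pb_comm hA _ ℓ.2.1 h))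
      (mk_mem_Ypred hA hP) h02).1
    rw [C.hwc c c' huv] at hY
    have hall : ∀ b ∈ (Finset.univ : Finset F).erase 0, w ≤ (Ypred hA c (Pb (Ω := Ω) hA ψ c b)).card := by
      intro b hb
      have hb0 := (Finset.mem_erase.mp hb).1
      obtain ⟨t, ht⟩ := sq_surj (F := F) (b₀ / b)
      have ht0 : t ≠ 0 := by
        rintro rfl
        rw [zero_pow two_ne_zero] at ht
        exact div_ne_zero hb₀ hb0 ht.symm
      have e : b₀ * (t⁻¹) ^ 2 = b := by
        rw [inv_pow, ht]
        field_simp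
      refine hY.trans ?_
      apply Finset.card_le_card_of_injOn (zAct hA huv t ht0)
      · intro y hy
        obtain ⟨ω, hω, rfl⟩ := (mem_Ypred hA).mp (Finset.mem_coe.mp hy)
        rw [zAct_mk]
        have h1 := Pb_hh hA huv t ht0 hω
        rw [e] at h1
        exact Finset.mem_coe.mpr (mk_mem_Ypred hA h1)
      · exact (zAct_inj hA huv t ht0).injOn
    have hsum : (Fintype.card F - 1) * w ≤ ∑ b ∈ (Finset.univ : Finset F).erase 0, (Ypred hA c (Pb (Ω := Ω) hA ψ c b)).card := by
      have h1 := Finset.card_nsmul_le_sum _ _ _ hall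
      rwa [Finset.card_erase_of_mem (Finset.mem_univ _), Finset.card_univ, smul_eq_mul] at h1
    exact num_count hq3 (w_pos hA huv C) (sum_Yb_le hA ψ hψ c) hsum C.hd hN'

end Final

section Main

variable [Fintype F] [Fintype V] (hB : B.Nondegenerate) [Fintype Ω]
  [MulAction.IsPretransitive (IsomGroup B) Ω] [Nontrivial Ω]

include hA hB

/-- The minimal degree of a transitive nontrivial action of the symplectic group. -/
theorem min_degree (hq : 3 ≤ Fintype.card F) (hdim : 4 ≤ Module.finrank F V)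
    (h3 : Fintype.card F = 3 → 6 ≤ Module.finrank F V) {N : ℕ}
    (hN : (Fintype.card F - 1) * N + 1 = Fintype.card V) : N ≤ Fintype.card Ω := by
  by_contra hlt
  push Not at hlt
  have hV : Fintype.card V = Fintype.card F ^ Module.finrank F V := Module.card_eq_pow_finrank
  have hBr : Bridge hA Ω := by
    by_cases h2 : (2 : F) = 0
    · have : CharP F 2 := CharTwo.of_one_ne_zero_of_two_eq_zero one_ne_zero h2
      exact bridge_even hA hB hq hdim
    · exact bridge_odd hA hB h2 hdim
  have C : Ctx hA hB Ω (Fintype.card F ^ (Module.finrank F V - 2)) N := by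
    refine ⟨hq, fun c c' h => card_perp hA h, ?_, ?_, hN, hlt, hBr⟩
    · exact Nat.pow_le_pow_right (by omega) (by omega)
    · rw [hV, ← pow_add]
      congr 1
      omega
  have hV0 : Nontrivial V := by
    apply Module.nontrivial_of_finrank_pos (R := F)
    omega
  obtain ⟨c, hc⟩ := exists_ne (0 : V)
  obtain ⟨c', huv⟩ := exists_partner hB hc
  by_cases h2 : (2 : F) = 0
  · have : CharP F 2 := CharTwo.of_one_ne_zero_of_two_eq_zero one_ne_zero h2
    obtain ⟨n, hp, hq'⟩ := FiniteField.card F 2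
    have hq4 : 4 ≤ Fintype.card F := by
      by_contra hlt4
      have h33 : Fintype.card F = 3 := by omega
      rw [h33] at hq'
      have : 2 ∣ 3 := by
        rw [hq']
        exact dvd_pow_self 2 n.ne_zero
      omega
    exact no_small_even hA huv C hq4 hdim
  · exact no_small_odd hA huv C h2 hdim h3

end Main

end Cfsg.Agent.Lib.MinIndex.SpFree2
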