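import Mathlib
import Cfsg.Agent.Lib.MinIndex.UHeis

/-!
# Multiplicities on the classes of vectors of the perp; the types of stabilizers
-/

set_option autoImplicit false
set_option linter.unusedSectionVars false
set_option linter.unusedSimpArgs false
set_option linter.unusedVariables false
set_option linter.unusedTactic false

open scoped Matrix
open Cfsg
open Cfsg.Agent.Lib.Classical.Herm.Basic Cfsg.Agent.Lib.Classical.Herm.Form
open Cfsg.Agent.Lib.Classical.Herm.GU Cfsg.Agent.Lib.Classical.Herm.SU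
open Cfsg.Agent.Lib.Classical.Herm.Subfield Cfsg.Agent.Lib.Classical.Herm.Isotropic
open Cfsg.Agent.Lib.Classical.Herm.Tv Cfsg.Agent.Lib.Classical.Herm.Comm
open Cfsg.Agent.Lib.Classical.Herm.Block Cfsg.Agent.Lib.Classical.Herm.Levi
open Cfsg.Agent.Lib.MinIndex.SpCount Cfsg.Agent.Lib.MinIndex.UCount
open Cfsg.Agent.Lib.MinIndex.ULocal Cfsg.Agent.Lib.MinIndex.UW Cfsg.Agent.Lib.MinIndex.UHeis

namespace Cfsg.Agent.Lib.MinIndex.UTypes

variable {F : Type*} [Field F] [Fintype F] {q k : ℕ}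

local notation "⟪" x ", " y "⟫" => hermForm _ _ q x y

variable (hF : Fintype.card F = q ^ 2)

/-- The orbit set is finite. -/
noncomputable instance instFintypeYc {n : ℕ} {Ω : Type*} [MulAction (SU n F q) Ω] [Finite Ω] {c : Fin n → F}
    {hc : hermForm n F q c c = 0} : Fintype (Yc hF Ω hc) := Fintype.ofFinite _

variable {Ω : Type*} [MulAction (SU (2 + k) F q) Ω] [Fintype Ω] {c c' : Fin (2 + k) → F} (h : HP q c c')
  (ψ : AddChar F ℂ) (hψ : ∃ e : F, e + e ^ q = 0 ∧ ψ e ≠ 1)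

local notation "AA" => wSet (Ω := Ω) hF h
local notation "QQ" => pairW (k := k) hF ψ hψ

/-- The invariance properties of a set of orbits. -/
structure Good (Y1 : Finset (Yc hF Ω h.ee)) : Prop where
  inv : Inv (wSet (Ω := Ω) hF h) Y1
  sym : ∀ (t : SU (2 + k) F q) (l : F) (hN : Nrm t l c c'), ∀ y ∈ Y1, mapY hF h.ee t hN.l0 hN.left y ∈ Y1

/-- Filtering by the size of the annihilator keeps the invariance. -/
theorem Good.filter_card {hF : Fintype.card F = q ^ 2} {h : HP q c c'} (ψ : AddChar F ℂ) (hψ : ∃ e : F, e + e ^ q = 0 ∧ ψ e ≠ 1) {Y1 : Finset (Yc hF Ω h.ee)} (hG : Good hF h Y1) (b : ℕ) [DecidablePred fun y => Nat.card (SS (wSet (Ω := Ω) hF h) (pairW (k := k) hF ψ hψ) y) ≤ b] :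
    Good hF h (Y1.filter fun y => Nat.card (SS (wSet (Ω := Ω) hF h) (pairW (k := k) hF ψ hψ) y) ≤ b) := by
  constructor
  · intro y hy w
    obtain ⟨h1, h2⟩ := Finset.mem_filter.mp hy
    refine Finset.mem_filter.mpr ⟨hG.inv y h1 w, ?_⟩
    rwa [SS, WSet.stab_act, ← SS]
  · intro t l hN y hy
    obtain ⟨h1, h2⟩ := Finset.mem_filter.mp hy
    refine Finset.mem_filter.mpr ⟨hG.sym t l hN y h1, ?_⟩
    have h3 := (symOf (Ω := Ω) hF h hN ψ hψ).SS_eq y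
    have h4 : (symOf (Ω := Ω) hF h hN ψ hψ).κ y = mapY hF h.ee t hN.l0 hN.left y := rfl
    rw [← h4, h3, AddSubgroup.card_map_of_injective]
    · exact h2
    · exact (symOf (Ω := Ω) hF h hN ψ hψ).ϕ.injective

include hF h

/-- A symmetry through an element normalizing the pair. -/
theorem mult_le_nrm {Y1 : Finset (Yc hF Ω h.ee)} (hG : Good hF h Y1) {t : SU (2 + k) F q} {l : F} (hN : Nrm t l c c')
    (u : Fin k → F) :
    mult (wSet (Ω := Ω) hF h) (pairW (k := k) hF ψ hψ) Y1 u ≤ mult (wSet (Ω := Ω) hF h) (pairW (k := k) hF ψ hψ) Y1 (l⁻¹ • lv t u) :=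
  mult_le_of_sym (symOf (Ω := Ω) hF h hN ψ hψ) (hG.sym t l hN) u

theorem mult_le_lev {Y1 : Finset (Yc hF Ω h.ee)} (hG : Good hF h Y1) (g : SU k F q) (u : Fin k → F) :
    mult (wSet (Ω := Ω) hF h) (pairW (k := k) hF ψ hψ) Y1 u ≤ mult (wSet (Ω := Ω) hF h) (pairW (k := k) hF ψ hψ) Y1 (act g u) := by
  have h1 := mult_le_nrm hF h ψ hψ hG (lev_nrm hF h g) u
  rwa [inv_one, one_smul, lv_lev] at h1

/-- Multiplicities on isotropic vectors are constant. -/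
theorem mult_iso_le (hk : 3 ≤ k) {Y1 : Finset (Yc hF Ω h.ee)} (hG : Good hF h Y1) {u v : Fin k → F} (hu : ⟪u, u⟫ = 0)
    (hv : ⟪v, v⟫ = 0) (hu0 : u ≠ 0) (hv0 : v ≠ 0) :
    mult (wSet (Ω := Ω) hF h) (pairW (k := k) hF ψ hψ) Y1 u ≤ mult (wSet (Ω := Ω) hF h) (pairW (k := k) hF ψ hψ) Y1 v := by
  obtain ⟨g, -, hg⟩ := reach_iso hF hk hu hv hu0 hv0
  have := mult_le_lev hF h ψ hψ hG g u
  rwa [hg] at this

/-- Multiplicities on non-isotropic vectors are constant. -/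
theorem mult_non_le (hk : 3 ≤ k) {Y1 : Finset (Yc hF Ω h.ee)} (hG : Good hF h Y1) {u v : Fin k → F} (hu : ⟪u, u⟫ ≠ 0)
    (hv : ⟪v, v⟫ ≠ 0) :
    mult (wSet (Ω := Ω) hF h) (pairW (k := k) hF ψ hψ) Y1 u ≤ mult (wSet (Ω := Ω) hF h) (pairW (k := k) hF ψ hψ) Y1 v := by
  have hν : (⟪u, u⟫ / ⟪v, v⟫) ^ q = ⟪u, u⟫ / ⟪v, v⟫ := by
    rw [div_pow, hermForm_self_pow_q hF, hermForm_self_pow_q hF]
  obtain ⟨l, hl⟩ := exists_norm_eq hF _ (div_ne_zero hu hv) hν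
  have hq := two_le_q hF
  have hl0 : l ≠ 0 := by
    rintro rfl
    rw [zero_pow (by omega)] at hl
    exact div_ne_zero hu hv hl.symm
  have hlq : l ^ q ≠ 0 := pow_ne_zero _ hl0
  have hN' : l * l ^ q = ⟪u, u⟫ / ⟪v, v⟫ := by
    rw [← hl, pow_succ]
    ring
  obtain ⟨t, -, ht1, ht2⟩ := reach_pair hF (n := 2 + k) (Or.inl (by omega)) (x' := l • c) (y' := (l ^ q)⁻¹ • c')
    h.ee h.ff h.ef
    (by rw [hermForm_smul_left, hermForm_smul_right, h.ee]; ring)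
    (by rw [hermForm_smul_left, hermForm_smul_right, h.ff]; ring)
    (by
      rw [hermForm_smul_left, hermForm_smul_right, h.ef, inv_pow, pow_q_pow_q hF]
      field_simp)
  have hN : Nrm t l c c' := ⟨hl0, ht1, ht2⟩
  have h1 := mult_le_nrm hF h ψ hψ hG hN u
  set u₁ := l⁻¹ • lv t u with hu₁
  have hu₁N : ⟪u₁, u₁⟫ = ⟪v, v⟫ := by
    rw [hu₁, hermForm_smul_left, hermForm_smul_right, lv_form hF h hN, inv_pow]
    have : l⁻¹ * ((l ^ q)⁻¹ * ⟪u, u⟫) = (l * l ^ q)⁻¹ * ⟪u, u⟫ := by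
      field_simp
    rw [this, hN']
    field_simp
  -- an element of `SU` mapping `u₁` to `v`
  have hν' : (⟪v, v⟫⁻¹) ^ q = ⟪v, v⟫⁻¹ := by
    rw [inv_pow, hermForm_self_pow_q hF]
  obtain ⟨β, hβ⟩ := exists_norm_eq hF _ (inv_ne_zero hv) hν'
  have hβ0 : β ≠ 0 := by
    rintro rfl
    rw [zero_pow (by omega)] at hβ
    exact inv_ne_zero hv hβ.symm
  have hβN : β * β ^ q = ⟪v, v⟫⁻¹ := by
    rw [← hβ, pow_succ]
    ring
  have hframe : ∀ x : Fin k → F, ⟪x, x⟫ = ⟪v, v⟫ → IsFrame q (fun _ : Fin 1 => β • x) := by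
    intro x hx i j
    have hij : i = j := Subsingleton.elim _ _
    simp only [hij, if_true]
    rw [hermForm_smul_left, hermForm_smul_right, hx, ← mul_assoc, hβN, inv_mul_cancel₀ hv]
  obtain ⟨g, hg⟩ := Cfsg.Agent.Lib.Classical.Herm.RegU.exists_su_frame hF (k := 1) (n := k) (by omega) _ _ (hframe u₁ hu₁N) (hframe v rfl)
  have hg' : act g u₁ = v := by
    have := hg 0
    rw [act_smul] at this
    exact smul_right_injective _ hβ0 this
  have h2 := mult_le_lev hF h ψ hψ hG g u₁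
  rw [hg'] at h2
  exact h1.trans h2

/-- Distinct images through a vector give a lower bound for its multiplicity. -/
theorem mult_ge_T {Y1 : Finset (Yc hF Ω h.ee)} (hG : Good hF h Y1) {y : Yc hF Ω h.ee} (hy : y ∈ Y1) {u : Fin k → F}
    (hu : u ∈ SS (wSet (Ω := Ω) hF h) (pairW (k := k) hF ψ hψ) y)
    (T : Finset (AddSubgroup (Fin k → F)))
    (hT : ∀ S' ∈ T, ∃ g : SU k F q, act g u = u ∧ S' = img g (SS (wSet (Ω := Ω) hF h) (pairW (k := k) hF ψ hψ) y)) :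
    T.card ≤ mult (wSet (Ω := Ω) hF h) (pairW (k := k) hF ψ hψ) Y1 u := by
  apply card_le_mult
  intro S' hS'
  obtain ⟨g, hg, rfl⟩ := hT S' hS'
  obtain ⟨ω, rfl⟩ := mkY_surj hF y
  refine ⟨mkY hF h.ee (Lev hF g • ω), ?_, SS_lev hF h ψ hψ g ω, ?_⟩
  · exact hG.sym _ _ (lev_nrm hF h g) _ hy
  · rw [← hg]
    exact act_mem_img hu

/-- The trichotomy of the types. -/
theorem types (hk : 3 ≤ k) {Y1 : Finset (Yc hF Ω h.ee)} (hG : Good hF h Y1) {y : Yc hF Ω h.ee} (hy : y ∈ Y1)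
    (hnl : ∀ u ∈ SS (wSet (Ω := Ω) hF h) (pairW (k := k) hF ψ hψ) y, u ≠ 0 →
      ∃ x ∈ SS (wSet (Ω := Ω) hF h) (pairW (k := k) hF ψ hψ) y, ∀ κ : F, x ≠ κ • u)
    {u₀ : Fin k → F} (hu₀ : u₀ ∈ SS (wSet (Ω := Ω) hF h) (pairW (k := k) hF ψ hψ) y) (hu₀0 : u₀ ≠ 0) :
    (∀ u : Fin k → F, u ≠ 0 → ⟪u, u⟫ = 0 → q + 1 ≤ mult (wSet (Ω := Ω) hF h) (pairW (k := k) hF ψ hψ) Y1 u) ∨
    (∀ v : Fin k → F, ⟪v, v⟫ ≠ 0 → 2 ≤ mult (wSet (Ω := Ω) hF h) (pairW (k := k) hF ψ hψ) Y1 v ∧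
      (q = 2 → 3 ≤ mult (wSet (Ω := Ω) hF h) (pairW (k := k) hF ψ hψ) Y1 v)) ∨
    ((∀ u : Fin k → F, u ≠ 0 → ⟪u, u⟫ = 0 → 1 ≤ mult (wSet (Ω := Ω) hF h) (pairW (k := k) hF ψ hψ) Y1 u) ∧
     (∀ v : Fin k → F, ⟪v, v⟫ ≠ 0 → 1 ≤ mult (wSet (Ω := Ω) hF h) (pairW (k := k) hF ψ hψ) Y1 v) ∧
     ((∀ u : Fin k → F, u ≠ 0 → ⟪u, u⟫ = 0 → 2 ≤ mult (wSet (Ω := Ω) hF h) (pairW (k := k) hF ψ hψ) Y1 u) ∨
      (∀ v : Fin k → F, ⟪v, v⟫ ≠ 0 → 2 ≤ mult (wSet (Ω := Ω) hF h) (pairW (k := k) hF ψ hψ) Y1 v) ∨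
      (SS (wSet (Ω := Ω) hF h) (pairW (k := k) hF ψ hψ) y = ⊤ ∧
        ∀ u : Fin k → F, u ≠ 0 → mult (wSet (Ω := Ω) hF h) (pairW (k := k) hF ψ hψ) Y1 u ≤ 1))) := by
  classical
  set S := SS (wSet (Ω := Ω) hF h) (pairW (k := k) hF ψ hψ) y with hS
  set m := mult (wSet (Ω := Ω) hF h) (pairW (k := k) hF ψ hψ) Y1 with hm
  by_cases hI : ∀ x ∈ S, ⟪x, x⟫ = 0
  · left
    obtain ⟨x, hx, hxu⟩ := hnl u₀ hu₀ hu₀0
    obtain ⟨u', hu', hu'0, T, hT1, hT2⟩ := iso_images hF (by omega) hI hu₀ hu₀0 hx hxu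
    intro u hu0 huu
    have h1 : T.card ≤ m u' := mult_ge_T hF h ψ hψ hG hy hu' T hT2
    have h2 : m u' ≤ m u := mult_iso_le hF h ψ hψ hk hG (hI u' hu') huu hu'0 hu0
    omega
  by_cases hN : ∀ x ∈ S, x ≠ 0 → ⟪x, x⟫ ≠ 0
  · right; left
    obtain ⟨x, hx, hxu⟩ := hnl u₀ hu₀ hu₀0
    have hu₀N := hN u₀ hu₀ hu₀0
    intro v hv
    have h2 : m u₀ ≤ m v := mult_non_le hF h ψ hψ hk hG hu₀N hv
    refine ⟨?_, fun hq => ?_⟩
    · obtain ⟨T, hT1, hT2⟩ := non_images hF (by omega) hN hu₀ hu₀0 hx hxu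
      have h1 : T.card ≤ m u₀ := mult_ge_T hF h ψ hψ hG hy hu₀ T hT2
      omega
    · obtain ⟨T, hT1, hT2⟩ := non_images_two hF hq (by omega) hN hu₀ hu₀0 hx hxu
      have h1 : T.card ≤ m u₀ := mult_ge_T hF h ψ hψ hG hy hu₀ T hT2
      omega
  right; right
  push Not at hI hN
  obtain ⟨u₂, hu₂, hu₂N⟩ := hI
  obtain ⟨u₁, hu₁, hu₁0, hu₁N⟩ := hN
  have hm1 : 1 ≤ m u₁ := one_le_mult hy hu₁
  have hm2 : 1 ≤ m u₂ := one_le_mult hy hu₂
  have hiso : ∀ u : Fin k → F, u ≠ 0 → ⟪u, u⟫ = 0 → m u₁ ≤ m u := fun u hu0 huu =>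
    mult_iso_le hF h ψ hψ hk hG hu₁N huu hu₁0 hu0
  have hiso' : ∀ u : Fin k → F, u ≠ 0 → ⟪u, u⟫ = 0 → m u ≤ m u₁ := fun u hu0 huu =>
    mult_iso_le hF h ψ hψ hk hG huu hu₁N hu0 hu₁0
  have hnon : ∀ v : Fin k → F, ⟪v, v⟫ ≠ 0 → m u₂ ≤ m v := fun v hv =>
    mult_non_le hF h ψ hψ hk hG hu₂N hv
  have hnon' : ∀ v : Fin k → F, ⟪v, v⟫ ≠ 0 → m v ≤ m u₂ := fun v hv =>
    mult_non_le hF h ψ hψ hk hG hv hu₂N
  refine ⟨fun u hu0 huu => hm1.trans (hiso u hu0 huu), fun v hv => hm2.trans (hnon v hv), ?_⟩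
  by_cases h1 : 2 ≤ m u₁
  · left
    exact fun u hu0 huu => h1.trans (hiso u hu0 huu)
  by_cases h2 : 2 ≤ m u₂
  · right; left
    exact fun v hv => h2.trans (hnon v hv)
  right; right
  have hone : ∀ u : Fin k → F, u ≠ 0 → m u ≤ 1 := by
    intro u hu0
    by_cases huu : ⟪u, u⟫ = 0
    · have := hiso' u hu0 huu
      omega
    · have := hnon' u huu
      omega
  refine ⟨?_, hone⟩
  apply whole hF (n := k) (by omega) (S := S) ?_ hu₁ hu₁0 hu₁N hu₂ hu₂N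
  intro u hu hu0 g hg
  by_contra hne
  have h3 : ({S, img g S} : Finset (AddSubgroup (Fin k → F))).card ≤ m u := mult_ge_T hF h ψ hψ hG hy hu {S, img g S} (by
    intro S' hS'
    rcases Finset.mem_insert.mp hS' with rfl | hS'
    · exact ⟨1, act_one _, (img_one _).symm⟩
    · rw [Finset.mem_singleton] at hS'
      exact ⟨g, hg, hS'⟩)
  rw [Finset.card_pair (Ne.symm hne)] at h3
  have := hone u hu0
  omega

/-! ### Counting -/

open _root_.Classical in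
/-- The isotropic vectors of the perp. -/
noncomputable def isoC (F : Type*) [Field F] [Fintype F] (q k : ℕ) : Finset (Fin k → F) :=
  Finset.univ.filter fun x => x ≠ 0 ∧ hermForm k F q x x = 0

open _root_.Classical in
/-- The non-isotropic vectors of the perp. -/
noncomputable def nonC (F : Type*) [Field F] [Fintype F] (q k : ℕ) : Finset (Fin k → F) :=
  Finset.univ.filter fun x => hermForm k F q x x ≠ 0

omit hF h in
theorem mem_isoC {x : Fin k → F} : x ∈ isoC F q k ↔ x ≠ 0 ∧ ⟪x, x⟫ = 0 := by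
  classical
  simp [isoC]

omit hF h in
theorem mem_nonC {x : Fin k → F} : x ∈ nonC F q k ↔ ⟪x, x⟫ ≠ 0 := by
  classical
  simp [nonC]

omit hF h in
theorem zero_notMem_isoC : (0 : Fin k → F) ∉ isoC F q k := by
  rw [mem_isoC]
  simp

omit hF h in
theorem zero_notMem_nonC : (0 : Fin k → F) ∉ nonC F q k := by
  rw [mem_nonC]
  simp [hermForm_zero_left]

omit hF h in
theorem disjoint_C : Disjoint (isoC F q k) (nonC F q k) := by
  rw [Finset.disjoint_left]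
  intro x h1 h2
  exact (mem_nonC.mp h2) (mem_isoC.mp h1).2

omit h in
theorem card_C_add : (isoC F q k).card + (nonC F q k).card + 1 = q ^ (2 * k) := by
  classical
  have h1 : (insert (0 : Fin k → F) (isoC F q k ∪ nonC F q k)) = Finset.univ := by
    ext x
    simp only [Finset.mem_insert, Finset.mem_union, mem_isoC, mem_nonC, Finset.mem_univ, iff_true]
    by_cases hx : x = 0
    · exact Or.inl hx
    · by_cases hN : ⟪x, x⟫ = 0
      · exact Or.inr (Or.inl ⟨hx, hN⟩)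
      · exact Or.inr (Or.inr hN)
  have h2 := congrArg Finset.card h1
  rw [Finset.card_insert_of_notMem (by simp [zero_notMem_isoC, zero_notMem_nonC]),
    Finset.card_union_of_disjoint disjoint_C, Finset.card_univ, Fintype.card_fun] at h2
  simp only [Fintype.card_fin] at h2
  rw [h2, hF, pow_mul]

omit hF h in
theorem card_isoC_eq : (isoC F q k).card + 1 = Nat.card {v : Fin k → F // hermForm k F q v v = 0} := by
  classical
  rw [Nat.card_eq_fintype_card, Fintype.card_subtype]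
  have h1 : (Finset.univ.filter fun v : Fin k → F => hermForm k F q v v = 0) = insert 0 (isoC F q k) := by
    ext x
    simp only [Finset.mem_filter, Finset.mem_univ, true_and, Finset.mem_insert, mem_isoC]
    constructor
    · intro hx
      by_cases h0 : x = 0
      · exact Or.inl h0
      · exact Or.inr ⟨h0, hx⟩
    · rintro (rfl | hx)
      · exact hermForm_zero_left _ _
      · exact hx.2
  rw [h1, Finset.card_insert_of_notMem zero_notMem_isoC]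

/-- The lower bound from the multiplicities. -/
theorem card_ge {Y1 : Finset (Yc hF Ω h.ee)} (hG : Good hF h Y1) {m₁ m₂ : ℕ}
    (h1 : ∀ u : Fin k → F, u ≠ 0 → ⟪u, u⟫ = 0 → m₁ ≤ mult (wSet (Ω := Ω) hF h) (pairW (k := k) hF ψ hψ) Y1 u)
    (h2 : ∀ v : Fin k → F, ⟪v, v⟫ ≠ 0 → m₂ ≤ mult (wSet (Ω := Ω) hF h) (pairW (k := k) hF ψ hψ) Y1 v) :
    mult (wSet (Ω := Ω) hF h) (pairW (k := k) hF ψ hψ) Y1 0 + (isoC F q k).card * m₁ + (nonC F q k).card * m₂ ≤ Y1.card :=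
  card_ge_classes hG.inv _ _ zero_notMem_isoC zero_notMem_nonC disjoint_C
    (fun u hu => h1 u (mem_isoC.mp hu).1 (mem_isoC.mp hu).2) (fun v hv => h2 v (mem_nonC.mp hv))

/-- The bound when all annihilators are small: a vector in an annihilator occurs everywhere in its class. -/
theorem line_case (hk : 3 ≤ k) {Y1 : Finset (Yc hF Ω h.ee)} (hG : Good hF h Y1) {y : Yc hF Ω h.ee} (hy : y ∈ Y1)
    (hcard : Nat.card (SS (wSet (Ω := Ω) hF h) (pairW (k := k) hF ψ hψ) y) ≤ q ^ 2)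
    {u₀ : Fin k → F} (hu₀ : u₀ ∈ SS (wSet (Ω := Ω) hF h) (pairW (k := k) hF ψ hψ) y) (hu₀0 : u₀ ≠ 0)
    (hIN : (isoC F q k).card ≤ (nonC F q k).card) :
    q ^ 2 * (isoC F q k).card ≤ (q ^ 2 - 1) * Y1.card := by
  classical
  set Y' := Y1.filter fun y => Nat.card (SS (wSet (Ω := Ω) hF h) (pairW (k := k) hF ψ hψ) y) ≤ q ^ 2 with hY'
  have hG' : Good hF h Y' := Good.filter_card ψ hψ hG _
  have hyY' : y ∈ Y' := Finset.mem_filter.mpr ⟨hy, hcard⟩
  have hsub : Y'.card ≤ Y1.card := Finset.card_filter_le _ _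
  have hb : ∀ y' ∈ Y', Nat.card (SS (wSet (Ω := Ω) hF h) (pairW (k := k) hF ψ hψ) y') ≤ q ^ 2 :=
    fun y' hy' => (Finset.mem_filter.mp hy').2
  have hm := one_le_mult (Y1 := Y') hyY' hu₀
  have hmain : q ^ 2 * (isoC F q k).card ≤ (q ^ 2 - 1) * Y'.card := by
    by_cases hN : ⟪u₀, u₀⟫ = 0
    · exact line_bound hG'.inv hb _ zero_notMem_isoC (fun v hv => hm.trans
        (mult_iso_le hF h ψ hψ hk hG' hN (mem_isoC.mp hv).2 hu₀0 (mem_isoC.mp hv).1))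
    · have := line_bound hG'.inv hb _ zero_notMem_nonC (fun v hv => hm.trans
        (mult_non_le hF h ψ hψ hk hG' hN (mem_nonC.mp hv)))
      exact (Nat.mul_le_mul_left _ hIN).trans this
  exact hmain.trans (Nat.mul_le_mul_left _ hsub)

/-- A small annihilator, or a line. -/
theorem exists_not_line {S : AddSubgroup (Fin k → F)} (hS : q ^ 2 < Nat.card S) {u : Fin k → F} (hu : u ≠ 0) :
    ∃ x ∈ S, ∀ κ : F, x ≠ κ • u := by
  classical
  by_contra hno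
  push Not at hno
  choose! f hf using hno
  have hle : Nat.card S ≤ Fintype.card F := by
    rw [Nat.card_eq_fintype_card (α := S), Fintype.card_subtype]
    have : (Finset.univ.filter fun x => x ∈ S) ⊆ Finset.univ.image (fun κ : F => κ • u) := by
      intro x hx
      simp only [Finset.mem_filter, Finset.mem_univ, true_and] at hx
      exact Finset.mem_image.mpr ⟨f x, Finset.mem_univ _, (hf x hx).symm⟩
    refine (Finset.card_le_card this).trans ?_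
    exact Finset.card_image_le
  rw [hF] at hle
  omega

/-- The bound for any proper stabilizer. -/
theorem fix_bound (hk : 3 ≤ k) {Y1 : Finset (Yc hF Ω h.ee)} (hG : Good hF h Y1) {y : Yc hF Ω h.ee} (hy : y ∈ Y1)
    {u₀ : Fin k → F} (hu₀ : u₀ ∈ SS (wSet (Ω := Ω) hF h) (pairW (k := k) hF ψ hψ) y) (hu₀0 : u₀ ≠ 0)
    (hIN : (isoC F q k).card ≤ (nonC F q k).card) :
    q ^ 2 * (isoC F q k).card ≤ (q ^ 2 - 1) * Y1.card := by
  classical
  have hq := two_le_q hF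
  have hq2 : 4 ≤ q ^ 2 := by nlinarith
  by_cases hcard : Nat.card (SS (wSet (Ω := Ω) hF h) (pairW (k := k) hF ψ hψ) y) ≤ q ^ 2
  · exact line_case hF h ψ hψ hk hG hy hcard hu₀ hu₀0 hIN
  have hnl : ∀ u ∈ SS (wSet (Ω := Ω) hF h) (pairW (k := k) hF ψ hψ) y, u ≠ 0 →
      ∃ x ∈ SS (wSet (Ω := Ω) hF h) (pairW (k := k) hF ψ hψ) y, ∀ κ : F, x ≠ κ • u :=
    fun u _ hu => exists_not_line hF h (not_le.mp hcard) hu
  set I := (isoC F q k).card with hI
  set Non := (nonC F q k).card with hNon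
  set Q2 := q ^ 2 with hQ2
  have hfac : Q2 * I ≤ (Q2 - 1) * (2 * I) := by
    obtain ⟨r, hr⟩ : ∃ r, Q2 = r + 4 := ⟨Q2 - 4, by omega⟩
    rw [hr]
    simp only [show r + 4 - 1 = r + 3 by omega]
    nlinarith
  rcases types hF h ψ hψ hk hG hy hnl hu₀ hu₀0 with h1 | h1 | ⟨h1, h2, -⟩
  · have h3 := card_ge hF h ψ hψ hG h1 (m₂ := 0) (by simp)
    rw [← hI, ← hNon] at h3
    have h4 : I * (q + 1) ≤ Y1.card := by omega
    have h5 : 2 * I ≤ Y1.card := by nlinarith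
    exact hfac.trans (Nat.mul_le_mul_left _ h5)
  · have h3 := card_ge hF h ψ hψ hG (m₁ := 0) (by simp) (fun v hv => (h1 v hv).1)
    rw [← hI, ← hNon] at h3
    have h4 : Non * 2 ≤ Y1.card := by omega
    have h5 : 2 * I ≤ Y1.card := by omega
    exact hfac.trans (Nat.mul_le_mul_left _ h5)
  · have h3 := card_ge hF h ψ hψ hG h1 h2
    rw [← hI, ← hNon] at h3
    have h5 : 2 * I ≤ Y1.card := by omega
    exact hfac.trans (Nat.mul_le_mul_left _ h5)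

end Cfsg.Agent.Lib.MinIndex.UTypes
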