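import Mathlib
import Cfsg.Agent.Lib.MinIndex.UTypes
import Cfsg.Agent.Lib.MinIndex.SpFree2

/-!
# Points on which a root group of the special unitary group acts freely
-/

set_option autoImplicit false
set_option linter.unusedSectionVars false
set_option linter.unusedSimpArgs false
set_option linter.unusedVariables false
set_option linter.unusedTactic false

open scoped Matrix
open Cfsg
open Cfsg.Agent.Lib.Classical.Herm.Basic Cfsg.Agent.Lib.Classical.Herm.Form
open Cfsg.Agent.Lib.Classical.Herm.GU Cfsg.Agent.Lib.Classical.Herm.SU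
open Cfsg.Agent.Lib.Classical.Herm.Subfield Cfsg.Agent.Lib.Classical.Herm.Isotropic
open Cfsg.Agent.Lib.Classical.Herm.Tv Cfsg.Agent.Lib.Classical.Herm.Comm
open Cfsg.Agent.Lib.Classical.Herm.Block Cfsg.Agent.Lib.Classical.Herm.Levi
open Cfsg.Agent.Lib.MinIndex.SpCount Cfsg.Agent.Lib.MinIndex.UCount
open Cfsg.Agent.Lib.MinIndex.ULocal Cfsg.Agent.Lib.MinIndex.UW Cfsg.Agent.Lib.MinIndex.UHeis
open Cfsg.Agent.Lib.MinIndex.UTypes

namespace Cfsg.Agent.Lib.MinIndex.UFree

variable {F : Type*} [Field F] [Fintype F] {q k : ℕ}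

local notation "⟪" x ", " y "⟫" => hermForm _ _ q x y

variable (hF : Fintype.card F = q ^ 2)

variable {Ω : Type*} [MulAction (SU (2 + k) F q) Ω] [Fintype Ω] {c c' : Fin (2 + k) → F} (h : HP q c c')
  (ψ : AddChar F ℂ) (hψ : ∃ e : F, e + e ^ q = 0 ∧ ψ e ≠ 1)

include hF h

/-! ### Sets of orbits from predicates -/

open _root_.Classical in
/-- The orbits of the points with a property. -/
noncomputable def Yp (hF : Fintype.card F = q ^ 2) (h : HP q c c') (P : Ω → Prop) : Finset (Yc hF Ω h.ee) :=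
  (Finset.univ.filter P).image (mkY hF h.ee)

omit h hF in
theorem mem_Yp {hF : Fintype.card F = q ^ 2} {h : HP q c c'} {P : Ω → Prop} {y : Yc hF Ω h.ee} :
    y ∈ Yp hF h P ↔ ∃ ω, P ω ∧ mkY hF h.ee ω = y := by
  classical
  simp [Yp]

omit h hF in
theorem mk_mem_Yp {hF : Fintype.card F = q ^ 2} {h : HP q c c'} {P : Ω → Prop} {ω : Ω} (hω : P ω) :
    mkY hF h.ee ω ∈ Yp hF h P :=
  mem_Yp.mpr ⟨ω, hω, rfl⟩

theorem act_rho_c {w : Fin k → F} {a : F} (ha : a + a ^ q + ⟪w, w⟫ = 0) : act (rho hF c (inc w) a) c = (1 : F) • c := by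
  rw [rho_apply hF (val_inc hF ha h), h.ee, h.e_inc hF, one_smul]
  simp

/-- Predicates invariant under elements scaling `c` give good sets. -/
theorem good_of {P : Ω → Prop} (hP : ∀ (t : SU (2 + k) F q) (l : F), l ≠ 0 → act t c = l • c → ∀ ω, P ω → P (t • ω)) :
    Good hF h (Yp hF h P) := by
  constructor
  · intro y hy w
    obtain ⟨ω, hω, rfl⟩ := mem_Yp.mp hy
    rw [wSet_act_mk hF h (aOf_spec hF w)]
    exact mk_mem_Yp (hP _ 1 one_ne_zero (act_rho_c hF h (aOf_spec hF w)) ω hω)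
  · intro t l hN y hy
    obtain ⟨ω, hω, rfl⟩ := mem_Yp.mp hy
    rw [mapY_mk]
    exact mk_mem_Yp (hP t l hN.l0 hN.left ω hω)

theorem good_free : Good hF h (Yp (Ω := Ω) hF h (Free hF c)) :=
  good_of hF h fun t l hl ht ω hω => Free_scale hF h.ee t hl ht hω

theorem good_fix : Good hF h (Yp (Ω := Ω) hF h (fun ω => Fx hF ω c)) :=
  good_of hF h fun t l hl ht ω hω => Fx_scale hF h.ee t hl ht hω

open _root_.Classical in
/-- The number of points with orbits of a good kind. -/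
theorem card_free : (Finset.univ.filter (Free (Ω := Ω) hF c)).card = q * (Yp (Ω := Ω) hF h (Free hF c)).card := by
  classical
  have : Fintype {e : F // e + e ^ q = 0} := Fintype.ofFinite _
  have hcard : Fintype.card {e : F // e + e ^ q = 0} = q := by
    rw [← Nat.card_eq_fintype_card, card_E0 hF]
  rw [Finset.card_eq_sum_card_fiberwise (f := mkY hF h.ee) (t := Yp (Ω := Ω) hF h (Free hF c)) (by
    intro ω hω
    exact mk_mem_Yp (Finset.mem_filter.mp hω).2)]
  rw [mul_comm, ← smul_eq_mul, ← Finset.sum_const]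
  apply Finset.sum_congr rfl
  intro y hy
  obtain ⟨ω, hω, rfl⟩ := mem_Yp.mp hy
  refine Eq.trans ?_ hcard
  rw [← Finset.card_univ]
  symm
  apply Finset.card_bij (fun (e : {e : F // e + e ^ q = 0}) _ => tt hF c e.1 • ω)
  · intro e _
    refine Finset.mem_filter.mpr ⟨Finset.mem_filter.mpr ⟨Finset.mem_univ _, ?_⟩, mkY_tt hF e.2⟩
    exact Free_tt hF h.ee e.2 hω
  · intro e₁ _ e₂ _ he
    have h1 : tt hF c (-e₁.1 + e₂.1) • ω = ω := by
      rw [← tt_mul hF h.ee (trace_neg hF e₁.2) e₂.2, mul_smul, ← he, smul_smul,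
        tt_mul hF h.ee (trace_neg hF e₁.2) e₁.2, neg_add_cancel, rho_one hF h.ee, one_smul]
    have h2 := hω _ (trace_add hF (trace_neg hF e₁.2) e₂.2) h1
    apply Subtype.ext
    linear_combination -h2
  · intro ω' hω'
    obtain ⟨-, h2⟩ := Finset.mem_filter.mp hω'
    obtain ⟨e, he, rfl⟩ := (mkY_eq hF).mp h2.symm
    exact ⟨⟨e, he⟩, Finset.mem_univ _, rfl⟩

open _root_.Classical in
theorem card_fix : (Finset.univ.filter (fun ω : Ω => Fx hF ω c)).card = (Yp (Ω := Ω) hF h (fun ω => Fx hF ω c)).card := by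
  classical
  rw [Yp, Finset.card_image_of_injOn]
  intro ω hω ω' hω' he
  obtain ⟨-, h1⟩ := Finset.mem_filter.mp (Finset.mem_coe.mp hω)
  obtain ⟨e, he', h2⟩ := (mkY_eq hF).mp he
  rw [← h2, h1 e he']

/-- The basic inequality for the degree. -/
theorem card_Ω_ge : q * (Yp (Ω := Ω) hF h (Free hF c)).card + (Yp (Ω := Ω) hF h (fun ω => Fx hF ω c)).card ≤ Fintype.card Ω := by
  classical
  rw [← card_free hF h, ← card_fix hF h, ← Finset.card_union_of_disjoint]
  · exact Finset.card_le_univ _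
  · rw [Finset.disjoint_left]
    intro ω h1 h2
    obtain ⟨-, h1⟩ := Finset.mem_filter.mp h1
    obtain ⟨-, h2⟩ := Finset.mem_filter.mp h2
    obtain ⟨e, he0, he⟩ := exists_trace_zero hF
    have he' : e + e ^ q = 0 := by rw [he]; ring
    exact he0 (h1 e he' (h2 e he'))

/-! ### Free points -/

/-- The commutator of two stabilizing elements. -/
theorem comm_stab {r r' : Fin k → F} {ω : Ω}
    (hr : r ∈ (wSet (Ω := Ω) hF h).stab (mkY hF h.ee ω)) (hr' : r' ∈ (wSet (Ω := Ω) hF h).stab (mkY hF h.ee ω)) :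
    tt hF c (⟪r, r'⟫ - ⟪r', r⟫) • ω = ω := by
  obtain ⟨a, ha, h1⟩ := (mem_stab_mk hF h).mp hr
  obtain ⟨a', ha', h2⟩ := (mem_stab_mk hF h).mp hr'
  have hc := rho_comm hF (val_inc hF ha h) (val_inc hF ha' h)
  rw [hermForm_inc, hermForm_inc] at hc
  have h3 : (rho hF c (inc r) a * rho hF c (inc r') a') • ω = ω := by
    rw [mul_smul, h2, h1]
  rw [hc, mul_smul, mul_smul, h1, h2] at h3
  exact h3

theorem stab_le_SS {ω : Ω} (hω : Free hF c ω) :
    (wSet (Ω := Ω) hF h).stab (mkY hF h.ee ω) ≤ SS (wSet (Ω := Ω) hF h) (pairW (k := k) hF ψ hψ) (mkY hF h.ee ω) := by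
  intro r hr r' hr'
  have h1 := comm_stab hF h hr hr'
  have h2 : (⟪r, r'⟫ - ⟪r', r⟫) + (⟪r, r'⟫ - ⟪r', r⟫) ^ q = 0 := by
    rw [pow_q_sub hF, hermForm_pow_q hF, hermForm_pow_q hF]
    ring
  have h3 := hω _ h2 h1
  change ψ (⟪r, r'⟫ - ⟪r', r⟫) = 1
  rw [h3]
  exact AddChar.map_zero_eq_one ψ

theorem card_SS_free {ω : Ω} (hω : Free hF c ω) :
    q ^ (2 * k) ≤ (Nat.card (SS (wSet (Ω := Ω) hF h) (pairW (k := k) hF ψ hψ) (mkY hF h.ee ω))) ^ 2 := by
  have h1 := (pairW (k := k) hF ψ hψ).card_ann ((wSet (Ω := Ω) hF h).stab (mkY hF h.ee ω))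
  have h2 := AddSubgroup.card_le_of_le (stab_le_SS hF h ψ hψ hω)
  rw [Fintype.card_fun, hF] at h1
  simp only [Fintype.card_fin] at h1
  rw [pow_mul, ← h1, pow_two]
  exact Nat.mul_le_mul_right _ h2


/-- The vectors in the subgroup of stabilizing multiples of a vector. -/
noncomputable def Xd (hF : Fintype.card F = q ^ 2) (h : HP q c c') (ω : Ω) (d : Fin k → F) : AddSubgroup F :=
  ((wSet (Ω := Ω) hF h).stab (mkY hF h.ee ω)).comap
    { toFun := fun x : F => x • d, map_zero' := zero_smul _ _, map_add' := fun a b => add_smul a b d }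

omit hF h in
theorem mem_Xd {hF : Fintype.card F = q ^ 2} {h : HP q c c'} {ω : Ω} {d : Fin k → F} {x : F} :
    x ∈ Xd hF h ω d ↔ x • d ∈ (wSet (Ω := Ω) hF h).stab (mkY hF h.ee ω) := Iff.rfl

/-- The scalars whose associated transvection fixes the point. -/
def Az (hF : Fintype.card F = q ^ 2) (h : HP q c c') (ω : Ω) : AddSubgroup F where
  carrier := {z | tt hF c (z - z ^ q) • ω = ω}
  zero_mem' := by
    change tt hF c (0 - 0 ^ q) • ω = ω
    rw [zero_pow_q hF, sub_zero, rho_one hF h.ee, one_smul]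
  add_mem' := by
    intro a b ha hb
    change tt hF c (a - a ^ q) • ω = ω at ha
    change tt hF c (b - b ^ q) • ω = ω at hb
    change tt hF c ((a + b) - (a + b) ^ q) • ω = ω
    have ta : (a - a ^ q) + (a - a ^ q) ^ q = 0 := by
      rw [pow_q_sub hF, pow_q_pow_q hF]
      ring
    have tb : (b - b ^ q) + (b - b ^ q) ^ q = 0 := by
      rw [pow_q_sub hF, pow_q_pow_q hF]
      ring
    have e : (a + b) - (a + b) ^ q = (a - a ^ q) + (b - b ^ q) := by
      rw [pow_q_add hF]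
      ring
    rw [e, ← tt_mul hF h.ee ta tb, mul_smul, hb, ha]
  neg_mem' := by
    intro a ha
    change tt hF c (a - a ^ q) • ω = ω at ha
    change tt hF c ((-a) - (-a) ^ q) • ω = ω
    have ta : (a - a ^ q) + (a - a ^ q) ^ q = 0 := by
      rw [pow_q_sub hF, pow_q_pow_q hF]
      ring
    have e : (-a) - (-a) ^ q = -(a - a ^ q) := by
      rw [pow_q_neg hF]
      ring
    rw [e, ← tt_inv hF h.ee ta, inv_smul_eq_iff, ha]

/-- Not all the transvections with centres near `c` have partial stabilizers. -/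
theorem no_all_partial {ω : Ω} (hnf : ¬ Fx hF ω c) {d₁ d₂ : Fin k → F} (hd₁ : ⟪d₁, d₁⟫ = 0) (hd₂ : ⟪d₂, d₂⟫ = 0)
    (hd : ⟪d₁, d₂⟫ = 1)
    (hall : ∀ d : Fin k → F, ⟪d, d⟫ = 0 → d ≠ 0 → ∀ α : F, ∃ e : F, e + e ^ q = 0 ∧ e ≠ 0 ∧ tt hF (α • c + inc d) e • ω = ω) :
    False := by
  classical
  have hq := two_le_q hF
  -- the size of `Xd`
  have hX : ∀ d : Fin k → F, ⟪d, d⟫ = 0 → d ≠ 0 → q < Nat.card (Xd hF h ω d) := by
    intro d hdd hd0
    choose f hf1 hf2 hf3 using hall d hdd hd0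
    let E1 : Finset F := (Finset.univ.filter fun e : F => e + e ^ q = 0).erase 0
    have hE1 : E1.card = q - 1 := by
      have h0 : (Finset.univ.filter fun e : F => e + e ^ q = 0).card = q := by
        have h5 := card_E0 (q := q) hF
        rwa [Nat.card_eq_fintype_card, Fintype.card_subtype] at h5
      rw [Finset.card_erase_of_mem (by simp [zero_pow_q hF]), h0]
    obtain ⟨e, he, hlt⟩ := Finset.exists_lt_card_fiber_of_mul_lt_card_of_maps_to
      (s := (Finset.univ : Finset F)) (t := E1) (f := f) (n := q) (by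
        intro α _
        simp only [E1, Finset.mem_erase, Finset.mem_filter, Finset.mem_univ, true_and]
        exact ⟨hf2 α, hf1 α⟩) (by
        rw [hE1, Finset.card_univ, hF]
        obtain ⟨r, rfl⟩ : ∃ r, q = r + 1 := ⟨q - 1, by omega⟩
        simp only [Nat.add_sub_cancel]
        nlinarith)
    have he' : e + e ^ q = 0 := by
      simp only [E1, Finset.mem_erase, Finset.mem_filter, Finset.mem_univ, true_and] at he
      exact he.2
    have he0 : e ≠ 0 := by
      simp only [E1, Finset.mem_erase] at he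
      exact he.1
    set D := Finset.univ.filter fun α => f α = e with hD
    have hfix : ∀ α ∈ D, tt hF (α • c + inc d) e • ω = ω := by
      intro α hα
      have h1 := hf3 α
      rwa [(Finset.mem_filter.mp hα).2] at h1
    obtain ⟨α₀, hα₀⟩ : D.Nonempty := by
      rw [← Finset.card_pos]
      omega
    have hmem : ∀ α ∈ D, e * (α - α₀) ^ q ∈ Xd hF h ω d := by
      intro α hα
      have h1 := hfix α hα
      have h2 := hfix α₀ hα₀
      have hiso : ⟪α₀ • c + inc d, α₀ • c + inc d⟫ = 0 := by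
        simp only [hermForm_add_left, hermForm_add_right hF, hermForm_smul_left, hermForm_smul_right, h.ee, h.e_inc hF,
          h.inc_e hF, hermForm_inc, hdd]
        ring
      have h3 : tt hF (α₀ • c + inc d) (-e) • ω = ω := by
        rw [← tt_inv hF hiso he', inv_smul_eq_iff, h2]
      have h4 := tt_diff hF α α₀ h.ee (show ⟪inc d, inc d⟫ = 0 by rw [hermForm_inc]; exact hdd) (h.e_inc hF d) he'
      rw [mem_Xd, mem_stab_mk hF h]
      refine ⟨e * (α * α ^ q - α₀ * α₀ ^ q), ?_, ?_⟩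
      · rw [hermForm_smul_left, hermForm_smul_right, hdd]
        simp only [mul_pow, pow_q_sub hF, pow_q_pow_q hF]
        linear_combination (α * α ^ q - α₀ * α₀ ^ q) * he'
      · rw [inc_smul, ← h4, mul_smul, h3, h1]
    have hinj : Set.InjOn (fun α => e * (α - α₀) ^ q) (D : Set F) := by
      intro a _ b _ hab
      have h1 := mul_left_cancel₀ he0 hab
      have h2 := congrArg (· ^ q) h1
      simp only [pow_q_pow_q hF] at h2
      exact sub_left_injective h2
    have hcard : D.card ≤ Nat.card (Xd hF h ω d) := by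
      rw [Nat.card_eq_fintype_card, Fintype.card_subtype]
      apply Finset.card_le_card_of_injOn _ _ hinj
      intro a ha
      simp only [Finset.coe_filter, Finset.mem_univ, true_and, Set.mem_ofPred_eq]
      exact hmem a ha
    omega
  have hd₁0 : d₁ ≠ 0 := by
    rintro rfl
    rw [hermForm_zero_left] at hd
    exact zero_ne_one hd
  have hd₂0 : d₂ ≠ 0 := by
    rintro rfl
    rw [hermForm_zero_right hF] at hd
    exact zero_ne_one hd
  have hX₁ := hX d₁ hd₁ hd₁0
  have hX₂ := hX d₂ hd₂ hd₂0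
  -- `Az` is proper
  have hAz : Az hF h ω ≠ ⊤ := by
    intro htop
    apply hnf
    intro e he
    obtain ⟨ξ, hξ⟩ := exists_delta hF he
    have h1 : ξ ∈ Az hF h ω := by rw [htop]; trivial
    have h2 : tt hF c (ξ - ξ ^ q) • ω = ω := h1
    rwa [hξ] at h2
  obtain ⟨ψ₀, hψ₀⟩ := SpFix.exists_psi (F := F)
  obtain ⟨b, hb0, hb⟩ := SpFree2.exists_b ψ₀ hψ₀ hAz
  -- the character
  have hψ₁ : ψ₀.mulShift b ≠ 1 := by
    intro h1
    obtain ⟨t, ht⟩ := AddChar.ne_one_iff.mp hψ₀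
    apply ht
    have h2 := congrArg (fun χ : AddChar F ℂ => χ (t / b)) h1
    simp only [AddChar.mulShift_apply, AddChar.one_apply] at h2
    · rwa [mul_div_cancel₀ _ hb0] at h2
  set Q := SpFree2.pairF (ψ₀.mulShift b) hψ₁ with hQ
  have hann := Q.card_ann (Xd hF h ω d₁)
  have hle : Nat.card (Xd hF h ω d₂) ≤ Nat.card (Q.ann (Xd hF h ω d₁)) := by
    refine Nat.card_le_card_of_injective (fun x => (⟨x.1 ^ q, ?_⟩ : Q.ann (Xd hF h ω d₁))) ?_
    · intro r hr
      change ψ₀ (b * (x.1 ^ q * r)) = 1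
      have h1 := comm_stab hF h (mem_Xd.mp hr) (mem_Xd.mp x.2)
      have h2 : r * x.1 ^ q ∈ Az hF h ω := by
        change tt hF c (r * x.1 ^ q - (r * x.1 ^ q) ^ q) • ω = ω
        have h3 : ⟪r • d₁, x.1 • d₂⟫ - ⟪x.1 • d₂, r • d₁⟫ = r * x.1 ^ q - (r * x.1 ^ q) ^ q := by
          rw [hermForm_smul_left, hermForm_smul_right, hermForm_smul_left, hermForm_smul_right, hd,
            hermForm_symm_one hF hd, mul_pow, pow_q_pow_q hF]
          ring
        rwa [h3] at h1
      have h4 := hb _ h2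
      rwa [mul_comm r] at h4
    · intro x y hxy
      have h1 : x.1 ^ q = y.1 ^ q := congrArg Subtype.val hxy
      have h2 := congrArg (· ^ q) h1
      simp only [pow_q_pow_q hF] at h2
      exact Subtype.ext h2
  rw [hF] at hann
  have : q * q < Nat.card (Xd hF h ω d₁) * Nat.card (Q.ann (Xd hF h ω d₁)) := by
    calc q * q < Nat.card (Xd hF h ω d₁) * q := Nat.mul_lt_mul_of_pos_right hX₁ (by omega)
      _ ≤ Nat.card (Xd hF h ω d₁) * Nat.card (Q.ann (Xd hF h ω d₁)) := Nat.mul_le_mul_left _ (hX₂.le.trans hle)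
  rw [hann] at this
  nlinarith

/-- A point not fixed by a root group is free for some root group. -/
theorem exists_free_of_not_fx {ω : Ω} (hnf : ¬ Fx hF ω c) {d₁ d₂ : Fin k → F} (hd₁ : ⟪d₁, d₁⟫ = 0) (hd₂ : ⟪d₂, d₂⟫ = 0)
    (hd : ⟪d₁, d₂⟫ = 1) : ∃ v : Fin (2 + k) → F, ⟪v, v⟫ = 0 ∧ v ≠ 0 ∧ Free hF v ω := by
  by_contra hno
  push Not at hno
  apply no_all_partial hF h hnf hd₁ hd₂ hd
  intro d hdd hd0 α
  have hiso : ⟪α • c + inc d, α • c + inc d⟫ = 0 := by
    simp only [hermForm_add_left, hermForm_add_right hF, hermForm_smul_left, hermForm_smul_right, h.ee, h.e_inc hF,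
      h.inc_e hF, hermForm_inc, hdd]
    ring
  have hne : α • c + inc d ≠ 0 := by
    intro h0
    have h1 := congrArg R h0
    simp only [R_add, R_smul, R_inc, h.re, R_zero, smul_zero, zero_add] at h1
    exact hd0 h1
  have := hno _ hiso hne
  simp only [Free] at this
  push Not at this
  obtain ⟨e, he, h1, h2⟩ := this
  exact ⟨e, he, h2, h1⟩

/-! ### The count of free orbits -/

/-- The nontriviality of the annihilator at a free point. -/
theorem exists_mem_SS_free (hk : 3 ≤ k) {ω : Ω} (hω : Free hF c ω) :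
    q ^ 2 < Nat.card (SS (wSet (Ω := Ω) hF h) (pairW (k := k) hF ψ hψ) (mkY hF h.ee ω)) := by
  have h1 := card_SS_free hF h ψ hψ hω
  have hq := two_le_q hF
  by_contra hle
  push Not at hle
  have h2 : (Nat.card (SS (wSet (Ω := Ω) hF h) (pairW (k := k) hF ψ hψ) (mkY hF h.ee ω))) ^ 2 ≤ (q ^ 2) ^ 2 :=
    Nat.pow_le_pow_left hle 2
  have h3 : q ^ (2 * k) ≥ q ^ (2 * 3) := Nat.pow_le_pow_right (by omega) (by omega)
  have h4 : (q ^ 2) ^ 2 < q ^ (2 * 3) := by
    rw [← pow_mul]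
    exact Nat.pow_lt_pow_right (by omega) (by norm_num)
  omega

omit hF h ψ hψ in
theorem exists_ne_zero_of_card {W : Type*} [AddCommGroup W] {S : AddSubgroup W} (hS : 1 < Nat.card S) :
    ∃ u ∈ S, u ≠ 0 := by
  by_contra hno
  push Not at hno
  have : S = ⊥ := (AddSubgroup.eq_bot_iff_forall _).mpr hno
  rw [this] at hS
  simp at hS

/-- The trichotomy for free orbits. -/
theorem free_count (hk : 3 ≤ k) (hI0 : 0 < (isoC F q k).card) (hNon0 : 0 < (nonC F q k).card) {ω : Ω}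
    (hω : Free hF c ω) :
    (q + 1) * ((isoC F q k).card + 1) ≤ (Yp (Ω := Ω) hF h (Free hF c)).card ∨
    (2 * ((nonC F q k).card + 1) ≤ (Yp (Ω := Ω) hF h (Free hF c)).card ∧
      (q = 2 → 3 * ((nonC F q k).card + 1) ≤ (Yp (Ω := Ω) hF h (Free hF c)).card)) ∨
    2 + 2 * (isoC F q k).card + (nonC F q k).card ≤ (Yp (Ω := Ω) hF h (Free hF c)).card ∨
    2 + (isoC F q k).card + 2 * (nonC F q k).card ≤ (Yp (Ω := Ω) hF h (Free hF c)).card ∨
    (SS (wSet (Ω := Ω) hF h) (pairW (k := k) hF ψ hψ) (mkY hF h.ee ω) = ⊤ ∧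
      ∀ y' ∈ Yp (Ω := Ω) hF h (Free hF c), y' ∈ (wSet (Ω := Ω) hF h).orb (mkY hF h.ee ω)) := by
  classical
  have hG := good_free (Ω := Ω) hF h
  set Y1 := Yp (Ω := Ω) hF h (Free hF c) with hY1
  have hy : mkY hF h.ee ω ∈ Y1 := mk_mem_Yp hω
  set y := mkY hF h.ee ω with hydef
  set S := SS (wSet (Ω := Ω) hF h) (pairW (k := k) hF ψ hψ) y with hS
  have hcard : q ^ 2 < Nat.card S := exists_mem_SS_free hF h ψ hψ hk hω
  have hq := two_le_q hF
  have hq2 : 1 < q ^ 2 := by nlinarith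
  obtain ⟨u₀, hu₀, hu₀0⟩ := exists_ne_zero_of_card (S := S) (by omega)
  have hnl : ∀ u ∈ S, u ≠ 0 → ∃ x ∈ S, ∀ κ : F, x ≠ κ • u :=
    fun u _ hu => exists_not_line hF h hcard hu
  obtain ⟨uI, huI⟩ := Finset.card_pos.mp hI0
  obtain ⟨uN, huN⟩ := Finset.card_pos.mp hNon0
  obtain ⟨huI0, huII⟩ := mem_isoC.mp huI
  have huNN := mem_nonC.mp huN
  rcases types hF h ψ hψ hk hG hy hnl hu₀ hu₀0 with h1 | h1 | ⟨h1, h2, h3⟩
  · left
    have h4 := card_ge hF h ψ hψ hG h1 (m₂ := 0) (by simp)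
    have h5 := (h1 uI huI0 huII).trans (mult_le_zero (A := wSet (Ω := Ω) hF h) (Q := pairW (k := k) hF ψ hψ) Y1 uI)
    nlinarith
  · right; left
    have h4 := card_ge hF h ψ hψ hG (m₁ := 0) (by simp) (fun v hv => (h1 v hv).1)
    have h5 := (h1 uN huNN).1.trans (mult_le_zero (A := wSet (Ω := Ω) hF h) (Q := pairW (k := k) hF ψ hψ) Y1 uN)
    refine ⟨by nlinarith, fun hq2' => ?_⟩
    have h6 := card_ge hF h ψ hψ hG (m₁ := 0) (by simp) (fun v hv => (h1 v hv).2 hq2')
    have h7 := ((h1 uN huNN).2 hq2').trans (mult_le_zero (A := wSet (Ω := Ω) hF h) (Q := pairW (k := k) hF ψ hψ) Y1 uN)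
    nlinarith
  · rcases h3 with h3 | h3 | ⟨h3, h4⟩
    · right; right; left
      have h5 := card_ge hF h ψ hψ hG h3 h2
      have h6 := (h3 uI huI0 huII).trans (mult_le_zero (A := wSet (Ω := Ω) hF h) (Q := pairW (k := k) hF ψ hψ) Y1 uI)
      nlinarith
    · right; right; right; left
      have h5 := card_ge hF h ψ hψ hG h1 h3
      have h6 := (h3 uN huNN).trans (mult_le_zero (A := wSet (Ω := Ω) hF h) (Q := pairW (k := k) hF ψ hψ) Y1 uN)
      nlinarith
    · right; right; right; right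
      refine ⟨h3, ?_⟩
      intro y' hy'
      obtain ⟨ω', hω', rfl⟩ := mem_Yp.mp hy'
      have hcard' := exists_mem_SS_free hF h ψ hψ hk hω'
      obtain ⟨u', hu', hu'0⟩ := exists_ne_zero_of_card (by omega : 1 < Nat.card (SS (wSet (Ω := Ω) hF h) (pairW (k := k) hF ψ hψ) (mkY hF h.ee ω')))
      have h5 := h4 u' hu'0
      have h6 : u' ∈ S := by
        rw [hS, h3]
        trivial
      have hm1 : (wSet (Ω := Ω) hF h).orb y ∈ (Orbs (wSet (Ω := Ω) hF h) Y1).filter (fun O => ∃ y ∈ O, u' ∈ SS (wSet (Ω := Ω) hF h) (pairW (k := k) hF ψ hψ) y) :=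
        Finset.mem_filter.mpr ⟨mem_Orbs.mpr ⟨y, hy, rfl⟩, y, WSet.self_mem_orb _ y, h6⟩
      have hm2 : (wSet (Ω := Ω) hF h).orb (mkY hF h.ee ω') ∈ (Orbs (wSet (Ω := Ω) hF h) Y1).filter (fun O => ∃ y ∈ O, u' ∈ SS (wSet (Ω := Ω) hF h) (pairW (k := k) hF ψ hψ) y) :=
        Finset.mem_filter.mpr ⟨mem_Orbs.mpr ⟨_, hy', rfl⟩, _, WSet.self_mem_orb _ _, hu'⟩
      have h8 := Finset.card_le_one.mp h5 _ hm1 _ hm2
      rw [h8]
      exact WSet.self_mem_orb _ _

end Cfsg.Agent.Lib.MinIndex.UFree
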