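import Mathlib
import Cfsg.Agent.Lib.MinIndex.UFree
import Cfsg.Agent.Lib.MinIndex.SpGlob

/-!
# Global facts about the action of the special unitary group on a set: root groups at a point
-/

set_option autoImplicit false
set_option linter.unusedSectionVars false
set_option linter.unusedSimpArgs false
set_option linter.unusedVariables false
set_option linter.unusedTactic false

open scoped Matrix
open Cfsg
open Cfsg.Agent.Lib.Classical.Herm.Basic Cfsg.Agent.Lib.Classical.Herm.Form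
open Cfsg.Agent.Lib.Classical.Herm.GU Cfsg.Agent.Lib.Classical.Herm.SU
open Cfsg.Agent.Lib.Classical.Herm.Subfield Cfsg.Agent.Lib.Classical.Herm.Isotropic
open Cfsg.Agent.Lib.Classical.Herm.Tv Cfsg.Agent.Lib.Classical.Herm.Comm
open Cfsg.Agent.Lib.Classical.Herm.Block Cfsg.Agent.Lib.Classical.Herm.Levi
open Cfsg.Agent.Lib.MinIndex.SpCount Cfsg.Agent.Lib.MinIndex.UCount
open Cfsg.Agent.Lib.MinIndex.ULocal Cfsg.Agent.Lib.MinIndex.UW Cfsg.Agent.Lib.MinIndex.UHeis
open Cfsg.Agent.Lib.MinIndex.UTypes Cfsg.Agent.Lib.MinIndex.UFree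

namespace Cfsg.Agent.Lib.MinIndex.UGlob

variable {F : Type*} [Field F] [Fintype F] {q n k : ℕ}

local notation "⟪" x ", " y "⟫" => hermForm _ _ q x y

variable (hF : Fintype.card F = q ^ 2)

variable {Ω : Type*} [MulAction (SU n F q) Ω]

include hF

theorem Fx_zero (ω : Ω) : Fx hF ω (0 : Fin n → F) := by
  intro e he
  have h3 : tt hF (0 : Fin n → F) e = 1 := by
    apply ext_act
    intro x
    rw [tt_apply hF (hermForm_zero_left _ _) he]
    simp
  rw [h3, one_smul]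

/-- If all root groups fix a point, the whole group does. -/
theorem fix_of_all (hn : 3 ≤ n) (h32 : ¬ (n = 3 ∧ q = 2)) {ω : Ω} (h : ∀ v : Fin n → F, ⟪v, v⟫ = 0 → Fx hF ω v)
    (g : SU n F q) : g • ω = ω := by
  have hg : g ∈ T n F q := by
    rw [Cfsg.Agent.Lib.Classical.Herm.Gen.T_eq_top hF hn h32]
    trivial
  induction hg using Subgroup.closure_induction with
  | mem x hx =>
    obtain ⟨v, c, hv, hc⟩ := hx
    have hact : ∀ y, act x y = y + (c * ⟪y, v⟫) • v := by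
      intro y
      change mat x *ᵥ y = _
      rw [hc, unitaryTransvection_mulVec]
    by_cases hv0 : v = 0
    · have : x = 1 := by
        apply ext_act
        intro y
        rw [hact, hv0]
        simp
      rw [this, one_smul]
    · have htr : c + c ^ q = 0 := by
        obtain ⟨a, ha⟩ : ∃ a, ⟪a, v⟫ ≠ 0 := by
          by_contra hcon
          push Not at hcon
          exact hv0 (hermForm_nondegenerate_right hF n v hcon)
        have hb : ⟪v, a⟫ ≠ 0 := by
          rw [← hermForm_pow_q hF]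
          exact pow_ne_zero _ ha
        have h1 := h_act x a a
        rw [hact] at h1
        simp only [hermForm_add_left, hermForm_add_right hF, hermForm_smul_left, hermForm_smul_right, hv, mul_pow,
          hermForm_pow_q hF] at h1
        have h2 : (c + c ^ q) * (⟪a, v⟫ * ⟪v, a⟫) = 0 := by linear_combination h1
        exact (mul_eq_zero.mp h2).resolve_right (mul_ne_zero ha hb)
      have : x = tt hF v c := by
        apply ext_act
        intro y
        rw [hact, tt_apply hF hv htr]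
      rw [this]
      exact h v hv c htr
  | one => exact one_smul _ ω
  | mul a b ha hb iha ihb => rw [mul_smul, ihb, iha]
  | inv a ha iha => rw [inv_smul_eq_iff, iha]

/-! ### Flags -/

section Flags

variable [Fintype Ω]

open _root_.Classical in
/-- Vectors whose root groups fix the point. -/
noncomputable def PS (hF : Fintype.card F = q ^ 2) (ω : Ω) : Finset (Fin n → F) :=
  Finset.univ.filter fun v => v ≠ 0 ∧ hermForm n F q v v = 0 ∧ Fx hF ω v

open _root_.Classical in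
/-- Points fixed by the root group. -/
noncomputable def FS (hF : Fintype.card F = q ^ 2) (v : Fin n → F) : Finset Ω :=
  Finset.univ.filter fun ω => Fx hF ω v

omit hF in
theorem mem_PS {hF : Fintype.card F = q ^ 2} {ω : Ω} {v : Fin n → F} :
    v ∈ PS (n := n) hF ω ↔ v ≠ 0 ∧ ⟪v, v⟫ = 0 ∧ Fx hF ω v := by
  classical
  simp [PS]

omit hF in
theorem mem_FS {hF : Fintype.card F = q ^ 2} {ω : Ω} {v : Fin n → F} : ω ∈ FS hF v ↔ Fx hF ω v := by
  classical
  simp [FS]

theorem card_PS_le (g : SU n F q) (ω : Ω) : (PS (n := n) hF ω).card ≤ (PS (n := n) hF (g • ω)).card := by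
  apply Finset.card_le_card_of_injOn (act g)
  · intro v hv
    obtain ⟨h1, h2, h3⟩ := mem_PS.mp (Finset.mem_coe.mp hv)
    exact Finset.mem_coe.mpr (mem_PS.mpr ⟨act_ne_zero g h1, by rw [h_act]; exact h2, Fx_map hF g h2 h3⟩)
  · intro a _ b _ h
    have := congrArg (act g⁻¹) h
    simpa using this

variable [MulAction.IsPretransitive (SU n F q) Ω]

theorem card_PS_eq (ω ω' : Ω) : (PS (n := n) hF ω).card = (PS (n := n) hF ω').card := by
  apply le_antisymm
  · obtain ⟨g, rfl⟩ := MulAction.exists_smul_eq (SU n F q) ω ω'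
    exact card_PS_le hF g ω
  · obtain ⟨g, rfl⟩ := MulAction.exists_smul_eq (SU n F q) ω' ω
    exact card_PS_le hF g ω'

omit [MulAction.IsPretransitive (SU n F q) Ω] in
theorem card_FS_le (hn : 3 ≤ n) {u v : Fin n → F} (hu : ⟪u, u⟫ = 0) (hv : ⟪v, v⟫ = 0) (hu0 : u ≠ 0) (hv0 : v ≠ 0) :
    (FS (Ω := Ω) hF u).card ≤ (FS (Ω := Ω) hF v).card := by
  obtain ⟨g, -, rfl⟩ := reach_iso hF hn hu hv hu0 hv0
  apply Finset.card_le_card_of_injOn (fun ω => g • ω)
  · intro ω hω
    exact Finset.mem_coe.mpr (mem_FS.mpr (Fx_map hF g hu (mem_FS.mp (Finset.mem_coe.mp hω))))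
  · intro a _ b _ h
    exact smul_left_cancel g h

/-- Double counting of flags. -/
theorem double_count (hn : 3 ≤ n) (ω : Ω) {v : Fin n → F} (hv : ⟪v, v⟫ = 0) (hv0 : v ≠ 0) :
    (PS (n := n) hF ω).card * Fintype.card Ω = (isoC F q n).card * (FS (Ω := Ω) hF v).card := by
  classical
  have hbip := Finset.sum_card_bipartiteAbove_eq_sum_card_bipartiteBelow
    (s := (Finset.univ : Finset Ω)) (t := isoC F q n) (fun ω v => Fx hF ω v)
  have h1 : ∀ ω' ∈ (Finset.univ : Finset Ω),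
      (Finset.bipartiteAbove (fun ω v => Fx hF ω v) (isoC F q n) ω').card = (PS (n := n) hF ω).card := by
    intro ω' _
    rw [card_PS_eq hF ω ω']
    congr 1
    ext x
    simp only [Finset.mem_bipartiteAbove, mem_PS, mem_isoC]
    tauto
  have h2 : ∀ u ∈ isoC F q n,
      (Finset.bipartiteBelow (fun ω v => Fx hF ω v) (Finset.univ : Finset Ω) u).card = (FS (Ω := Ω) hF v).card := by
    intro u hu
    obtain ⟨hu0, huu⟩ := mem_isoC.mp hu
    rw [← le_antisymm (card_FS_le hF hn huu hv hu0 hv0) (card_FS_le hF hn hv huu hv0 hu0)]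
    congr 1
  rw [Finset.sum_congr rfl h1, Finset.sum_congr rfl h2] at hbip
  simp only [Finset.sum_const, smul_eq_mul] at hbip
  rw [Finset.card_univ] at hbip
  rw [mul_comm]
  exact hbip

omit [MulAction.IsPretransitive (SU n F q) Ω] in
/-- The number of vectors at a point is divisible by `q² - 1`. -/
theorem dvd_card_PS (ω : Ω) : (q ^ 2 - 1) ∣ (PS (n := n) hF ω).card := by
  have := SpGlob.dvd_card_of_scalar (F := F) (V := Fin n → F) (PS (n := n) hF ω) (fun v hv => (mem_PS.mp hv).1) (by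
    intro v hv t ht
    obtain ⟨h1, h2, h3⟩ := mem_PS.mp hv
    refine mem_PS.mpr ⟨smul_ne_zero ht h1, ?_, Fx_smul hF h2 t h3⟩
    rw [hermForm_smul_left, hermForm_smul_right, h2]
    ring)
  rwa [hF] at this

end Flags

/-! ### Consequences of radical elements fixing the point -/

/-- The property that root groups fixing a point have radicals fixing the point. -/
def Q1 (hF : Fintype.card F = q ^ 2) (Ω : Type*) [MulAction (SU n F q) Ω] : Prop :=
  ∀ (u z : Fin n → F) (a : F) (ω : Ω), u ≠ 0 → Val q u z a → Fx hF ω u → rho hF u z a • ω = ω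

section Q1

variable (hQ : Q1 (n := n) hF Ω)

include hQ

/-- A first step. -/
theorem fx_step1 {ω : Ω} {u v : Fin n → F} (hu : ⟪u, u⟫ = 0) (hv : ⟪v, v⟫ = 0) (hFu : Fx hF ω u) (hFv : Fx hF ω v)
    (hvu : ⟪v, u⟫ ≠ 0) {y : Fin n → F} (hy : ⟪y, y⟫ = 0) (hyu : ⟪y, u⟫ ≠ 0) : Fx hF ω y := by
  have hu0 : u ≠ 0 := by
    rintro rfl
    exact hvu (hermForm_zero_right hF _ _)
  set γ := ⟪y, u⟫ with hγ
  set v₁ := (γ / ⟪v, u⟫) • v with hv₁
  have hv₁u : ⟪v₁, u⟫ = γ := by
    rw [hv₁, hermForm_smul_left, div_mul_cancel₀ _ hvu]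
  have hv₁v₁ : ⟪v₁, v₁⟫ = 0 := by
    rw [hv₁, hermForm_smul_left, hermForm_smul_right, hv]
    ring
  have hFv₁ : Fx hF ω v₁ := Fx_smul hF hv _ hFv
  set w' := γ⁻¹ • (y - v₁) with hw'
  have hw'u : ⟪w', u⟫ = 0 := by
    rw [hw', hermForm_smul_left, hermForm_sub_left, hv₁u, ← hγ, sub_self, mul_zero]
  obtain ⟨a, ha⟩ := exists_val_a hF w'
  have hval : Val q u w' a := ⟨hu, hw'u, ha⟩
  have hfix := hQ u w' a ω hu0 hval hFu
  have h1 := Fx_closure hF hv₁v₁ hfix hFv₁
  set δ := a * γ - ⟪v₁, w'⟫ with hδ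
  have h2 : act (rho hF u w' a) v₁ = y + δ • u := by
    rw [rho_apply hF hval, hv₁u, hw', smul_smul, mul_inv_cancel₀ hyu, one_smul, ← hw', hδ]
    module
  rw [h2] at h1
  have hiso : ⟪y + δ • u, y + δ • u⟫ = 0 := by
    rw [← h2, h_act]
    exact hv₁v₁
  have huy : ⟪u, y⟫ = γ ^ q := by rw [hγ, hermForm_pow_q hF]
  have htr : δ ^ q * γ + δ * γ ^ q = 0 := by
    simp only [hermForm_add_left, hermForm_add_right hF, hermForm_smul_left, hermForm_smul_right, hy, hu, huy,
      ← hγ] at hiso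
    linear_combination hiso
  have hγq : γ ^ q ≠ 0 := pow_ne_zero _ hyu
  have he : (-(δ / γ)) + (-(δ / γ)) ^ q = 0 := by
    rw [pow_q_neg hF, div_pow]
    field_simp
    linear_combination -htr
  have h3 := Fx_closure hF hiso (hFu _ he) h1
  have h4 : act (tt hF u (-(δ / γ))) (y + δ • u) = y := by
    rw [tt_apply hF hu he, hermForm_add_left, hermForm_smul_left, hu, ← hγ, mul_zero, add_zero]
    have : -(δ / γ) * γ = -δ := by field_simp
    rw [this]
    module
  rwa [h4] at h3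

/-- Orthogonality of the vectors at a point. -/
theorem fx_perp [MulAction.IsPretransitive (SU n F q) Ω] [Nontrivial Ω] (hn : 3 ≤ n) (h32 : ¬ (n = 3 ∧ q = 2)) {ω : Ω}
    {u v : Fin n → F} (hu : ⟪u, u⟫ = 0) (hv : ⟪v, v⟫ = 0) (hFu : Fx hF ω u) (hFv : Fx hF ω v) : ⟪v, u⟫ = 0 := by
  by_contra hvu
  have hu0 : u ≠ 0 := by
    rintro rfl
    exact hvu (hermForm_zero_right hF _ _)
  have step1 := fun y hy hyu => fx_step1 hF hQ (y := y) hu hv hFu hFv hvu hy hyu
  have hall : ∀ y : Fin n → F, ⟪y, y⟫ = 0 → Fx hF ω y := by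
    intro z hzz
    by_cases hzu : ⟪z, u⟫ = 0
    swap
    · exact step1 z hzz hzu
    by_cases hz0 : z = 0
    · rw [hz0]
      exact Fx_zero hF ω
    have huz : ⟪u, z⟫ = 0 := swap0 hF hzu
    -- a vector not orthogonal to both
    obtain ⟨z₁, hz₁⟩ : ∃ w, ⟪w, u⟫ ≠ 0 := by
      by_contra hcon
      push Not at hcon
      exact hu0 (hermForm_nondegenerate_right hF n u hcon)
    obtain ⟨z₂, hz₂⟩ : ∃ w, ⟪w, z⟫ ≠ 0 := by
      by_contra hcon
      push Not at hcon
      exact hz0 (hermForm_nondegenerate_right hF n z hcon)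
    obtain ⟨z', hz'u, hz'z⟩ : ∃ w, ⟪w, u⟫ ≠ 0 ∧ ⟪w, z⟫ ≠ 0 := by
      by_cases h1 : ⟪z₁, z⟫ = 0
      · by_cases h2 : ⟪z₂, u⟫ = 0
        · exact ⟨z₁ + z₂, by rw [hermForm_add_left, h2, add_zero]; exact hz₁,
            by rw [hermForm_add_left, h1, zero_add]; exact hz₂⟩
        · exact ⟨z₂, h2, hz₂⟩
      · exact ⟨z₁, hz₁, h1⟩
    have huz' : ⟪u, z'⟫ ≠ 0 := by
      rw [← hermForm_pow_q hF]
      exact pow_ne_zero _ hz'u
    obtain ⟨d, hd⟩ := exists_val_a hF z'
    set y₀ := z' + (d / ⟪u, z'⟫) • u with hy₀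
    have hz'uq : ⟪z', u⟫ = ⟪u, z'⟫ ^ q := by rw [hermForm_pow_q hF]
    have hy₀y₀ : ⟪y₀, y₀⟫ = 0 := by
      simp only [hy₀, hermForm_add_left, hermForm_add_right hF, hermForm_smul_left, hermForm_smul_right, hu, hz'uq]
      rw [div_pow]
      have hq' : ⟪u, z'⟫ ^ q ≠ 0 := pow_ne_zero _ huz'
      field_simp
      linear_combination (⟪u, z'⟫ * ⟪u, z'⟫ ^ q) * hd
    have hy₀u : ⟪y₀, u⟫ ≠ 0 := by
      rw [hy₀, hermForm_add_left, hermForm_smul_left, hu, mul_zero, add_zero]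
      exact hz'u
    have hy₀z : ⟪y₀, z⟫ ≠ 0 := by
      rw [hy₀, hermForm_add_left, hermForm_smul_left, huz, mul_zero, add_zero]
      exact hz'z
    have hFy₀ := step1 y₀ hy₀y₀ hy₀u
    set p := ⟪y₀, z⟫ with hp
    obtain ⟨a, ha0, ha⟩ := exists_trace_zero hF
    have ha' : a + a ^ q = 0 := by rw [ha]; ring
    set y' := y₀ + (a * p) • z with hy'
    have h2 : act (tt hF z a) y₀ = y' := by
      rw [tt_apply hF hzz ha']
    have hy'y' : ⟪y', y'⟫ = 0 := by
      rw [← h2, h_act]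
      exact hy₀y₀
    have hy'u : ⟪y', u⟫ ≠ 0 := by
      rw [hy', hermForm_add_left, hermForm_smul_left, hzu, mul_zero, add_zero]
      exact hy₀u
    have hFy' := step1 y' hy'y' hy'u
    have hzy₀ : ⟪z, y₀⟫ = p ^ q := by rw [hp, hermForm_pow_q hF]
    have hy'y₀ : ⟪y', y₀⟫ = a * (p * p ^ q) := by
      rw [hy', hermForm_add_left, hermForm_smul_left, hy₀y₀, hzy₀]
      ring
    have hpq : p ^ q ≠ 0 := pow_ne_zero _ hy₀z
    have hne : a * (p * p ^ q) ≠ 0 := mul_ne_zero ha0 (mul_ne_zero hy₀z hpq)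
    have ha'' : (-(a * (p * p ^ q))⁻¹) + (-(a * (p * p ^ q))⁻¹) ^ q = 0 := by
      rw [pow_q_neg hF, inv_pow, mul_pow, mul_pow, pow_q_pow_q hF, ha]
      field_simp
      ring
    have h3 := Fx_closure hF hy'y' (hFy₀ _ ha'') hFy'
    have h4 : act (tt hF y₀ (-(a * (p * p ^ q))⁻¹)) y' = (a * p) • z := by
      rw [tt_apply hF hy₀y₀ ha'', hy'y₀, neg_mul, inv_mul_cancel₀ hne, hy']
      module
    rw [h4] at h3
    have h5 := Fx_smul hF (v := (a * p) • z) (by
      rw [hermForm_smul_left, hermForm_smul_right, hzz]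
      ring) (a * p)⁻¹ h3
    rwa [smul_smul, inv_mul_cancel₀ (mul_ne_zero ha0 hy₀z), one_smul] at h5
  obtain ⟨ω', hne⟩ := exists_ne ω
  obtain ⟨g, rfl⟩ := MulAction.exists_smul_eq (SU n F q) ω ω'
  exact hne (fix_of_all hF hn h32 hall g)

/-- Sums of vectors at a point. -/
theorem fx_add {ω : Ω} {u v : Fin n → F} (hu : ⟪u, u⟫ = 0) (hv : ⟪v, v⟫ = 0) (huv : ⟪u, v⟫ = 0) (hFu : Fx hF ω u)
    (hFv : Fx hF ω v) : Fx hF ω (u + v) := by
  by_cases hu0 : u = 0
  · rw [hu0, zero_add]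
    exact hFv
  intro e he
  have hvu : ⟪v, u⟫ = 0 := swap0 hF huv
  have hval : Val q u (e • v) e := by
    refine ⟨hu, ?_, ?_⟩
    · rw [hermForm_smul_left, hvu, mul_zero]
    · rw [hermForm_smul_left, hermForm_smul_right, hv]
      linear_combination he
  rw [tt_add hF hu hv huv he, mul_smul, hFv e he, hQ u _ e ω hu0 hval hFu]

/-- The isotropic vectors at a point form a subgroup. -/
def XV [MulAction.IsPretransitive (SU n F q) Ω] [Nontrivial Ω] (hn : 3 ≤ n) (h32 : ¬ (n = 3 ∧ q = 2)) (ω : Ω) :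
    AddSubgroup (Fin n → F) where
  carrier := {y | ⟪y, y⟫ = 0 ∧ Fx hF ω y}
  zero_mem' := ⟨hermForm_zero_left _ _, Fx_zero hF ω⟩
  add_mem' := by
    rintro a b ⟨ha, hFa⟩ ⟨hb, hFb⟩
    have hba := fx_perp hF hQ hn h32 ha hb hFa hFb
    have hab := swap0 hF hba
    refine ⟨?_, fx_add hF hQ ha hb hab hFa hFb⟩
    simp only [hermForm_add_left, hermForm_add_right hF, ha, hb, hab, hba]
    ring
  neg_mem' := by
    rintro a ⟨ha, hFa⟩
    have e : -a = (-1 : F) • a := by simp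
    rw [Set.mem_ofPred_eq, e]
    refine ⟨?_, Fx_smul hF ha _ hFa⟩
    rw [hermForm_smul_left, hermForm_smul_right, ha]
    ring

theorem mem_XV [MulAction.IsPretransitive (SU n F q) Ω] [Nontrivial Ω] (hn : 3 ≤ n) (h32 : ¬ (n = 3 ∧ q = 2)) {ω : Ω}
    {y : Fin n → F} : y ∈ XV hF hQ hn h32 ω ↔ ⟪y, y⟫ = 0 ∧ Fx hF ω y := Iff.rfl

/-- The subgroup of a translate. -/
theorem XV_smul [MulAction.IsPretransitive (SU n F q) Ω] [Nontrivial Ω] (hn : 3 ≤ n) (h32 : ¬ (n = 3 ∧ q = 2))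
    (g : SU n F q) (ω : Ω) : XV hF hQ hn h32 (g • ω) = img g (XV hF hQ hn h32 ω) := by
  ext x
  rw [mem_XV, mem_img]
  constructor
  · rintro ⟨h1, h2⟩
    refine ⟨act g⁻¹ x, ?_, act_act_inv g x⟩
    rw [mem_XV]
    have h3 : ⟪act g⁻¹ x, act g⁻¹ x⟫ = 0 := by rw [h_act]; exact h1
    refine ⟨h3, ?_⟩
    rw [← Fx_map_iff hF g h3, act_act_inv]
    exact h2
  · rintro ⟨s, hs, rfl⟩
    obtain ⟨h1, h2⟩ := (mem_XV hF hQ hn h32).mp hs
    exact ⟨by rw [h_act]; exact h1, Fx_map hF g h1 h2⟩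

end Q1

end Cfsg.Agent.Lib.MinIndex.UGlob
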