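import Mathlib
import Cfsg.Agent.Lib.MinIndex.UGlob

/-!
# Points fixed by a root group of the special unitary group

Under the assumption that the degree of the action is small, no root group has a fixed point.
-/

set_option autoImplicit false
set_option linter.unusedSectionVars false
set_option linter.unusedSimpArgs false
set_option linter.unusedVariables false
set_option linter.unusedTactic false

open scoped Matrix
open Cfsg
open Cfsg.Agent.Lib.Classical.Herm.Basic Cfsg.Agent.Lib.Classical.Herm.Form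
open Cfsg.Agent.Lib.Classical.Herm.GU Cfsg.Agent.Lib.Classical.Herm.SU
open Cfsg.Agent.Lib.Classical.Herm.Subfield Cfsg.Agent.Lib.Classical.Herm.Isotropic
open Cfsg.Agent.Lib.Classical.Herm.Tv Cfsg.Agent.Lib.Classical.Herm.Comm
open Cfsg.Agent.Lib.Classical.Herm.Block Cfsg.Agent.Lib.Classical.Herm.Levi
open Cfsg.Agent.Lib.MinIndex.SpCount Cfsg.Agent.Lib.MinIndex.UCount
open Cfsg.Agent.Lib.MinIndex.ULocal Cfsg.Agent.Lib.MinIndex.UW Cfsg.Agent.Lib.MinIndex.UHeis
open Cfsg.Agent.Lib.MinIndex.UTypes Cfsg.Agent.Lib.MinIndex.UFree Cfsg.Agent.Lib.MinIndex.UGlob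

namespace Cfsg.Agent.Lib.MinIndex.UFix

variable {F : Type*} [Field F] [Fintype F] {q k : ℕ}

local notation "⟪" x ", " y "⟫" => hermForm _ _ q x y

/-- The numerical facts used in the argument. -/
structure Nums (q k I Non I' N : ℕ) : Prop where
  hI : I = (q ^ 2 - 1) * I'
  hN : N = q ^ 2 * I' + 1 + q * q ^ (2 * k)
  hIN : I ≤ Non
  hIpos : 0 < I
  hNonpos : 0 < Non
  n1 : N ≤ q * ((q + 1) * (I + 1))
  n2 : q ≠ 2 → N ≤ q * (2 * (Non + 1))
  n3 : q = 2 → N ≤ q * (3 * (Non + 1))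
  n4 : N ≤ q * (2 + 2 * I + Non)
  n5 : N ≤ q * (2 + I + 2 * Non)
  n6 : I + Non + 1 ≤ (q + 1) * (I + 1)
  nA : q ^ (2 * k) ≤ (q ^ 2 - 1) * I
  nB : Even k → (q ^ (k + 2) - 1) * (q ^ k - 1) ≤ (q ^ 2 - 1) * ((q + 1) * I)

variable (hF : Fintype.card F = q ^ 2)

variable {Ω : Type*} [MulAction (SU (2 + k) F q) Ω] [Fintype Ω] [MulAction.IsPretransitive (SU (2 + k) F q) Ω]
  [Nontrivial Ω] {c c' : Fin (2 + k) → F} (h : HP q c c') (hk : 3 ≤ k) {I' N : ℕ}
  (hnum : Nums q k (isoC F q k).card (nonC F q k).card I' N)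

include hF

theorem exists_pair (hI0 : 0 < (isoC F q k).card) : ∃ d₁ d₂ : Fin k → F, ⟪d₁, d₁⟫ = 0 ∧ ⟪d₂, d₂⟫ = 0 ∧ ⟪d₁, d₂⟫ = 1 := by
  obtain ⟨u, hu⟩ := Finset.card_pos.mp hI0
  obtain ⟨hu0, huu⟩ := mem_isoC.mp hu
  obtain ⟨v, hv, huv⟩ := UW.exists_partner hF huu hu0
  exact ⟨u, v, huu, hv, huv⟩

include hk

omit [Fintype Ω] in
/-- Root groups are not trivial on the set. -/
theorem exists_not_fx (hc : ⟪c, c⟫ = 0) (hc0 : c ≠ 0) : ∃ ω : Ω, ¬ Fx hF ω c := by
  by_contra hno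
  push Not at hno
  have hall : ∀ (ω : Ω) (v : Fin (2 + k) → F), ⟪v, v⟫ = 0 → Fx hF ω v := by
    intro ω v hv
    by_cases hv0 : v = 0
    · rw [hv0]
      exact Fx_zero hF ω
    obtain ⟨g, -, rfl⟩ := reach_iso hF (by omega) hc hv hc0 hv0
    have := Fx_map hF g hc (hno (g⁻¹ • ω))
    rwa [smul_inv_smul] at this
  obtain ⟨ω⟩ : Nonempty Ω := inferInstance
  obtain ⟨ω', hne⟩ := exists_ne ω
  obtain ⟨g, rfl⟩ := MulAction.exists_smul_eq (SU (2 + k) F q) ω ω'
  exact hne (fix_of_all hF (by omega) (by omega) (hall ω) g)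

include h

/-- There is a point on which the root group acts freely. -/
theorem exists_free (hI0 : 0 < (isoC F q k).card) : ∃ ω : Ω, Free hF c ω := by
  obtain ⟨d₁, d₂, h1, h2, h3⟩ := exists_pair hF hI0
  obtain ⟨ω, hω⟩ := exists_not_fx (Ω := Ω) hF hk h.ee (h.e_ne hF)
  obtain ⟨v, hv, hv0, hfree⟩ := exists_free_of_not_fx hF h hω h1 h2 h3
  obtain ⟨g, -, hg⟩ := reach_iso hF (by omega) hv h.ee hv0 (h.e_ne hF)
  refine ⟨g • ω, ?_⟩
  have := Free_map hF g hv hfree
  rwa [hg] at this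

include hnum

/-- The free orbits are many. -/
theorem free_ge_w : q ^ (2 * k) ≤ (Yp (Ω := Ω) hF h (Free hF c)).card := by
  classical
  obtain ⟨ω, hω⟩ := exists_free (Ω := Ω) hF h hk hnum.hIpos
  obtain ⟨ψ, hψ⟩ := exists_psi hF
  have hw := card_C_add (F := F) (q := q) (k := k) hF
  have hq := two_le_q hF
  rw [← hw]
  have hIN := hnum.hIN
  have hn6 := hnum.n6
  rcases free_count hF h ψ hψ hk hnum.hIpos hnum.hNonpos hω with h1 | ⟨h1, -⟩ | h1 | h1 | ⟨h1, h2⟩
  · omega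
  · omega
  · omega
  · omega
  · have h3 : (wSet (Ω := Ω) hF h).orb (mkY hF h.ee ω) ⊆ Yp (Ω := Ω) hF h (Free hF c) :=
      orb_subset (good_free hF h).inv (mk_mem_Yp hω)
    have h4 := Finset.card_le_card h3
    rw [card_orb_eq (Q := pairW (k := k) hF ψ hψ), h1, AddSubgroup.card_top, Nat.card_eq_fintype_card, Fintype.card_fun,
      hF] at h4
    simp only [Fintype.card_fin] at h4
    rw [hw, pow_mul]
    exact h4

/-- The case of many fixed points. -/
theorem large_kill (hV : (isoC F q (2 + k)).card = (q ^ 2 - 1) * N) (hd : Fintype.card Ω < N)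
    (hf0 : 0 < (FS (Ω := Ω) hF c).card) (hlarge : q ^ 2 * I' ≤ (FS (Ω := Ω) hF c).card) : False := by
  classical
  have hq := two_le_q hF
  have hQ : 1 ≤ q ^ 2 - 1 := by
    have : 4 ≤ q ^ 2 := by nlinarith
    omega
  have h1 := free_ge_w (Ω := Ω) hF h hk hnum
  have h2 := card_Ω_ge (Ω := Ω) hF h
  rw [← card_fix hF h] at h2
  have hFS : (Finset.univ.filter (fun ω : Ω => Fx hF ω c)) = FS (Ω := Ω) hF c := rfl
  rw [hFS] at h2
  set f := (FS (Ω := Ω) hF c).card with hf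
  set d := Fintype.card Ω with hdd
  have hN := hnum.hN
  have h3 : q * q ^ (2 * k) ≤ q * (Yp (Ω := Ω) hF h (Free hF c)).card := Nat.mul_le_mul_left _ h1
  obtain ⟨ω₀⟩ : Nonempty Ω := inferInstance
  have hdc := double_count (n := 2 + k) hF (by omega) ω₀ h.ee (h.e_ne hF)
  rw [hV, ← hf, ← hdd] at hdc
  obtain ⟨a', ha'⟩ := dvd_card_PS (n := 2 + k) hF ω₀
  rw [ha'] at hdc
  have h4 : a' * d = N * f := by
    have h5 : (q ^ 2 - 1) * (a' * d) = (q ^ 2 - 1) * (N * f) := by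
      rw [← mul_assoc, hdc, mul_assoc]
    exact Nat.eq_of_mul_eq_mul_left (by omega) h5
  have hqw : 0 < q * q ^ (2 * k) := by positivity
  have h6 : N = d + 1 := by omega
  have h7 : d ∣ (d + 1) * f := by
    rw [← h6, ← h4]
    exact Dvd.intro_left _ rfl
  have h8 : d ∣ f := by
    have hcop : Nat.Coprime d (d + 1) := by simp
    exact hcop.dvd_of_dvd_mul_left h7
  have h9 := Nat.le_of_dvd hf0 h8
  omega

/-- If there are few fixed points then radicals fix the points fixed by their root groups. -/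
theorem q1_of_small (hlt : (FS (Ω := Ω) hF c).card < q ^ 2 * I') : Q1 (n := 2 + k) hF Ω := by
  classical
  have hq := two_le_q hF
  intro u z a ω hu0 hval hFu
  obtain ⟨g, -, hg⟩ := reach_iso hF (by omega) hval.cc h.ee hu0 (h.e_ne hF)
  have hFω₁ : Fx hF (g • ω) c := by
    have := Fx_map hF g hval.cc hFu
    rwa [hg] at this
  obtain ⟨ψ, hψ⟩ := exists_psi hF
  set ω₁ := g • ω with hω₁
  -- the whole perp stabilizes the orbit
  have htop : (wSet (Ω := Ω) hF h).stab (mkY hF h.ee ω₁) = ⊤ := by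
    by_contra hne
    have hcard := (pairW (k := k) hF ψ hψ).card_ann ((wSet (Ω := Ω) hF h).stab (mkY hF h.ee ω₁))
    have hs : 1 < Nat.card (SS (wSet (Ω := Ω) hF h) (pairW (k := k) hF ψ hψ) (mkY hF h.ee ω₁)) := by
      by_contra hs
      have hs1 : Nat.card (SS (wSet (Ω := Ω) hF h) (pairW (k := k) hF ψ hψ) (mkY hF h.ee ω₁)) = 1 := by
        have : 0 < Nat.card (SS (wSet (Ω := Ω) hF h) (pairW (k := k) hF ψ hψ) (mkY hF h.ee ω₁)) := Nat.card_pos
        omega
      rw [SS] at hs1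
      rw [hs1, mul_one, ← Nat.card_eq_fintype_card] at hcard
      exact hne (AddSubgroup.eq_top_of_card_eq _ hcard)
    obtain ⟨u₀, hu₀, hu₀0⟩ := exists_ne_zero_of_card hs
    have hb := fix_bound hF h ψ hψ hk (good_fix hF h) (mk_mem_Yp hFω₁) hu₀ hu₀0 hnum.hIN
    rw [← card_fix hF h] at hb
    have hFS : (Finset.univ.filter (fun ω : Ω => Fx hF ω c)) = FS (Ω := Ω) hF c := rfl
    rw [hFS, hnum.hI] at hb
    have hQ : 0 < q ^ 2 - 1 := by
      have : 4 ≤ q ^ 2 := by nlinarith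
      omega
    have h1 : (q ^ 2 - 1) * (q ^ 2 * I') ≤ (q ^ 2 - 1) * (FS (Ω := Ω) hF c).card := by
      calc (q ^ 2 - 1) * (q ^ 2 * I') = q ^ 2 * ((q ^ 2 - 1) * I') := by ring
        _ ≤ _ := hb
    have h2 := Nat.le_of_mul_le_mul_left h1 hQ
    omega
  -- the element
  set z₁ := act g z with hz₁
  have hval₁ : Val q c z₁ a := by
    have := val_act hF g hval
    rwa [hg] at this
  have hdec := h.decomp hF z₁
  rw [hval₁.wc, zero_smul, add_zero] at hdec
  set β := ⟪z₁, c'⟫ with hβ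
  set w := R z₁ with hw
  have hNz : ⟪z₁, z₁⟫ = ⟪w, w⟫ := by
    rw [hdec]
    simp only [hermForm_add_left, hermForm_add_right hF, hermForm_smul_left, hermForm_smul_right, h.ee, h.e_inc hF,
      h.inc_e hF, hermForm_inc]
    ring
  have hv₂ : a + β - β ^ q + (a + β - β ^ q) ^ q + ⟪w, w⟫ = 0 := by
    have := hval₁.aa
    rw [hNz] at this
    rw [pow_q_sub hF, pow_q_add hF, pow_q_pow_q hF]
    linear_combination this
  have hval₂ := val_inc hF hv₂ h
  have e1 : rho hF c z₁ a = rho hF c (inc w) (a + β - β ^ q) := by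
    have := rho_add_c hF β hval₂
    rw [← hdec] at this
    rw [← this]
    congr 1
    ring
  obtain ⟨a₁, ha₁, ha₁'⟩ := (mem_stab_mk hF h).mp (by rw [htop]; trivial : w ∈ (wSet (Ω := Ω) hF h).stab (mkY hF h.ee ω₁))
  have hval₃ := val_inc hF ha₁ h
  have e2 : rho hF c z₁ a • ω₁ = ω₁ := by
    rw [e1, rho_eq_tt_mul hF hval₃ hval₂, mul_smul, ha₁']
    exact hFω₁ _ (val_sub hF hval₃ hval₂)
  have e3 := rho_mul_comm_of hF g hval
  rw [hg, ← hz₁] at e3
  apply smul_left_cancel g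
  rw [smul_smul, e3, mul_smul]
  exact e2

end Cfsg.Agent.Lib.MinIndex.UFix
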