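import Mathlib
import Cfsg.Agent.Lib.MinIndex.UFix

/-!
# Points fixed by a root group of the special unitary group, continued
-/

set_option autoImplicit false
set_option linter.unusedSectionVars false
set_option linter.unusedSimpArgs false
set_option linter.unusedVariables false
set_option linter.unusedTactic false

open scoped Matrix
open Cfsg
open Cfsg.Agent.Lib.Classical.Herm.Basic Cfsg.Agent.Lib.Classical.Herm.Form
open Cfsg.Agent.Lib.Classical.Herm.GU Cfsg.Agent.Lib.Classical.Herm.SU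
open Cfsg.Agent.Lib.Classical.Herm.Subfield Cfsg.Agent.Lib.Classical.Herm.Isotropic
open Cfsg.Agent.Lib.Classical.Herm.Tv Cfsg.Agent.Lib.Classical.Herm.Comm
open Cfsg.Agent.Lib.Classical.Herm.Block Cfsg.Agent.Lib.Classical.Herm.Levi
open Cfsg.Agent.Lib.MinIndex.SpCount Cfsg.Agent.Lib.MinIndex.UCount
open Cfsg.Agent.Lib.MinIndex.ULocal Cfsg.Agent.Lib.MinIndex.UW Cfsg.Agent.Lib.MinIndex.UHeis
open Cfsg.Agent.Lib.MinIndex.UTypes Cfsg.Agent.Lib.MinIndex.UFree Cfsg.Agent.Lib.MinIndex.UGlob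
open Cfsg.Agent.Lib.MinIndex.UFix

namespace Cfsg.Agent.Lib.MinIndex.UFix2

variable {F : Type*} [Field F] [Fintype F] {q k : ℕ}

local notation "⟪" x ", " y "⟫" => hermForm _ _ q x y

variable (hF : Fintype.card F = q ^ 2)

variable {Ω : Type*} [MulAction (SU (2 + k) F q) Ω] [MulAction.IsPretransitive (SU (2 + k) F q) Ω]
  [Nontrivial Ω]

/-- The subgroup of vectors at a point. -/
def XVk (hF : Fintype.card F = q ^ 2) (hQ : Q1 (n := 2 + k) hF Ω) (hk : 3 ≤ k) (ω : Ω) :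
    AddSubgroup (Fin (2 + k) → F) :=
  XV hF hQ (by omega) (by omega) ω

theorem mem_XVk {hF : Fintype.card F = q ^ 2} {hQ : Q1 (n := 2 + k) hF Ω} {hk : 3 ≤ k} {ω : Ω} {y : Fin (2 + k) → F} :
    y ∈ XVk hF hQ hk ω ↔ ⟪y, y⟫ = 0 ∧ Fx hF ω y := Iff.rfl

/-- The vectors of the perp at a point. -/
def X1 (hF : Fintype.card F = q ^ 2) (hQ : Q1 (n := 2 + k) hF Ω) (hk : 3 ≤ k) (ω : Ω) : Submodule F (Fin k → F) where
  carrier := {w | ⟪w, w⟫ = 0 ∧ Fx hF ω (inc w)}
  add_mem' := by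
    rintro a b ⟨ha, hFa⟩ ⟨hb, hFb⟩
    have h1 : inc a ∈ XVk hF hQ hk ω := ⟨by rw [hermForm_inc]; exact ha, hFa⟩
    have h2 : inc b ∈ XVk hF hQ hk ω := ⟨by rw [hermForm_inc]; exact hb, hFb⟩
    have h3 := (XVk hF hQ hk ω).add_mem h1 h2
    rw [← inc_add] at h3
    obtain ⟨h4, h5⟩ := mem_XVk.mp h3
    rw [hermForm_inc] at h4
    exact ⟨h4, h5⟩
  zero_mem' := by
    refine ⟨hermForm_zero_left _ _, ?_⟩
    rw [inc_zero]
    exact Fx_zero hF ω
  smul_mem' := by
    rintro l a ⟨ha, hFa⟩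
    refine ⟨?_, ?_⟩
    · rw [hermForm_smul_left, hermForm_smul_right, ha]
      ring
    · rw [inc_smul]
      exact Fx_smul hF (by rw [hermForm_inc]; exact ha) l hFa

theorem mem_X1 {hF : Fintype.card F = q ^ 2} {hQ : Q1 (n := 2 + k) hF Ω} {hk : 3 ≤ k} {ω : Ω} {w : Fin k → F} :
    w ∈ X1 hF hQ hk ω ↔ ⟪w, w⟫ = 0 ∧ Fx hF ω (inc w) := Iff.rfl

variable {c c' : Fin (2 + k) → F} (h : HP q c c') (hk : 3 ≤ k) (hQ : Q1 (n := 2 + k) hF Ω)

include hF hQ hk

/-- Orthogonality in the perp. -/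
theorem X1_perp {ω : Ω} {a b : Fin k → F} (ha : a ∈ X1 hF hQ hk ω) (hb : b ∈ X1 hF hQ hk ω) : ⟪a, b⟫ = 0 := by
  have h1 := fx_perp hF hQ (n := 2 + k) (by omega) (by omega) (u := inc b) (v := inc a)
    (by rw [hermForm_inc]; exact hb.1) (by rw [hermForm_inc]; exact ha.1) hb.2 ha.2
  rwa [hermForm_inc] at h1

/-- The size of the subgroup of a totally isotropic subspace. -/
theorem X1_sq_le (ω : Ω) : Nat.card (X1 hF hQ hk ω) ^ 2 ≤ q ^ (2 * k) := by
  classical
  obtain ⟨ψ, hψ⟩ := exists_psi hF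
  have h1 := (pairW (k := k) hF ψ hψ).card_ann (X1 hF hQ hk ω).toAddSubgroup
  have h2 : (X1 hF hQ hk ω).toAddSubgroup ≤ (pairW (k := k) hF ψ hψ).ann (X1 hF hQ hk ω).toAddSubgroup := by
    intro x hx r hr
    change ψ (⟪x, r⟫ - ⟪r, x⟫) = 1
    rw [X1_perp hF hk hQ hx hr, X1_perp hF hk hQ hr hx, sub_zero]
    exact AddChar.map_zero_eq_one ψ
  have h3 := AddSubgroup.card_le_of_le h2
  rw [Fintype.card_fun, hF] at h1
  simp only [Fintype.card_fin] at h1
  have e : Nat.card (X1 hF hQ hk ω) = Nat.card (X1 hF hQ hk ω).toAddSubgroup := rfl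
  rw [pow_mul, ← h1, pow_two, e]
  exact Nat.mul_le_mul_left _ h3

omit hk hQ in
/-- The size is a power of `q²`. -/
theorem card_submodule_pow (A : Submodule F (Fin k → F)) : ∃ r, Nat.card A = (q ^ 2) ^ r := by
  classical
  refine ⟨Module.finrank F A, ?_⟩
  rw [Nat.card_eq_fintype_card, ← hF]
  exact Module.card_eq_pow_finrank (K := F)

include h

/-- The vectors at a point fixed by the root group of `c`. -/
theorem card_XV {ω : Ω} (hω : Fx hF ω c) :
    Nat.card (XVk hF hQ hk ω) = q ^ 2 * Nat.card (X1 hF hQ hk ω) := by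
  classical
  have hcX : c ∈ XVk hF hQ hk ω := ⟨h.ee, hω⟩
  have hsm : ∀ β : F, β • c ∈ XVk hF hQ hk ω := fun β =>
    ⟨by rw [hermForm_smul_left, hermForm_smul_right, h.ee]; ring, Fx_smul hF h.ee β hω⟩
  have hinc : ∀ w, w ∈ X1 hF hQ hk ω ↔ inc w ∈ XVk hF hQ hk ω := by
    intro w
    rw [mem_X1, mem_XVk, hermForm_inc]
  let e : F × X1 hF hQ hk ω ≃ XVk hF hQ hk ω :=
    { toFun := fun p => ⟨p.1 • c + inc p.2.1, (XVk hF hQ hk ω).add_mem (hsm p.1) ((hinc _).mp p.2.2)⟩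
      invFun := fun y => (⟪y.1, c'⟫, ⟨R y.1, by
        have hyc : ⟪y.1, c⟫ = 0 := fx_perp hF hQ (n := 2 + k) (by omega) (by omega) h.ee y.2.1 hω y.2.2
        have hdec := h.decomp hF y.1
        rw [hyc, zero_smul, add_zero] at hdec
        rw [hinc]
        have h1 := (XVk hF hQ hk ω).sub_mem y.2 (hsm ⟪y.1, c'⟫)
        have h2 : y.1 - ⟪y.1, c'⟫ • c = inc (R y.1) := sub_eq_of_eq_add' hdec
        rwa [h2] at h1⟩)
      left_inv := by
        rintro ⟨β, w⟩
        apply Prod.ext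
        · change ⟪β • c + inc w.1, c'⟫ = β
          rw [hermForm_add_left, hermForm_smul_left, h.ef, h.inc_f hF]
          ring
        · apply Subtype.ext
          change R (β • c + inc w.1) = w.1
          simp [h.re]
      right_inv := by
        rintro ⟨y, hy⟩
        apply Subtype.ext
        have hyc : ⟪y, c⟫ = 0 := fx_perp hF hQ (n := 2 + k) (by omega) (by omega) h.ee hy.1 hω hy.2
        have hdec := h.decomp hF y
        rw [hyc, zero_smul, add_zero] at hdec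
        exact hdec.symm }
  rw [← Nat.card_congr e, Nat.card_prod, Nat.card_eq_fintype_card (α := F), hF]

omit h in
/-- The vectors at a point as a finset. -/
theorem card_PS_add [Fintype Ω] (ω : Ω) : (PS (n := 2 + k) hF ω).card + 1 = Nat.card (XVk hF hQ hk ω) := by
  classical
  rw [Nat.card_eq_fintype_card, Fintype.card_subtype]
  have h1 : PS (n := 2 + k) hF ω = (Finset.univ.filter fun y => y ∈ XVk hF hQ hk ω).erase 0 := by
    ext y
    rw [mem_PS, Finset.mem_erase, Finset.mem_filter, mem_XVk]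
    simp
  rw [h1, Finset.card_erase_add_one]
  simp only [Finset.mem_filter, Finset.mem_univ, true_and]
  exact AddSubgroup.zero_mem _

open _root_.Classical in
omit h in
/-- The number of nonzero vectors of the perp at a point. -/
theorem card_above [Fintype Ω] (ω : Ω) :
    ((isoC F q k).filter fun u => Fx hF ω (inc u)).card + 1 = Nat.card (X1 hF hQ hk ω) := by
  classical
  rw [Nat.card_eq_fintype_card, Fintype.card_subtype]
  have h1 : ((isoC F q k).filter fun u => Fx hF ω (inc u)) = (Finset.univ.filter fun y => y ∈ X1 hF hQ hk ω).erase 0 := by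
    ext y
    rw [Finset.mem_filter, mem_isoC, Finset.mem_erase, Finset.mem_filter, mem_X1]
    simp only [Finset.mem_univ, true_and]
    tauto
  rw [h1, Finset.card_erase_add_one]
  simp only [Finset.mem_filter, Finset.mem_univ, true_and]
  exact Submodule.zero_mem _


omit hQ hk h in
/-- Multiplicities of fixed points on the perp. -/
theorem card_m_le [Fintype Ω] (h : HP q c c') (hk : 3 ≤ k) {u v : Fin k → F} (hu : ⟪u, u⟫ = 0) (hv : ⟪v, v⟫ = 0) (hu0 : u ≠ 0)
    (hv0 : v ≠ 0) [DecidablePred fun ω : Ω => Fx hF ω (inc u)] [DecidablePred fun ω : Ω => Fx hF ω (inc v)] :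
    ((FS (Ω := Ω) hF c).filter fun ω => Fx hF ω (inc u)).card ≤ ((FS (Ω := Ω) hF c).filter fun ω => Fx hF ω (inc v)).card := by
  obtain ⟨g, -, rfl⟩ := reach_iso hF (by omega) hu hv hu0 hv0
  apply Finset.card_le_card_of_injOn (fun ω => Lev hF g • ω)
  · intro ω hω
    obtain ⟨h1, h2⟩ := Finset.mem_filter.mp (Finset.mem_coe.mp hω)
    refine Finset.mem_coe.mpr (Finset.mem_filter.mpr ⟨mem_FS.mpr ?_, ?_⟩)
    · have := Fx_map hF (Lev hF g) h.ee (mem_FS.mp h1)
      rwa [lev_fix hF h] at this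
    · have := Fx_map hF (Lev hF g) (v := inc u) (by rw [hermForm_inc]; exact hu) h2
      rwa [lev_inc] at this
  · intro a _ b _ e
    exact smul_left_cancel _ e

open _root_.Classical in
/-- A lower bound for the multiplicity in the critical case. -/
theorem card_m_ge [Fintype Ω] {ω₀ : Ω} (hω₀ : Fx hF ω₀ c) {u e : Fin k → F} (hu : u ∈ X1 hF hQ hk ω₀)
    (he : e ∈ X1 hF hQ hk ω₀) (heu : ∀ κ : F, e ≠ κ • u) :
    q + 1 ≤ ((FS (Ω := Ω) hF c).filter fun ω => Fx hF ω (inc u)).card := by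
  classical
  set S := XVk hF hQ hk ω₀ with hS
  have hperp : ∀ x ∈ S, ∀ y ∈ S, ⟪x, y⟫ = 0 := fun x hx y hy =>
    fx_perp hF hQ (n := 2 + k) (by omega) (by omega) hy.1 hx.1 hy.2 hx.2
  have heS : inc e ∈ S := ⟨by rw [hermForm_inc]; exact he.1, he.2⟩
  have huS : inc u ∈ S := ⟨by rw [hermForm_inc]; exact hu.1, hu.2⟩
  have hcS : c ∈ S := ⟨h.ee, hω₀⟩
  -- the partner
  have hnot : inc e ∉ Submodule.span F {c, inc u} := by
    intro hm
    obtain ⟨α, β, hαβ⟩ := Submodule.mem_span_pair.mp hm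
    have h1 := congrArg R hαβ
    simp only [R_add, R_smul, R_inc, h.re, smul_zero, zero_add] at h1
    exact heu β h1.symm
  obtain ⟨y, hy1, hy2⟩ := exists_sep hF hnot
  have hyc : ⟪y, c⟫ = 0 := hy1 c (Submodule.subset_span (by simp))
  have hyu : ⟪y, inc u⟫ = 0 := hy1 _ (Submodule.subset_span (by simp))
  obtain ⟨α, hα⟩ := exists_val_a hF y
  have hee : ⟪inc e, inc e⟫ = 0 := hperp _ heS _ heS
  have hey : ⟪inc e, y⟫ = 1 := hermForm_symm_one hF hy2
  have hf : ⟪y + α • inc e, y + α • inc e⟫ = 0 := by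
    simp only [hermForm_add_left, hermForm_add_right hF, hermForm_smul_left, hermForm_smul_right, hy2, hey, hee]
    linear_combination hα
  have hef : ⟪inc e, y + α • inc e⟫ = 1 := by
    rw [hermForm_add_right hF, hermForm_smul_right, hee, hey]
    ring
  obtain ⟨T, hT1, hT2⟩ := iso_caseI hF hperp heS hf hef
  have hfix : ∀ S' ∈ T, ∃ g : SU (2 + k) F q, act g c = c ∧ act g (inc u) = inc u ∧ S' = img g S := by
    intro S' hS'
    obtain ⟨g, hg, hg'⟩ := hT2 S' hS'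
    refine ⟨g, hg _ (hperp _ hcS _ heS) ?_, hg _ (hperp _ huS _ heS) ?_, hg'⟩
    · rw [hermForm_add_right hF, hermForm_smul_right, hperp _ hcS _ heS, swap0 hF hyc]
      ring
    · rw [hermForm_add_right hF, hermForm_smul_right, hperp _ huS _ heS, swap0 hF hyu]
      ring
  choose! g hg1 hg2 hg3 using hfix
  refine hT1.trans (Finset.card_le_card_of_injOn (fun S' => g S' • ω₀) ?_ ?_)
  · intro S' hS'
    have hS'' : S' ∈ T := hS'
    refine Finset.mem_coe.mpr (Finset.mem_filter.mpr ⟨mem_FS.mpr ?_, ?_⟩)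
    · have := Fx_map hF (g S') h.ee hω₀
      rwa [hg1 S' hS''] at this
    · have := Fx_map hF (g S') (v := inc u) huS.1 huS.2
      rwa [hg2 S' hS''] at this
  · intro S₁ hS₁ S₂ hS₂ e'
    have hS₁' : S₁ ∈ T := hS₁
    have hS₂' : S₂ ∈ T := hS₂
    rw [hg3 S₁ hS₁', hg3 S₂ hS₂']
    have h1 := XV_smul hF hQ (n := 2 + k) (by omega) (by omega) (g S₁) ω₀
    have h2 := XV_smul hF hQ (n := 2 + k) (by omega) (by omega) (g S₂) ω₀
    simp only at e'
    rw [e'] at h1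
    exact h1.symm.trans h2

omit hF hQ hk h in
/-- The key arithmetic. -/
theorem arith_final {q k I x m f : ℕ} (hq : 2 ≤ q) (hk : 3 ≤ k) {r : ℕ} (hxr : x = (q ^ 2) ^ r)
    (hx2 : x ^ 2 ≤ q ^ (2 * k)) (hm : 1 ≤ m) (hmq : Even k → x = q ^ k → q + 1 ≤ m)
    (hA : q ^ (2 * k) ≤ (q ^ 2 - 1) * I) (hB : Even k → (q ^ (k + 2) - 1) * (q ^ k - 1) ≤ (q ^ 2 - 1) * ((q + 1) * I))
    (h1 : (q ^ 2 - 1) * f ≤ q ^ 2 * (x - 1)) (h2 : f * (x - 1) = I * m) (hx1 : 2 ≤ x) : False := by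
  have hqpos : 0 < q := by omega
  have hmain : (q ^ 2 - 1) * I * m ≤ q ^ 2 * (x - 1) ^ 2 := by
    calc (q ^ 2 - 1) * I * m = (q ^ 2 - 1) * (I * m) := by ring
      _ = (q ^ 2 - 1) * f * (x - 1) := by rw [← h2]; ring
      _ ≤ q ^ 2 * (x - 1) * (x - 1) := Nat.mul_le_mul_right _ h1
      _ = q ^ 2 * (x - 1) ^ 2 := by ring
  have hxk : x ≤ q ^ k := by
    have : x ^ 2 ≤ (q ^ k) ^ 2 := by
      rw [← pow_mul, mul_comm k 2]
      exact hx2
    exact (Nat.pow_le_pow_iff_left (by norm_num)).mp this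
  by_cases hsmall : x ≤ q ^ (k - 1)
  · have h3 : (x - 1) ^ 2 < (q ^ (k - 1)) ^ 2 := by
      apply Nat.pow_lt_pow_left _ (by norm_num)
      omega
    have h4 : q ^ 2 * (q ^ (k - 1)) ^ 2 = q ^ (2 * k) := by
      rw [← pow_mul, ← pow_add]
      congr 1
      omega
    have h5 : q ^ 2 * (x - 1) ^ 2 < q ^ 2 * (q ^ (k - 1)) ^ 2 := Nat.mul_lt_mul_of_pos_left h3 (by positivity)
    have h6 : (q ^ 2 - 1) * I ≤ (q ^ 2 - 1) * I * m := Nat.le_mul_of_pos_right _ (by omega)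
    omega
  · push Not at hsmall
    have hrk : 2 * r ≤ k ∧ k - 1 < 2 * r := by
      rw [hxr, ← pow_mul] at hxk hsmall
      exact ⟨(Nat.pow_le_pow_iff_right (by omega)).mp hxk, (Nat.pow_lt_pow_iff_right (by omega)).mp hsmall⟩
    have hk2 : k = 2 * r := by omega
    have hev : Even k := ⟨r, by omega⟩
    have hxq : x = q ^ k := by
      rw [hxr, ← pow_mul, hk2]
    have hm' := hmq hev hxq
    have hB' := hB hev
    have hQ1 : 1 ≤ q ^ k := Nat.one_le_pow _ _ hqpos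
    have h7 : (q ^ 2 - 1) * ((q + 1) * I) ≤ (q ^ 2 - 1) * I * m := by
      calc (q ^ 2 - 1) * ((q + 1) * I) = (q ^ 2 - 1) * I * (q + 1) := by ring
        _ ≤ _ := Nat.mul_le_mul_left _ hm'
    have h8 : (q ^ (k + 2) - 1) * (q ^ k - 1) ≤ q ^ 2 * (q ^ k - 1) ^ 2 := by
      rw [hxq] at hmain
      omega
    have hpos : 0 < q ^ k - 1 := by
      have : q ^ k ≥ 2 := by
        rw [← hxq]
        exact hx1
      omega
    have h9 : q ^ (k + 2) - 1 ≤ q ^ 2 * (q ^ k - 1) := by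
      have h10 : (q ^ (k + 2) - 1) * (q ^ k - 1) ≤ (q ^ 2 * (q ^ k - 1)) * (q ^ k - 1) := by
        calc _ ≤ _ := h8
          _ = _ := by ring
      exact Nat.le_of_mul_le_mul_right h10 hpos
    have h11 : q ^ 2 * (q ^ k - 1) = q ^ (k + 2) - q ^ 2 := by
      rw [Nat.mul_sub, mul_one, pow_add, mul_comm]
    have h12 : 2 ≤ q ^ 2 := by nlinarith
    have h13 : q ^ 2 ≤ q ^ (k + 2) := Nat.pow_le_pow_right hqpos (by omega)
    omega

omit hQ hk h in
/-- No root group has a fixed point when the degree is small. -/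
theorem fix_empty [Fintype Ω] (h : HP q c c') (hk : 3 ≤ k) {I' N : ℕ}
    (hnum : Nums q k (isoC F q k).card (nonC F q k).card I' N)
    (hV : (isoC F q (2 + k)).card = (q ^ 2 - 1) * N) (hd : Fintype.card Ω < N) (ω₀ : Ω) : ¬ Fx hF ω₀ c := by
  classical
  intro hω₀
  have hq := two_le_q hF
  have hQ2 : 0 < q ^ 2 - 1 := by
    have : 4 ≤ q ^ 2 := by nlinarith
    omega
  have hq2 : 4 ≤ q ^ 2 := by nlinarith
  have hf0 : 0 < (FS (Ω := Ω) hF c).card := Finset.card_pos.mpr ⟨ω₀, mem_FS.mpr hω₀⟩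
  by_cases hlarge : q ^ 2 * I' ≤ (FS (Ω := Ω) hF c).card
  · exact large_kill hF h hk hnum hV hd hf0 hlarge
  push Not at hlarge
  have hQ := q1_of_small hF h hk hnum hlarge
  set x := Nat.card (X1 hF hQ hk ω₀) with hx
  have ha : (PS (n := 2 + k) hF ω₀).card + 1 = q ^ 2 * x :=
    (card_PS_add hF hk hQ ω₀).trans (card_XV hF h hk hQ hω₀)
  obtain ⟨a', ha'⟩ := dvd_card_PS (n := 2 + k) hF ω₀
  have hdc := double_count (n := 2 + k) hF (by omega) ω₀ h.ee (h.e_ne hF)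
  rw [hV, ha'] at hdc
  set f := (FS (Ω := Ω) hF c).card with hf
  set d := Fintype.card Ω with hdd
  have h4 : a' * d = N * f := by
    have h5 : (q ^ 2 - 1) * (a' * d) = (q ^ 2 - 1) * (N * f) := by
      rw [← mul_assoc, hdc, mul_assoc]
    exact Nat.eq_of_mul_eq_mul_left hQ2 h5
  have h5 : f < a' := by
    by_contra hcon
    push Not at hcon
    have h6 : a' * d ≤ f * d := Nat.mul_le_mul_right _ hcon
    have h7 : f * d < f * N := Nat.mul_lt_mul_of_pos_left hd hf0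
    rw [h4, mul_comm N f] at h6
    omega
  have h6 : (q ^ 2 - 1) * f ≤ q ^ 2 * (x - 1) := by
    have h7 : (q ^ 2 - 1) * (f + 1) ≤ (q ^ 2 - 1) * a' := Nat.mul_le_mul_left _ h5
    rw [← ha', Nat.mul_add, mul_one] at h7
    rw [Nat.mul_sub, mul_one]
    omega
  have hx0 : 0 < x := Nat.card_pos
  have hx2 : 2 ≤ x := by
    by_contra hcon
    have : x = 1 := by omega
    rw [this] at h6
    have h8 : 0 < (q ^ 2 - 1) * f := Nat.mul_pos hQ2 hf0
    simp at h6
    omega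
  -- a nonzero vector
  obtain ⟨u₀, hu₀, hu₀0⟩ : ∃ u₀ ∈ X1 hF hQ hk ω₀, u₀ ≠ 0 := by
    have : Nontrivial (X1 hF hQ hk ω₀) := Finite.one_lt_card_iff_nontrivial.mp (by omega)
    obtain ⟨y, hy⟩ := exists_ne (0 : X1 hF hQ hk ω₀)
    exact ⟨y.1, y.2, fun h0 => hy (Subtype.ext h0)⟩
  have hu₀iso : ⟪u₀, u₀⟫ = 0 := hu₀.1
  set m := ((FS (Ω := Ω) hF c).filter fun ω => Fx hF ω (inc u₀)).card with hm
  have hm1 : 1 ≤ m := Finset.card_pos.mpr ⟨ω₀, Finset.mem_filter.mpr ⟨mem_FS.mpr hω₀, hu₀.2⟩⟩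
  -- the count
  have hbip := Finset.sum_card_bipartiteAbove_eq_sum_card_bipartiteBelow
    (s := FS (Ω := Ω) hF c) (t := isoC F q k) (fun ω u => Fx hF ω (inc u))
  have hL : ∀ ω ∈ FS (Ω := Ω) hF c, (Finset.bipartiteAbove (fun ω u => Fx hF ω (inc u)) (isoC F q k) ω).card = x - 1 := by
    intro ω hω
    have e1 := card_above hF hk hQ ω
    have e2 : Nat.card (X1 hF hQ hk ω) = x := by
      have e3 := card_PS_eq (n := 2 + k) hF ω ω₀
      have e4 := card_PS_add hF hk hQ ω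
      rw [card_XV hF h hk hQ (mem_FS.mp hω), e3] at e4
      have e5 : q ^ 2 * Nat.card (X1 hF hQ hk ω) = q ^ 2 * x := by
        rw [← e4, ha]
      exact Nat.eq_of_mul_eq_mul_left (by omega) e5
    rw [e2] at e1
    have e6 : Finset.bipartiteAbove (fun ω u => Fx hF ω (inc u)) (isoC F q k) ω
        = (isoC F q k).filter fun u => Fx hF ω (inc u) := rfl
    rw [e6]
    omega
  have hR : ∀ u ∈ isoC F q k, (Finset.bipartiteBelow (fun ω u => Fx hF ω (inc u)) (FS (Ω := Ω) hF c) u).card = m := by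
    intro u hu
    obtain ⟨hu0, huu⟩ := mem_isoC.mp hu
    exact le_antisymm (card_m_le hF h hk huu hu₀iso hu0 hu₀0) (card_m_le hF h hk hu₀iso huu hu₀0 hu0)
  rw [Finset.sum_congr rfl hL, Finset.sum_congr rfl hR, Finset.sum_const, Finset.sum_const, smul_eq_mul, smul_eq_mul] at hbip
  obtain ⟨r, hr⟩ := card_submodule_pow (k := k) hF (X1 hF hQ hk ω₀)
  refine arith_final (hq) hk hr (X1_sq_le hF hk hQ ω₀) hm1 ?_ hnum.nA hnum.nB h6 hbip hx2
  intro hev hxq
  have hk4 : 4 ≤ k := by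
    obtain ⟨t, ht⟩ := hev
    omega
  have hlt : q ^ 2 < Nat.card (X1 hF hQ hk ω₀).toAddSubgroup := by
    have h9 : Nat.card (X1 hF hQ hk ω₀).toAddSubgroup = q ^ k := hxq
    rw [h9]
    exact Nat.pow_lt_pow_right (by omega) (by omega)
  obtain ⟨e, he, heu⟩ := exists_not_line hF h hlt hu₀0
  exact card_m_ge hF h hk hQ hω₀ hu₀ he heu

end Cfsg.Agent.Lib.MinIndex.UFix2
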