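import Mathlib
import Cfsg.Agent.Lib.MinIndex.UFix2
import Cfsg.Agent.Lib.MinIndex.SpKill

/-!
# The canonical orbit of the root group does not exist
-/

set_option autoImplicit false
set_option linter.unusedSectionVars false
set_option linter.unusedSimpArgs false
set_option linter.unusedVariables false
set_option linter.unusedTactic false

open scoped Matrix
open Cfsg
open Cfsg.Agent.Lib.Classical.Herm.Basic Cfsg.Agent.Lib.Classical.Herm.Form
open Cfsg.Agent.Lib.Classical.Herm.GU Cfsg.Agent.Lib.Classical.Herm.SU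
open Cfsg.Agent.Lib.Classical.Herm.Subfield Cfsg.Agent.Lib.Classical.Herm.Isotropic
open Cfsg.Agent.Lib.Classical.Herm.Tv Cfsg.Agent.Lib.Classical.Herm.Comm
open Cfsg.Agent.Lib.Classical.Herm.Block Cfsg.Agent.Lib.Classical.Herm.Levi
open Cfsg.Agent.Lib.MinIndex.SpCount Cfsg.Agent.Lib.MinIndex.UCount
open Cfsg.Agent.Lib.MinIndex.ULocal Cfsg.Agent.Lib.MinIndex.UW Cfsg.Agent.Lib.MinIndex.UHeis
open Cfsg.Agent.Lib.MinIndex.UTypes Cfsg.Agent.Lib.MinIndex.UFree Cfsg.Agent.Lib.MinIndex.UGlob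
open Cfsg.Agent.Lib.MinIndex.UFix

namespace Cfsg.Agent.Lib.MinIndex.UKill

section Abstract

variable {W Y : Type*} [AddCommGroup W] {A : WSet W Y} {Q : Pairing W}

/-- An affine map on a regular orbit has a unique fixed point. -/
theorem unique_fixed [Finite W] (s : Sym A Q) {y₀ : Y} (hst : ∀ w, A.act w y₀ = y₀ → w = 0)
    (hy : ∃ w₀, A.act w₀ y₀ = s.κ y₀) (hinj : Function.Injective fun w => w - s.φ w) :
    ∃ u, s.κ (A.act u y₀) = A.act u y₀ ∧ ∀ u', s.κ (A.act u' y₀) = A.act u' y₀ → u' = u := by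
  obtain ⟨w₀, hw₀⟩ := hy
  have hsurj : Function.Surjective fun w => w - s.φ w := Finite.injective_iff_surjective.mp hinj
  obtain ⟨u, hu⟩ := hsurj w₀
  have hu' : u - s.φ u = w₀ := hu
  have hform : ∀ v, s.κ (A.act v y₀) = A.act (s.φ v + w₀) y₀ := by
    intro v
    rw [s.hc, ← hw₀, ← A.act_add]
  refine ⟨u, ?_, ?_⟩
  · rw [hform]
    congr 1
    rw [← hu']
    abel
  · intro u' h'
    rw [hform] at h'
    -- cancel
    have h1 : A.act (s.φ u' + w₀ - u') y₀ = y₀ := by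
      have e : s.φ u' + w₀ - u' = -u' + (s.φ u' + w₀) := by abel
      rw [e, A.act_add, h', ← A.act_add, neg_add_cancel, A.act_zero]
    have h2 := hst _ h1
    have h3 : u' - s.φ u' = u - s.φ u := by
      rw [hu']
      linear_combination (norm := abel) -h2
    exact hinj h3

end Abstract

variable {F : Type*} [Field F] [Fintype F] {q k : ℕ}

local notation "⟪" x ", " y "⟫" => hermForm _ _ q x y

variable (hF : Fintype.card F = q ^ 2)

variable {c c' : Fin (2 + k) → F}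

/-- The data of a suitable element. -/
structure ZD (hF : Fintype.card F = q ^ 2) (c c' : Fin (2 + k) → F) (zt : SU (2 + k) F q) (l : F) (c₁ z₁ : Fin k → F) : Prop where
  hN : Nrm zt l c c'
  hinj : Function.Injective fun w : Fin k → F => w - (l ^ q • lv zt w)
  hc₁ : ⟪c₁, c₁⟫ = 0
  hc₁0 : c₁ ≠ 0
  hz₁ : ⟪z₁, c₁⟫ = 0
  hzz : ⟪z₁, z₁⟫ = 1
  hcomm : ∀ s a : F, a + a ^ q + ⟪s • z₁, s • z₁⟫ = 0 →
    Lev hF (rho hF c₁ (s • z₁) a) * zt = zt * Lev hF (rho hF c₁ (s • z₁) a)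

include hF

/-- The embedded root group. -/
theorem lev_tt {c₁ : Fin k → F} (hc₁ : ⟪c₁, c₁⟫ = 0) {e : F} (he : e + e ^ q = 0) :
    Lev hF (tt hF c₁ e) = tt hF (inc c₁) e := by
  have hiso : ⟪inc c₁, inc c₁⟫ = 0 := by rw [hermForm_inc]; exact hc₁
  apply ext_act
  intro x
  apply ext_LR
  · rw [L_lev, tt_apply hF hiso he]
    simp
  · rw [R_lev, tt_apply hF hiso he, tt_apply hF hc₁ he, hermForm_LR x (inc c₁), L_inc, R_inc, hermForm_zero_right hF,
      zero_add]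
    simp

variable {Ω : Type*} [MulAction (SU (2 + k) F q) Ω] [Fintype Ω]
  (h : HP q c c') (ψ : AddChar F ℂ) (hψ : ∃ e : F, e + e ^ q = 0 ∧ ψ e ≠ 1)

include h

/-- The canonical orbit does not exist. -/
theorem kill {zt : SU (2 + k) F q} {l : F} {c₁ z₁ : Fin k → F} (hZ : ZD hF c c' zt l c₁ z₁)
    (hk : 3 ≤ k) (hfix : ∀ ω : Ω, ¬ Fx hF ω c) {ω : Ω} (hω : Free hF c ω)
    (hS : SS (wSet (Ω := Ω) hF h) (pairW (k := k) hF ψ hψ) (mkY hF h.ee ω) = ⊤)
    (hall : ∀ y' ∈ Yp (Ω := Ω) hF h (Free hF c), y' ∈ (wSet (Ω := Ω) hF h).orb (mkY hF h.ee ω)) : False := by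
  classical
  set y₀ := mkY hF h.ee ω with hy₀def
  have hG := good_free (Ω := Ω) hF h
  have hy₀ : y₀ ∈ Yp (Ω := Ω) hF h (Free hF c) := mk_mem_Yp hω
  -- the orbit is regular
  have hst : ∀ w, (wSet (Ω := Ω) hF h).act w y₀ = y₀ → w = 0 := by
    intro w hw
    have h1 := (pairW (k := k) hF ψ hψ).card_ann ((wSet (Ω := Ω) hF h).stab y₀)
    rw [SS] at hS
    rw [hS, AddSubgroup.card_top, Nat.card_eq_fintype_card (α := Fin k → F)] at h1
    have hpos : 0 < Fintype.card (Fin k → F) := Fintype.card_pos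
    have h2 : Nat.card ((wSet (Ω := Ω) hF h).stab y₀) = 1 := by
      have h3 : Nat.card ((wSet (Ω := Ω) hF h).stab y₀) * Fintype.card (Fin k → F) = 1 * Fintype.card (Fin k → F) := by
        rw [h1, one_mul]
      exact Nat.eq_of_mul_eq_mul_right hpos h3
    have h4 := (AddSubgroup.card_eq_one (H := (wSet (Ω := Ω) hF h).stab y₀)).mp h2
    have h5 : w ∈ (wSet (Ω := Ω) hF h).stab y₀ := hw
    rw [h4] at h5
    exact h5
  set s := symOf (Ω := Ω) hF h hZ.hN ψ hψ with hs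
  have hκ : ∀ y, s.κ y = mapY hF h.ee zt hZ.hN.l0 hZ.hN.left y := fun _ => rfl
  obtain ⟨u, hu1, hu2⟩ := unique_fixed s hst
    ((wSet (Ω := Ω) hF h).mem_orb.mp (hall _ (hG.sym zt l hZ.hN y₀ hy₀))) hZ.hinj
  set τ := (wSet (Ω := Ω) hF h).act u y₀ with hτ
  have hτY : τ ∈ Yp (Ω := Ω) hF h (Free hF c) := hG.inv y₀ hy₀ u
  obtain ⟨ω₁, hω₁, hmk⟩ := mem_Yp.mp hτY
  -- elements of the Levi factor commuting with `zt` fix the orbit
  have hlev : ∀ G : SU k F q, Lev hF G * zt = zt * Lev hF G → mkY hF h.ee (Lev hF G • ω₁) = mkY hF h.ee ω₁ := by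
    intro G hcomm
    have hmem : mkY hF h.ee (Lev hF G • ω₁) ∈ Yp (Ω := Ω) hF h (Free hF c) := by
      have := hG.sym (Lev hF G) 1 (lev_nrm hF h G) _ (mk_mem_Yp hω₁)
      rwa [mapY_mk] at this
    obtain ⟨u', hu'⟩ := (wSet (Ω := Ω) hF h).mem_orb.mp (hall _ hmem)
    have hfixed : s.κ ((wSet (Ω := Ω) hF h).act u' y₀) = (wSet (Ω := Ω) hF h).act u' y₀ := by
      rw [hu', hκ, mapY_mk, smul_smul, ← hcomm, mul_smul]
      have h1 : mkY hF h.ee (zt • ω₁) = mkY hF h.ee ω₁ := by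
        have := hu1
        rw [hκ, ← hmk, mapY_mk] at this
        exact this
      have h2 := congrArg (mapY hF h.ee (Lev hF G) one_ne_zero (by rw [lev_fix hF h, one_smul])) h1
      rwa [mapY_mk, mapY_mk] at h2
    have h3 := hu2 u' hfixed
    rw [← hu', h3, ← hτ, hmk]
  -- the commutator
  have hfx : Fx hF ω₁ (inc c₁) := by
    intro e₀ he₀
    obtain ⟨ξ, hξ⟩ := exists_delta hF he₀
    obtain ⟨a₁, ha₁⟩ := exists_val_a hF ((1 : F) • z₁)
    obtain ⟨a₂, ha₂⟩ := exists_val_a hF ((-ξ) • z₁)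
    have hv₁ : Val q c₁ ((1 : F) • z₁) a₁ := ⟨hZ.hc₁, by rw [hermForm_smul_left, hZ.hz₁, mul_zero], ha₁⟩
    have hv₂ : Val q c₁ ((-ξ) • z₁) a₂ := ⟨hZ.hc₁, by rw [hermForm_smul_left, hZ.hz₁, mul_zero], ha₂⟩
    have h1 := hlev _ (hZ.hcomm 1 a₁ ha₁)
    have h2 := hlev _ (hZ.hcomm (-ξ) a₂ ha₂)
    obtain ⟨e₁, he₁, h1'⟩ := (mkY_eq hF).mp h1.symm
    obtain ⟨e₂, he₂, h2'⟩ := (mkY_eq hF).mp h2.symm
    have hcc := rho_comm hF hv₁ hv₂
    have hval : ⟪(1 : F) • z₁, (-ξ) • z₁⟫ - ⟪(-ξ) • z₁, (1 : F) • z₁⟫ = e₀ := by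
      simp only [hermForm_smul_left, hermForm_smul_right, hZ.hzz, one_mul, mul_one, one_pow, pow_q_neg hF]
      rw [← hξ]
      ring
    rw [hval] at hcc
    have hLev := congrArg (Lev hF) hcc
    rw [lev_mul, lev_mul, lev_mul, lev_tt hF hZ.hc₁ he₀] at hLev
    have hisoc : ⟪inc c₁, inc c₁⟫ = 0 := by rw [hermForm_inc]; exact hZ.hc₁
    have hcomm_e : ∀ e : F, e + e ^ q = 0 → tt hF (inc c₁) e₀ * tt hF c e = tt hF c e * tt hF (inc c₁) e₀ := by
      intro e he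
      rw [← lev_tt hF hZ.hc₁ he₀]
      exact lev_comm_tt hF h _ he
    exact SpKill.comm_fix ω₁ (lev_comm_tt hF h _ he₂) (lev_comm_tt hF h _ he₁)
      (by rw [tt_mul hF h.ee he₁ he₂, tt_mul hF h.ee he₂ he₁, add_comm e₁ e₂]) (hcomm_e e₁ he₁) (hcomm_e e₂ he₂)
      h1'.symm h2'.symm hLev
  -- move to `c`
  have hisoc : ⟪inc c₁, inc c₁⟫ = 0 := by rw [hermForm_inc]; exact hZ.hc₁
  have hne : inc c₁ ≠ 0 := by
    intro h0
    have h1 := congrArg R h0
    rw [R_inc, R_zero] at h1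
    exact hZ.hc₁0 h1
  obtain ⟨g, -, hg⟩ := reach_iso hF (by omega) hisoc h.ee hne (h.e_ne hF)
  have := Fx_map hF g hisoc hfx
  rw [hg] at this
  exact hfix _ this

omit [Fintype Ω] in
/-- The torus element for `q ≥ 3`. -/
theorem exists_ZD_odd (hq : 3 ≤ q) (hk : 3 ≤ k) (hI0 : 0 < (isoC F q k).card) :
    ∃ (zt : SU (2 + k) F q) (l : F) (c₁ z₁ : Fin k → F), ZD hF c c' zt l c₁ z₁ := by
  obtain ⟨ν, hν0, hν1, hν⟩ := exists_fixed_ne hF hq
  obtain ⟨t, -, ht⟩ := exists_torus hF h.ee h.ff h.ef hν0 hν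
  have hfe := h.fe hF
  obtain ⟨c₁, hc₁⟩ := Finset.card_pos.mp hI0
  obtain ⟨hc₁0, hcc⟩ := mem_isoC.mp hc₁
  obtain ⟨z₁, hz₁, hzz⟩ := exists_perp_iso hF (by omega) hcc hc₁0 (c := 1) (one_pow _)
  have hl : ∀ w : Fin k → F, lv t w = w := by
    intro w
    rw [lv, ht, h.inc_e hF, h.inc_f hF]
    simp
  have hNrm : Nrm t ν c c' := by
    refine ⟨hν0, ?_, ?_⟩
    · rw [ht, h.ee, h.ef]
      funext i
      simp only [Pi.add_apply, Pi.smul_apply, smul_eq_mul]
      ring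
    · rw [ht, h.ff, hfe, hν]
      funext i
      simp only [Pi.add_apply, Pi.smul_apply, smul_eq_mul]
      ring
  refine ⟨t, ν, c₁, z₁, hNrm, ?_, hcc, hc₁0, hz₁, hzz, ?_⟩
  · intro a b hab
    simp only [hl, hν] at hab
    have h1 : (1 - ν) • a = (1 - ν) • b := by
      rw [sub_smul, sub_smul, one_smul, one_smul]
      exact hab
    have h2 : (1 - ν) ≠ 0 := sub_ne_zero.mpr (Ne.symm hν1)
    exact smul_right_injective _ h2 h1
  · intro s a _
    apply ext_act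
    intro x
    rw [act_mul, act_mul, ht, ht, act_add, act_add, act_smul, act_smul, lev_fix hF h, lev_fix' hF h]
    have h1 : ⟪act (Lev hF (rho hF c₁ (s • z₁) a)) x, c'⟫ = ⟪x, c'⟫ := by
      conv_lhs => rw [← lev_fix' hF h (rho hF c₁ (s • z₁) a)]
      rw [h_act]
    have h2 : ⟪act (Lev hF (rho hF c₁ (s • z₁) a)) x, c⟫ = ⟪x, c⟫ := by
      conv_lhs => rw [← lev_fix hF h (rho hF c₁ (s • z₁) a)]
      rw [h_act]
    rw [h1, h2]

omit hF h ψ hψ [Fintype F] in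
/-- A product of a constant on two blocks. -/
theorem prod_blocks (ζ : F) (k₁ k₂ : ℕ) :
    ∏ i ∈ Finset.range (k₁ + k₂), (if i < k₁ then ζ else ζ⁻¹) = ζ ^ k₁ * ζ⁻¹ ^ k₂ := by
  rw [Finset.prod_range_add]
  congr 1
  · rw [Finset.prod_congr rfl (fun i hi => if_pos (Finset.mem_range.mp hi))]
    simp
  · rw [Finset.prod_congr rfl (fun i _ => if_neg (by omega))]
    simp

omit [Fintype Ω] in
/-- The diagonal element for `q = 2`. -/
theorem exists_ZD_two (hq : q = 2) (hk : 3 ≤ k) (hodd : Odd k) :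
    ∃ (zt : SU (2 + k) F q) (l : F) (c₁ z₁ : Fin k → F), ZD hF c c' zt l c₁ z₁ := by
  classical
  obtain ⟨ζ, hζ1, hζ2⟩ := exists_norm_one_sq_ne_one hF
  have hζ0 : ζ ≠ 0 := by
    rintro rfl
    rw [zero_pow (by omega)] at hζ1
    exact zero_ne_one hζ1
  have hζne : ζ ≠ 1 := by
    rintro rfl
    exact hζ2 (one_pow 2)
  have hζinv : ζ⁻¹ ≠ 1 := fun h' => hζne (inv_eq_one.mp h')
  have hζ3 : ζ ^ 3 = 1 := by
    have e : q + 1 = 3 := by omega
    rw [e] at hζ1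
    exact hζ1
  have h20 : (2 : F) = 0 := by
    have h1 : ((Fintype.card F : ℕ) : F) = 0 := Nat.cast_card_eq_zero F
    rw [hF] at h1
    have e : ((q ^ 2 : ℕ) : F) = (2 : F) ^ 2 := by
      rw [hq]
      push_cast
      norm_num
    rw [e] at h1
    exact pow_eq_zero_iff (two_ne_zero) |>.mp h1
  -- the blocks
  obtain ⟨k₁, k₂, t, hsum, hdiff, hk₁⟩ : ∃ k₁ k₂ t, k₁ + k₂ = k ∧ k₁ = k₂ + 3 * t ∧ 3 ≤ k₁ := by
    obtain ⟨r, hr⟩ := hodd
    have : k % 3 = 0 ∨ k % 3 = 1 ∨ k % 3 = 2 := by omega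
    rcases this with h0 | h0 | h0
    · exact ⟨k, 0, k / 3, by omega, by omega, hk⟩
    · exact ⟨k - 2, 2, (k - 4) / 3, by omega, by omega, by omega⟩
    · exact ⟨k - 1, 1, (k - 2) / 3, by omega, by omega, by omega⟩
  set d : Fin k → F := fun i => if i.val < k₁ then ζ else ζ⁻¹ with hd
  have hdn : ∀ i, d i ^ (q + 1) = 1 := by
    intro i
    simp only [hd]
    split_ifs
    · exact hζ1
    · rw [inv_pow, hζ1, inv_one]
  have hdet : (Matrix.diagonal d).det = 1 := by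
    rw [Matrix.det_diagonal, Fin.prod_univ_eq_prod_range (fun i => if i < k₁ then ζ else ζ⁻¹) k, ← hsum, prod_blocks,
      hdiff, pow_add, pow_mul, hζ3, one_pow, mul_one, ← mul_pow, mul_inv_cancel₀ hζ0, one_pow]
  set zW : SU k F q := mkSU (Matrix.diagonal d) hdet (preserves_diagonal d hdn) with hzW
  have hact : ∀ (x : Fin k → F) i, act zW x i = d i * x i := by
    intro x i
    change (Matrix.diagonal d *ᵥ x) i = _
    rw [Matrix.mulVec_diagonal]
  have hblock : ∀ x : Fin k → F, (∀ i : Fin k, k₁ ≤ i.val → x i = 0) → act zW x = ζ • x := by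
    intro x hx
    funext i
    rw [hact, Pi.smul_apply, smul_eq_mul]
    by_cases hi : i.val < k₁
    · simp only [hd, if_pos hi]
    · rw [hx i (by omega)]
      simp
  set i₀ : Fin k := ⟨0, by omega⟩ with hi₀
  set i₁ : Fin k := ⟨1, by omega⟩ with hi₁
  set i₂ : Fin k := ⟨2, by omega⟩ with hi₂
  have h01 : i₀ ≠ i₁ := by simp [hi₀, hi₁, Fin.ext_iff]
  have h02 : i₀ ≠ i₂ := by simp [hi₀, hi₂, Fin.ext_iff]
  have h12 : i₁ ≠ i₂ := by simp [hi₁, hi₂, Fin.ext_iff]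
  set c₁ : Fin k → F := Pi.single i₀ 1 + Pi.single i₁ 1 with hc₁def
  set z₁ : Fin k → F := Pi.single i₂ 1 with hz₁def
  have hcc : ⟪c₁, c₁⟫ = 0 := by
    simp only [hc₁def, hermForm_add_left, hermForm_add_right hF, hermForm_single_single hF, if_pos, if_neg h01,
      if_neg h01.symm]
    simp only [if_true, add_zero, zero_add]
    linear_combination h20
  have hc₁0 : c₁ ≠ 0 := by
    intro h0
    have h1 := congrFun h0 i₀
    simp only [hc₁def, Pi.add_apply, Pi.single_eq_same, Pi.zero_apply, Pi.single_apply, if_neg h01] at h1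
    simp at h1
  have hz₁ : ⟪z₁, c₁⟫ = 0 := by
    simp only [hc₁def, hz₁def, hermForm_add_right hF, hermForm_single_single hF, if_neg h02.symm, if_neg h12.symm]
    simp
  have hzz : ⟪z₁, z₁⟫ = 1 := by
    simp only [hz₁def, hermForm_single_single hF, if_true]
  have hc₁b : act zW c₁ = ζ • c₁ := by
    apply hblock
    intro i hi
    have h1 : i ≠ i₀ := by
      intro e
      rw [e, hi₀] at hi
      simp at hi
      omega
    have h2 : i ≠ i₁ := by
      intro e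
      rw [e, hi₁] at hi
      simp at hi
      omega
    simp [hc₁def, Pi.single_apply, h1, h2]
  have hz₁b : act zW z₁ = ζ • z₁ := by
    apply hblock
    intro i hi
    have h2 : i ≠ i₂ := by
      intro e
      rw [e, hi₂] at hi
      simp at hi
      omega
    simp [hz₁def, Pi.single_apply, h2]
  refine ⟨Lev hF zW, 1, c₁, z₁, lev_nrm hF h zW, ?_, hcc, hc₁0, hz₁, hzz, ?_⟩
  · intro a b hab
    simp only [one_pow, one_smul, lv_lev] at hab
    funext i
    have h1 := congrFun hab i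
    simp only [Pi.sub_apply, hact] at h1
    have hdi : 1 - d i ≠ 0 := by
      apply sub_ne_zero.mpr
      simp only [hd]
      split_ifs
      · exact Ne.symm hζne
      · exact Ne.symm hζinv
    have h2 : (1 - d i) * (a i - b i) = 0 := by linear_combination h1
    have h3 := (mul_eq_zero.mp h2).resolve_left hdi
    exact sub_eq_zero.mp h3
  · intro s a ha
    rw [← lev_mul, ← lev_mul]
    congr 1
    have hv : Val q c₁ (s • z₁) a := ⟨hcc, by rw [hermForm_smul_left, hz₁, mul_zero], ha⟩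
    have hv' := val_act hF zW hv
    have e0 : act zW (s • z₁) = ζ • (s • z₁) := by
      rw [act_smul, hz₁b, smul_comm]
    rw [hc₁b, e0] at hv'
    rw [rho_mul_comm_of hF zW hv, hc₁b, e0, rho_smul_left hF ζ hv' hζ0]
    have e1 : ζ * ζ ^ q = 1 := by
      rw [← pow_succ']
      exact hζ1
    have e2 : ζ ^ q • ζ • (s • z₁) = s • z₁ := by
      rw [smul_smul, mul_comm, e1, one_smul]
    rw [e1, mul_one, e2]

end Cfsg.Agent.Lib.MinIndex.UKill
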