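import Mathlib
import Cfsg.Agent.Lib.MinIndex.UKill

/-!
# The minimal degree of a transitive action of the special unitary group
-/

set_option autoImplicit false
set_option linter.unusedSectionVars false
set_option linter.unusedSimpArgs false
set_option linter.unusedVariables false
set_option linter.unusedTactic false

open scoped Matrix
open Cfsg
open Cfsg.Agent.Lib.Classical.Herm.Basic Cfsg.Agent.Lib.Classical.Herm.Form
open Cfsg.Agent.Lib.Classical.Herm.GU Cfsg.Agent.Lib.Classical.Herm.SU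
open Cfsg.Agent.Lib.Classical.Herm.Subfield Cfsg.Agent.Lib.Classical.Herm.Isotropic
open Cfsg.Agent.Lib.Classical.Herm.Tv Cfsg.Agent.Lib.Classical.Herm.Comm
open Cfsg.Agent.Lib.Classical.Herm.Block Cfsg.Agent.Lib.Classical.Herm.Levi
open Cfsg.Agent.Lib.Classical.Herm.Gen
open Cfsg.Agent.Lib.MinIndex.SpCount Cfsg.Agent.Lib.MinIndex.UCount
open Cfsg.Agent.Lib.MinIndex.ULocal Cfsg.Agent.Lib.MinIndex.UW Cfsg.Agent.Lib.MinIndex.UHeis
open Cfsg.Agent.Lib.MinIndex.UTypes Cfsg.Agent.Lib.MinIndex.UFree Cfsg.Agent.Lib.MinIndex.UGlob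
open Cfsg.Agent.Lib.MinIndex.UFix Cfsg.Agent.Lib.MinIndex.UFix2 Cfsg.Agent.Lib.MinIndex.UKill

namespace Cfsg.Agent.Lib.MinIndex.UMain

variable {F : Type*} [Field F] [Fintype F] {q m k : ℕ}

local notation "⟪" x ", " y "⟫" => hermForm _ _ q x y

/-- A hyperbolic pair in the first summand exists. -/
theorem exists_HP (hF : Fintype.card F = q ^ 2) :
    ∃ e f : Fin (2 + m) → F, HP q e f := by
  obtain ⟨θ, hθ⟩ := exists_theta hF
  obtain ⟨κ, hκ⟩ := exists_kappa hF
  have hform : ∀ x y : Fin 2 → F, hermForm 2 F q x y = x 0 * y 0 ^ q + x 1 * y 1 ^ q := by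
    intro x y
    simp [hermForm_apply, Fin.sum_univ_two]
  have hglue : ∀ a b : Fin 2 → F, hermForm (2 + m) F q (glue a 0) (glue b 0) = hermForm 2 F q a b := by
    intro a b
    rw [hermForm_LR, L_glue, L_glue, R_glue, R_glue, hermForm_zero_left, add_zero]
  refine ⟨glue ![1, θ] 0, glue ![1 + κ, κ * θ] 0, ?_, ?_, ?_, R_glue _ _, R_glue _ _⟩
  · rw [hglue, hform]
    simp only [Matrix.cons_val_zero, Matrix.cons_val_one, one_pow]
    linear_combination hθ
  · rw [hglue, hform]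
    simp only [Matrix.cons_val_zero, Matrix.cons_val_one, mul_pow, pow_q_add hF, one_pow]
    linear_combination (κ * κ ^ q) * hθ + hκ
  · rw [hglue, hform]
    simp only [Matrix.cons_val_zero, Matrix.cons_val_one, mul_pow, pow_q_add hF, one_pow]
    linear_combination (κ ^ q) * hθ

variable (hF : Fintype.card F = q ^ 2)

variable {Ω : Type*} [MulAction (SU (2 + k) F q) Ω] [Fintype Ω] [MulAction.IsPretransitive (SU (2 + k) F q) Ω]
  [Nontrivial Ω] {I' N : ℕ}

include hF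

/-- The minimal degree. -/
theorem min_degree (hk : 3 ≤ k) (hZ : 3 ≤ q ∨ (q = 2 ∧ Odd k))
    (hnum : Nums q k (isoC F q k).card (nonC F q k).card I' N)
    (hV : (isoC F q (2 + k)).card = (q ^ 2 - 1) * N) : N ≤ Fintype.card Ω := by
  classical
  by_contra hd
  push Not at hd
  obtain ⟨c, c', h⟩ := exists_HP (m := k) hF
  have hfix := fix_empty hF h hk hnum hV hd
  obtain ⟨ω, hω⟩ := exists_free (Ω := Ω) hF h hk hnum.hIpos
  obtain ⟨ψ, hψ⟩ := exists_psi hF
  have h2 := card_Ω_ge (Ω := Ω) hF h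
  have hqpos : 0 < q := by
    have := two_le_q hF
    omega
  have hbd : ∀ T : ℕ, T ≤ (Yp (Ω := Ω) hF h (Free hF c)).card → N ≤ q * T → False := by
    intro T hT hN
    have h3 := Nat.mul_le_mul_left q hT
    omega
  rcases free_count hF h ψ hψ hk hnum.hIpos hnum.hNonpos hω with h1 | ⟨h1, h1'⟩ | h1 | h1 | ⟨h1, h1'⟩
  · exact hbd _ h1 hnum.n1
  · by_cases hq2 : q = 2
    · exact hbd _ (h1' hq2) (hnum.n3 hq2)
    · exact hbd _ h1 (hnum.n2 hq2)
  · exact hbd _ h1 hnum.n4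
  · exact hbd _ h1 hnum.n5
  · rcases hZ with hq3 | ⟨hq2, hodd⟩
    · obtain ⟨zt, l, c₁, z₁, hZD⟩ := exists_ZD_odd hF (c := c) (c' := c') h hq3 hk hnum.hIpos
      exact kill hF h ψ hψ hZD hk hfix hω h1 h1'
    · obtain ⟨zt, l, c₁, z₁, hZD⟩ := exists_ZD_two hF (c := c) (c' := c') h hq2 hk hodd
      exact kill hF h ψ hψ hZD hk hfix hω h1 h1'

end Cfsg.Agent.Lib.MinIndex.UMain
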