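import Mathlib
import Cfsg.Agent.Lib.MinIndex.UFix

/-!
# The numerical facts for the minimal degree of the special unitary group
-/

set_option autoImplicit false
set_option maxRecDepth 10000

namespace Cfsg.Agent.Lib.MinIndex.UNums

open Cfsg.Agent.Lib.MinIndex.UFix

theorem poly_O (r s P I Non I' N : ℕ) (hP : P = (r ^ 2 + 4 * r + 3) * (s + 1) + 1)
    (hI : I = ((r + 2) * P + 1) * ((r ^ 2 + 4 * r + 3) * (s + 1))) (hNon : Non = ((r + 2) * P + 1) * P * (r + 1))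
    (hI' : I' = ((r + 2) * P + 1) * (s + 1)) (hN : N = ((r + 2) ^ 3 * P + 1) * ((s + 1) * (r + 2) ^ 2 + 1)) :
    N = (r + 2) ^ 2 * I' + 1 + (r + 2) * ((r + 2) ^ 2 * P ^ 2) ∧
    I + Non + 1 = (r + 2) ^ 2 * P ^ 2 ∧
    I ≤ Non ∧
    N ≤ (r + 2) * ((r + 2 + 1) * (I + 1)) ∧
    N ≤ (r + 2) * (3 * (Non + 1)) ∧
    N ≤ (r + 2) * (2 + 2 * I + Non) ∧
    N ≤ (r + 2) * (2 + I + 2 * Non) ∧
    I + Non + 1 ≤ (r + 2 + 1) * (I + 1) ∧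
    (r + 2) ^ 2 * P ^ 2 ≤ (r ^ 2 + 4 * r + 3) * I := by
  subst hI hNon hI' hN hP
  refine ⟨by ring, by ring, ?_, ?_, ?_, ?_, ?_, ?_, ?_⟩
  · exact Nat.le.intro (k := 9 + 6*s^1 + 48*r^1 + 62*r^1*s^1 + 18*r^1*s^2 + 90*r^2 + 146*r^2*s^1 + 57*r^2*s^2 + 82*r^3 + 150*r^3*s^1 + 68*r^3*s^2 + 40*r^4 + 78*r^4*s^1 + 38*r^4*s^2 + 10*r^5 + 20*r^5*s^1 + 10*r^5*s^2 + 1*r^6 + 2*r^6*s^1 + 1*r^6*s^2) (by ring)
  · exact Nat.le.intro (k := 3 + 18*s^1 + 12*s^2 + 40*r^1 + 111*r^1*s^1 + 64*r^1*s^2 + 85*r^2 + 209*r^2*s^1 + 119*r^2*s^2 + 81*r^3 + 187*r^3*s^1 + 105*r^3*s^2 + 40*r^4 + 88*r^4*s^1 + 48*r^4*s^2 + 10*r^5 + 21*r^5*s^1 + 11*r^5*s^2 + 1*r^6 + 2*r^6*s^1 + 1*r^6*s^2) (by ring)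
  · exact Nat.le.intro (k := 57 + 54*s^1 + 12*s^2 + 299*r^1 + 411*r^1*s^1 + 136*r^1*s^2 + 597*r^2 + 968*r^2*s^1 + 383*r^2*s^2 + 621*r^3 + 1110*r^3*s^1 + 491*r^3*s^2 + 373*r^4 + 709*r^4*s^1 + 336*r^4*s^2 + 131*r^5 + 258*r^5*s^1 + 127*r^5*s^2 + 25*r^6 + 50*r^6*s^1 + 25*r^6*s^2 + 2*r^7 + 4*r^7*s^1 + 2*r^7*s^2) (by ring)
  · exact Nat.le.intro (k := 19 + 30*s^1 + 12*s^2 + 88*r^1 + 151*r^1*s^1 + 64*r^1*s^2 + 141*r^2 + 260*r^2*s^1 + 119*r^2*s^2 + 113*r^3 + 218*r^3*s^1 + 105*r^3*s^2 + 49*r^4 + 97*r^4*s^1 + 48*r^4*s^2 + 11*r^5 + 22*r^5*s^1 + 11*r^5*s^2 + 1*r^6 + 2*r^6*s^1 + 1*r^6*s^2) (by ring)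
  · exact Nat.le.intro (k := 37 + 42*s^1 + 12*s^2 + 193*r^1 + 281*r^1*s^1 + 100*r^1*s^2 + 369*r^2 + 614*r^2*s^1 + 251*r^2*s^2 + 367*r^3 + 664*r^3*s^1 + 298*r^3*s^2 + 211*r^4 + 403*r^4*s^1 + 192*r^4*s^2 + 71*r^5 + 140*r^5*s^1 + 69*r^5*s^2 + 13*r^6 + 26*r^6*s^1 + 13*r^6*s^2 + 1*r^7 + 2*r^7*s^1 + 1*r^7*s^2) (by ring)
  · exact Nat.le.intro (k := 20 + 39*s^1 + 18*s^2 + 52*r^1 + 112*r^1*s^1 + 57*r^1*s^2 + 57*r^2 + 126*r^2*s^1 + 68*r^2*s^2 + 32*r^3 + 70*r^3*s^1 + 38*r^3*s^2 + 9*r^4 + 19*r^4*s^1 + 10*r^4*s^2 + 1*r^5 + 2*r^5*s^1 + 1*r^5*s^2) (by ring)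
  · exact Nat.le.intro (k := 17 + 39*s^1 + 18*s^2 + 132*r^1 + 247*r^1*s^1 + 111*r^1*s^2 + 300*r^2 + 558*r^2*s^1 + 257*r^2*s^2 + 329*r^3 + 628*r^3*s^1 + 299*r^3*s^2 + 201*r^4 + 393*r^4*s^1 + 192*r^4*s^2 + 70*r^5 + 139*r^5*s^1 + 69*r^5*s^2 + 13*r^6 + 26*r^6*s^1 + 13*r^6*s^2 + 1*r^7 + 2*r^7*s^1 + 1*r^7*s^2) (by ring)

theorem poly_O2 (t s P Non N : ℕ) (hP : P = ((t + 1) ^ 2 + 4 * (t + 1) + 3) * (s + 1) + 1)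
    (hNon : Non = ((t + 1 + 2) * P + 1) * P * (t + 1 + 1))
    (hN : N = ((t + 1 + 2) ^ 3 * P + 1) * ((s + 1) * (t + 1 + 2) ^ 2 + 1)) :
    N ≤ (t + 1 + 2) * (2 * (Non + 1)) := by
  subst hNon hN hP
  exact Nat.le.intro (k := 590 + 924*s^1 + 360*s^2 + 1940*t^1 + 3359*t^1*s^1 + 1446*t^1*s^2 + 2492*t^2 + 4578*t^2*s^1 + 2095*t^2*s^2 + 1687*t^3 + 3221*t^3*s^1 + 1535*t^3*s^2 + 662*t^4 + 1296*t^4*s^1 + 634*t^4*s^2 + 152*t^5 + 302*t^5*s^1 + 150*t^5*s^2 + 19*t^6 + 38*t^6*s^1 + 19*t^6*s^2 + 1*t^7 + 2*t^7*s^1 + 1*t^7*s^2) (by ring)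

theorem poly_E (r s P' P W L I Non I' N : ℕ) (hP' : P' = (r ^ 2 + 6 * r + 8) * (s + 1) + 1)
    (hP : P = (r + 3) * P') (hW : W = (r + 3) * P) (hL : L = (r + 3) ^ 2 * (s + 1) + 1)
    (hI : I = (r ^ 2 + 6 * r + 8) * L * (P + 1)) (hNon : Non = (r ^ 2 + 6 * r + 8) * L * P * (r + 2))
    (hI' : I' = L * (P + 1)) (hN : N = (L * (r + 3) ^ 2 + 1) * ((r + 3) ^ 2 * P + 1)) :
    (r ^ 2 + 6 * r + 8) * L + 1 = W ∧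
    N = (r + 3) ^ 2 * I' + 1 + (r + 3) * W ^ 2 ∧
    I + Non + 1 = W ^ 2 ∧
    I ≤ Non ∧
    N ≤ (r + 3) * ((r + 3 + 1) * (I + 1)) ∧
    N ≤ (r + 3) * (2 * (Non + 1)) ∧
    N ≤ (r + 3) * (3 * (Non + 1)) ∧
    N ≤ (r + 3) * (2 + 2 * I + Non) ∧
    N ≤ (r + 3) * (2 + I + 2 * Non) ∧
    I + Non + 1 ≤ (r + 3 + 1) * (I + 1) ∧
    W ^ 2 ≤ (r ^ 2 + 6 * r + 8) * I ∧
    (((r ^ 2 + 6 * r + 8) * (L * (r + 3) ^ 2 + 1)) * ((r ^ 2 + 6 * r + 8) * L)) ≤ (r ^ 2 + 6 * r + 8) * ((r + 3 + 1) * I) := by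
  subst hI hNon hI' hN hL hW hP hP'
  refine ⟨by ring, by ring, by ring, ?_, ?_, ?_, ?_, ?_, ?_, ?_, ?_, ?_⟩
  · exact Nat.le.intro (k := 2080 + 3792*s^1 + 1728*s^2 + 7128*r^1 + 13132*r^1*s^1 + 6048*r^1*s^2 + 10116*r^2 + 18974*r^2*s^1 + 8892*r^2*s^2 + 7916*r^3 + 15134*r^3*s^1 + 7228*r^3*s^2 + 3778*r^4 + 7348*r^4*s^1 + 3571*r^4*s^2 + 1134*r^5 + 2236*r^5*s^1 + 1102*r^5*s^2 + 210*r^6 + 418*r^6*s^1 + 208*r^6*s^2 + 22*r^7 + 44*r^7*s^1 + 22*r^7*s^2 + 1*r^8 + 2*r^8*s^1 + 1*r^8*s^2) (by ring)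
  · exact Nat.le.intro (k := 4688 + 7812*s^1 + 3240*s^2 + 13224*r^1 + 23037*r^1*s^1 + 9990*r^1*s^2 + 16145*r^2 + 29251*r^2*s^1 + 13203*r^2*s^2 + 11199*r^3 + 20971*r^3*s^1 + 9795*r^3*s^2 + 4843*r^4 + 9312*r^4*s^1 + 4471*r^4*s^2 + 1340*r^5 + 2628*r^5*s^1 + 1288*r^5*s^2 + 232*r^6 + 461*r^6*s^1 + 229*r^6*s^2 + 23*r^7 + 46*r^7*s^1 + 23*r^7*s^2 + 1*r^8 + 2*r^8*s^1 + 1*r^8*s^2) (by ring)
  · exact Nat.le.intro (k := 3722 + 6948*s^1 + 3240*s^2 + 17843*r^1 + 32901*r^1*s^1 + 15174*r^1*s^2 + 32048*r^2 + 59803*r^2*s^1 + 27891*r^2*s^2 + 30927*r^3 + 58695*r^3*s^1 + 27831*r^3*s^2 + 18289*r^4 + 35287*r^4*s^1 + 17011*r^4*s^2 + 6990*r^5 + 13678*r^5*s^1 + 6689*r^5*s^2 + 1743*r^6 + 3448*r^6*s^1 + 1705*r^6*s^2 + 275*r^7 + 548*r^7*s^1 + 273*r^7*s^2 + 25*r^8 + 50*r^8*s^1 + 25*r^8*s^2 + 1*r^9 + 2*r^9*s^1 + 1*r^9*s^2) (by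 ring)
  · exact Nat.le.intro (k := 16685 + 30132*s^1 + 13608*s^2 + 59100*r^1 + 108441*r^1*s^1 + 49734*r^1*s^2 + 90152*r^2 + 168459*r^2*s^1 + 78651*r^2*s^2 + 78477*r^3 + 149284*r^3*s^1 + 70947*r^3*s^2 + 43223*r^4 + 83549*r^4*s^1 + 40353*r^4*s^2 + 15683*r^5 + 30723*r^5*s^1 + 15042*r^5*s^2 + 3759*r^6 + 7440*r^6*s^1 + 3681*r^6*s^2 + 575*r^7 + 1146*r^7*s^1 + 571*r^7*s^2 + 51*r^8 + 102*r^8*s^1 + 51*r^8*s^2 + 2*r^9 + 4*r^9*s^1 + 2*r^9*s^2) (by ring)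
  · exact Nat.le.intro (k := 4202 + 7380*s^1 + 3240*s^2 + 12171*r^1 + 22065*r^1*s^1 + 9990*r^1*s^2 + 15200*r^2 + 28351*r^2*s^1 + 13203*r^2*s^2 + 10749*r^3 + 20532*r^3*s^1 + 9795*r^3*s^2 + 4723*r^4 + 9193*r^4*s^1 + 4471*r^4*s^2 + 1323*r^5 + 2611*r^5*s^1 + 1288*r^5*s^2 + 231*r^6 + 460*r^6*s^1 + 229*r^6*s^2 + 23*r^7 + 46*r^7*s^1 + 23*r^7*s^2 + 1*r^8 + 2*r^8*s^1 + 1*r^8*s^2) (by ring)
  · exact Nat.le.intro (k := 10442 + 18756*s^1 + 8424*s^2 + 35635*r^1 + 65253*r^1*s^1 + 29862*r^1*s^2 + 52676*r^2 + 98405*r^2*s^1 + 45927*r^2*s^2 + 44613*r^3 + 84908*r^3*s^1 + 40371*r^3*s^2 + 23973*r^4 + 46371*r^4*s^1 + 22412*r^4*s^2 + 8503*r^5 + 16667*r^5*s^1 + 8165*r^5*s^2 + 1995*r^6 + 3950*r^6*s^1 + 1955*r^6*s^2 + 299*r^7 + 596*r^7*s^1 + 297*r^7*s^2 + 26*r^8 + 52*r^8*s^1 + 26*r^8*s^2 + 1*r^9 + 2*r^9*s^1 + 1*r^9*s^2)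 (by ring)
  · exact Nat.le.intro (k := 2403 + 4080*s^1 + 1728*s^2 + 5481*r^1 + 9748*r^1*s^1 + 4320*r^1*s^2 + 5364*r^2 + 9918*r^2*s^1 + 4572*r^2*s^2 + 2924*r^3 + 5578*r^3*s^1 + 2656*r^3*s^2 + 960*r^4 + 1875*r^4*s^1 + 915*r^4*s^2 + 190*r^5 + 377*r^5*s^1 + 187*r^5*s^2 + 21*r^6 + 42*r^6*s^1 + 21*r^6*s^2 + 1*r^7 + 2*r^7*s^1 + 1*r^7*s^2) (by ring)
  · exact Nat.le.intro (k := 11359 + 19824*s^1 + 8640*s^2 + 37416*r^1 + 67316*r^1*s^1 + 30240*r^1*s^2 + 54116*r^2 + 100054*r^2*s^1 + 46188*r^2*s^2 + 45232*r^3 + 85604*r^3*s^1 + 40460*r^3*s^2 + 24122*r^4 + 46534*r^4*s^1 + 22427*r^4*s^2 + 8522*r^5 + 16687*r^5*s^1 + 8166*r^5*s^2 + 1996*r^6 + 3951*r^6*s^1 + 1955*r^6*s^2 + 299*r^7 + 596*r^7*s^1 + 297*r^7*s^2 + 26*r^8 + 52*r^8*s^1 + 26*r^8*s^2 + 1*r^9 + 2*r^9*s^1 + 1*r^9*s^2) (by ring)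
  · exact Nat.le.intro (k := 13440 + 21696*s^1 + 8640*s^2 + 42304*r^1 + 71840*r^1*s^1 + 30240*r^1*s^2 + 59048*r^2 + 104732*r^2*s^1 + 46188*r^2*s^2 + 48000*r^3 + 88284*r^3*s^1 + 40460*r^3*s^2 + 25054*r^4 + 47451*r^4*s^1 + 22427*r^4*s^2 + 8710*r^5 + 16874*r^5*s^1 + 8166*r^5*s^2 + 2017*r^6 + 3972*r^6*s^1 + 1955*r^6*s^2 + 300*r^7 + 597*r^7*s^1 + 297*r^7*s^2 + 26*r^8 + 52*r^8*s^1 + 26*r^8*s^2 + 1*r^9 + 2*r^9*s^1 + 1*r^9*s^2) (by ring)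

/-- The numerical facts for odd `k`. -/
theorem exists_nums_odd (q k I Non : ℕ) (hq : 2 ≤ q) (hk : 3 ≤ k) (hodd : Odd k)
    (hI : I = (q ^ k + 1) * (q ^ (k - 1) - 1)) (hNon : I + Non + 1 = q ^ (2 * k)) :
    ∃ I' N, Nums q k I Non I' N ∧ (q ^ (2 + k) + 1) * (q ^ (2 + k - 1) - 1) = (q ^ 2 - 1) * N := by
  obtain ⟨t, rfl⟩ : ∃ t, k = 2 * t + 3 := by
    obtain ⟨t, ht⟩ := hodd
    exact ⟨t - 1, by omega⟩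
  obtain ⟨r, rfl⟩ : ∃ r, q = r + 2 := ⟨q - 2, by omega⟩
  have hA : (r + 2) ^ 2 - 1 = r ^ 2 + 4 * r + 3 := by
    have : (r + 2) ^ 2 = r ^ 2 + 4 * r + 3 + 1 := by ring
    omega
  have hdvd := Nat.sub_dvd_pow_sub_pow ((r + 2) ^ 2) 1 (t + 1)
  rw [one_pow, hA] at hdvd
  obtain ⟨L, hL⟩ := hdvd
  set P := ((r + 2) ^ 2) ^ (t + 1) with hPdef
  have hP1 : 1 < P := by
    rw [hPdef, ← pow_mul]
    exact Nat.one_lt_pow (by omega) (by omega)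
  have hL0 : L ≠ 0 := by
    rintro rfl
    simp at hL
    omega
  obtain ⟨s, rfl⟩ : ∃ s, L = s + 1 := ⟨L - 1, by omega⟩
  have hP : P = (r ^ 2 + 4 * r + 3) * (s + 1) + 1 := by omega
  have e1 : (r + 2) ^ (2 * t + 3 - 1) = P := by
    rw [hPdef, ← pow_mul]
    congr 1 <;> omega
  have e2 : (r + 2) ^ (2 * t + 3) = (r + 2) * P := by
    rw [hPdef, ← pow_mul, ← pow_succ']
    congr 1 <;> omega
  have e3 : (r + 2) ^ (2 * (2 * t + 3)) = (r + 2) ^ 2 * P ^ 2 := by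
    rw [pow_mul', e2, mul_pow]
  have e4 : (r + 2) ^ (2 + (2 * t + 3)) = (r + 2) ^ 3 * P := by
    rw [hPdef, ← pow_mul, ← pow_add]
    congr 1 <;> omega
  have e5 : (r + 2) ^ (2 + (2 * t + 3) - 1) = (r + 2) ^ 2 * P := by
    rw [hPdef, ← pow_mul, ← pow_add]
    congr 1 <;> omega
  rw [e1, e2] at hI
  rw [e3] at hNon
  have hI₀ : I = ((r + 2) * P + 1) * ((r ^ 2 + 4 * r + 3) * (s + 1)) := by
    rw [hI]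
    congr 1
  have h := poly_O r s P I (((r + 2) * P + 1) * P * (r + 1)) (((r + 2) * P + 1) * (s + 1))
    (((r + 2) ^ 3 * P + 1) * ((s + 1) * (r + 2) ^ 2 + 1)) hP hI₀ rfl rfl rfl
  obtain ⟨h1, h2, h3, h4, h5, h6, h7, h8, h9⟩ := h
  have hNon₀ : Non = ((r + 2) * P + 1) * P * (r + 1) := by omega
  subst hNon₀
  refine ⟨((r + 2) * P + 1) * (s + 1), ((r + 2) ^ 3 * P + 1) * ((s + 1) * (r + 2) ^ 2 + 1), ?_, ?_⟩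
  · refine ⟨?_, ?_, ?_, ?_, ?_, h4, ?_, fun _ => ?_, ?_, ?_, h8, ?_, ?_⟩
    · rw [hA, hI₀]
      ring
    · rw [e3]
      exact h1
    · exact h3
    · rw [hI₀]
      positivity
    · have : 0 < P := by omega
      positivity
    · intro hr
      obtain ⟨t', rfl⟩ : ∃ t', r = t' + 1 := ⟨r - 1, by omega⟩
      exact poly_O2 t' s P _ _ hP rfl rfl
    · exact h5
    · exact h6
    · exact h7
    · rw [e3, hA]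
      exact h9
    · intro hev
      exact absurd hev (Nat.not_even_iff_odd.mpr hodd)
  · rw [e4, e5, hA]
    have e6 : (r + 2) ^ 2 * P - 1 = (r ^ 2 + 4 * r + 3) * ((s + 1) * (r + 2) ^ 2 + 1) := by
      apply Nat.sub_eq_of_eq_add
      rw [hP]
      ring
    rw [e6]
    ring

/-- The numerical facts for even `k`. -/
theorem exists_nums_even (q k I Non : ℕ) (hq : 3 ≤ q) (hk : 3 ≤ k) (hev : Even k)
    (hI : I = (q ^ k - 1) * (q ^ (k - 1) + 1)) (hNon : I + Non + 1 = q ^ (2 * k)) :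
    ∃ I' N, Nums q k I Non I' N ∧ (q ^ (2 + k) - 1) * (q ^ (2 + k - 1) + 1) = (q ^ 2 - 1) * N := by
  obtain ⟨t, rfl⟩ : ∃ t, k = 2 * t + 4 := by
    obtain ⟨t, ht⟩ := hev
    exact ⟨t - 2, by omega⟩
  obtain ⟨r, rfl⟩ : ∃ r, q = r + 3 := ⟨q - 3, by omega⟩
  have hA : (r + 3) ^ 2 - 1 = r ^ 2 + 6 * r + 8 := by
    have : (r + 3) ^ 2 = r ^ 2 + 6 * r + 8 + 1 := by ring
    omega
  have hdvd := Nat.sub_dvd_pow_sub_pow ((r + 3) ^ 2) 1 (t + 1)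
  rw [one_pow, hA] at hdvd
  obtain ⟨L₀, hL₀⟩ := hdvd
  set P' := ((r + 3) ^ 2) ^ (t + 1) with hPdef
  have hP1 : 1 < P' := by
    rw [hPdef, ← pow_mul]
    exact Nat.one_lt_pow (by omega) (by omega)
  have hL0 : L₀ ≠ 0 := by
    rintro rfl
    simp at hL₀
    omega
  obtain ⟨s, rfl⟩ : ∃ s, L₀ = s + 1 := ⟨L₀ - 1, by omega⟩
  have hP' : P' = (r ^ 2 + 6 * r + 8) * (s + 1) + 1 := by omega
  set P := (r + 3) * P' with hP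
  set W := (r + 3) * P with hW
  set L := (r + 3) ^ 2 * (s + 1) + 1 with hL
  have e1 : (r + 3) ^ (2 * t + 4 - 1) = P := by
    rw [hP, hPdef, ← pow_mul, ← pow_succ']
    congr 1 <;> omega
  have e2 : (r + 3) ^ (2 * t + 4) = W := by
    rw [hW, hP, hPdef, ← pow_mul, ← pow_succ', ← pow_succ']
    congr 1 <;> omega
  have e3 : (r + 3) ^ (2 * (2 * t + 4)) = W ^ 2 := by
    rw [pow_mul', e2]
  have e4 : (r + 3) ^ (2 + (2 * t + 4)) = (r + 3) ^ 2 * W := by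
    rw [pow_add, e2]
  have e4' : (r + 3) ^ (2 * t + 4 + 2) = (r + 3) ^ 2 * W := by
    rw [pow_add, e2]
    ring
  have e5 : (r + 3) ^ (2 + (2 * t + 4) - 1) = (r + 3) ^ 2 * P := by
    have : 2 + (2 * t + 4) - 1 = 2 + (2 * t + 4 - 1) := by omega
    rw [this, pow_add, e1]
  rw [e1, e2] at hI
  rw [e3] at hNon
  have h0 : (r ^ 2 + 6 * r + 8) * L + 1 = W := by
    rw [hW, hP, hP', hL]
    ring
  have hI₀ : I = (r ^ 2 + 6 * r + 8) * L * (P + 1) := by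
    rw [hI]
    congr 1 <;> omega
  have h := poly_E r s P' P W L I ((r ^ 2 + 6 * r + 8) * L * P * (r + 2)) (L * (P + 1))
    ((L * (r + 3) ^ 2 + 1) * ((r + 3) ^ 2 * P + 1)) hP' rfl rfl rfl hI₀ rfl rfl rfl
  obtain ⟨h0', h1, h2, h3, h4, h4', h5, h6, h7, h8, h9, h10⟩ := h
  have hNon₀ : Non = (r ^ 2 + 6 * r + 8) * L * P * (r + 2) := by omega
  subst hNon₀
  have e6 : (r + 3) ^ 2 * W - 1 = (r ^ 2 + 6 * r + 8) * (L * (r + 3) ^ 2 + 1) := by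
    apply Nat.sub_eq_of_eq_add
    rw [← h0]
    ring
  refine ⟨L * (P + 1), (L * (r + 3) ^ 2 + 1) * ((r + 3) ^ 2 * P + 1), ?_, ?_⟩
  · refine ⟨?_, ?_, ?_, ?_, ?_, h4, fun _ => ?_, fun _ => ?_, ?_, ?_, h8, ?_, ?_⟩
    · rw [hA, hI₀]
      ring
    · rw [e3]
      exact h1
    · exact h3
    · rw [hI₀, hP, hL]
      positivity
    · have : 0 < P' := by omega
      rw [hP, hL]
      positivity
    · exact h4'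
    · exact h5
    · exact h6
    · exact h7
    · rw [e3, hA]
      exact h9
    · intro _
      rw [e4', e2, hA, e6]
      have e7 : W - 1 = (r ^ 2 + 6 * r + 8) * L := by omega
      rw [e7]
      exact h10
  · rw [e4, e5, hA, e6]
    ring

/-- The numerical facts. -/
theorem exists_nums (q k I Non : ℕ) (hq : 2 ≤ q) (hk : 3 ≤ k) (hq3 : Even k → 3 ≤ q)
    (hI : I = if Even k then (q ^ k - 1) * (q ^ (k - 1) + 1) else (q ^ k + 1) * (q ^ (k - 1) - 1))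
    (hNon : I + Non + 1 = q ^ (2 * k)) :
    ∃ I' N, Nums q k I Non I' N ∧
      (if Even (2 + k) then (q ^ (2 + k) - 1) * (q ^ (2 + k - 1) + 1) else (q ^ (2 + k) + 1) * (q ^ (2 + k - 1) - 1)) =
        (q ^ 2 - 1) * N := by
  by_cases hev : Even k
  · rw [if_pos hev] at hI
    have hev' : Even (2 + k) := by
      rw [Nat.even_add]
      simp [hev]
    rw [if_pos hev']
    exact exists_nums_even q k I Non (hq3 hev) hk hev hI hNon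
  · rw [if_neg hev] at hI
    have hev' : ¬ Even (2 + k) := by
      rw [Nat.even_add]
      simp [hev]
    rw [if_neg hev']
    exact exists_nums_odd q k I Non hq hk (Nat.not_even_iff_odd.mp hev) hI hNon

end Cfsg.Agent.Lib.MinIndex.UNums
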