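import Mathlib
import Cfsg.Agent.Lib.MinIndex.UMain
import Cfsg.Agent.Lib.MinIndex.UNums

/-!
# The minimal index of a proper subgroup of the projective special unitary group
-/

set_option autoImplicit false
set_option linter.unusedSectionVars false
set_option linter.unusedSimpArgs false
set_option linter.unusedVariables false
set_option linter.unusedTactic false

open scoped Matrix
open Cfsg
open Cfsg.Agent.Lib.Classical.Herm.Basic Cfsg.Agent.Lib.Classical.Herm.Form
open Cfsg.Agent.Lib.Classical.Herm.GU Cfsg.Agent.Lib.Classical.Herm.SU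
open Cfsg.Agent.Lib.Classical.Herm.Subfield Cfsg.Agent.Lib.Classical.Herm.Isotropic
open Cfsg.Agent.Lib.Classical.Herm.Tv Cfsg.Agent.Lib.Classical.Herm.Comm
open Cfsg.Agent.Lib.Classical.Herm.Block Cfsg.Agent.Lib.Classical.Herm.Levi
open Cfsg.Agent.Lib.MinIndex.ULocal Cfsg.Agent.Lib.MinIndex.UHeis
open Cfsg.Agent.Lib.MinIndex.UTypes Cfsg.Agent.Lib.MinIndex.UFix Cfsg.Agent.Lib.MinIndex.UMain
open Cfsg.Agent.Lib.MinIndex.UNums

namespace Cfsg.Agent.Lib.MinIndex.UFinal

variable {F : Type*} [Field F] [Fintype F] {q n k : ℕ}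

local notation "⟪" x ", " y "⟫" => hermForm _ _ q x y

variable (hF : Fintype.card F = q ^ 2)

include hF

/-- The isotropic vectors as a set with an action of the special unitary group. -/
@[instance_reducible] def actIso : MulAction (SU n F q) {v : Fin n → F // v ≠ 0 ∧ ⟪v, v⟫ = 0} where
  smul g v := ⟨act g v.1, act_ne_zero g v.2.1, by rw [h_act]; exact v.2.2⟩
  one_smul v := by
    apply Subtype.ext
    exact act_one _
  mul_smul g g' v := by
    apply Subtype.ext
    exact act_mul _ _ _

/-- The stabilizer of an isotropic line. -/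
def lineStab (n : ℕ) (q : ℕ) (c : Fin n → F) (hc : c ≠ 0) : Subgroup (SU n F q) where
  carrier := {g | ∃ l : F, l ≠ 0 ∧ act g c = l • c}
  mul_mem' := by
    rintro a b ⟨l, hl, h1⟩ ⟨l', hl', h2⟩
    refine ⟨l * l', mul_ne_zero hl hl', ?_⟩
    rw [act_mul, h2, act_smul, h1, smul_smul, mul_comm]
  one_mem' := ⟨1, one_ne_zero, by rw [act_one, one_smul]⟩
  inv_mem' := by
    rintro a ⟨l, hl, h1⟩
    exact ⟨l⁻¹, inv_ne_zero hl, act_inv_scale a hl h1⟩

/-- The center of the special unitary group consists of scalars. -/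
theorem center_le_lineStab (c : Fin n → F) (hc : c ≠ 0) : Subgroup.center (SU n F q) ≤ lineStab n q c hc := by
  intro z hz
  obtain ⟨l, hl⟩ := scalar_of_commute hF (mat z) (fun A => by
    have := (Subgroup.mem_center_iff.mp hz) A
    have h2 := congrArg mat this
    rw [mat_mul, mat_mul] at h2
    exact h2)
  have h1 : act z c = l • c := by
    change mat z *ᵥ c = _
    rw [hl]
    funext i
    simp [Matrix.scalar_apply, Matrix.mulVec_diagonal]
  refine ⟨l, ?_, h1⟩
  rintro rfl
  rw [zero_smul] at h1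
  exact act_ne_zero z hc h1

/-- The index of the stabilizer of an isotropic line. -/
theorem index_lineStab (hn : 3 ≤ n) {N : ℕ} (hV : (isoC F q n).card = (q ^ 2 - 1) * N) {c c' : Fin n → F}
    (hcc : ⟪c, c⟫ = 0) (hc : c ≠ 0) (hcc' : ⟪c, c'⟫ = 1) : (lineStab n q c hc).index = N := by
  classical
  have hq := two_le_q hF
  have hQ : 0 < q ^ 2 - 1 := by
    have : 4 ≤ q ^ 2 := by nlinarith
    omega
  let _ := actIso (F := F) (q := q) (n := n)
  have htr : MulAction.IsPretransitive (SU n F q) {v : Fin n → F // v ≠ 0 ∧ ⟪v, v⟫ = 0} := by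
    refine ⟨fun x y => ?_⟩
    obtain ⟨g, -, hg⟩ := reach_iso hF hn x.2.2 y.2.2 x.2.1 y.2.1
    exact ⟨g, Subtype.ext hg⟩
  set c₀ : {v : Fin n → F // v ≠ 0 ∧ ⟪v, v⟫ = 0} := ⟨c, hc, hcc⟩ with hc₀
  set S₁ := MulAction.stabilizer (SU n F q) c₀ with hS₁
  have hmem : ∀ g, g ∈ S₁ ↔ act g c = c := by
    intro g
    rw [hS₁, MulAction.mem_stabilizer_iff]
    exact Subtype.ext_iff
  have h1 : S₁.index = (isoC F q n).card := by
    rw [MulAction.index_stabilizer_of_transitive, Nat.card_eq_fintype_card, Fintype.card_subtype]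
    apply congrArg Finset.card
    ext v
    rw [mem_isoC]
    simp
  have hle : S₁ ≤ lineStab n q c hc := by
    intro g hg
    exact ⟨1, one_ne_zero, by rw [(hmem g).mp hg, one_smul]⟩
  have h2 := Subgroup.relIndex_mul_index hle
  -- the character
  have hl : ∀ g : lineStab n q c hc, act g.1 c = ⟪act g.1 c, c'⟫ • c := by
    rintro ⟨g, l, hl, h3⟩
    simp only
    rw [h3, hermForm_smul_left, hcc', mul_one]
  have hl0 : ∀ g : lineStab n q c hc, ⟪act g.1 c, c'⟫ ≠ 0 := by
    rintro ⟨g, l, hl, h3⟩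
    simp only
    rw [h3, hermForm_smul_left, hcc', mul_one]
    exact hl
  let φ : lineStab n q c hc →* Fˣ :=
    { toFun := fun g => Units.mk0 _ (hl0 g)
      map_one' := by
        apply Units.ext
        simp only [Units.val_mk0, Units.val_one]
        change ⟪act (1 : SU n F q) c, c'⟫ = 1
        rw [act_one, hcc']
      map_mul' := by
        intro a b
        apply Units.ext
        simp only [Units.val_mk0, Units.val_mul]
        change ⟪act (a.1 * b.1) c, c'⟫ = _
        rw [act_mul]
        conv_lhs => rw [hl b]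
        rw [act_smul, hermForm_smul_left, mul_comm] }
  have hker : S₁.subgroupOf (lineStab n q c hc) = φ.ker := by
    ext g
    rw [Subgroup.mem_subgroupOf, hmem, MonoidHom.mem_ker, Units.ext_iff]
    simp only [Units.val_one, φ]
    change _ ↔ ⟪act g.1 c, c'⟫ = 1
    constructor
    · intro h3
      rw [h3, hcc']
    · intro h3
      rw [hl g, h3, one_smul]
  have hsurj : Function.Surjective φ := by
    intro u
    have hne : (u : F) • c ≠ 0 := smul_ne_zero u.ne_zero hc
    have hiso : ⟪(u : F) • c, (u : F) • c⟫ = 0 := by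
      rw [hermForm_smul_left, hermForm_smul_right, hcc]
      ring
    obtain ⟨g, -, hg⟩ := reach_iso hF hn hcc hiso hc hne
    refine ⟨⟨g, u, u.ne_zero, hg⟩, ?_⟩
    apply Units.ext
    simp only [φ]
    change ⟪act g c, c'⟫ = u
    rw [hg, hermForm_smul_left, hcc', mul_one]
  have h3 : S₁.relIndex (lineStab n q c hc) = q ^ 2 - 1 := by
    rw [Subgroup.relIndex, hker, Subgroup.index_ker, MonoidHom.range_eq_top.mpr hsurj, Subgroup.card_top,
      Nat.card_units, Nat.card_eq_fintype_card, hF]
  rw [h3, h1, hV] at h2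
  exact Nat.eq_of_mul_eq_mul_left hQ h2

/-- The number of isotropic vectors. -/
theorem card_isoC_if (n : ℕ) :
    (isoC F q n).card = if Even n then (q ^ n - 1) * (q ^ (n - 1) + 1) else (q ^ n + 1) * (q ^ (n - 1) - 1) := by
  have h1 := card_isoC_eq (F := F) (q := q) (k := n)
  rw [card_norm_zero hF] at h1
  omega

/-- The numbers. -/
theorem exists_data (hk : 3 ≤ k) (hq3 : Even k → 3 ≤ q) :
    ∃ I' N, Nums q k (isoC F q k).card (nonC F q k).card I' N ∧ (isoC F q (2 + k)).card = (q ^ 2 - 1) * N := by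
  obtain ⟨I', N, h1, h2⟩ := exists_nums q k (isoC F q k).card (nonC F q k).card (two_le_q hF) hk hq3
    (card_isoC_if hF k) (card_C_add hF)
  refine ⟨I', N, h1, ?_⟩
  rw [card_isoC_if hF, h2]

/-- The main theorem. -/
theorem main_theorem (hk : 3 ≤ k) (hZ : 3 ≤ q ∨ (q = 2 ∧ Odd k)) {V : ℕ}
    (hV : V = (isoC F q (2 + k)).card) :
    (∀ H : Subgroup (Cfsg.PSU (2 + k) F q), H ≠ ⊤ → V / (q ^ 2 - 1) ≤ H.index) ∧
      ∃ H : Subgroup (Cfsg.PSU (2 + k) F q), H.index = V / (q ^ 2 - 1) := by
  classical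
  have hq := two_le_q hF
  have hQ : 0 < q ^ 2 - 1 := by
    have : 4 ≤ q ^ 2 := by nlinarith
    omega
  have hq3 : Even k → 3 ≤ q := by
    intro hev
    rcases hZ with h | ⟨-, h⟩
    · exact h
    · exact absurd hev (Nat.not_even_iff_odd.mpr h)
  obtain ⟨I', N, hnum, hN⟩ := exists_data hF hk hq3
  have hdiv : V / (q ^ 2 - 1) = N := by
    rw [hV, hN, Nat.mul_div_cancel_left _ hQ]
  rw [hdiv]
  constructor
  · intro H hH
    set f := QuotientGroup.mk' (Subgroup.center (SU (2 + k) F q)) with hf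
    have hsurj : Function.Surjective f := QuotientGroup.mk'_surjective _
    set H' := H.comap f with hH'
    have hidx : H'.index = H.index := Subgroup.index_comap_of_surjective H hsurj
    rw [← hidx]
    have htop : H' ≠ ⊤ := by
      intro h
      apply hH
      rw [eq_top_iff]
      intro x _
      obtain ⟨y, rfl⟩ := hsurj x
      have : y ∈ H' := by rw [h]; trivial
      exact this
    let _ : Fintype (SU (2 + k) F q ⧸ H') := Fintype.ofFinite _
    have hnt : Nontrivial (SU (2 + k) F q ⧸ H') := QuotientGroup.nontrivial_iff.mpr htop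
    have hmain := min_degree hF (Ω := SU (2 + k) F q ⧸ H') hk hZ hnum hN
    rwa [Subgroup.index_eq_card, Nat.card_eq_fintype_card]
  · obtain ⟨c, c', h⟩ := exists_HP (m := k) hF
    have hidx := index_lineStab hF (n := 2 + k) (by omega) hN h.ee (h.e_ne hF) h.ef
    refine ⟨(lineStab (2 + k) q c (h.e_ne hF)).map (QuotientGroup.mk' (Subgroup.center (SU (2 + k) F q))), ?_⟩
    rw [Subgroup.index_map_eq _ (QuotientGroup.mk'_surjective _) (by
      rw [QuotientGroup.ker_mk']
      exact center_le_lineStab hF c (h.e_ne hF)), hidx]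

end Cfsg.Agent.Lib.MinIndex.UFinal
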