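import Mathlib
import Cfsg.Agent.Lib.MinIndex.UFinal

/-!
# The special unitary groups over the field with four elements: auxiliary facts

Over the field with four elements and in even dimension, the count of the isotropic and the non-isotropic
vectors of the perp are in the other order, so the bounds from the other files have to be modified.
-/

set_option autoImplicit false
set_option linter.unusedSectionVars false
set_option linter.unusedSimpArgs false
set_option linter.unusedVariables false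
set_option linter.unusedTactic false

open scoped Matrix
open Cfsg
open Cfsg.Agent.Lib.Classical.Herm.Basic Cfsg.Agent.Lib.Classical.Herm.Form
open Cfsg.Agent.Lib.Classical.Herm.GU Cfsg.Agent.Lib.Classical.Herm.SU
open Cfsg.Agent.Lib.Classical.Herm.Subfield Cfsg.Agent.Lib.Classical.Herm.Isotropic
open Cfsg.Agent.Lib.Classical.Herm.Tv Cfsg.Agent.Lib.Classical.Herm.Comm
open Cfsg.Agent.Lib.Classical.Herm.Block Cfsg.Agent.Lib.Classical.Herm.Levi
open Cfsg.Agent.Lib.MinIndex.SpCount Cfsg.Agent.Lib.MinIndex.UCount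
open Cfsg.Agent.Lib.MinIndex.ULocal Cfsg.Agent.Lib.MinIndex.UW Cfsg.Agent.Lib.MinIndex.UHeis
open Cfsg.Agent.Lib.MinIndex.UTypes Cfsg.Agent.Lib.MinIndex.UFree Cfsg.Agent.Lib.MinIndex.UGlob
open Cfsg.Agent.Lib.MinIndex.UFix Cfsg.Agent.Lib.MinIndex.UFix2 Cfsg.Agent.Lib.MinIndex.UKill
open Cfsg.Agent.Lib.MinIndex.UMain

namespace Cfsg.Agent.Lib.MinIndex.U2Fix

variable {F : Type*} [Field F] [Fintype F] {q k : ℕ}

local notation "⟪" x ", " y "⟫" => hermForm _ _ q x y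

variable (hF : Fintype.card F = q ^ 2)

section Fix

variable {Ω : Type*} [MulAction (SU (2 + k) F q) Ω] [Fintype Ω] {c c' : Fin (2 + k) → F} (h : HP q c c')
  (ψ : AddChar F ℂ) (hψ : ∃ e : F, e + e ^ q = 0 ∧ ψ e ≠ 1)

include hF h

/-- The bound from the small annihilators, for non-isotropic vectors. -/
theorem line_case2 (hk : 3 ≤ k) {Y1 : Finset (Yc hF Ω h.ee)} (hG : Good hF h Y1) {y : Yc hF Ω h.ee} (hy : y ∈ Y1)
    (hcard : Nat.card (SS (wSet (Ω := Ω) hF h) (pairW (k := k) hF ψ hψ) y) ≤ q ^ 2)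
    {u₀ : Fin k → F} (hu₀ : u₀ ∈ SS (wSet (Ω := Ω) hF h) (pairW (k := k) hF ψ hψ) y) (hu₀0 : u₀ ≠ 0)
    (hNI : (nonC F q k).card ≤ (isoC F q k).card) :
    q ^ 2 * (nonC F q k).card ≤ (q ^ 2 - 1) * Y1.card := by
  classical
  set Y' := Y1.filter fun y => Nat.card (SS (wSet (Ω := Ω) hF h) (pairW (k := k) hF ψ hψ) y) ≤ q ^ 2 with hY'
  have hG' : Good hF h Y' := Good.filter_card ψ hψ hG _
  have hyY' : y ∈ Y' := Finset.mem_filter.mpr ⟨hy, hcard⟩
  have hsub : Y'.card ≤ Y1.card := Finset.card_filter_le _ _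
  have hb : ∀ y' ∈ Y', Nat.card (SS (wSet (Ω := Ω) hF h) (pairW (k := k) hF ψ hψ) y') ≤ q ^ 2 :=
    fun y' hy' => (Finset.mem_filter.mp hy').2
  have hm := one_le_mult (Y1 := Y') hyY' hu₀
  have hmain : q ^ 2 * (nonC F q k).card ≤ (q ^ 2 - 1) * Y'.card := by
    by_cases hN : ⟪u₀, u₀⟫ = 0
    · have := line_bound hG'.inv hb _ zero_notMem_isoC (fun v hv => hm.trans
        (mult_iso_le hF h ψ hψ hk hG' hN (mem_isoC.mp hv).2 hu₀0 (mem_isoC.mp hv).1))
      exact (Nat.mul_le_mul_left _ hNI).trans this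
    · exact line_bound hG'.inv hb _ zero_notMem_nonC (fun v hv => hm.trans
        (mult_non_le hF h ψ hψ hk hG' hN (mem_nonC.mp hv)))
  exact hmain.trans (Nat.mul_le_mul_left _ hsub)

/-- The bound for any proper stabilizer. -/
theorem fix_bound2 (hk : 3 ≤ k) {Y1 : Finset (Yc hF Ω h.ee)} (hG : Good hF h Y1) {y : Yc hF Ω h.ee} (hy : y ∈ Y1)
    {u₀ : Fin k → F} (hu₀ : u₀ ∈ SS (wSet (Ω := Ω) hF h) (pairW (k := k) hF ψ hψ) y) (hu₀0 : u₀ ≠ 0)
    (hNI : (nonC F q k).card ≤ (isoC F q k).card) :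
    q ^ 2 * (nonC F q k).card ≤ (q ^ 2 - 1) * Y1.card := by
  classical
  have hq := two_le_q hF
  have hq2 : 4 ≤ q ^ 2 := by nlinarith
  by_cases hcard : Nat.card (SS (wSet (Ω := Ω) hF h) (pairW (k := k) hF ψ hψ) y) ≤ q ^ 2
  · exact line_case2 hF h ψ hψ hk hG hy hcard hu₀ hu₀0 hNI
  have hnl : ∀ u ∈ SS (wSet (Ω := Ω) hF h) (pairW (k := k) hF ψ hψ) y, u ≠ 0 →
      ∃ x ∈ SS (wSet (Ω := Ω) hF h) (pairW (k := k) hF ψ hψ) y, ∀ κ : F, x ≠ κ • u :=
    fun u _ hu => exists_not_line hF h (not_le.mp hcard) hu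
  set I := (isoC F q k).card with hI
  set Non := (nonC F q k).card with hNon
  set Q2 := q ^ 2 with hQ2
  have hfac : Q2 * Non ≤ (Q2 - 1) * (2 * Non) := by
    obtain ⟨r, hr⟩ : ∃ r, Q2 = r + 4 := ⟨Q2 - 4, by omega⟩
    rw [hr]
    simp only [show r + 4 - 1 = r + 3 by omega]
    nlinarith
  rcases types hF h ψ hψ hk hG hy hnl hu₀ hu₀0 with h1 | h1 | ⟨h1, h2, -⟩
  · have h3 := card_ge hF h ψ hψ hG h1 (m₂ := 0) (by simp)
    rw [← hI, ← hNon] at h3
    have h4 : I * (q + 1) ≤ Y1.card := by omega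
    have h5 : 2 * Non ≤ Y1.card := by nlinarith
    exact hfac.trans (Nat.mul_le_mul_left _ h5)
  · have h3 := card_ge hF h ψ hψ hG (m₁ := 0) (by simp) (fun v hv => (h1 v hv).1)
    rw [← hI, ← hNon] at h3
    have h4 : Non * 2 ≤ Y1.card := by omega
    have h5 : 2 * Non ≤ Y1.card := by omega
    exact hfac.trans (Nat.mul_le_mul_left _ h5)
  · have h3 := card_ge hF h ψ hψ hG h1 h2
    rw [← hI, ← hNon] at h3
    have h5 : 2 * Non ≤ Y1.card := by omega
    exact hfac.trans (Nat.mul_le_mul_left _ h5)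

omit ψ hψ in
/-- The elements of a radical fix the points fixed by its root group, if the orbits of the root group on such
points are fixed by the radical. -/
theorem q1_of_top (hk : 3 ≤ k) (htop : ∀ ω₁ : Ω, Fx hF ω₁ c → (wSet (Ω := Ω) hF h).stab (mkY hF h.ee ω₁) = ⊤) :
    Q1 (n := 2 + k) hF Ω := by
  classical
  have hq := two_le_q hF
  intro u z a ω hu0 hval hFu
  obtain ⟨g, -, hg⟩ := reach_iso hF (by omega) hval.cc h.ee hu0 (h.e_ne hF)
  have hFω₁ : Fx hF (g • ω) c := by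
    have := Fx_map hF g hval.cc hFu
    rwa [hg] at this
  set ω₁ := g • ω with hω₁
  have htop := htop ω₁ hFω₁
  set z₁ := act g z with hz₁
  have hval₁ : Val q c z₁ a := by
    have := val_act hF g hval
    rwa [hg] at this
  have hdec := h.decomp hF z₁
  rw [hval₁.wc, zero_smul, add_zero] at hdec
  set β := ⟪z₁, c'⟫ with hβ
  set w := R z₁ with hw
  have hNz : ⟪z₁, z₁⟫ = ⟪w, w⟫ := by
    rw [hdec]
    simp only [hermForm_add_left, hermForm_add_right hF, hermForm_smul_left, hermForm_smul_right, h.ee, h.e_inc hF,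
      h.inc_e hF, hermForm_inc]
    ring
  have hv₂ : a + β - β ^ q + (a + β - β ^ q) ^ q + ⟪w, w⟫ = 0 := by
    have := hval₁.aa
    rw [hNz] at this
    rw [pow_q_sub hF, pow_q_add hF, pow_q_pow_q hF]
    linear_combination this
  have hval₂ := val_inc hF hv₂ h
  have e1 : rho hF c z₁ a = rho hF c (inc w) (a + β - β ^ q) := by
    have := rho_add_c hF β hval₂
    rw [← hdec] at this
    rw [← this]
    congr 1
    ring
  obtain ⟨a₁, ha₁, ha₁'⟩ := (mem_stab_mk hF h).mp (by rw [htop]; trivial : w ∈ (wSet (Ω := Ω) hF h).stab (mkY hF h.ee ω₁))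
  have hval₃ := val_inc hF ha₁ h
  have e2 : rho hF c z₁ a • ω₁ = ω₁ := by
    rw [e1, rho_eq_tt_mul hF hval₃ hval₂, mul_smul, ha₁']
    exact hFω₁ _ (val_sub hF hval₃ hval₂)
  have e3 := rho_mul_comm_of hF g hval
  rw [hg, ← hz₁] at e3
  apply smul_left_cancel g
  rw [smul_smul, e3, mul_smul]
  exact e2

end Fix

section NoFix

variable {Ω : Type*} [MulAction (SU (2 + k) F q) Ω] [MulAction.IsPretransitive (SU (2 + k) F q) Ω]
  [Nontrivial Ω] [Fintype Ω] {c c' : Fin (2 + k) → F} {I N : ℕ}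

include hF

/-- If radicals fix the points fixed by their root groups, then, when the degree is small, no root group has a
fixed point. -/
theorem no_fix_of_Q1 (h : HP q c c') (hk : 3 ≤ k) (hQ : Q1 (n := 2 + k) hF Ω)
    (hnA : q ^ (2 * k) ≤ (q ^ 2 - 1) * (isoC F q k).card)
    (hnB : Even k → (q ^ (k + 2) - 1) * (q ^ k - 1) ≤ (q ^ 2 - 1) * ((q + 1) * (isoC F q k).card))
    (hV : (isoC F q (2 + k)).card = (q ^ 2 - 1) * N) (hd : Fintype.card Ω < N) (ω₀ : Ω) : ¬ Fx hF ω₀ c := by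
  classical
  intro hω₀
  have hq := two_le_q hF
  have hQ2 : 0 < q ^ 2 - 1 := by
    have : 4 ≤ q ^ 2 := by nlinarith
    omega
  have hq2 : 4 ≤ q ^ 2 := by nlinarith
  have hf0 : 0 < (FS (Ω := Ω) hF c).card := Finset.card_pos.mpr ⟨ω₀, mem_FS.mpr hω₀⟩
  set x := Nat.card (X1 hF hQ hk ω₀) with hx
  have ha : (PS (n := 2 + k) hF ω₀).card + 1 = q ^ 2 * x :=
    (card_PS_add hF hk hQ ω₀).trans (card_XV hF h hk hQ hω₀)
  obtain ⟨a', ha'⟩ := dvd_card_PS (n := 2 + k) hF ω₀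
  have hdc := double_count (n := 2 + k) hF (by omega) ω₀ h.ee (h.e_ne hF)
  rw [hV, ha'] at hdc
  set f := (FS (Ω := Ω) hF c).card with hf
  set d := Fintype.card Ω with hdd
  have h4 : a' * d = N * f := by
    have h5 : (q ^ 2 - 1) * (a' * d) = (q ^ 2 - 1) * (N * f) := by
      rw [← mul_assoc, hdc, mul_assoc]
    exact Nat.eq_of_mul_eq_mul_left hQ2 h5
  have h5 : f < a' := by
    by_contra hcon
    push Not at hcon
    have h6 : a' * d ≤ f * d := Nat.mul_le_mul_right _ hcon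
    have h7 : f * d < f * N := Nat.mul_lt_mul_of_pos_left hd hf0
    rw [h4, mul_comm N f] at h6
    omega
  have h6 : (q ^ 2 - 1) * f ≤ q ^ 2 * (x - 1) := by
    have h7 : (q ^ 2 - 1) * (f + 1) ≤ (q ^ 2 - 1) * a' := Nat.mul_le_mul_left _ h5
    rw [← ha', Nat.mul_add, mul_one] at h7
    rw [Nat.mul_sub, mul_one]
    omega
  have hx0 : 0 < x := Nat.card_pos
  have hx2 : 2 ≤ x := by
    by_contra hcon
    have : x = 1 := by omega
    rw [this] at h6
    have h8 : 0 < (q ^ 2 - 1) * f := Nat.mul_pos hQ2 hf0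
    simp at h6
    omega
  obtain ⟨u₀, hu₀, hu₀0⟩ : ∃ u₀ ∈ X1 hF hQ hk ω₀, u₀ ≠ 0 := by
    have : Nontrivial (X1 hF hQ hk ω₀) := Finite.one_lt_card_iff_nontrivial.mp (by omega)
    obtain ⟨y, hy⟩ := exists_ne (0 : X1 hF hQ hk ω₀)
    exact ⟨y.1, y.2, fun h0 => hy (Subtype.ext h0)⟩
  have hu₀iso : ⟪u₀, u₀⟫ = 0 := hu₀.1
  set m := ((FS (Ω := Ω) hF c).filter fun ω => Fx hF ω (inc u₀)).card with hm
  have hm1 : 1 ≤ m := Finset.card_pos.mpr ⟨ω₀, Finset.mem_filter.mpr ⟨mem_FS.mpr hω₀, hu₀.2⟩⟩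
  have hbip := Finset.sum_card_bipartiteAbove_eq_sum_card_bipartiteBelow
    (s := FS (Ω := Ω) hF c) (t := isoC F q k) (fun ω u => Fx hF ω (inc u))
  have hL : ∀ ω ∈ FS (Ω := Ω) hF c, (Finset.bipartiteAbove (fun ω u => Fx hF ω (inc u)) (isoC F q k) ω).card = x - 1 := by
    intro ω hω
    have e1 := card_above hF hk hQ ω
    have e2 : Nat.card (X1 hF hQ hk ω) = x := by
      have e3 := card_PS_eq (n := 2 + k) hF ω ω₀
      have e4 := card_PS_add hF hk hQ ω
      rw [card_XV hF h hk hQ (mem_FS.mp hω), e3] at e4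
      have e5 : q ^ 2 * Nat.card (X1 hF hQ hk ω) = q ^ 2 * x := by
        rw [← e4, ha]
      exact Nat.eq_of_mul_eq_mul_left (by omega) e5
    rw [e2] at e1
    have e6 : Finset.bipartiteAbove (fun ω u => Fx hF ω (inc u)) (isoC F q k) ω
        = (isoC F q k).filter fun u => Fx hF ω (inc u) := rfl
    rw [e6]
    omega
  have hR : ∀ u ∈ isoC F q k, (Finset.bipartiteBelow (fun ω u => Fx hF ω (inc u)) (FS (Ω := Ω) hF c) u).card = m := by
    intro u hu
    obtain ⟨hu0, huu⟩ := mem_isoC.mp hu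
    exact le_antisymm (card_m_le hF h hk huu hu₀iso hu0 hu₀0) (card_m_le hF h hk hu₀iso huu hu₀0 hu0)
  rw [Finset.sum_congr rfl hL, Finset.sum_congr rfl hR, Finset.sum_const, Finset.sum_const, smul_eq_mul, smul_eq_mul] at hbip
  obtain ⟨r, hr⟩ := card_submodule_pow (k := k) hF (X1 hF hQ hk ω₀)
  refine arith_final (hq) hk hr (X1_sq_le hF hk hQ ω₀) hm1 ?_ hnA hnB h6 hbip hx2
  intro hev hxq
  have hk4 : 4 ≤ k := by
    obtain ⟨t, ht⟩ := hev
    omega
  have hlt : q ^ 2 < Nat.card (X1 hF hQ hk ω₀).toAddSubgroup := by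
    have h9 : Nat.card (X1 hF hQ hk ω₀).toAddSubgroup = q ^ k := hxq
    rw [h9]
    exact Nat.pow_lt_pow_right (by omega) (by omega)
  obtain ⟨e, he, heu⟩ := exists_not_line hF h hlt hu₀0
  exact card_m_ge hF h hk hQ hω₀ hu₀ he heu

end NoFix

end Cfsg.Agent.Lib.MinIndex.U2Fix
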