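import Mathlib
import Cfsg.Agent.Lib.MinIndex.U2Fix

/-!
# The special unitary groups over the field with four elements: the regular case
-/

set_option autoImplicit false
set_option linter.unusedSectionVars false
set_option linter.unusedSimpArgs false
set_option linter.unusedVariables false
set_option linter.unusedTactic false

open scoped Matrix
open Cfsg
open Cfsg.Agent.Lib.Classical.Herm.Basic Cfsg.Agent.Lib.Classical.Herm.Form
open Cfsg.Agent.Lib.Classical.Herm.GU Cfsg.Agent.Lib.Classical.Herm.SU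
open Cfsg.Agent.Lib.Classical.Herm.Subfield Cfsg.Agent.Lib.Classical.Herm.Isotropic
open Cfsg.Agent.Lib.Classical.Herm.Tv Cfsg.Agent.Lib.Classical.Herm.Comm
open Cfsg.Agent.Lib.Classical.Herm.Block Cfsg.Agent.Lib.Classical.Herm.Levi
open Cfsg.Agent.Lib.MinIndex.SpCount Cfsg.Agent.Lib.MinIndex.UCount
open Cfsg.Agent.Lib.MinIndex.ULocal Cfsg.Agent.Lib.MinIndex.UW Cfsg.Agent.Lib.MinIndex.UHeis
open Cfsg.Agent.Lib.MinIndex.UTypes Cfsg.Agent.Lib.MinIndex.UFree Cfsg.Agent.Lib.MinIndex.UGlob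
open Cfsg.Agent.Lib.MinIndex.UFix Cfsg.Agent.Lib.MinIndex.UFix2 Cfsg.Agent.Lib.MinIndex.UKill
open Cfsg.Agent.Lib.MinIndex.UMain Cfsg.Agent.Lib.MinIndex.U2Fix

namespace Cfsg.Agent.Lib.MinIndex.U2Reg

variable {F : Type*} [Field F] [Fintype F] {q k : ℕ}

local notation "⟪" x ", " y "⟫" => hermForm _ _ q x y

variable (hF : Fintype.card F = q ^ 2)

include hF

/-- An isotropic vector in the perp of a line separating a given vector from it. -/
theorem exists_iso_sep {n : ℕ} (hn : 4 ≤ n) {v τ : Fin n → F} (hv : ⟪v, v⟫ = 0) (hv0 : v ≠ 0) (hτ : ⟪τ, v⟫ = 0)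
    (hne : ∀ κ : F, τ ≠ κ • v) : ∃ e : Fin n → F, ⟪e, e⟫ = 0 ∧ ⟪e, v⟫ = 0 ∧ ⟪τ, e⟫ ≠ 0 := by
  by_cases hN : ⟪τ, τ⟫ = 0
  · have hnot : τ ∉ Submodule.span F {v} := by
      intro hm
      obtain ⟨κ, hκ⟩ := Submodule.mem_span_singleton.mp hm
      exact hne κ hκ.symm
    obtain ⟨y, hy1, hy2⟩ := exists_sep hF hnot
    have hyv : ⟪y, v⟫ = 0 := hy1 v (Submodule.subset_span (by simp))
    obtain ⟨α, hα⟩ := exists_val_a hF y
    have hτy : ⟪τ, y⟫ = 1 := hermForm_symm_one hF hy2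
    refine ⟨y + α • τ, ?_, ?_, ?_⟩
    · simp only [hermForm_add_left, hermForm_add_right hF, hermForm_smul_left, hermForm_smul_right, hy2, hτy, hN]
      linear_combination hα
    · rw [hermForm_add_left, hermForm_smul_left, hyv, hτ]
      ring
    · rw [hermForm_add_right hF, hermForm_smul_right, hτy, hN]
      simp
  · have hvτ : ⟪v, τ⟫ = 0 := swap0 hF hτ
    obtain ⟨v₂, hv₂, hvv₂⟩ := UW.exists_partner hF hv hv0
    set a := ⟪v₂, τ⟫ / ⟪τ, τ⟫ with ha
    set y₁ := v₂ - a • τ with hy₁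
    have h1 : ⟪y₁, τ⟫ = 0 := by
      rw [hy₁, hermForm_sub_left, hermForm_smul_left, ha]
      field_simp
      ring
    have h2 : ⟪v, y₁⟫ = 1 := by
      rw [hy₁, hermForm_sub_right hF, hermForm_smul_right, hvτ, hvv₂]
      ring
    have h3 : ⟪y₁, v⟫ = 1 := hermForm_symm_one hF h2
    obtain ⟨α, hα⟩ := exists_val_a hF y₁
    set y := y₁ + α • v with hy
    have hyy : ⟪y, y⟫ = 0 := by
      simp only [hy, hermForm_add_left, hermForm_add_right hF, hermForm_smul_left, hermForm_smul_right, h2, h3, hv]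
      linear_combination hα
    have hvy : ⟪v, y⟫ = 1 := by
      rw [hy, hermForm_add_right hF, hermForm_smul_right, h2, hv]
      ring
    have hyv : ⟪y, v⟫ = 1 := hermForm_symm_one hF hvy
    have hyτ : ⟪y, τ⟫ = 0 := by
      rw [hy, hermForm_add_left, hermForm_smul_left, h1, hvτ]
      ring
    have hτy : ⟪τ, y⟫ = 0 := swap0 hF hyτ
    have hc : (-⟪τ, τ⟫) ^ q = -⟪τ, τ⟫ := by
      rw [pow_q_neg hF, hermForm_self_pow_q hF]
    obtain ⟨z, hz, hzz⟩ := exists_perp_norm hF (k := 3) (by omega) ![v, y, τ] (by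
      intro z₀
      refine ⟨![⟪z₀, y⟫, ⟪z₀, v⟫, ⟪z₀, τ⟫ / ⟪τ, τ⟫], fun i => ?_⟩
      fin_cases i
      · simp only [Fin.sum_univ_three, hermForm_sub_left, hermForm_add_left, hermForm_smul_left]
        simp [hv, hyv, hτ]
      · simp only [Fin.sum_univ_three, hermForm_sub_left, hermForm_add_left, hermForm_smul_left]
        simp [hvy, hyy, hτy]
      · simp only [Fin.sum_univ_three, hermForm_sub_left, hermForm_add_left, hermForm_smul_left]
        simp [hvτ, hyτ]
        field_simp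
        ring) hc
    have hz0 : ⟪z, v⟫ = 0 := hz 0
    have hzτ : ⟪z, τ⟫ = 0 := hz 2
    have hτz : ⟪τ, z⟫ = 0 := swap0 hF hzτ
    refine ⟨τ + z, ?_, ?_, ?_⟩
    · simp only [hermForm_add_left, hermForm_add_right hF, hτz, hzτ, hzz]
      ring
    · rw [hermForm_add_left, hτ, hz0, add_zero]
    · rw [hermForm_add_right hF, hτz, add_zero]
      exact hN

section Reg

variable {Ω : Type*} [MulAction (SU (2 + k) F q) Ω] [Fintype Ω] {c c' : Fin (2 + k) → F} (h : HP q c c')
  (ψ : AddChar F ℂ) (hψ : ∃ e : F, e + e ^ q = 0 ∧ ψ e ≠ 1)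

/-- The action of the Levi factor on the orbits of the root group. -/
noncomputable def KK (hF : Fintype.card F = q ^ 2) (h : HP q c c') (ψ : AddChar F ℂ)
    (hψ : ∃ e : F, e + e ^ q = 0 ∧ ψ e ≠ 1) (g : SU k F q) : Yc hF Ω h.ee → Yc hF Ω h.ee :=
  (symOf (Ω := Ω) hF h (lev_nrm hF h g) ψ hψ).κ

omit [Fintype Ω] in
theorem KK_mk (g : SU k F q) (ω : Ω) : KK hF h ψ hψ g (mkY hF h.ee ω) = mkY hF h.ee (Lev hF g • ω) := rfl

omit [Fintype Ω] in
theorem KK_act (g : SU k F q) (w : Fin k → F) (y : Yc hF Ω h.ee) :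
    KK hF h ψ hψ g ((wSet (Ω := Ω) hF h).act w y) = (wSet (Ω := Ω) hF h).act (act g w) (KK hF h ψ hψ g y) := by
  have h1 := (symOf (Ω := Ω) hF h (lev_nrm hF h g) ψ hψ).hc w y
  have h2 : (symOf (Ω := Ω) hF h (lev_nrm hF h g) ψ hψ).φ w = act g w := by
    change (1 : F) ^ q • lv (Lev hF g) w = _
    rw [one_pow, one_smul, lv_lev]
  rw [h2] at h1
  exact h1

/-- The case in which the root group has no fixed points and its orbits form one regular orbit of the radical. -/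
theorem no_regular (hq2 : q = 2) (h : HP q c c') (hk : 4 ≤ k) (ψ : AddChar F ℂ)
    (hψ : ∃ e : F, e + e ^ q = 0 ∧ ψ e ≠ 1) (hI0 : 0 < (isoC F q k).card)
    (hreg : ∀ ω : Ω, (wSet (Ω := Ω) hF h).stab (mkY hF h.ee ω) = ⊥ ∧
      ∀ y' ∈ Yp (Ω := Ω) hF h (Free hF c), y' ∈ (wSet (Ω := Ω) hF h).orb (mkY hF h.ee ω))
    (hnofix : ∀ ω : Ω, ¬ Fx hF ω c) (ω₀ : Ω) : False := by
  classical
  have h20 : (2 : F) = 0 := by
    have h1 : ((Fintype.card F : ℕ) : F) = 0 := Nat.cast_card_eq_zero F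
    rw [hF] at h1
    have e : ((q ^ 2 : ℕ) : F) = (2 : F) ^ 2 := by
      rw [hq2]
      push_cast
      norm_num
    rw [e] at h1
    exact pow_eq_zero_iff (two_ne_zero) |>.mp h1
  have hneg : ∀ x : F, -x = x := by
    intro x
    linear_combination (-x) * h20
  have he1 : (1 : F) + 1 ^ q = 0 := by
    rw [one_pow]
    linear_combination h20
  have h11 : (1 : F) + 1 = 0 := by linear_combination h20
  have hvv : ∀ {n : ℕ} (x : Fin n → F), x + x = 0 := by
    intro n x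
    rw [← two_smul F x, h20, zero_smul]
  have hE : ∀ e : F, e + e ^ q = 0 → e = 0 ∨ e = 1 := by
    intro e he
    have e1 : q = 2 := hq2
    rw [e1] at he
    have h3 : e * (e + 1) = 0 := by linear_combination he
    rcases mul_eq_zero.mp h3 with h4 | h4
    · exact Or.inl h4
    · right
      linear_combination h4 - h20
  have hFxt : ∀ (u : Fin (2 + k) → F) (ω : Ω), ⟪u, u⟫ = 0 → tt hF u 1 • ω = ω → Fx hF ω u := by
    intro u ω hu h1 e he
    rcases hE e he with rfl | rfl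
    · rw [rho_one hF hu, one_smul]
    · exact h1
  have hnf : ∀ (u : Fin (2 + k) → F) (ω : Ω), ⟪u, u⟫ = 0 → u ≠ 0 → tt hF u 1 • ω ≠ ω := by
    intro u ω hu hu0 h1
    obtain ⟨g, -, hg⟩ := reach_iso hF (by omega) hu h.ee hu0 (h.e_ne hF)
    have := Fx_map hF g hu (hFxt u ω hu h1)
    rw [hg] at this
    exact hnofix _ this
  have hfree : ∀ ω : Ω, Free hF c ω := by
    intro ω e he h1
    rcases hE e he with rfl | rfl
    · rfl
    · exact absurd h1 (hnf c ω h.ee (h.e_ne hF))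
  -- regularity at all vectors
  have hRp : ∀ (p z : Fin (2 + k) → F) (a : F) (ω : Ω), p ≠ 0 → Val q p z a → rho hF p z a • ω = ω → ∃ κ : F, z = κ • p := by
    intro p z a ω hp0 hval hfix
    obtain ⟨g, -, hg⟩ := reach_iso hF (by omega) hval.cc h.ee hp0 (h.e_ne hF)
    set z₁ := act g z with hz₁
    have hval₁ : Val q c z₁ a := by
      have := val_act hF g hval
      rwa [hg] at this
    have hdec := h.decomp hF z₁
    rw [hval₁.wc, zero_smul, add_zero] at hdec
    set β := ⟪z₁, c'⟫ with hβ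
    set w := R z₁ with hw
    have hNz : ⟪z₁, z₁⟫ = ⟪w, w⟫ := by
      rw [hdec]
      simp only [hermForm_add_left, hermForm_add_right hF, hermForm_smul_left, hermForm_smul_right, h.ee, h.e_inc hF,
        h.inc_e hF, hermForm_inc]
      ring
    have hv₂ : a + β - β ^ q + (a + β - β ^ q) ^ q + ⟪w, w⟫ = 0 := by
      have := hval₁.aa
      rw [hNz] at this
      rw [pow_q_sub hF, pow_q_add hF, pow_q_pow_q hF]
      linear_combination this
    have hval₂ := val_inc hF hv₂ h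
    have e1 : rho hF c z₁ a = rho hF c (inc w) (a + β - β ^ q) := by
      have := rho_add_c hF β hval₂
      rw [← hdec] at this
      rw [← this]
      congr 1
      ring
    have hstab : w ∈ (wSet (Ω := Ω) hF h).stab (mkY hF h.ee (g • ω)) := (mem_stab_mk hF h).mpr ⟨a + β - β ^ q, hv₂, by
      rw [← e1]
      have e3 := rho_mul_comm_of hF g hval
      rw [hg] at e3
      rw [← mul_smul, ← e3, mul_smul, hfix]⟩
    rw [(hreg (g • ω)).1] at hstab
    have hw0 : w = 0 := AddSubgroup.mem_bot.mp hstab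
    refine ⟨β, ?_⟩
    rw [hw0, inc_zero, add_zero] at hdec
    have h5 : act g z = act g (β • p) := by
      rw [act_smul, hg]
      exact hdec
    have h6 := congrArg (act g⁻¹) h5
    rwa [act_inv_act, act_inv_act] at h6
  set y₀ := mkY hF h.ee ω₀ with hy₀
  have hmemY : ∀ ω : Ω, mkY hF h.ee ω ∈ Yp (Ω := Ω) hF h (Free hF c) := fun ω => mk_mem_Yp (hfree ω)
  obtain ⟨hst, hall⟩ := hreg ω₀
  have hinj : ∀ a b, (wSet (Ω := Ω) hF h).act a y₀ = (wSet (Ω := Ω) hF h).act b y₀ → a = b := by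
    intro a b hab
    have h1 : a - b ∈ (wSet (Ω := Ω) hF h).stab y₀ := by
      rw [WSet.mem_stab]
      have e : a - b = -b + a := by abel
      rw [e, (wSet (Ω := Ω) hF h).act_add, hab, ← (wSet (Ω := Ω) hF h).act_add, neg_add_cancel,
        (wSet (Ω := Ω) hF h).act_zero]
    rw [hst] at h1
    exact sub_eq_zero.mp (AddSubgroup.mem_bot.mp h1)
  -- the cocycle
  have hex : ∀ g : SU k F q, ∃ τ, (wSet (Ω := Ω) hF h).act τ y₀ = mkY hF h.ee (Lev hF g • ω₀) :=
    fun g => (wSet (Ω := Ω) hF h).mem_orb.mp (hall _ (hmemY _))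
  choose τ hτ using hex
  have hcoc : ∀ g g' : SU k F q, τ (g * g') = act g (τ g') + τ g := by
    intro g g'
    apply hinj
    rw [hτ, (wSet (Ω := Ω) hF h).act_add, hτ g]
    have e1 : mkY hF h.ee (Lev hF (g * g') • ω₀) = KK hF h ψ hψ g (mkY hF h.ee (Lev hF g' • ω₀)) := by
      rw [lev_mul, mul_smul]
      rfl
    rw [e1, ← hτ g', KK_act, hy₀, KK_mk]
  have hτ1 : τ 1 = 0 := by
    have h1 := hcoc 1 1
    rw [mul_one, act_one] at h1
    have h2 : τ 1 + τ 1 = τ 1 + 0 := by rw [← h1, add_zero]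
    exact add_left_cancel h2
  obtain ⟨v, hvC⟩ := Finset.card_pos.mp hI0
  obtain ⟨hv0, hv⟩ := mem_isoC.mp hvC
  set gv : SU k F q := tt hF v 1 with hgv
  have hgvact : ∀ x, act gv x = x + ⟪x, v⟫ • v := by
    intro x
    rw [hgv, tt_apply hF hv he1, one_mul]
  have hgv2 : gv * gv = 1 := by
    rw [hgv, tt_mul hF hv he1 he1, h11, rho_one hF hv]
  have hτv : ⟪τ gv, v⟫ = 0 := by
    have h1 := hcoc gv gv
    rw [hgv2, hτ1, hgvact] at h1
    have h2 : ⟪τ gv, v⟫ • v = 0 := by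
      have h3 : τ gv + ⟪τ gv, v⟫ • v + τ gv = ⟪τ gv, v⟫ • v + (τ gv + τ gv) := by abel
      rw [h3, hvv, add_zero] at h1
      exact h1.symm
    exact (smul_eq_zero.mp h2).resolve_right hv0
  -- orthogonality
  have hperp : ∀ v' : Fin k → F, ⟪v', v'⟫ = 0 → ⟪v', v⟫ = 0 → (∀ κ : F, v' ≠ κ • v) → ⟪τ gv, v'⟫ = 0 := by
    intro v' hv' hv'v hind
    set gv' : SU k F q := tt hF v' 1 with hgv'
    have hgv'act : ∀ x, act gv' x = x + ⟪x, v'⟫ • v' := by
      intro x
      rw [hgv', tt_apply hF hv' he1, one_mul]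
    have hvv' : ⟪v, v'⟫ = 0 := swap0 hF hv'v
    have hcomm : gv * gv' = gv' * gv := by
      apply ext_act
      intro x
      rw [act_mul, act_mul, hgvact, hgvact, hgv'act, hgv'act]
      simp only [hermForm_add_left, hermForm_smul_left, hv'v, hvv', mul_zero, add_zero]
      abel
    have h1 := hcoc gv gv'
    rw [hcomm, hcoc gv' gv, hgvact, hgv'act] at h1
    have h2 : ⟪τ gv, v'⟫ • v' = ⟪τ gv', v⟫ • v := by
      have h3 : τ gv + ⟪τ gv, v'⟫ • v' + τ gv' = (τ gv + τ gv') + ⟪τ gv, v'⟫ • v' := by abel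
      have h4 : τ gv' + ⟪τ gv', v⟫ • v + τ gv = (τ gv + τ gv') + ⟪τ gv', v⟫ • v := by abel
      rw [h3, h4] at h1
      exact add_left_cancel h1
    by_contra hne
    apply hind (⟪τ gv', v⟫ / ⟪τ gv, v'⟫)
    have h5 : ⟪τ gv, v'⟫⁻¹ • (⟪τ gv, v'⟫ • v') = ⟪τ gv, v'⟫⁻¹ • (⟪τ gv', v⟫ • v) := by rw [h2]
    rw [smul_smul, inv_mul_cancel₀ hne, one_smul, smul_smul] at h5
    rw [div_eq_inv_mul]
    exact h5
  obtain ⟨β, hβ⟩ : ∃ β : F, τ gv = β • v := by
    by_contra hno
    push Not at hno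
    obtain ⟨e, he1', he2, he3⟩ := exists_iso_sep hF hk hv hv0 hτv hno
    apply he3
    apply hperp e he1' he2
    intro κ hκ
    apply he3
    rw [hκ, hermForm_smul_right, hτv, mul_zero]
  -- the point on the line
  set α := β ^ q with hα
  have hαq : α ^ q = β := pow_q_pow_q hF β
  set u := α • c + inc v with hu
  have hincv : ⟪inc v, inc v⟫ = 0 := by rw [hermForm_inc]; exact hv
  have hcv : ⟪c, inc v⟫ = 0 := h.e_inc hF v
  have hvc : ⟪inc v, c⟫ = 0 := h.inc_e hF v
  have hlin : ∀ s : F, ⟪s • c + inc v, s • c + inc v⟫ = 0 := by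
    intro s
    simp only [hermForm_add_left, hermForm_add_right hF, hermForm_smul_left, hermForm_smul_right, h.ee, hcv, hvc, hincv]
    ring
  have hne : ∀ s : F, s • c + inc v ≠ 0 := by
    intro s h0
    have h1 := congrArg R h0
    simp only [R_add, R_smul, R_inc, h.re, R_zero, smul_zero, zero_add] at h1
    exact hv0 h1
  have hd1 := tt_diff hF α 0 h.ee hincv hcv he1
  have e0 : (0 : F) • c + inc v = inc v := by rw [zero_smul, zero_add]
  rw [e0, hneg, ← lev_tt hF hv he1, sub_zero] at hd1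
  have ha₀ : (1 * (α * α ^ q - 0 * 0 ^ q)) + (1 * (α * α ^ q - 0 * 0 ^ q)) ^ q +
      ⟪(1 * α ^ q) • v, (1 * α ^ q) • v⟫ = 0 := by
    simp only [one_mul, zero_pow_q hF, mul_zero, sub_zero, hermForm_smul_left, hermForm_smul_right, hv, add_zero, mul_pow,
      pow_q_pow_q hF]
    linear_combination (α * α ^ q) * h20
  have hmk : mkY hF h.ee (tt hF u 1 • ω₀) = y₀ := by
    have hLev2 : Lev hF gv * Lev hF gv = 1 := by
      rw [← lev_mul, hgv2]
      apply ext_act
      intro x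
      apply ext_LR
      · rw [L_lev, act_one]
      · rw [R_lev, act_one, act_one]
    have h1 : tt hF u 1 = rho hF c ((1 * α ^ q) • inc v) (1 * (α * α ^ q - 0 * 0 ^ q)) * Lev hF gv := by
      rw [← hd1, mul_assoc, hLev2, mul_one]
    rw [h1, mul_smul, ← inc_smul, ← wSet_act_mk hF h ha₀, ← hτ gv, hβ, ← (wSet (Ω := Ω) hF h).act_add, one_mul, hαq,
      ← add_smul]
    have h11' : β + β = 0 := by linear_combination β * h20
    rw [h11', zero_smul, (wSet (Ω := Ω) hF h).act_zero]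
  obtain ⟨e, he, he'⟩ := (mkY_eq hF).mp hmk
  rcases hE e he with rfl | rfl
  · rw [rho_one hF h.ee, one_smul] at he'
    exact hnf u ω₀ (hlin α) (hne α) he'
  · -- the third point
    set p₃ := (α + 1) • c + inc v with hp₃
    have hp₃c : ⟪p₃, c⟫ = 0 := by
      rw [hp₃, hermForm_add_left, hermForm_smul_left, h.ee, hvc]
      ring
    have hd2 := tt_diff hF 1 0 (hlin (α + 1)) h.ee hp₃c he1
    have e2 : (1 : F) • p₃ + c = u := by
      rw [one_smul, hp₃, hu]
      have h3 : (α + 1) • c + inc v + c = α • c + inc v + (c + c) := by module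
      rw [h3, hvv, add_zero]
    have e3 : (0 : F) • p₃ + c = c := by rw [zero_smul, zero_add]
    rw [e2, e3, hneg] at hd2
    simp only [sub_zero, one_pow, mul_one, one_mul, zero_pow_q hF, mul_zero, one_smul] at hd2
    have hinvol : ∀ (x : Fin (2 + k) → F), ⟪x, x⟫ = 0 → tt hF x 1 * tt hF x 1 = 1 := by
      intro x hx
      rw [tt_mul hF hx he1 he1, h11, rho_one hF hx]
    have h5 : rho hF p₃ c 1 • ω₀ = ω₀ := by
      rw [← hd2, mul_smul]
      have h6 : tt hF c 1 • ω₀ = tt hF u 1 • ω₀ := by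
        have h7 : tt hF c 1 • (tt hF c 1 • tt hF u 1 • ω₀) = tt hF c 1 • ω₀ := by rw [he']
        rw [← mul_smul, hinvol c h.ee, one_smul] at h7
        exact h7.symm
      rw [h6, ← mul_smul, hinvol u (hlin α), one_smul]
    have hval₃ : Val q p₃ c 1 := ⟨hlin (α + 1), swap0 hF hp₃c, by
      rw [one_pow, h.ee, add_zero]
      exact h11⟩
    obtain ⟨κ, hκ⟩ := hRp p₃ c 1 ω₀ (hne (α + 1)) hval₃ h5
    have h8 := congrArg R hκ
    simp only [h.re, hp₃, R_smul, R_add, R_inc, smul_zero, zero_add] at h8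
    have hκ0 : κ = 0 := (smul_eq_zero.mp h8.symm).resolve_right hv0
    rw [hκ0, zero_smul] at hκ
    exact h.e_ne hF hκ

end Reg

end Cfsg.Agent.Lib.MinIndex.U2Reg
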