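import Mathlib
import Cfsg.Agent.Lib.MinIndex.U2Reg

/-!
# The minimal degree of the special unitary groups of even dimension over the field with four elements
-/

set_option autoImplicit false
set_option linter.unusedSectionVars false
set_option linter.unusedSimpArgs false
set_option linter.unusedVariables false
set_option linter.unusedTactic false

open scoped Matrix
open Cfsg
open Cfsg.Agent.Lib.Classical.Herm.Basic Cfsg.Agent.Lib.Classical.Herm.Form
open Cfsg.Agent.Lib.Classical.Herm.GU Cfsg.Agent.Lib.Classical.Herm.SU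
open Cfsg.Agent.Lib.Classical.Herm.Subfield Cfsg.Agent.Lib.Classical.Herm.Isotropic
open Cfsg.Agent.Lib.Classical.Herm.Tv Cfsg.Agent.Lib.Classical.Herm.Comm
open Cfsg.Agent.Lib.Classical.Herm.Block Cfsg.Agent.Lib.Classical.Herm.Levi
open Cfsg.Agent.Lib.MinIndex.SpCount Cfsg.Agent.Lib.MinIndex.UCount
open Cfsg.Agent.Lib.MinIndex.ULocal Cfsg.Agent.Lib.MinIndex.UW Cfsg.Agent.Lib.MinIndex.UHeis
open Cfsg.Agent.Lib.MinIndex.UTypes Cfsg.Agent.Lib.MinIndex.UFree Cfsg.Agent.Lib.MinIndex.UGlob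
open Cfsg.Agent.Lib.MinIndex.UFix Cfsg.Agent.Lib.MinIndex.UFix2 Cfsg.Agent.Lib.MinIndex.UKill
open Cfsg.Agent.Lib.MinIndex.UMain Cfsg.Agent.Lib.MinIndex.U2Fix Cfsg.Agent.Lib.MinIndex.U2Reg
open Cfsg.Agent.Lib.MinIndex.UFinal

namespace Cfsg.Agent.Lib.MinIndex.U2Main

/-- The numerical facts used in the argument. -/
structure Nums2 (q k I Non N' N : ℕ) : Prop where
  n1 : N' ≤ q * ((q + 1) * (I + 1))
  n3 : N' ≤ q * (3 * (Non + 1))
  n4 : N' ≤ q * (2 + 2 * I + Non)
  n5 : N' ≤ q * (2 + I + 2 * Non)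
  hNI : Non ≤ I
  hf : ∀ f, q * q ^ (2 * k) + f < N' → (q ^ 2 - 1) * f < q ^ 2 * Non
  hle : N' ≤ N
  nA : q ^ (2 * k) ≤ (q ^ 2 - 1) * I
  nB : Even k → (q ^ (k + 2) - 1) * (q ^ k - 1) ≤ (q ^ 2 - 1) * ((q + 1) * I)

/-- The numbers. -/
theorem nums2 (k I Non : ℕ) (hk : 4 ≤ k) (hev : Even k) (hI : I = (2 ^ k - 1) * (2 ^ (k - 1) + 1))
    (hNon : I + Non + 1 = 2 ^ (2 * k)) :
    ∃ M, 3 * M + 1 = 2 ^ (k + 2) ∧ Nums2 2 k I Non (2 ^ (k + 1) * M) (M * (2 ^ (k + 1) + 1)) ∧ 0 < I ∧ 0 < Non := by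
  obtain ⟨t, rfl⟩ : ∃ t, k = 2 * t + 4 := by
    obtain ⟨t, ht⟩ := hev
    exact ⟨t - 2, by omega⟩
  set P := 2 ^ (2 * t + 4 - 1) with hP
  have hP8 : 8 ≤ P := by
    rw [hP]
    calc 8 = 2 ^ 3 := by norm_num
      _ ≤ _ := Nat.pow_le_pow_right (by norm_num) (by omega)
  have e1 : 2 ^ (2 * t + 4) = 2 * P := by
    rw [hP, ← pow_succ']
    congr 1 <;> omega
  have e2 : 2 ^ (2 * t + 4 + 1) = 4 * P := by
    rw [hP, show (4 : ℕ) = 2 ^ 2 by norm_num, ← pow_add]
    congr 1 <;> omega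
  have e3 : 2 ^ (2 * t + 4 + 2) = 8 * P := by
    rw [hP, show (8 : ℕ) = 2 ^ 3 by norm_num, ← pow_add]
    congr 1 <;> omega
  have e4 : 2 ^ (2 * (2 * t + 4)) = 4 * P ^ 2 := by
    rw [pow_mul', e1]
    ring
  obtain ⟨x, hx⟩ : ∃ x, x + 1 = 2 * P := ⟨2 * P - 1, by omega⟩
  have e5 : 2 * P - 1 = x := by omega
  obtain ⟨M, hM⟩ : ∃ M, 3 * M + 1 = 8 * P := by
    have h3 := Nat.sub_dvd_pow_sub_pow (2 ^ 2) 1 (t + 3)
    rw [one_pow, ← pow_mul] at h3
    obtain ⟨M, hM⟩ := h3
    refine ⟨M, ?_⟩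
    rw [← e3]
    have e6 : 2 * (t + 3) = 2 * t + 4 + 2 := by omega
    rw [e6] at hM
    have h4 : 1 ≤ 2 ^ (2 * t + 4 + 2) := Nat.one_le_two_pow
    norm_num at hM
    omega
  rw [e1, e5] at hI
  rw [e4] at hNon
  have hPM : 3 * (P * M) + P = 8 * P ^ 2 := by
    have : P * (3 * M + 1) = P * (8 * P) := by rw [hM]
    linear_combination this
  have hI1 : I + 1 = 2 * P ^ 2 + P := by
    have : (x + 1) * (P + 1) = 2 * P * (P + 1) := by rw [hx]
    rw [hI]
    nlinarith
  have hNon1 : Non + P = 2 * P ^ 2 := by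
    have h5 : 4 * P ^ 2 + P = 2 * P ^ 2 + P + 2 * P ^ 2 := by ring
    omega
  have hMpos : 0 < M := by omega
  have hP2 : 8 * P ≤ P ^ 2 := by nlinarith
  have hnB : (8 * P - 1) * x ≤ 3 * (3 * I) := by
    rw [hI]
    have h6 : 8 * P - 1 ≤ 9 * (P + 1) := by omega
    calc (8 * P - 1) * x ≤ 9 * (P + 1) * x := Nat.mul_le_mul_right _ h6
      _ = _ := by ring
  refine ⟨M, by rw [e3]; exact hM, ?_, by omega, by omega⟩
  rw [e2]
  have e7 : 4 * P * M = 4 * (P * M) := by ring
  have e8 : M * (4 * P + 1) = 4 * (P * M) + M := by ring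
  rw [e7, e8]
  generalize P * M = A at hPM ⊢
  generalize P ^ 2 = B at hPM hI1 hNon1 e4 hP2 ⊢
  refine ⟨by omega, by omega, by omega, by omega, by omega, ?_, by omega, ?_, ?_⟩
  · intro f hf
    rw [e4] at hf
    norm_num
    omega
  · rw [e4]
    norm_num
    omega
  · intro _
    rw [e3, e1, e5]
    norm_num
    linarith

section Prelim

variable {F : Type*} [Field F] [Fintype F] {q k : ℕ}

local notation "⟪" x ", " y "⟫" => hermForm _ _ q x y

variable (hF : Fintype.card F = q ^ 2)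

include hF

theorem two_eq_zero_of (hq2 : q = 2) : (2 : F) = 0 := by
  have h1 : ((Fintype.card F : ℕ) : F) = 0 := Nat.cast_card_eq_zero F
  rw [hF] at h1
  have e : ((q ^ 2 : ℕ) : F) = (2 : F) ^ 2 := by
    rw [hq2]
    push_cast
    norm_num
  rw [e] at h1
  exact pow_eq_zero_iff (two_ne_zero) |>.mp h1

theorem E0_cases (hq2 : q = 2) (e : F) (he : e + e ^ q = 0) : e = 0 ∨ e = 1 := by
  have h20 := two_eq_zero_of hF hq2
  have e1 : q = 2 := hq2
  rw [e1] at he
  have h3 : e * (e + 1) = 0 := by linear_combination he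
  rcases mul_eq_zero.mp h3 with h4 | h4
  · exact Or.inl h4
  · right
    linear_combination h4 - h20

variable {Ω : Type*} [MulAction (SU (2 + k) F q) Ω]

/-- Over the field with four elements a root group not fixing a point acts freely on it. -/
theorem free_of_not_fx (hq2 : q = 2) {c : Fin (2 + k) → F} (hc : ⟪c, c⟫ = 0) {ω : Ω} (hn : ¬ Fx hF ω c) : Free hF c ω := by
  intro e he h1
  rcases E0_cases hF hq2 e he with rfl | rfl
  · rfl
  · exfalso
    apply hn
    intro e' he'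
    rcases E0_cases hF hq2 e' he' with rfl | rfl
    · rw [rho_one hF hc, one_smul]
    · exact h1

end Prelim

section Main

variable {F : Type*} [Field F] [Fintype F] {q k : ℕ}

local notation "⟪" x ", " y "⟫" => hermForm _ _ q x y

variable (hF : Fintype.card F = q ^ 2)

variable {Ω : Type*} [MulAction (SU (2 + k) F q) Ω] [Fintype Ω] [MulAction.IsPretransitive (SU (2 + k) F q) Ω]
  [Nontrivial Ω] {N' N : ℕ}

include hF

/-- The minimal degree. -/
theorem min_degree2 (hq2 : q = 2) (hk : 4 ≤ k) (hI0 : 0 < (isoC F q k).card) (hNon0 : 0 < (nonC F q k).card)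
    (hnum : Nums2 q k (isoC F q k).card (nonC F q k).card N' N)
    (hV : (isoC F q (2 + k)).card = (q ^ 2 - 1) * N) : N' ≤ Fintype.card Ω := by
  classical
  by_contra hd
  push Not at hd
  obtain ⟨c, c', h⟩ := exists_HP (m := k) hF
  obtain ⟨ψ, hψ⟩ := exists_psi hF
  have hcount := card_Ω_ge (Ω := Ω) hF h
  have hq := two_le_q hF
  have hqpos : 0 < q := by omega
  have hbd : ∀ T : ℕ, T ≤ (Yp (Ω := Ω) hF h (Free hF c)).card → N' ≤ q * T → False := by
    intro T hT hN
    have h3 := Nat.mul_le_mul_left q hT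
    omega
  have hfive : ∀ ω : Ω, Free hF c ω → SS (wSet (Ω := Ω) hF h) (pairW (k := k) hF ψ hψ) (mkY hF h.ee ω) = ⊤ ∧
      ∀ y' ∈ Yp (Ω := Ω) hF h (Free hF c), y' ∈ (wSet (Ω := Ω) hF h).orb (mkY hF h.ee ω) := by
    intro ω hω
    rcases free_count hF h ψ hψ (by omega) hI0 hNon0 hω with h1 | ⟨h1, h1'⟩ | h1 | h1 | h1
    · exact (hbd _ h1 hnum.n1).elim
    · exact (hbd _ (h1' hq2) hnum.n3).elim
    · exact (hbd _ h1 hnum.n4).elim
    · exact (hbd _ h1 hnum.n5).elim
    · exact h1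
  obtain ⟨ω, hω⟩ := exists_free (Ω := Ω) hF h (by omega) hI0
  have hcardY : q ^ (2 * k) ≤ (Yp (Ω := Ω) hF h (Free hF c)).card := by
    obtain ⟨h1, h2⟩ := hfive ω hω
    have h3 : (wSet (Ω := Ω) hF h).orb (mkY hF h.ee ω) ⊆ Yp (Ω := Ω) hF h (Free hF c) :=
      orb_subset (good_free hF h).inv (mk_mem_Yp hω)
    have h4 := Finset.card_le_card h3
    rw [card_orb_eq (Q := pairW (k := k) hF ψ hψ), h1, AddSubgroup.card_top, Nat.card_eq_fintype_card, Fintype.card_fun,
      hF] at h4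
    simp only [Fintype.card_fin] at h4
    rw [pow_mul]
    exact h4
  have hf3 := hnum.hf (Yp (Ω := Ω) hF h (fun ω => Fx hF ω c)).card (by
    have h3 := Nat.mul_le_mul_left q hcardY
    omega)
  by_cases hf0 : ∃ ω₀ : Ω, Fx hF ω₀ c
  · obtain ⟨ω₀, h₀⟩ := hf0
    have htop : ∀ ω₁ : Ω, Fx hF ω₁ c → (wSet (Ω := Ω) hF h).stab (mkY hF h.ee ω₁) = ⊤ := by
      intro ω₁ hFω₁
      by_contra hne
      have hcard := (pairW (k := k) hF ψ hψ).card_ann ((wSet (Ω := Ω) hF h).stab (mkY hF h.ee ω₁))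
      have hs : 1 < Nat.card (SS (wSet (Ω := Ω) hF h) (pairW (k := k) hF ψ hψ) (mkY hF h.ee ω₁)) := by
        by_contra hs
        have hs1 : Nat.card (SS (wSet (Ω := Ω) hF h) (pairW (k := k) hF ψ hψ) (mkY hF h.ee ω₁)) = 1 := by
          have : 0 < Nat.card (SS (wSet (Ω := Ω) hF h) (pairW (k := k) hF ψ hψ) (mkY hF h.ee ω₁)) := Nat.card_pos
          omega
        rw [SS] at hs1
        rw [hs1, mul_one, ← Nat.card_eq_fintype_card] at hcard
        exact hne (AddSubgroup.eq_top_of_card_eq _ hcard)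
      obtain ⟨u₀, hu₀, hu₀0⟩ := exists_ne_zero_of_card hs
      have hb := fix_bound2 hF h ψ hψ (by omega) (good_fix hF h) (mk_mem_Yp hFω₁) hu₀ hu₀0 hnum.hNI
      omega
    have hQ := q1_of_top hF h (by omega) htop
    exact no_fix_of_Q1 hF h (by omega) hQ hnum.nA hnum.nB hV (hd.trans_le hnum.hle) ω₀ h₀
  · push Not at hf0
    refine no_regular hF hq2 h hk ψ hψ hI0 ?_ hf0 ω
    intro ω'
    obtain ⟨h1, h2⟩ := hfive ω' (free_of_not_fx hF hq2 h.ee (hf0 ω'))
    refine ⟨?_, h2⟩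
    have hc := (pairW (k := k) hF ψ hψ).card_ann ((wSet (Ω := Ω) hF h).stab (mkY hF h.ee ω'))
    rw [SS] at h1
    rw [h1, AddSubgroup.card_top, Nat.card_eq_fintype_card (α := Fin k → F)] at hc
    have hpos : 0 < Fintype.card (Fin k → F) := Fintype.card_pos
    have h3 : Nat.card ((wSet (Ω := Ω) hF h).stab (mkY hF h.ee ω')) * Fintype.card (Fin k → F) = 1 * Fintype.card (Fin k → F) := by
      rw [hc, one_mul]
    exact (AddSubgroup.card_eq_one).mp (Nat.eq_of_mul_eq_mul_right hpos h3)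

end Main

section Final

variable {F : Type*} [Field F] [Fintype F] {k n : ℕ}

local notation "⟪" x ", " y "⟫" => hermForm _ _ 2 x y

variable (hF : Fintype.card F = 2 ^ 2)

/-- The non-isotropic vectors as a set with an action of the special unitary group. -/
@[instance_reducible] def actNon : MulAction (SU n F 2) {v : Fin n → F // ⟪v, v⟫ ≠ 0} where
  smul g v := ⟨act g v.1, by rw [h_act]; exact v.2⟩
  one_smul v := by
    apply Subtype.ext
    exact act_one _
  mul_smul g g' v := by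
    apply Subtype.ext
    exact act_mul _ _ _

include hF

theorem norm_eq_one {v : Fin n → F} (hv : ⟪v, v⟫ ≠ 0) : ⟪v, v⟫ = 1 := by
  have h1 : ⟪v, v⟫ ^ 2 = ⟪v, v⟫ := hermForm_self_pow_q hF n v
  have h2 : ⟪v, v⟫ * (⟪v, v⟫ - 1) = 0 := by linear_combination h1
  exact sub_eq_zero.mp ((mul_eq_zero.mp h2).resolve_left hv)

/-- Vectors with norm one are conjugate. -/
theorem reach_unit (hn : 2 ≤ n) {x y : Fin n → F} (hx : ⟪x, x⟫ = 1) (hy : ⟪y, y⟫ = 1) :
    ∃ g : SU n F 2, act g x = y := by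
  have hf : ∀ z : Fin n → F, ⟪z, z⟫ = 1 → IsFrame 2 ![z] := by
    intro z hz i j
    fin_cases i
    fin_cases j
    simpa using hz
  obtain ⟨g, hg⟩ := Cfsg.Agent.Lib.Classical.Herm.RegU.exists_su_frame hF (k := 1) (by omega) ![x] ![y] (hf x hx) (hf y hy)
  exact ⟨g, by simpa using hg 0⟩

/-- The index of the stabilizer of a non-isotropic line. -/
theorem index_lineStab2 (hn : 2 ≤ n) {N' : ℕ} (hNon : (nonC F 2 n).card = (2 ^ 2 - 1) * N') {c : Fin n → F}
    (hcc : ⟪c, c⟫ = 1) (hc : c ≠ 0) : (lineStab n 2 c hc).index = N' := by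
  classical
  let _ := actNon (F := F) (n := n)
  have htr : MulAction.IsPretransitive (SU n F 2) {v : Fin n → F // ⟪v, v⟫ ≠ 0} := by
    refine ⟨fun x y => ?_⟩
    obtain ⟨g, hg⟩ := reach_unit hF hn (norm_eq_one hF x.2) (norm_eq_one hF y.2)
    exact ⟨g, Subtype.ext hg⟩
  set c₀ : {v : Fin n → F // ⟪v, v⟫ ≠ 0} := ⟨c, by rw [hcc]; exact one_ne_zero⟩ with hc₀
  set S₁ := MulAction.stabilizer (SU n F 2) c₀ with hS₁
  have hmem : ∀ g, g ∈ S₁ ↔ act g c = c := by
    intro g
    rw [hS₁, MulAction.mem_stabilizer_iff]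
    exact Subtype.ext_iff
  have h1 : S₁.index = (nonC F 2 n).card := by
    rw [MulAction.index_stabilizer_of_transitive, Nat.card_eq_fintype_card, Fintype.card_subtype]
    apply congrArg Finset.card
    ext v
    rw [mem_nonC]
    simp
  have hle : S₁ ≤ lineStab n 2 c hc := by
    intro g hg
    exact ⟨1, one_ne_zero, by rw [(hmem g).mp hg, one_smul]⟩
  have h2 := Subgroup.relIndex_mul_index hle
  have hl : ∀ g : lineStab n 2 c hc, act g.1 c = ⟪act g.1 c, c⟫ • c := by
    rintro ⟨g, l, hl, h3⟩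
    simp only
    rw [h3, hermForm_smul_left, hcc, mul_one]
  have hl0 : ∀ g : lineStab n 2 c hc, ⟪act g.1 c, c⟫ ≠ 0 := by
    rintro ⟨g, l, hl, h3⟩
    simp only
    rw [h3, hermForm_smul_left, hcc, mul_one]
    exact hl
  let φ : lineStab n 2 c hc →* Fˣ :=
    { toFun := fun g => Units.mk0 _ (hl0 g)
      map_one' := by
        apply Units.ext
        simp only [Units.val_mk0, Units.val_one]
        change ⟪act (1 : SU n F 2) c, c⟫ = 1
        rw [act_one, hcc]
      map_mul' := by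
        intro a b
        apply Units.ext
        simp only [Units.val_mk0, Units.val_mul]
        change ⟪act (a.1 * b.1) c, c⟫ = _
        rw [act_mul]
        conv_lhs => rw [hl b]
        rw [act_smul, hermForm_smul_left, mul_comm] }
  have hker : S₁.subgroupOf (lineStab n 2 c hc) = φ.ker := by
    ext g
    rw [Subgroup.mem_subgroupOf, hmem, MonoidHom.mem_ker, Units.ext_iff]
    simp only [Units.val_one, φ]
    change _ ↔ ⟪act g.1 c, c⟫ = 1
    constructor
    · intro h3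
      rw [h3, hcc]
    · intro h3
      rw [hl g, h3, one_smul]
  have hsurj : Function.Surjective φ := by
    intro u
    have hu3 : (u : F) ^ 3 = 1 := by
      have := FiniteField.pow_card_sub_one_eq_one (u : F) u.ne_zero
      rwa [hF] at this
    have hnorm : ⟪(u : F) • c, (u : F) • c⟫ = 1 := by
      rw [hermForm_smul_left, hermForm_smul_right, hcc]
      linear_combination hu3
    obtain ⟨g, hg⟩ := reach_unit hF hn hcc hnorm
    refine ⟨⟨g, u, u.ne_zero, hg⟩, ?_⟩
    apply Units.ext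
    simp only [φ]
    change ⟪act g c, c⟫ = u
    rw [hg, hermForm_smul_left, hcc, mul_one]
  have h3 : S₁.relIndex (lineStab n 2 c hc) = 2 ^ 2 - 1 := by
    rw [Subgroup.relIndex, hker, Subgroup.index_ker, MonoidHom.range_eq_top.mpr hsurj, Subgroup.card_top,
      Nat.card_units, Nat.card_eq_fintype_card, hF]
  rw [h3, h1, hNon] at h2
  exact Nat.eq_of_mul_eq_mul_left (by norm_num) h2

/-- The main theorem. -/
theorem main_theorem2 (hk : 4 ≤ k) (hev : Even k) :
    ∃ M, 3 * M + 1 = 2 ^ (k + 2) ∧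
      (∀ H : Subgroup (Cfsg.PSU (2 + k) F 2), H ≠ ⊤ → 2 ^ (k + 1) * M ≤ H.index) ∧
      ∃ H : Subgroup (Cfsg.PSU (2 + k) F 2), H.index = 2 ^ (k + 1) * M := by
  classical
  have hIeq := card_isoC_if hF k
  rw [if_pos hev] at hIeq
  obtain ⟨M, hM, hnum, hI0, hNon0⟩ := nums2 k (isoC F 2 k).card (nonC F 2 k).card hk hev hIeq (card_C_add hF)
  have hev2 : Even (2 + k) := by
    rw [Nat.even_add]
    simp [hev]
  have e1 : (2 : ℕ) ^ (2 + k) = 2 ^ (k + 2) := by rw [add_comm]
  have e2 : (2 : ℕ) ^ (2 + k - 1) = 2 ^ (k + 1) := by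
    congr 1
    omega
  have hI2 : (isoC F 2 (2 + k)).card = 3 * M * (2 ^ (k + 1) + 1) := by
    rw [card_isoC_if hF, if_pos hev2, e1, e2]
    congr 1
    omega
  have hV : (isoC F 2 (2 + k)).card = (2 ^ 2 - 1) * (M * (2 ^ (k + 1) + 1)) := by
    rw [hI2]
    norm_num
    ring
  refine ⟨M, hM, ?_, ?_⟩
  · intro H hH
    set f := QuotientGroup.mk' (Subgroup.center (SU (2 + k) F 2)) with hf
    have hsurj : Function.Surjective f := QuotientGroup.mk'_surjective _
    set H' := H.comap f with hH'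
    have hidx : H'.index = H.index := Subgroup.index_comap_of_surjective H hsurj
    rw [← hidx]
    have htop : H' ≠ ⊤ := by
      intro h
      apply hH
      rw [eq_top_iff]
      intro x _
      obtain ⟨y, rfl⟩ := hsurj x
      have : y ∈ H' := by rw [h]; trivial
      exact this
    let _ : Fintype (SU (2 + k) F 2 ⧸ H') := Fintype.ofFinite _
    have hnt : Nontrivial (SU (2 + k) F 2 ⧸ H') := QuotientGroup.nontrivial_iff.mpr htop
    have hmain := min_degree2 hF (Ω := SU (2 + k) F 2 ⧸ H') rfl hk hI0 hNon0 hnum hV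
    rwa [Subgroup.index_eq_card, Nat.card_eq_fintype_card]
  · have hNon : (nonC F 2 (2 + k)).card = (2 ^ 2 - 1) * (2 ^ (k + 1) * M) := by
      have h1 := card_C_add (k := 2 + k) hF
      rw [hI2] at h1
      have e3 : (2 : ℕ) ^ (2 * (2 + k)) = (2 ^ (k + 2)) ^ 2 := by
        rw [← pow_mul]
        congr 1
        ring
      have e4 : (2 : ℕ) ^ (k + 2) = 2 * 2 ^ (k + 1) := by
        rw [pow_succ' 2 (k + 1)]
      rw [e3, e4] at h1
      rw [e4] at hM
      generalize (2 : ℕ) ^ (k + 1) = E at h1 hM ⊢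
      have h2 : 3 * M * (E + 1) + (2 ^ 2 - 1) * (E * M) + 1 = (2 * E) ^ 2 := by
        have h3 : 2 * E = 3 * M + 1 := hM.symm
        rw [h3]
        norm_num
        rw [show E = (3 * M + 1) / 2 by omega]
        have h4 : (3 * M + 1) / 2 * 2 = 3 * M + 1 := by omega
        generalize (3 * M + 1) / 2 = E' at h4
        subst_vars
        nlinarith
      omega
    let c : Fin (2 + k) → F := Pi.single ⟨0, by omega⟩ 1
    have hcc : ⟪c, c⟫ = 1 := by
      simp only [c, hermForm_single_single hF, if_true]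
    have hc : c ≠ 0 := by
      intro h0
      rw [h0, hermForm_zero_left] at hcc
      exact zero_ne_one hcc
    have hidx := index_lineStab2 hF (n := 2 + k) (by omega) hNon hcc hc
    refine ⟨(lineStab (2 + k) 2 c hc).map (QuotientGroup.mk' (Subgroup.center (SU (2 + k) F 2))), ?_⟩
    rw [Subgroup.index_map_eq _ (QuotientGroup.mk'_surjective _) (by
      rw [QuotientGroup.ker_mk']
      exact center_le_lineStab hF c hc), hidx]

end Final

end Cfsg.Agent.Lib.MinIndex.U2Main
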